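import Cfsg.Agent.H29.J4c2
import Cfsg.Prelude.Def_JankoFourType

/-! Interface for the identification of groups of Janko-four type. -/

set_option autoImplicit false

namespace H29.U
open Cfsg H7.J4 H29.J4m Subgroup

variable {G : Type*} [Group G]

/-- the structure of the centralizer of a 2-central involution -/
structure XS (z : G) (R N : Subgroup G) : Prop where
  o : orderOf z = 2
  zR : z ∈ R
  RN : R ≤ N
  NC : N ≤ centralizer {z}
  nR : centralizer {z} ≤ normalizer (R : Set G)
  nN : centralizer {z} ≤ normalizer (N : Set G)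
  cR : Nat.card R = 2 ^ 13
  cN : Nat.card N = 3 * 2 ^ 13
  cm : ∀ a ∈ R, ∀ b ∈ R, a * b * a⁻¹ * b⁻¹ ∈ zpowers z
  sq : ∀ a ∈ R, a * a ∈ zpowers z
  ce : centralizer (R : Set G) ≤ zpowers z
  cC : Nat.card (centralizer ({z} : Set G)) = 21799895040

def L4 : List ℕ := [cx, cy, cY, ce]

/-- `⟨x, y, e⟩` is a copy of the subgroup `2^11 : M24` of `J4`, computed with the matrices of `J4` -/
structure Md (M : Model G) (x y e : G) : Prop where
  s : Std M
  h : List.Forall₂ M.R L4 [x, y, y⁻¹, e]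

structure Fr (M : Model G) (x y e : G) : Prop extends Md M x y e where
  nV : normalizer (M.cl eL : Set G) = closure {x, y, e}
  cV : centralizer (M.cl eL : Set G) ≤ M.cl eL
  cD : ∀ c ∈ dL, ∀ d, M.R c d → centralizer {d} ≤ closure {x, y, e}
  xe : ∃ R N, XS e R N ∧ R ≤ closure {x, y, e}
  tri : ∀ r : G, orderOf r = 3 → ∃ t R N, XS t R N ∧ r ∈ N ∧ normalizer (zpowers r : Set G) ≤ centralizer {t}

/-- conjugation by the involution `t` sends the element with code `c` to the element with code `d` -/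
def Ac (M : Model G) (t : G) (c d : ℕ) : Prop := ∃ g, M.R c g ∧ M.R d (t * g * t)

theorem Ac.mul {M : Model G} {t : G} (ht : t * t = 1) {a b c d : ℕ} (h : Ac M t a b) (k : Ac M t c d) :
    Ac M t (M.mul a c) (M.mul b d) := by
  obtain ⟨g, g1, g2⟩ := h
  obtain ⟨l, l1, l2⟩ := k
  refine ⟨g * l, M.R_mul g1 l1, M.R_congr (M.R_mul g2 l2) ?_⟩
  rw [mul_assoc (t * g), ← mul_assoc t (t * l), ← mul_assoc t t, ht, one_mul]
  simp only [mul_assoc]

theorem Ac.symm {M : Model G} {t : G} (ht : t * t = 1) {a b : ℕ} (h : Ac M t a b) : Ac M t b a := by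
  obtain ⟨g, g1, g2⟩ := h
  refine ⟨_, g2, M.R_congr g1 ?_⟩
  rw [← mul_assoc, ← mul_assoc, ht, one_mul, mul_assoc, ht, mul_one]

theorem XS.cj {z : G} {R N : Subgroup G} (h : XS z R N) (g : G) :
    XS (g * z * g⁻¹) (R.map (MulAut.conj g).toMonoidHom) (N.map (MulAut.conj g).toMonoidHom) := by
  have c : ∀ u, u ∈ centralizer ({g * z * g⁻¹} : Set G) ↔ g⁻¹ * u * g ∈ centralizer ({z} : Set G) := fun u => by
    simp only [mem_centralizer_singleton_iff]
    constructor
    · intro e
      calc g⁻¹ * u * g * z = g⁻¹ * (u * (g * z * g⁻¹)) * g := by group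
        _ = _ := by rw [e]; group
    · intro e
      calc u * (g * z * g⁻¹) = g * (g⁻¹ * u * g * z) * g⁻¹ := by group
        _ = _ := by rw [e]; group
  have m : ∀ (K : Subgroup G) u, u ∈ K.map (MulAut.conj g).toMonoidHom ↔ g⁻¹ * u * g ∈ K := fun K u =>
    ⟨by rintro ⟨v, hv, rfl⟩; simpa [mul_assoc] using hv, fun e => ⟨_, e, by simp [mul_assoc]⟩⟩
  have zp : ∀ u, g⁻¹ * u * g ∈ zpowers z → u ∈ zpowers (g * z * g⁻¹) := fun u ⟨n, e⟩ =>
    ⟨n, by simp only [conj_zpow] at e ⊢; rw [e]; group⟩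
  have nm : ∀ K : Subgroup G, centralizer {z} ≤ normalizer (K : Set G) → centralizer {g * z * g⁻¹} ≤
      normalizer (K.map (MulAut.conj g).toMonoidHom : Set G) := fun K hK u hu => mem_normalizer_iff.2 fun v => by
    rw [m, m, mem_normalizer_iff.1 (hK ((c u).1 hu))]
    exact iff_of_eq (congrArg (· ∈ K) (by group))
  have inj : Function.Injective (MulAut.conj g).toMonoidHom := (MulAut.conj g).injective
  refine ⟨((MulAut.conj g).orderOf_eq z).trans h.o, (m _ _).2 (by simpa [mul_assoc] using h.zR), map_mono h.RN,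
    fun u hu => (c u).2 (h.NC ((m _ _).1 hu)), nm _ h.nR, nm _ h.nN, (card_map_of_injective inj).trans h.cR,
    (card_map_of_injective inj).trans h.cN, fun a ha b hb => zp _ ?_, fun a ha => zp _ ?_, fun u hu => zp _ (h.ce ?_), ?_⟩
  · convert h.cm _ ((m _ _).1 ha) _ ((m _ _).1 hb) using 1; group
  · convert h.sq _ ((m _ _).1 ha) using 1; group
  · intro v hv
    have := hu (g * v * g⁻¹) ((m _ _).2 (by simpa [mul_assoc] using hv))
    calc v * (g⁻¹ * u * g) = g⁻¹ * (g * v * g⁻¹ * u) * g := by group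
      _ = _ := by rw [this]; group
  · rw [← h.cC, ← card_map_of_injective (K := centralizer ({z} : Set G)) inj]
    exact congrArg (fun K : Subgroup G => Nat.card K) (Subgroup.ext fun u => (c u).trans (m _ u).symm)

end H29.U
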