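import Cfsg.Agent.H26.Rv1

/-! Transport of the inductive statement to an elementary abelian subgroup. -/

set_option autoImplicit false
set_option linter.unusedSectionVars false
set_option linter.unusedVariables false
set_option linter.style.haveILetI false

namespace H29.Tr

open Cfsg H17 H19 H26Rv Subgroup

universe u

variable {p : ℕ} [Fact p.Prime] {H : Type u} [Group H] [Finite H] {O : ValuationSubring ℂ}

theorem aux {K A : Type u} [Group K] [AddCommGroup A] [Module (ZMod p) A] [Finite A] (hi : IndP p K O)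
    (c : K → A →+ A) (c1 : ∀ x, c 1 x = x) (cm : ∀ g h x, c (g * h) x = c g (c h x)) (β : A → A → ZMod p)
    (hl : ∀ x y z, β (x + y) z = β x z + β y z) (hr : ∀ x y z, β x (y + z) = β x y + β x z)
    (hinv : ∀ h x y, β (c h x) (c h y) = β x y) (hnd : ∀ x, (∀ y, β x y = 0) → x = 0) :
    ∃ ψ : K → ℂ, Ok p O (fun h : K => Nat.card {x : A // c h x = x}) (Nat.card A) ψ := by
  let ρ : Representation (ZMod p) K A :=
    { toFun := fun h => (c h).toZModLinearMap p
      map_one' := LinearMap.ext c1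
      map_mul' := fun g h => LinearMap.ext (cm g h) }
  let b1 : A → A →ₗ[ZMod p] ZMod p := fun x => (AddMonoidHom.mk' (β x) (hr x)).toZModLinearMap p
  let b : A →ₗ[ZMod p] A →ₗ[ZMod p] ZMod p :=
    (AddMonoidHom.mk' b1 fun x y => LinearMap.ext (hl x y)).toZModLinearMap p
  obtain ⟨ψ, hψ⟩ := hi A ρ b hinv hnd
  refine ⟨ψ, ?_⟩
  have e1 : fx ρ ⊤ = fun h : K => Nat.card {x : A // c h x = x} := funext fun h =>
    Nat.card_congr (Equiv.subtypeEquivRight fun x => ⟨And.right, fun e => ⟨trivial, e⟩⟩)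
  rw [← e1]
  exact hψ

theorem tr {X : Type u} [Group X] [Finite X] (K U : Subgroup X) (hi : IndP p K O) (hc : ∀ a ∈ U, ∀ b ∈ U, a * b = b * a) (he : ∀ a ∈ U, a ^ p = 1) (hU : ∀ h ∈ K, ∀ u ∈ U, h * u * h⁻¹ ∈ U) (β : X → X → ZMod p) (hl : ∀ u ∈ U, ∀ u' ∈ U, ∀ w ∈ U, β (u * u') w = β u w + β u' w) (hr : ∀ u ∈ U, ∀ w ∈ U, ∀ w' ∈ U, β u (w * w') = β u w + β u w') (hinv : ∀ h ∈ K, ∀ u ∈ U, ∀ w ∈ U, β (h * u * h⁻¹) (h * w * h⁻¹) = β u w) (hnd : ∀ u ∈ U, (∀ w ∈ U, β u w = 0) → u = 1) : ∃ ψ : K → ℂ, Ok p O (fun h : K => Nat.card {u : X // u ∈ U ∧ (h : X) * u * (h : X)⁻¹ = u}) (Nat.card U) ψ := by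
  letI : CommGroup U := { (inferInstance : Group U) with mul_comm := fun a b => Subtype.ext (hc a a.2 b b.2) }
  letI : Module (ZMod p) (Additive U) := AddCommGroup.zmodModule fun x => by
    apply Additive.toMul.injective
    rw [toMul_nsmul]
    exact Subtype.ext (he _ x.toMul.2)
  let c : K → Additive U →+ Additive U := fun h => AddMonoidHom.mk'
    (fun x => Additive.ofMul ⟨h * x.toMul * (h : X)⁻¹, hU h h.2 _ x.toMul.2⟩) fun x y => by
      apply Additive.toMul.injective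
      apply Subtype.ext
      simp [mul_assoc]
  have hc' : ∀ (h : K) (x : Additive U), ((c h x).toMul : X) = h * x.toMul * (h : X)⁻¹ := fun _ _ => rfl
  obtain ⟨ψ, hψ⟩ := aux hi c (fun x => Additive.toMul.injective (Subtype.ext (by rw [hc']; simp)))
    (fun g h x => Additive.toMul.injective (Subtype.ext (by rw [hc', hc', hc']; simp [mul_assoc])))
    (fun x y => β x.toMul y.toMul) (fun x y z => hl _ x.toMul.2 _ y.toMul.2 _ z.toMul.2)
    (fun x y z => hr _ x.toMul.2 _ y.toMul.2 _ z.toMul.2) (fun h x y => hinv h h.2 _ x.toMul.2 _ y.toMul.2)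
    fun x hx => Additive.toMul.injective (Subtype.ext (hnd _ x.toMul.2 fun w hw => hx (Additive.ofMul ⟨w, hw⟩)))
  refine ⟨ψ, ?_⟩
  have e1 : (fun h : K => Nat.card {x : Additive U // c h x = x}) =
      fun h : K => Nat.card {u : X // u ∈ U ∧ (h : X) * u * (h : X)⁻¹ = u} := funext fun h =>
    Nat.card_congr
      { toFun := fun x => ⟨x.1.toMul, x.1.toMul.2, by rw [← hc', x.2]⟩
        invFun := fun y => ⟨Additive.ofMul ⟨y.1, y.2.1⟩, Additive.toMul.injective (Subtype.ext y.2.2)⟩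
        left_inv := fun _ => rfl
        right_inv := fun _ => rfl }
  rw [← e1]
  exact hψ

end H29.Tr
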