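import Cfsg.Agent.H29.C2zD
import Cfsg.Agent.H29.C2zC1
import Cfsg.Agent.H29.C2zC2

set_option autoImplicit false
set_option maxRecDepth 100000
set_option linter.style.haveILetI false
set_option linter.unusedVariables false
set_option linter.style.longLine false
set_option linter.unusedTactic false
set_option linter.unreachableTactic false

namespace H29

theorem c2zK_k : ∀ j < nat_lit 56925, (kchk c2zK_key (cjU a2_24.mul (c2zK.lv a2_24.mul a2_24.one) (nat_lit 0x2bb000d747be6cefaef75fae9f47be53edbadccf1e747f1ee7dfaefc1dba0020003ce7be002800e345ddc0a804daf06d922030fb87fe002020002010e361d51b2210df96616cc001)) c2zK_kt (nat_lit 56925)) j = true :=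
  (allR_step (c := nat_lit 56925) (allR_step (c := nat_lit 56000) (allR_step (c := nat_lit 52000) (allR_step (c := nat_lit 48000) (allR_step (c := nat_lit 44000) (allR_step (c := nat_lit 40000) (allR_step (c := nat_lit 36000) (allR_step (c := nat_lit 32000) (allR_step (c := nat_lit 28000) (allR_step (c := nat_lit 24000) (allR_step (c := nat_lit 20000) (allR_step (c := nat_lit 16000) (allR_step (c := nat_lit 12000) (allR_step (c := nat_lit 8000) (allR_step (c := nat_lit 4000) (fun _ h => absurd h (Nat.not_lt_zero _)) c2zK_k_0 (by decide)) c2zK_k_1 (by decide)) c2zK_k_2 (by decide)) c2zK_k_3 (by decide)) c2zK_k_4 (by decide)) c2zK_k_5 (by decide)) c2zK_k_6 (by decide)) c2zK_k_7 (by decide)) c2zK_k_8 (by decide)) c2zK_k_9 (by decide)) c2zK_k_10 (by decide)) c2zK_k_11 (by decide)) c2zK_k_12 (by decide)) c2zK_k_13 (by decide)) c2zK_k_14 (by decide))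

theorem c2zQ1_s : ∀ j < nat_lit 32, (schk a2_24.mul Nat.beq a2_24.one c2zQ1_g (c2zQ1.lv a2_24.mul a2_24.one) c2zQ2_ls) j = true :=
  (allR_step (c := nat_lit 32) (fun _ h => absurd h (Nat.not_lt_zero _)) c2zQ1_s_0 (by decide))

theorem c2zQ1_k : ∀ j < nat_lit 32, (kchk c2zQ1_key (c2zQ1.lv a2_24.mul a2_24.one).U c2zQ1_kt (nat_lit 32)) j = true :=
  (allR_step (c := nat_lit 32) (fun _ h => absurd h (Nat.not_lt_zero _)) c2zQ1_k_0 (by decide))

theorem c2zQ2_s : ∀ j < nat_lit 2, (schk a2_24.mul Nat.beq a2_24.one c2zQ2_g (c2zQ2.lv a2_24.mul a2_24.one) c2zQ3_ls) j = true :=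
  (allR_step (c := nat_lit 2) (fun _ h => absurd h (Nat.not_lt_zero _)) c2zQ2_s_0 (by decide))

theorem c2zQ2_k : ∀ j < nat_lit 2, (kchk c2zQ2_key (c2zQ2.lv a2_24.mul a2_24.one).U c2zQ2_kt (nat_lit 2)) j = true :=
  (allR_step (c := nat_lit 2) (fun _ h => absurd h (Nat.not_lt_zero _)) c2zQ2_k_0 (by decide))

theorem c2zQ3_s : ∀ j < nat_lit 2, (schk a2_24.mul Nat.beq a2_24.one c2zQ3_g (c2zQ3.lv a2_24.mul a2_24.one) c2zQ4_ls) j = true :=
  (allR_step (c := nat_lit 2) (fun _ h => absurd h (Nat.not_lt_zero _)) c2zQ3_s_0 (by decide))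

theorem c2zQ3_k : ∀ j < nat_lit 2, (kchk c2zQ3_key (c2zQ3.lv a2_24.mul a2_24.one).U c2zQ3_kt (nat_lit 2)) j = true :=
  (allR_step (c := nat_lit 2) (fun _ h => absurd h (Nat.not_lt_zero _)) c2zQ3_k_0 (by decide))

theorem c2zQ4_s : ∀ j < nat_lit 2, (schk a2_24.mul Nat.beq a2_24.one c2zQ4_g (c2zQ4.lv a2_24.mul a2_24.one) c2zQ5_ls) j = true :=
  (allR_step (c := nat_lit 2) (fun _ h => absurd h (Nat.not_lt_zero _)) c2zQ4_s_0 (by decide))

theorem c2zQ4_k : ∀ j < nat_lit 2, (kchk c2zQ4_key (c2zQ4.lv a2_24.mul a2_24.one).U c2zQ4_kt (nat_lit 2)) j = true :=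
  (allR_step (c := nat_lit 2) (fun _ h => absurd h (Nat.not_lt_zero _)) c2zQ4_k_0 (by decide))

theorem c2zQ5_s : ∀ j < nat_lit 2, (schk a2_24.mul Nat.beq a2_24.one c2zQ5_g (c2zQ5.lv a2_24.mul a2_24.one) c2zQ6_ls) j = true :=
  (allR_step (c := nat_lit 2) (fun _ h => absurd h (Nat.not_lt_zero _)) c2zQ5_s_0 (by decide))

theorem c2zQ5_k : ∀ j < nat_lit 2, (kchk c2zQ5_key (c2zQ5.lv a2_24.mul a2_24.one).U c2zQ5_kt (nat_lit 2)) j = true :=
  (allR_step (c := nat_lit 2) (fun _ h => absurd h (Nat.not_lt_zero _)) c2zQ5_k_0 (by decide))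

theorem c2zC1_k : ∀ j < nat_lit 56, (kchk c2zC1_key (c2zC1.lv a2_24.mul a2_24.one).U c2zC1_kt (nat_lit 56)) j = true :=
  (allR_step (c := nat_lit 56) (fun _ h => absurd h (Nat.not_lt_zero _)) c2zC1_k_0 (by decide))

theorem c2zC2_k : ∀ j < nat_lit 27, (kchk c2zC2_key (c2zC2.lv a2_24.mul a2_24.one).U c2zC2_kt (nat_lit 27)) j = true :=
  (allR_step (c := nat_lit 27) (fun _ h => absurd h (Nat.not_lt_zero _)) c2zC2_k_0 (by decide))

theorem c2zC3_k : ∀ j < nat_lit 10, (kchk c2zC3_key (c2zC3.lv a2_24.mul a2_24.one).U c2zC3_kt (nat_lit 10)) j = true :=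
  (allR_step (c := nat_lit 10) (fun _ h => absurd h (Nat.not_lt_zero _)) c2zC3_k_0 (by decide))

theorem c2zC4_k : ∀ j < nat_lit 8, (kchk c2zC4_key (c2zC4.lv a2_24.mul a2_24.one).U c2zC4_kt (nat_lit 8)) j = true :=
  (allR_step (c := nat_lit 8) (fun _ h => absurd h (Nat.not_lt_zero _)) c2zC4_k_0 (by decide))

theorem c2zC5_k : ∀ j < nat_lit 4, (kchk c2zC5_key (c2zC5.lv a2_24.mul a2_24.one).U c2zC5_kt (nat_lit 4)) j = true :=
  (allR_step (c := nat_lit 4) (fun _ h => absurd h (Nat.not_lt_zero _)) c2zC5_k_0 (by decide))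

theorem c2zC6_k : ∀ j < nat_lit 3, (kchk c2zC6_key (c2zC6.lv a2_24.mul a2_24.one).U c2zC6_kt (nat_lit 3)) j = true :=
  (allR_step (c := nat_lit 3) (fun _ h => absurd h (Nat.not_lt_zero _)) c2zC6_k_0 (by decide))

theorem c2zC7_k : ∀ j < nat_lit 512, (kchk c2zC7_key (c2zC7.lv a2_24.mul a2_24.one).U c2zC7_kt (nat_lit 512)) j = true :=
  (allR_step (c := nat_lit 512) (fun _ h => absurd h (Nat.not_lt_zero _)) c2zC7_k_0 (by decide))

theorem c2zG1_s : ∀ j < nat_lit 56, (schk c2zG_mul c2zG_eqb c2zG_one c2zG1_g (c2zG1.lv c2zG_mul c2zG_one) c2zG2_ls) j = true :=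
  (allR_step (c := nat_lit 56) (fun _ h => absurd h (Nat.not_lt_zero _)) c2zG1_s_0 (by decide))

theorem c2zG2_s : ∀ j < nat_lit 27, (schk c2zG_mul c2zG_eqb c2zG_one c2zG2_g (c2zG2.lv c2zG_mul c2zG_one) c2zG3_ls) j = true :=
  (allR_step (c := nat_lit 27) (fun _ h => absurd h (Nat.not_lt_zero _)) c2zG2_s_0 (by decide))

theorem c2zG3_s : ∀ j < nat_lit 10, (schk c2zG_mul c2zG_eqb c2zG_one c2zG3_g (c2zG3.lv c2zG_mul c2zG_one) c2zG4_ls) j = true :=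
  (allR_step (c := nat_lit 10) (fun _ h => absurd h (Nat.not_lt_zero _)) c2zG3_s_0 (by decide))

theorem c2zG4_s : ∀ j < nat_lit 8, (schk c2zG_mul c2zG_eqb c2zG_one c2zG4_g (c2zG4.lv c2zG_mul c2zG_one) c2zG5_ls) j = true :=
  (allR_step (c := nat_lit 8) (fun _ h => absurd h (Nat.not_lt_zero _)) c2zG4_s_0 (by decide))

theorem c2zG5_s : ∀ j < nat_lit 4, (schk c2zG_mul c2zG_eqb c2zG_one c2zG5_g (c2zG5.lv c2zG_mul c2zG_one) c2zG6_ls) j = true :=
  (allR_step (c := nat_lit 4) (fun _ h => absurd h (Nat.not_lt_zero _)) c2zG5_s_0 (by decide))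

theorem c2zG6_s : ∀ j < nat_lit 3, (schk c2zG_mul c2zG_eqb c2zG_one c2zG6_g (c2zG6.lv c2zG_mul c2zG_one) c2zG7_ls) j = true :=
  (allR_step (c := nat_lit 3) (fun _ h => absurd h (Nat.not_lt_zero _)) c2zG6_s_0 (by decide))

theorem c2zG7_s : ∀ j < nat_lit 512, (schk c2zG_mul c2zG_eqb c2zG_one c2zG7_g (c2zG7.lv c2zG_mul c2zG_one) c2zG8_ls) j = true :=
  (allR_step (c := nat_lit 512) (allR_step (c := nat_lit 480) (allR_step (c := nat_lit 420) (allR_step (c := nat_lit 360) (allR_step (c := nat_lit 300) (allR_step (c := nat_lit 240) (allR_step (c := nat_lit 180) (allR_step (c := nat_lit 120) (allR_step (c := nat_lit 60) (fun _ h => absurd h (Nat.not_lt_zero _)) c2zG7_s_0 (by decide)) c2zG7_s_1 (by decide)) c2zG7_s_2 (by decide)) c2zG7_s_3 (by decide)) c2zG7_s_4 (by decide)) c2zG7_s_5 (by decide)) c2zG7_s_6 (by decide)) c2zG7_s_7 (by decide)) c2zG7_s_8 (by decide))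

theorem c2zG_chain {G : Type*} [Group G] (M : Model G) (h1 : M.mul = c2zG_mul) (h2 : M.eqb = c2zG_eqb)
    (h3 : M.one = c2zG_one) (g1 : ∀ c ∈ c2zG1_g, M.In ⊤ c) : Chain M (M.cl c2zG1_g) c2zG1_ls := by
  obtain ⟨R, one, mul, eqb, a1, a2, a3⟩ := M
  dsimp only at h1 h2 h3
  subst h1 h2 h3
  set M : Model G := ⟨R, c2zG_one, c2zG_mul, c2zG_eqb, a1, a2, a3⟩ with hM
  have g2 := LvD.valid_next (D := c2zG1) g1 c2zG1_ok c2zG1_next
  have g3 := LvD.valid_next (D := c2zG2) g2 c2zG2_ok c2zG2_next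
  have g4 := LvD.valid_next (D := c2zG3) g3 c2zG3_ok c2zG3_next
  have g5 := LvD.valid_next (D := c2zG4) g4 c2zG4_ok c2zG4_next
  have g6 := LvD.valid_next (D := c2zG5) g5 c2zG5_ok c2zG5_next
  have g7 := LvD.valid_next (D := c2zG6) g6 c2zG6_ok c2zG6_next
  have g8 := LvD.valid_next (D := c2zG7) g7 c2zG7_ok c2zG7_next
  have e8 : Chain M (M.cl c2zG8_g) c2zG8_ls := Exact.nil.1
  have e7 := LvD.chain (D := c2zG7) g7 c2zG7_ok e8 (LvD.le_next (D := c2zG7) g7 c2zG7_ok c2zG7_next) c2zG7_s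
  have e6 := LvD.chain (D := c2zG6) g6 c2zG6_ok e7 (LvD.le_next (D := c2zG6) g6 c2zG6_ok c2zG6_next) c2zG6_s
  have e5 := LvD.chain (D := c2zG5) g5 c2zG5_ok e6 (LvD.le_next (D := c2zG5) g5 c2zG5_ok c2zG5_next) c2zG5_s
  have e4 := LvD.chain (D := c2zG4) g4 c2zG4_ok e5 (LvD.le_next (D := c2zG4) g4 c2zG4_ok c2zG4_next) c2zG4_s
  have e3 := LvD.chain (D := c2zG3) g3 c2zG3_ok e4 (LvD.le_next (D := c2zG3) g3 c2zG3_ok c2zG3_next) c2zG3_s
  have e2 := LvD.chain (D := c2zG2) g2 c2zG2_ok e3 (LvD.le_next (D := c2zG2) g2 c2zG2_ok c2zG2_next) c2zG2_s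
  have e1 := LvD.chain (D := c2zG1) g1 c2zG1_ok e2 (LvD.le_next (D := c2zG1) g1 c2zG1_ok c2zG1_next) c2zG1_s
  exact e1

theorem c2zG_hom {G A : Type*} [Group G] [Group A] (M : Model G) (N : Model A) (h1 : M.mul = a2_24.mul) (h2 : M.eqb = Nat.beq)
    (h3 : M.one = a2_24.one) (k1 : N.mul = a2_6.mul) (k2 : N.eqb = Nat.beq) (k3 : N.one = a2_6.one)
    (hs : ∀ a g, M.R a g → a < 2 ^ (nat_lit 576)) (hg : ∀ c ∈ c2zG_g, M.In ⊤ c) (ha : ∀ c ∈ c2zG_a, N.In ⊤ c)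
    {K : Subgroup G} (hK : M.cl c2zG_g = K) (hc : 743178240 ≤ Nat.card K) :
    ∃ φ : K →* A, φ.range = N.cl c2zG_a ∧ ∀ i < c2zG_g.length, ∀ x y, M.R (lgetD 0 c2zG_g i) x → N.R (lgetD 0 c2zG_a i) y →
      ∀ hx, φ ⟨x, hx⟩ = y := by
  obtain ⟨R, one, mul, eqb, a1, a2, a3⟩ := M
  obtain ⟨R', one', mul', eqb', b1, b2, b3⟩ := N
  dsimp only at h1 h2 h3 k1 k2 k3
  subst h1 h2 h3 k1 k2 k3
  exact exists_hom_of_graph (L := c2zG1_g) (s := nat_lit 576) (mk := (nat_lit 0xffffffffffffffffffffffffffffffffffffffffffffffffffffffffffffffffffffffffffffffffffffffffffffffffffffffffffffffffffffffffffffffffffffffffffffffff)) (one := c2zG_one) (hs := hs) (hmk := by decide +kernel)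
    (hone := by dsimp only; decide +kernel) hg ha (by decide +kernel)
    (c2zG_chain _ (by unfold c2zG_mul; dsimp only [Model.prod]) (by unfold c2zG_eqb; dsimp only [Model.prod]) (by dsimp only [Model.prod]))
    hK (le_trans (by decide +kernel) hc)

theorem c2z_cent {G : Type*} [Group G] (M : Model G) (h1 : M.mul = a2_24.mul) (h2 : M.eqb = Nat.beq)
    (h3 : M.one = a2_24.one) (vv : ∀ c ∈ c2_g, M.In ⊤ c) {St : Subgroup G} (k1 : Key M St c21_key c21_fix) [Finite G]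
    (hN : Nat.card G = 42305421312000) (hu : M.Uq) (hs : ∀ a g, M.R a g → a < 2 ^ (nat_lit 576))
    {A : Type*} [Group A] {ρ : A →* Matrix (Fin 6) (Fin 6) (ZMod 2)} {hρ : Function.Injective ρ}
    (hv : ∀ c ∈ sp62_g, (a2_6.model ρ hρ).In ⊤ c) [Finite A] (hA : Nat.card A = 1451520) :
    ∃ z : G, orderOf z = 2 ∧ ∃ φ : Subgroup.centralizer {z} →* A, Function.Surjective φ ∧ Nat.card φ.ker = 512 ∧
      Cfsg.IsExtraspecial 2 φ.ker := by
  obtain ⟨R, one, mul, eqb, a1, a2, a3⟩ := M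
  dsimp only at h1 h2 h3
  subst h1 h2 h3
  set M : Model G := ⟨R, a2_24.one, a2_24.mul, Nat.beq, a1, a2, a3⟩ with hM
  have va := in_of_slpW (M := M) _ vv c2z_auxok
  obtain ⟨z, hz⟩ := exists_R va (c := (nat_lit 0x2bb000d747be6cefaef75fae9f47be53edbadccf1e747f1ee7dfaefc1dba0020003ce7be002800e345ddc0a804daf06d922030fb87fe002020002010e361d51b2210df96616cc001)) (by (try dsimp only [M]); decide +kernel)
  obtain ⟨tc2zQ1, hTc2zQ1⟩ := exists_R va (c := (nat_lit 0xc49071a4169f2bfa0b485e4c37e28f0c0eae7eee769e4e0f3bfcfcabb6d6840eabe0ceef6b720e461a4958342a94965697b2cb2b720b6bf88f6cf09a7f3c550446a916d30aa96106)) (by (try dsimp only [M]); decide +kernel)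
  have kc2zQ1 : Key M (cjS St tc2zQ1) c2zQ1_key c2zQ1_fix := k1.keyT hTc2zQ1 (R_inv_of hTc2zQ1 (exists_R va (c := (nat_lit 0xf3783b868f87f06bdcc49ab471dffc623d7465237caa03d7f9bfdff9fff4bd5fe8e64597d9bf9f19bdc7660d93dad812552da3810693e83bf4f225b74a4cd795af97d31854132850)) (by (try dsimp only [M]); decide +kernel)) (by (try dsimp only [M]); decide +kernel)) _
  obtain ⟨tc2zQ2, hTc2zQ2⟩ := exists_R va (c := (nat_lit 0x757202802cfe49fefc032bd12c9df671dffc2ab5dc39ebfa3f4c8ff7577d6cefaea7d85bbe25302bff0b00150960571835d1686bed8b48feececf449d81168d181180df93ee311f7)) (by (try dsimp only [M]); decide +kernel)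
  have kc2zQ2 : Key M (cjS St tc2zQ2) c2zQ2_key c2zQ2_fix := k1.keyT hTc2zQ2 (R_inv_of hTc2zQ2 (exists_R va (c := (nat_lit 0x5f480e208fea890d55089b2535f6f80c56f88c6ce52807faa08c3547e1f6a7f24b574bf5ea19eaa92937efd7813792c39817deb865ea5a54fe0807dac04213142eca5dc75109b012)) (by (try dsimp only [M]); decide +kernel)) (by (try dsimp only [M]); decide +kernel)) _
  obtain ⟨tc2zQ3, hTc2zQ3⟩ := exists_R va (c := (nat_lit 0x5d1553eab2e5c95ba5f0cce27e78c5edfaa592de76eff3854dbea150cf26e582b7b0efc69e5a80cb37b527b8b4ce1d7380f590c52092612227b722c7caef1181eb300d58980c1808)) (by (try dsimp only [M]); decide +kernel)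
  have kc2zQ3 : Key M (cjS St tc2zQ3) c2zQ3_key c2zQ3_fix := k1.keyT hTc2zQ3 (R_inv_of hTc2zQ3 (exists_R va (c := (nat_lit 0x50408f96d7bcc35f13f47553f55ffcf96ff4c813f3f8ed74c1ef38960b630606775e5d23f2f253e8c0bc567428d9d9a80cce1ce96843e63808622808a09f79e95443aff5905d8e7f)) (by (try dsimp only [M]); decide +kernel)) (by (try dsimp only [M]); decide +kernel)) _
  obtain ⟨tc2zQ4, hTc2zQ4⟩ := exists_R va (c := (nat_lit 0x77293e5fd037d046d681f7e4e304f795fab4c8eab4e582b7060677efd2376f0477b8e989104f9dc6ba888f4bf2ba9bf2e9c1bd8149ddfab18e88c04a91c3bd07c48aefff7e4ee66a)) (by (try dsimp only [M]); decide +kernel)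
  have kc2zQ4 : Key M (cjS St tc2zQ4) c2zQ4_key c2zQ4_fix := k1.keyT hTc2zQ4 (R_inv_of hTc2zQ4 (exists_R va (c := (nat_lit 0xeb002375ff4f537bcf9cf7c79af7ef55cfcbd5fe8f96ff44f1bdef2dfe85fd037bd0cfed4f826ce15734208c275fa098a638082057ba22175f581a7c0bc91eb673f8862b0723e83)) (by (try dsimp only [M]); decide +kernel)) (by (try dsimp only [M]); decide +kernel)) _
  obtain ⟨tc2zQ5, hTc2zQ5⟩ := exists_R va (c := (nat_lit 0x76d2bfba254527d9f8673f7c184d0d1d03fe57500067c7e4182dc12c67ded59dce0a543e42dd6c194a02294046f6bc8f26980c77667347a363d466f344b60c25b2b37bca34a24f72)) (by (try dsimp only [M]); decide +kernel)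
  have kc2zQ5 : Key M (cjS St tc2zQ5) c2zQ5_key c2zQ5_fix := k1.keyT hTc2zQ5 (R_inv_of hTc2zQ5 (exists_R va (c := (nat_lit 0xb28827103ebadb0b5b77d827b093c18528de5f97f7cf57db10a559d2adf644274da2a399521e3c277cada5e742eb13e0f9430086e5b5d632b1a2b4fe3c65b9ddc9b72d4cb5623b6f)) (by (try dsimp only [M]); decide +kernel)) (by (try dsimp only [M]); decide +kernel)) _
  have gc2zQ1 : ∀ c ∈ c2zQ1_g, M.In ⊤ c := valid_sub va (by (try dsimp only [M]); decide +kernel)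
  have gc2zQ2 := LvD.valid_next (D := c2zQ1) gc2zQ1 c2zQ1_ok c2zQ1_next
  have lc2zQ1 := LvD.le_next (D := c2zQ1) gc2zQ1 c2zQ1_ok c2zQ1_next
  have gc2zQ3 := LvD.valid_next (D := c2zQ2) gc2zQ2 c2zQ2_ok c2zQ2_next
  have lc2zQ2 := LvD.le_next (D := c2zQ2) gc2zQ2 c2zQ2_ok c2zQ2_next
  have gc2zQ4 := LvD.valid_next (D := c2zQ3) gc2zQ3 c2zQ3_ok c2zQ3_next
  have lc2zQ3 := LvD.le_next (D := c2zQ3) gc2zQ3 c2zQ3_ok c2zQ3_next
  have gc2zQ5 := LvD.valid_next (D := c2zQ4) gc2zQ4 c2zQ4_ok c2zQ4_next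
  have lc2zQ4 := LvD.le_next (D := c2zQ4) gc2zQ4 c2zQ4_ok c2zQ4_next
  have gc2zQ6 := LvD.valid_next (D := c2zQ5) gc2zQ5 c2zQ5_ok c2zQ5_next
  have lc2zQ5 := LvD.le_next (D := c2zQ5) gc2zQ5 c2zQ5_ok c2zQ5_next
  have ec2zQ6 : Exact M (M.cl c2zQ6_g) c2zQ6_ls ∧ True := ⟨Exact.nil, trivial⟩
  have ec2zQ5 := LvD.exact (D := c2zQ5) gc2zQ5 c2zQ5_ok ec2zQ6.1 lc2zQ5 c2zQ5_s kc2zQ5 c2zQ5_fx c2zQ5_k
  have ec2zQ4 := LvD.exact (D := c2zQ4) gc2zQ4 c2zQ4_ok ec2zQ5.1 lc2zQ4 c2zQ4_s kc2zQ4 c2zQ4_fx c2zQ4_k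
  have ec2zQ3 := LvD.exact (D := c2zQ3) gc2zQ3 c2zQ3_ok ec2zQ4.1 lc2zQ3 c2zQ3_s kc2zQ3 c2zQ3_fx c2zQ3_k
  have ec2zQ2 := LvD.exact (D := c2zQ2) gc2zQ2 c2zQ2_ok ec2zQ3.1 lc2zQ2 c2zQ2_s kc2zQ2 c2zQ2_fx c2zQ2_k
  have ec2zQ1 := LvD.exact (D := c2zQ1) gc2zQ1 c2zQ1_ok ec2zQ2.1 lc2zQ1 c2zQ1_s kc2zQ1 c2zQ1_fx c2zQ1_k
  have cc2zQ : Nat.card (M.cl c2zQ1_g) = 512 := ec2zQ1.1.2.trans (by (try dsimp only [M]); decide +kernel)
  obtain ⟨tc2zC1, hTc2zC1⟩ := exists_R va (c := (nat_lit 0xabd04493516f753edab98ff6a29f675caf38fefeda34c7be077dbaf83dba578481917acd08037f6353c595dad939038077d19be681d4fdbf7abf4220e72453a05b6d7bfc913758d7)) (by (try dsimp only [M]); decide +kernel)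
  have kc2zC1 : Key M (cjS St tc2zC1) c2zC1_key c2zC1_fix := k1.keyT hTc2zC1 (R_inv_of hTc2zC1 (exists_R va (c := (nat_lit 0x3384343c7fe8eae4adfc7311600e6ffcffea749d5acd7aeef4d7be3cba515ca093b109d338b14d62e77644320a4c1068b3c05f32e0cf788df29f977645e48ccb0db193f34ba0c430)) (by (try dsimp only [M]); decide +kernel)) (by (try dsimp only [M]); decide +kernel)) _
  obtain ⟨tc2zC2, hTc2zC2⟩ := exists_R va (c := (nat_lit 0x797f73d9609930dfc6e29f26a51f736167e424159d597bec5fedce1be5ee341f6a60a3917bf227c90134bbf589c3def6837489f3ea2ca3ed98d401c2c3f789af5867b8c1c19dcaea)) (by (try dsimp only [M]); decide +kernel)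
  have kc2zC2 : Key M (cjS St tc2zC2) c2zC2_key c2zC2_fix := k1.keyT hTc2zC2 (R_inv_of hTc2zC2 (exists_R va (c := (nat_lit 0xcdcbc7f4ebbe41abdc38943b516035f4243176e96ef14d9683d73b6ab4b94644ffe74409481641489b96dcb664ab8a69c15bcda4ab964819ce0429c1ca960c7eb3bc3bea51c28da7)) (by (try dsimp only [M]); decide +kernel)) (by (try dsimp only [M]); decide +kernel)) _
  obtain ⟨tc2zC3, hTc2zC3⟩ := exists_R va (c := (nat_lit 0x4dac623cd3feb4b6d67477bc3bf37c97264f0a95dcf7e45b3a88b974b7bc674fe8a8cfe873811f52d16b0cb6c5ff1c41139cb2438f2f4d3c0e77c039043e917ef22700a0e2f95b9e)) (by (try dsimp only [M]); decide +kernel)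
  have kc2zC3 : Key M (cjS St tc2zC3) c2zC3_key c2zC3_fix := k1.keyT hTc2zC3 (R_inv_of hTc2zC3 (exists_R va (c := (nat_lit 0x19b33890832bb148de8586d64a5d74a626d6933eae664be9900ef6804ef627ff6f9d7d74120ebe00cee475ea25803211887338893ee4026381518fb616c0a110ee66b4dfc6a27234)) (by (try dsimp only [M]); decide +kernel)) (by (try dsimp only [M]); decide +kernel)) _
  obtain ⟨tc2zC4, hTc2zC4⟩ := exists_R va (c := (nat_lit 0x9cb717275df9676fc9dce6f8808ef69a3eae664be90465e9574bf504843eb8e989802e7ec37ed96410afc42427152622148fd50020631c7837fbd077fbc6a8fad02f0bc4906269ce)) (by (try dsimp only [M]); decide +kernel)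
  have kc2zC4 : Key M (cjS St tc2zC4) c2zC4_key c2zC4_fix := k1.keyT hTc2zC4 (R_inv_of hTc2zC4 (exists_R va (c := (nat_lit 0x3c180111155b4644ff8654fdb01d74e7fdfe047ce27410df53e5fa54016f300dac29cdf64f2fb10862f2276da9b5a3dfee3005d01fb16e7f8121c72985c853128fa764c5aaeaa876)) (by (try dsimp only [M]); decide +kernel)) (by (try dsimp only [M]); decide +kernel)) _
  obtain ⟨tc2zC5, hTc2zC5⟩ := exists_R va (c := (nat_lit 0x2c7427846b1fa2737cc4df191c5b5b94db59b9ee4cbf2f6adf7d4915fa59283a7ae8af1e33a911ddfc59074870a319046f9207524c285d2b1bb3aeca9055200001209420260020a0)) (by (try dsimp only [M]); decide +kernel)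
  have kc2zC5 : Key M (cjS St tc2zC5) c2zC5_key c2zC5_fix := k1.keyT hTc2zC5 (R_inv_of hTc2zC5 (exists_R va (c := (nat_lit 0x21e89de60bec79ef26eab633c61d73d59dce39cff3afefc698c7f7e311f3920777a01f7991cfff88502889ea2a18402c8a475e90edf7184028b9cc28d7bc60e7b6247332193ff25b)) (by (try dsimp only [M]); decide +kernel)) (by (try dsimp only [M]); decide +kernel)) _
  obtain ⟨tc2zC6, hTc2zC6⟩ := exists_R va (c := (nat_lit 0xf9430277edfeb1cb69feeffef1d3b583774d8555fa40fd74c1d33dcb5eaecb06f8c47f9199da2cee3018f18501fdcbf2e01fe8b3dc8124a8c4d6b8c4f847fac48004a41f6a7a1ff8)) (by (try dsimp only [M]); decide +kernel)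
  have kc2zC6 : Key M (cjS St tc2zC6) c2zC6_key c2zC6_fix := k1.keyT hTc2zC6 (R_inv_of hTc2zC6 (exists_R va (c := (nat_lit 0xf3c4063cbdfe9ebff4c34bf2258ded0326cd5126f5bdbb03af6b3e2439f8aebf38c3ab3b20e0393e68763bf2e8f0e0005a0bb185929897118e44246d0f7fb763340f6590004ed7b5)) (by (try dsimp only [M]); decide +kernel)) (by (try dsimp only [M]); decide +kernel)) _
  obtain ⟨tc2zC7, hTc2zC7⟩ := exists_R va (c := (nat_lit 0xa3fb6b5d138a048ebafbbc19ab7631f7e4d945b6f81e309990d481ba2fe8d4b0002ff5b17d294c09c04a0e43daa76e76f659817b66198d718e028dc723d9c7811ae73778c7588d72)) (by (try dsimp only [M]); decide +kernel)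
  have kc2zC7 : Key M (cjS St tc2zC7) c2zC7_key c2zC7_fix := k1.keyT hTc2zC7 (R_inv_of hTc2zC7 (exists_R va (c := (nat_lit 0x755fbdecf04bc8eab4f7d07b75e343ebaf1e2ab5dcacadbafc6faec617728cc0c1f55ffc22308b570f988848566cd0008e175b15230349e053fb51dbdac062ece0482cd144943025)) (by (try dsimp only [M]); decide +kernel)) (by (try dsimp only [M]); decide +kernel)) _
  have gc2zC1 : ∀ c ∈ c2zC1_g, M.In ⊤ c := valid_sub va (by (try dsimp only [M]); decide +kernel)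
  have gc2zC2 := LvD.valid_next (D := c2zC1) gc2zC1 c2zC1_ok c2zC1_next
  have lc2zC1 := LvD.le_next (D := c2zC1) gc2zC1 c2zC1_ok c2zC1_next
  have gc2zC3 := LvD.valid_next (D := c2zC2) gc2zC2 c2zC2_ok c2zC2_next
  have lc2zC2 := LvD.le_next (D := c2zC2) gc2zC2 c2zC2_ok c2zC2_next
  have gc2zC4 := LvD.valid_next (D := c2zC3) gc2zC3 c2zC3_ok c2zC3_next
  have lc2zC3 := LvD.le_next (D := c2zC3) gc2zC3 c2zC3_ok c2zC3_next
  have gc2zC5 := LvD.valid_next (D := c2zC4) gc2zC4 c2zC4_ok c2zC4_next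
  have lc2zC4 := LvD.le_next (D := c2zC4) gc2zC4 c2zC4_ok c2zC4_next
  have gc2zC6 := LvD.valid_next (D := c2zC5) gc2zC5 c2zC5_ok c2zC5_next
  have lc2zC5 := LvD.le_next (D := c2zC5) gc2zC5 c2zC5_ok c2zC5_next
  have gc2zC7 := LvD.valid_next (D := c2zC6) gc2zC6 c2zC6_ok c2zC6_next
  have lc2zC6 := LvD.le_next (D := c2zC6) gc2zC6 c2zC6_ok c2zC6_next
  have gc2zC8 := LvD.valid_next (D := c2zC7) gc2zC7 c2zC7_ok c2zC7_next
  have lc2zC7 := LvD.le_next (D := c2zC7) gc2zC7 c2zC7_ok c2zC7_next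
  have cc2zC8 : 1 ≤ Nat.card (M.cl c2zC8_g) := Nat.card_pos
  have cc2zC7 : 512 ≤ Nat.card (M.cl c2zC7_g) := le_trans (by (try dsimp only [M]); decide +kernel) (LvD.lower (D := c2zC7) gc2zC7 c2zC7_ok cc2zC8 lc2zC7 kc2zC7 c2zC7_fx c2zC7_k)
  have cc2zC6 : 1536 ≤ Nat.card (M.cl c2zC6_g) := le_trans (by (try dsimp only [M]); decide +kernel) (LvD.lower (D := c2zC6) gc2zC6 c2zC6_ok cc2zC7 lc2zC6 kc2zC6 c2zC6_fx c2zC6_k)
  have cc2zC5 : 6144 ≤ Nat.card (M.cl c2zC5_g) := le_trans (by (try dsimp only [M]); decide +kernel) (LvD.lower (D := c2zC5) gc2zC5 c2zC5_ok cc2zC6 lc2zC5 kc2zC5 c2zC5_fx c2zC5_k)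
  have cc2zC4 : 49152 ≤ Nat.card (M.cl c2zC4_g) := le_trans (by (try dsimp only [M]); decide +kernel) (LvD.lower (D := c2zC4) gc2zC4 c2zC4_ok cc2zC5 lc2zC4 kc2zC4 c2zC4_fx c2zC4_k)
  have cc2zC3 : 491520 ≤ Nat.card (M.cl c2zC3_g) := le_trans (by (try dsimp only [M]); decide +kernel) (LvD.lower (D := c2zC3) gc2zC3 c2zC3_ok cc2zC4 lc2zC3 kc2zC3 c2zC3_fx c2zC3_k)
  have cc2zC2 : 13271040 ≤ Nat.card (M.cl c2zC2_g) := le_trans (by (try dsimp only [M]); decide +kernel) (LvD.lower (D := c2zC2) gc2zC2 c2zC2_ok cc2zC3 lc2zC2 kc2zC2 c2zC2_fx c2zC2_k)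
  have cc2zC1 : 743178240 ≤ Nat.card (M.cl c2zC1_g) := le_trans (by (try dsimp only [M]); decide +kernel) (LvD.lower (D := c2zC1) gc2zC1 c2zC1_ok cc2zC2 lc2zC1 kc2zC1 c2zC1_fx c2zC1_k)
  obtain ⟨p1, p2⟩ := cent_eq_cl hz (by (try dsimp only [M]); decide +kernel) (sol_le_of_class hu (D := c2zK) vv c2zK_ok hz c2zK_k (Subgroup.card_top.trans hN).le) cc2zC1
  obtain ⟨φ, p3, p4⟩ := c2zG_hom M (a2_6.model ρ hρ) rfl rfl rfl rfl rfl rfl hs gc2zC1 (fun c hc => (List.mem_append.1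
    (show c ∈ sp62_g ++ List.replicate 8 a2_6.one from hc)).elim (hv c) fun h => List.eq_of_mem_replicate h ▸ Model.In.one) p1 p2.ge
  obtain ⟨q1, q2, -, q3, q4⟩ := es_pack hz p1 gc2zC1 ec2zQ1.1.1 cc2zQ (by norm_num) (by rw [p2, hA]) (sp62v_top hv hA) p3 p4
    (by dsimp only [M, Ar.model]; decide +kernel)
  exact ⟨z, q1, φ, q2, q3, q4⟩

end H29
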