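import Cfsg.Agent.H29.Cov2

set_option autoImplicit false
set_option linter.style.haveILetI false

/-! Corestriction of central extensions. -/

namespace H29

open Subgroup
open scoped commutatorElement

theorem hasCov_of_invariant {W G B : Type*} [Group W] [Finite W] [Group G] [CommGroup B] (pr : W →* G)
    (hs : Function.Surjective pr) (μ : pr.ker →* B)
    (hi : ∀ (w : W) (k k' : pr.ker), k'.1 = w * k.1 * w⁻¹ → μ k' = μ k)
    (hc : ∀ b : B, ∃ k : pr.ker, k.1 ∈ _root_.commutator W ∧ μ k = b) : HasCov G B := by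
  let N := μ.ker.map pr.ker.subtype
  haveI : N.Normal := ⟨by
    rintro _ ⟨k, hk, rfl⟩ w
    exact ⟨⟨_, (inferInstance : pr.ker.Normal).conj_mem _ k.2 w⟩, (hi w k _ rfl).trans hk, rfl⟩⟩
  have hle : N ≤ pr.ker := map_subtype_le _
  let σ := QuotientGroup.lift N pr hle
  let ψ : pr.ker →* σ.ker := ((QuotientGroup.mk' N).comp pr.ker.subtype).codRestrict _ fun k => k.2
  have h1 : Function.Surjective ψ := by
    rintro ⟨x, hx⟩
    induction x using QuotientGroup.induction_on with | H w => exact ⟨⟨w, hx⟩, rfl⟩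
  have h2 : ∀ k k' : pr.ker, μ k = μ k' → ((k.1 : W) : W ⧸ N) = k'.1 := fun k k' h =>
    QuotientGroup.eq.2 ⟨k⁻¹ * k', by simp [MonoidHom.mem_ker, h], rfl⟩
  have h3 : ψ.ker = μ.ker := by
    ext k
    refine ⟨fun h => ?_, fun h => Subtype.ext (h2 k 1 (h.trans (map_one μ).symm))⟩
    obtain ⟨k', h4, e⟩ := (QuotientGroup.eq_one_iff _).1 (congrArg Subtype.val h)
    exact (Subtype.ext e : k' = k) ▸ h4
  refine HasCov.of (σ := σ) ⟨fun g => let ⟨w, e⟩ := hs g; ⟨w, e⟩, fun x hx => ?_, fun x hx => ?_⟩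
    ((QuotientGroup.quotientKerEquivOfSurjective ψ h1).symm.trans ((QuotientGroup.quotientMulEquivOfEq h3).trans
      (QuotientGroup.quotientKerEquivOfSurjective μ fun b => (hc b).imp fun _ h => h.2)))
  · obtain ⟨k, e⟩ := h1 ⟨x, hx⟩
    obtain rfl : ((k.1 : W) : W ⧸ N) = x := congrArg Subtype.val e
    refine mem_center_iff.2 fun y => ?_
    induction y using QuotientGroup.induction_on with | H w => ?_
    have := h2 ⟨_, (inferInstance : pr.ker.Normal).conj_mem _ k.2 w⟩ k (hi w k _ rfl)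
    exact mul_inv_eq_iff_eq_mul.1 this
  · obtain ⟨k, e⟩ := h1 ⟨x, hx⟩
    obtain rfl : ((k.1 : W) : W ⧸ N) = x := congrArg Subtype.val e
    obtain ⟨k', h4, h5⟩ := hc (μ k)
    rw [← h2 _ _ h5, _root_.commutator_def, ← map_top_of_surjective _ (QuotientGroup.mk'_surjective N),
      ← map_commutator]
    exact ⟨_, h4, rfl⟩

variable {G Δ X : Type*} [Group G] [Group Δ] [MulAction G X]

/-- Lifts of the monomial embedding. -/
@[ext] structure Wr (π : Δ →* G) (t : X → G) where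
  g : G
  f : X → Δ
  h : ∀ x, t (g • x) * π (f x) = g * t x

variable {π : Δ →* G} {t : X → G}

instance Wr.group : Group (Wr π t) where
  mul a b := ⟨a.g * b.g, fun x => a.f (b.g • x) * b.f x, fun x => by
    rw [mul_smul, map_mul, ← mul_assoc, a.h, mul_assoc, b.h, mul_assoc]⟩
  one := ⟨1, fun _ => 1, fun x => by simp⟩
  inv a := ⟨a.g⁻¹, fun x => (a.f (a.g⁻¹ • x))⁻¹, fun x => by
    have := a.h (a.g⁻¹ • x)
    rw [smul_inv_smul] at this
    rw [map_inv, mul_inv_eq_iff_eq_mul, mul_assoc, this, inv_mul_cancel_left]⟩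
  mul_assoc a b c := Wr.ext (mul_assoc _ _ _) (funext fun x => by
    show a.f (b.g • c.g • x) * b.f (c.g • x) * c.f x = a.f ((b.g * c.g) • x) * (b.f (c.g • x) * c.f x)
    rw [mul_smul, mul_assoc])
  one_mul a := Wr.ext (one_mul _) (funext fun x => one_mul _)
  mul_one a := Wr.ext (mul_one _) (funext fun x => by
    show a.f ((1 : G) • x) * 1 = _
    rw [one_smul, mul_one])
  inv_mul_cancel a := Wr.ext (inv_mul_cancel _) (funext fun x => by
    show (a.f (a.g⁻¹ • a.g • x))⁻¹ * a.f x = 1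
    rw [inv_smul_smul, inv_mul_cancel])

def Wr.pr (π : Δ →* G) (t : X → G) : Wr π t →* G := ⟨⟨Wr.g, rfl⟩, fun _ _ => rfl⟩

theorem Wr.mem_ker (k : (Wr.pr π t).ker) (x : X) : k.1.f x ∈ π.ker := by
  have h1 : k.1.g = 1 := k.2
  simpa [h1] using k.1.h x

theorem hasCov_cores [Finite G] [Finite Δ] [Fintype X] {z : Δ} (hk : π.ker = zpowers z) (hz : z ∈ center Δ)
    {n : ℕ} [NeZero n] (ho : orderOf z = n) (ht : ∀ g x, ∃ d, t (g • x) * π d = g * t x) (a b : Wr π t)
    (hab : a.g * b.g = b.g * a.g) (e : X → ℕ) (he : ∀ x, a.f (b.g • x) * b.f x = z ^ e x * (b.f (a.g • x) * a.f x))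
    (hc : (∑ x, e x).Coprime n) : HasCov G (Multiplicative (ZMod n)) := by
  haveI : Finite (Wr π t) := Finite.of_injective (fun w : Wr π t => (w.g, w.f)) fun _ _ h =>
    Wr.ext (congrArg Prod.fst h) (congrArg Prod.snd h)
  obtain ⟨ε⟩ := ker_equiv_zmod hk ho
  have hcen : ∀ d ∈ π.ker, ∀ y, y * d = d * y := fun d hd y => mem_center_iff.1 (zpowers_le.2 hz (hk ▸ hd)) y
  let μ : (Wr.pr π t).ker →* Multiplicative (ZMod n) := MonoidHom.mk' (fun k => ∏ x, ε ⟨_, Wr.mem_ker k x⟩)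
    fun k k' => by
      rw [← Finset.prod_mul_distrib]
      refine Finset.prod_congr rfl fun x _ => ?_
      rw [← map_mul]
      refine congrArg ε (Subtype.ext ?_)
      show k.1.f (k'.1.g • x) * k'.1.f x = _
      rw [show k'.1.g = 1 from k'.2, one_smul]; rfl
  have hzk : z ∈ π.ker := hk ▸ mem_zpowers z
  refine hasCov_of_invariant (Wr.pr π t) (fun g => ⟨⟨g, fun x => (ht g x).choose, fun x => (ht g x).choose_spec⟩, rfl⟩)
    μ (fun w k k' h => ?_) fun y => ?_
  · refine Fintype.prod_equiv (MulAction.toPerm w.g⁻¹) _ _ fun x => congrArg ε (Subtype.ext ?_)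
    show k'.1.f x = k.1.f (w.g⁻¹ • x)
    rw [h]
    show w.f (k.1.g • w.g⁻¹ • x) * k.1.f (w.g⁻¹ • x) * (w.f (w.g⁻¹ • x))⁻¹ = _
    rw [show k.1.g = 1 from k.2, one_smul, hcen _ (Wr.mem_ker k _), mul_inv_cancel_right]
  · let S := ((_root_.commutator (Wr π t)).subgroupOf (Wr.pr π t).ker).map μ
    have hm : ⁅a, b⁆ ∈ (Wr.pr π t).ker := by
      rw [MonoidHom.mem_ker, map_commutatorElement]; exact commutatorElement_eq_one_iff_mul_comm.2 hab
    have h1 : μ ⟨_, hm⟩ = ε ⟨z, hzk⟩ ^ ∑ x, e x := by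
      rw [← Finset.prod_pow_eq_pow_sum]
      refine (Fintype.prod_equiv (MulAction.toPerm (b * a).g) _ _ fun x => ?_).symm
      rw [← map_pow]
      refine congrArg ε (Subtype.ext ?_)
      have h2 : (⁅a, b⁆ * (b * a)).f x = (a * b).f x := by rw [commutatorElement_def]; group
      exact (mul_right_cancel (h2.trans (he x))).symm
    have h2 : ε ⟨z, hzk⟩ ∈ S := mem_of_pow_coprime (h1 ▸ ⟨_, commutator_mem_commutator (mem_top a) (mem_top b), rfl⟩)
      (by rw [← map_pow, show (⟨z, hzk⟩ : π.ker) ^ n = 1 from Subtype.ext (ho ▸ pow_orderOf_eq_one z), map_one]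
          exact one_mem _) hc
    obtain ⟨⟨d, hd⟩, rfl⟩ := ε.surjective y
    obtain ⟨i, rfl⟩ : d ∈ zpowers z := hk ▸ hd
    have := zpow_mem h2 i
    rw [← map_zpow] at this
    exact this

end H29
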