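import Cfsg.Agent.H29.Cores

set_option autoImplicit false
set_option linter.style.haveILetI false

/-! Corestriction of central extensions, in models. -/

namespace H29

open Subgroup

variable {G A : Type*} [Group G] [Group A] {M : Model G} {N : Model A} {s mk one : ℕ}
  {hs : ∀ a g, M.R a g → a < 2 ^ s} {hmk : Nat.beq mk (2 ^ s - 1) = true}
  {hone : Nat.beq one (M.one + N.one <<< s) = true}

noncomputable def cosB (mul : ℕ → ℕ → ℕ) (eqb : ℕ → ℕ → Bool) (mk m X : ℕ) (U D σ : ℕ → ℕ) (j : ℕ) : Bool :=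
  band (Nat.blt (σ j) m) (eqb (mul (U (σ j)) (Nat.land (D j) mk)) (mul X (U j)))

noncomputable def coreAt (mul : ℕ → ℕ → ℕ) (eqb : ℕ → ℕ → Bool) (pm : ℕ → ℕ → ℕ) (pe : ℕ → ℕ → Bool)
    (pone mk m X Y Z : ℕ) (key U Da Db sa sb e : ℕ → ℕ) (j : ℕ) : Bool :=
  band (band (cosB mul eqb mk m X U Da sa j) (cosB mul eqb mk m Y U Db sb j))
    (band (pe (pm (Da (sb j)) (Db j)) (pm (pw pm pone Z (Nat.mod (e j) 64)) (pm (Db (sa j)) (Da j))))
      (Bool.rec (motive := fun _ => Bool) true (Nat.blt (key (U j)) (key (U (Nat.succ j)))) (Nat.blt (Nat.succ j) m)))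

theorem hasCov_of_cores [Finite G] {L g U Da Db ps : List ℕ} {ls : List Lv} {h m n X Y Z : ℕ} [NeZero n]
    (hL : ∀ c ∈ L, (M.prod N s mk one hs hmk hone).In ⊤ c)
    (hch : Chain (M.prod N s mk one hs hmk hone) ((M.prod N s mk one hs hmk hone).cl L) ls)
    (hD : ∀ c ∈ Z :: (Da ++ Db), (M.prod N s mk one hs hmk hone).In ((M.prod N s mk one hs hmk hone).cl L) c)
    (hG : Nat.card G = m * h) (hlow : h ≤ Nat.card (M.cl g)) {St : Subgroup G} {key : ℕ → ℕ} {fix : ℕ → Bool}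
    (k : Key M St key fix) (hU : ∀ c ∈ X :: Y :: U, M.In ⊤ c)
    (h0 : ord ls ≤ h * n ∧ n < 2 ^ 64 ∧ 0 < h) (hp : n.primeFactorsList ⊆ ps)
    (h1 : band (band (allL (fun c => anyL (fun d => Nat.beq c (Nat.land d mk)) L) g)
        (allL (fun c => fix (Nat.land c mk)) L))
      (band (band (M.eqb (Nat.land Z mk) M.one) (commB M.mul M.eqb X Y))
        (band (allL (commB (mulPr M.mul N.mul s mk) (eqbPr M.eqb N.eqb s mk) Z) L)
          (ordOK (mulPr M.mul N.mul s mk) (eqbPr M.eqb N.eqb s mk) one Z n ps))) = true)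
    {sa sb e : ℕ → ℕ} (h2 : ∀ j < m, coreAt M.mul M.eqb (mulPr M.mul N.mul s mk) (eqbPr M.eqb N.eqb s mk) one mk m X Y Z
      key (lgetD M.one U) (lgetD one Da) (lgetD one Db) sa sb e j = true)
    (h3 : Nat.gcd (sum1 (fun j => Nat.mod (e j) 64) 0 m) n = 1) : HasCov G (Multiplicative (ZMod n)) := by
  set P := M.prod N s mk one hs hmk hone
  simp only [band_iff] at h1
  obtain ⟨⟨k1, k2⟩, ⟨k3, k4⟩, k5, k6⟩ := h1
  haveI := hch.finite
  let π : P.cl L →* G := (MonoidHom.fst G A).comp (P.cl L).subtype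
  obtain ⟨z, hz, rz⟩ := hD Z List.mem_cons_self
  obtain ⟨a, -, ra⟩ := hU X (by simp)
  obtain ⟨b, -, rb⟩ := hU Y (by simp)
  choose u _ ru using Model.in_lgetD (M := M) fun c hc => hU c (List.mem_cons_of_mem _ (List.mem_cons_of_mem _ hc))
  choose da ma rda using Model.in_lgetD (M := P) fun c hc => hD c (List.mem_cons_of_mem _ (List.mem_append_left _ hc))
  choose db mb rdb using Model.in_lgetD (M := P) fun c hc => hD c (List.mem_cons_of_mem _ (List.mem_append_right _ hc))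
  have e1 : h ≤ Nat.card π.range := hlow.trans (card_le_of_le (Model.cl_le' fun c hc x hx => by
    obtain ⟨d, hd, e⟩ := anyL_iff.1 (allL_spec k1 c hc)
    obtain ⟨y, -, hy⟩ := hL d hd
    exact ⟨⟨y, Model.mem_cl hd hy⟩, M.unique hy.1 (Nat.eq_of_beq_eq_true e ▸ hx)⟩))
  have e2 : π.range ≤ St := by
    rintro _ ⟨⟨x, hx⟩, rfl⟩
    exact Model.cl_le' (M := P) (K := St.comap (MonoidHom.fst G A)) (fun c hc y hy => k.mem hy.1 (allL_spec k2 c hc)) hx
  have ho : orderOf (⟨z, hz⟩ : P.cl L) = n := (Subgroup.orderOf_mk _ _).trans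
    (orderOf_of_ordOK (M := P) rz k6 (NeZero.pos n) h0.2.1 (mem_of_primeFactorsList (NeZero.ne n) hp))
  have hk : π.ker = zpowers ⟨z, hz⟩ := by
    refine (eq_of_le_of_card_ge (zpowers_le.2 (M.eq_of rz.1 M.R_one k3)) ?_).symm
    have e3 := card_eq_of_surj _ π.rangeRestrict_surjective
    rw [MonoidHom.ker_rangeRestrict] at e3
    rw [Nat.card_zpowers, ho]
    exact Nat.le_of_mul_le_mul_left ((Nat.mul_le_mul_right _ e1).trans (e3.ge.trans (hch.card_le.trans h0.1))) h0.2.2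
  simp only [coreAt, cosB, band_iff, Nat.blt_eq] at h2
  let ε : Fin m → G ⧸ π.range := fun j => u j
  have e4 : Function.Injective ε := fun i j hij => by
    have e5 := k.inv (ru i) (ru j) (e2 (QuotientGroup.eq.1 hij))
    have e6 := fun i j => lt_of_succ_lt (ks := fun j => key (lgetD M.one U j)) (n := m) (i := i) (j := j) fun j hj => by
      have := (h2 j (by omega)).2.2
      rw [show Nat.blt (Nat.succ j) m = true from Nat.blt_eq.mpr hj] at this
      exact Nat.blt_eq.mp this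
    rcases lt_trichotomy i j with h | h | h
    exacts [absurd e5 (e6 _ _ h j.2).ne, h, absurd e5 (e6 _ _ h i.2).ne']
  let E := Equiv.ofBijective ε (e4.bijective_of_nat_card_le (by
    have := π.range.index_mul_card
    rw [Nat.card_fin]
    exact Nat.le_of_mul_le_mul_right ((Nat.mul_le_mul_left _ e1).trans (this.trans hG).le) h0.2.2))
  have e7 : ∀ x, (u (E.symm x) : G ⧸ π.range) = x := E.apply_symm_apply
  have e8 : ∀ {X : ℕ} {c : G} {D : List ℕ} {d : ℕ → G × A} {σ : ℕ → ℕ}, M.R X c → (∀ j, d j ∈ P.cl L) →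
      (∀ j, P.R (lgetD one D j) (d j)) → (∀ j < m, σ j < m ∧ M.eqb (M.mul (lgetD M.one U (σ j))
        (Nat.land (lgetD one D j) mk)) (M.mul X (lgetD M.one U j)) = true) → ∀ x,
      (E.symm (c • x) : ℕ) = σ (E.symm x) ∧ u (E.symm (c • x)) * (d (E.symm x)).1 = c * u (E.symm x) := by
    intro X c D d σ rc md rd hσ x
    obtain ⟨j, rfl⟩ := E.surjective x
    have f1 := M.eq_of (M.R_mul (ru _) (rd j).1) (M.R_mul rc (ru j)) (hσ j j.2).2
    have f2 : c • E j = E ⟨σ j, (hσ j j.2).1⟩ :=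
      (QuotientGroup.eq.2 ⟨⟨d j, md j⟩, eq_inv_mul_iff_mul_eq.2 f1⟩ : (u (σ j) : G ⧸ π.range) = (c * u j : G)).symm
    rw [f2, E.symm_apply_apply, E.symm_apply_apply]
    exact ⟨rfl, f1⟩
  have f1 := e8 ra ma rda fun j hj => (h2 j hj).1.1
  have f2 := e8 rb mb rdb fun j hj => (h2 j hj).1.2
  letI := Fintype.ofFinite (G ⧸ π.range)
  refine hasCov_cores (π := π) (t := fun x => u (E.symm x)) hk
    (mem_center_iff.2 fun y => Subtype.ext (cl_comm (M := P) rz k5 _ y.2)) ho (fun c x => ?_)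
    ⟨a, fun x => ⟨da (E.symm x), ma _⟩, fun x => (f1 x).2⟩ ⟨b, fun x => ⟨db (E.symm x), mb _⟩, fun x => (f2 x).2⟩
    ((commB_iff ra rb).1 k4) (fun x => e (E.symm x) % 64) (fun x => Subtype.ext ?_) ?_
  · obtain ⟨d, hd⟩ := QuotientGroup.eq.1 (show (u (E.symm (c • x)) : G ⧸ π.range) = (c * u (E.symm x) : G) by
      rw [e7, ← smul_eq_mul, ← MulAction.Quotient.smul_coe, e7])
    exact ⟨d, eq_inv_mul_iff_mul_eq.1 hd⟩
  · show da (E.symm (b • x)) * db (E.symm x) = z ^ _ * (db (E.symm (a • x)) * da (E.symm x))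
    rw [(f1 x).1, (f2 x).1]
    exact P.eq_of (P.R_mul (rda _) (rdb _)) (P.R_mul (P.R_pw rz _ ((Nat.mod_lt _ (by norm_num)).trans (by norm_num)))
      (P.R_mul (rdb _) (rda _))) (h2 _ (E.symm x).2).2.1
  · rw [E.symm.sum_comp fun j : Fin m => e j % 64, Fin.sum_univ_eq_sum_range fun j => e j % 64]
    rw [sum1_eq] at h3
    simp only [zero_add] at h3
    exact h3

end H29
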