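import Cfsg.Agent.H29.J3
import Cfsg.Agent.H29.Cov

set_option autoImplicit false
set_option maxRecDepth 100000
set_option linter.style.haveILetI false
set_option linter.unusedVariables false
set_option linter.style.longLine false
set_option linter.unusedTactic false
set_option linter.unreachableTactic false

namespace H29

noncomputable def j3s2_gl : List ℕ := [nat_lit 0x67aa77957d30d2c82c2fce86a25153e4fca7a77dd7bae217084f81dd8f2ed2897c35fa0b15a84fd53, nat_lit 0x23bd849ad47d3f3acaa0bed41a66161f4f4e020e004246820f5042739d389ece941a5f0da178d4f92, nat_lit 0x1d93cedcab5579bff9ec1ae60d6a044d433262d1f46cea88815110261f474ebf48feb12adfcb2ea18, nat_lit 0xb7335b88bfddeeaee6a436570b70a23c144a2438c70927bfdb9aad5f95fe9fe1dbc8eda105ddc3eee, nat_lit 0xfc3faa0a96ffe76aa729ecc5e620a2c81461606af435661c5b4e3d07f803a90e5cca7e2115f60feb4, nat_lit 0x476173b4f1ef84e69362ba34594bdbe5ada76f5ef6be6ea59657df3eb14a58f4fd4f2af251963cdf4, nat_lit 0xde302e4839a4c9d72d2992c5dca7f557abfd7fdefaae5bfebdaa526f247687ca97215f832d8086d0]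
noncomputable def j3s2_fg : List ℕ := [nat_lit 0xeee76667bbd8cdad228690135c0570bbf819f8e72927886fb136986e19364dcffa9aa95db4939b1c9, nat_lit 0x9d461ef3413234c84b8b5d11bec59ea7de57de426e70733fac8a9681a550d7f3017480fb34664b377, nat_lit 0xcf5022bc478e73927d8b4ad1b176083b4103acd4962f295c85fe11323cc84ad941edf0e73dcf8ae2]
noncomputable def j3s2_J : List Job := [.as (nat_lit 0x10) (nat_lit 0x10) (nat_lit 0x10) (nat_lit 0x400000),
  .as (nat_lit 0x8) (nat_lit 0x8) (nat_lit 0x8) (nat_lit 0x200000),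
  .as (nat_lit 0x2) (nat_lit 0x2) (nat_lit 0x2) (nat_lit 0x1880041),
  .as (nat_lit 0x1) (nat_lit 0x1) (nat_lit 0x1) (nat_lit 0x2000),
  .as (nat_lit 0x40) (nat_lit 0x2) (nat_lit 0x2) (nat_lit 0xa00000),
  .as (nat_lit 0x20) (nat_lit 0x20) (nat_lit 0x2) (nat_lit 0x1800000),
  .as (nat_lit 0x20) (nat_lit 0x2) (nat_lit 0x2) (nat_lit 0x1888000),
  .as (nat_lit 0x10) (nat_lit 0x10) (nat_lit 0x4) (nat_lit 0x1500000),
  .as (nat_lit 0x10) (nat_lit 0x10) (nat_lit 0x2) (nat_lit 0x1cb0000),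
  .as (nat_lit 0x10) (nat_lit 0x2) (nat_lit 0x2) (nat_lit 0x14b0801),
  .as (nat_lit 0x10) (nat_lit 0x10) (nat_lit 0x1) (nat_lit 0x1c70000),
  .as (nat_lit 0x8) (nat_lit 0x8) (nat_lit 0x4) (nat_lit 0x128000),
  .as (nat_lit 0x8) (nat_lit 0x4) (nat_lit 0x4) (nat_lit 0x24000),
  .as (nat_lit 0x8) (nat_lit 0x8) (nat_lit 0x2) (nat_lit 0x1280000),
  .as (nat_lit 0x4) (nat_lit 0x4) (nat_lit 0x2) (nat_lit 0x1401400),
  .as (nat_lit 0x4) (nat_lit 0x2) (nat_lit 0x2) (nat_lit 0x1125201),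
  .as (nat_lit 0x2) (nat_lit 0x2) (nat_lit 0x1) (nat_lit 0x18420e0),
  .as (nat_lit 0x4) (nat_lit 0x2) (nat_lit 0x1) (nat_lit 0xeb0901),
  .fu (nat_lit 0) [nat_lit 0, nat_lit 0] [] (nat_lit 0x83550a),
  .fu (nat_lit 0) [nat_lit 1, nat_lit 1] [nat_lit 2] (nat_lit 0x9d09c93),
  .fu (nat_lit 0) [nat_lit 3, nat_lit 3] [nat_lit 4] (nat_lit 0x21201080),
  .fu (nat_lit 0) [nat_lit 5, nat_lit 5] [nat_lit 4] (nat_lit 0x20038880),
  .fu (nat_lit 0) [nat_lit 3, nat_lit 1] [nat_lit 1, nat_lit 3] (nat_lit 0x1640c20),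
  .fu (nat_lit 0) [nat_lit 3, nat_lit 0] [nat_lit 0, nat_lit 3, nat_lit 2] (nat_lit 0x9014501),
  .fu (nat_lit 1) [nat_lit 6, nat_lit 6] [] (nat_lit 0x18620c6),
  .fu (nat_lit 2) [nat_lit 7, nat_lit 7] [] (nat_lit 0x863102)]
noncomputable def j3s2_l1 : List ℕ := [nat_lit 0x0, nat_lit 0x4641b11, nat_lit 0x6868251, nat_lit 0x468acf3, nat_lit 0x5f2fcea, nat_lit 0xe0c886, nat_lit 0x4029, nat_lit 0xe2c29f, nat_lit 0x40444, nat_lit 0x6125c4, nat_lit 0x6084a1, nat_lit 0x625, nat_lit 0x6004c7, nat_lit 0x10, nat_lit 0x71c6, nat_lit 0x40a0, nat_lit 0x13e4, nat_lit 0x51c6, nat_lit 0x4a60, nat_lit 0x4060, nat_lit 0x166, nat_lit 0x4, nat_lit 0x2, nat_lit 0x24, nat_lit 0x64]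
noncomputable def j3s2 : SchD where
  P := ⟨nat_lit 2, nat_lit 1, nat_lit 7, nat_lit 10, nat_lit 5, nat_lit 31, (pget (nat_lit 0x1881781681581481381200001141040f40ec0040d00000080ca0ba0ae09e08000000000807500906105000000000000004280883000000000000000d02140000000000000000000401) (nat_lit 12) (nat_lit 0xfff))⟩
  m1 := nat_lit 25
  nf := nat_lit 8
  rv := (pget (nat_lit 0x30beeb6caeaa279a58e07de75c616550388000) (nat_lit 6) (nat_lit 0x3f))
  dk := (pget (nat_lit 0x245cf1f1c71) (nat_lit 6) (nat_lit 0x3f))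
  gl := j3s2_gl
  fg := j3s2_fg
  fa := (pget (nat_lit 0x9000) (nat_lit 2) (nat_lit 0x3))
  fr := (pget (nat_lit 0x40828409080084) (nat_lit 7) (nat_lit 0x7f))
  fs := (pget (nat_lit 0xe38dc402082e15) (nat_lit 7) (nat_lit 0x7f))
  a := nat_lit 0
  es := []
  F := nat_lit 58
  c := nat_lit 1
  J := j3s2_J
  l1 := lget j3s2_l1
  l2 := fun _ => nat_lit 0

noncomputable def j3s2L1_g : List ℕ := [nat_lit 0x67aa77957d30d2c82c2fce86a25153e4fca7a77dd7bae217084f81dd8f2ed2897c35fa0b15a84fd53, nat_lit 0x23bd849ad47d3f3acaa0bed41a66161f4f4e020e004246820f5042739d389ece941a5f0da178d4f92, nat_lit 0x1d93cedcab5579bff9ec1ae60d6a044d433262d1f46cea88815110261f474ebf48feb12adfcb2ea18]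
noncomputable def j3s2L1_key : ℕ → ℕ := keyT a2_18.mul j31_key (nat_lit 0xace1d624ef76f6bb6bc49c231e066f6f76b6416bb0f599f391e89c4926b1c7553b2bc985877493bb1) (nat_lit 115801851)
noncomputable def j3s2L1_kt : ℕ → ℕ := pget (nat_lit 0xc5452337bed04e77ccf7968928e166a40a2640699f609e8b35482a604a4f5804a46e9749b5b7348ebae6470a89e40e398438ed82536ebaea356627b32deeb432d9ddf2d0d56b2a1bd3621e747021e101c1c3ed9218de597174aec910060330b51ff50861db00770ad604a1ee60000000) (nat_lit 28) (nat_lit 0xfffffff)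
noncomputable def j3s2L1_bt : ℕ → ℕ := pget (nat_lit 0x1ffffffee7126a4a0) (nat_lit 5) (nat_lit 0x1f)
noncomputable def j3s2L1 : LvD where
  n := nat_lit 32
  g := j3s2L1_g
  T := [nat_lit 0x67aa77957d30d2c82c2fce86a25153e4fca7a77dd7bae217084f81dd8f2ed2897c35fa0b15a84fd53, nat_lit 0x23bd849ad47d3f3acaa0bed41a66161f4f4e020e004246820f5042739d389ece941a5f0da178d4f92, nat_lit 0x1d93cedcab5579bff9ec1ae60d6a044d433262d1f46cea88815110261f474ebf48feb12adfcb2ea18, nat_lit 0xced3e26ca39a4c9d72d1652cf7c6b69f5b5edaf9ad69d95f7dfeba2963c5f4acabca15a1f37d28bac, nat_lit 0xb04d1832c665ab77d58e8e92525feebaa6594ca77217b43f070a837fcc7aa23658f37d2886d2936c5, nat_lit 0xec0266007abb99599d506bfc35a8a1dd14ee19c64de376fbaf6996f983a9d0932dac86d68b85d193e, nat_lit 0xb92019c4275c87be1b17718fb85eaffe56abeab9a559f6a96b55f1da1ced4e857e13fa421b404db0, nat_lit 0x6e34b64b1ace51627c6298b45d112de4c6e72c698635d1b130d8c829e2c5e46b7a6db976e5d967edf, nat_lit 0x3b3d898ad8a26914753022080445387fc93a9b0bdd81a762c7b4634444b3331db8f2d92895125fcc7,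 nat_lit 0xbcc21a2044e5cb27e1259707df8b62b1b458050743c3b8eea12654425eb07e50014400f3062383449, nat_lit 0x611834cd0c70023800fab0a958119944ddf3e43827090291a45cd7399e09de44fd4f2af210864c137, nat_lit 0xadf096e818a0d1142c69da75ed7ee41e670e478fb39294c0af2016186a8d3553b6849b538d9b12dd8, nat_lit 0x5ba07d943450b33c18d7b5ef9be99c39de09ce4a62717c805a103d34d54b2ff26d4c76f24b7631bb4, nat_lit 0x7403bb009fddeeaee6a0bd541afcf26628772e4b86719b5df5beeb5ec1fe60e136f4cb6bcdca62e17]
  ab := nat_lit 0xa00c008000004001001000004008007001006005005005001001003000000000000000000000000000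
  ia := nat_lit 0x700b009002008001004000
  ib := nat_lit 0x400400400400400400400400400400400400400400400400400400400400400400400400400400400400400400400400400400400400400400400400400400400400400400400400400400400400400400400400d00c00a002001008000004
  ent := pget (nat_lit 0x30822020822053102c081c440a238480c240e14820dc209a08300c0904080002f104d061c830c0183218300e0b440a82080101f081a860f43860081b0823041002820000) (nat_lit 17) (nat_lit 0x1ffff)
  key := j3s2L1_key
  ks := j3s2L1_kt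
  loc := locB j3s2L1_key j3s2L1_kt j3s2L1_bt (nat_lit 24)

noncomputable def j3s2L1_fix : ℕ → Bool := fixT a2_18.mul j31_fix (nat_lit 0xace1d624ef76f6bb6bc49c231e066f6f76b6416bb0f599f391e89c4926b1c7553b2bc985877493bb1) (nat_lit 0x97ef9fa6992331c4887f18fa8d212dd4c6ef79c2f9e06ad9956ddf17accf962d27a2c794718ab8d15)

noncomputable def j3s2L2_g : List ℕ := [nat_lit 0x1d4e8ef25bbafd996a0eafc256adaf12d68c4369f0b5e8b35918bdd53d2fcacbaee99665814290f05]
noncomputable def j3s2L2_key : ℕ → ℕ := keyT a2_18.mul j31_key (nat_lit 0x773f3b8a8ab3895891ed6ee6f66af88d6912578d3f92cadb6d6db65472ff3866ca17614f9e6dde76e) (nat_lit 17543893)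
noncomputable def j3s2L2_kt : ℕ → ℕ := pget (nat_lit 0xdba9ba22a569175ef168000000) (nat_lit 26) (nat_lit 0x3ffffff)
noncomputable def j3s2L2_bt : ℕ → ℕ := pget (nat_lit 0x8) (nat_lit 2) (nat_lit 0x3)
noncomputable def j3s2L2 : LvD where
  n := nat_lit 4
  g := j3s2L2_g
  T := [nat_lit 0x1d4e8ef25bbafd996a0eafc256adaf12d68c4369f0b5e8b35918bdd53d2fcacbaee99665814290f05, nat_lit 0x476173b4f1ef84e69362ba34594bdbe5ada76f5ef6be6ea59657df3eb14a58f4fd4f2af251963cdf4, nat_lit 0x327bc879a610634c34bb37198b86fa77697b7e427a7073eeb0a658a8da152d4e957e5ffae8b3e518a]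
  ab := nat_lit 0x1000000000000000
  ia := nat_lit 0x2000
  ib := nat_lit 0x2002002002002002002002002002002002002002002002002002002002002002002002002002002002002002002002002002002002002002002002002002002002002002002002002002002002002002002002002002002002002002000002
  ent := pget (nat_lit 0x4041c008000) (nat_lit 14) (nat_lit 0x3fff)
  key := j3s2L2_key
  ks := j3s2L2_kt
  loc := locB j3s2L2_key j3s2L2_kt j3s2L2_bt (nat_lit 25)

noncomputable def j3s2L2_fix : ℕ → Bool := fixT a2_18.mul j31_fix (nat_lit 0x773f3b8a8ab3895891ed6ee6f66af88d6912578d3f92cadb6d6db65472ff3866ca17614f9e6dde76e) (nat_lit 0x7b75f9bbebf775abbb7a66b9775a690d75c207f743abbac2bd605abb90999c18c7d523af3a298945d)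

noncomputable def j3s2L3_g : List ℕ := []
noncomputable def j3s2L3_ls : List Lv := []
noncomputable def j3s2L2_ls : List Lv := j3s2L2.lv a2_18.mul a2_18.one :: j3s2L3_ls
noncomputable def j3s2L1_ls : List Lv := j3s2L1.lv a2_18.mul a2_18.one :: j3s2L2_ls
noncomputable def j3s2_aux : List ℕ := [nat_lit 0x67aa77957d30d2c82c2fce86a25153e4fca7a77dd7bae217084f81dd8f2ed2897c35fa0b15a84fd53, nat_lit 0x23bd849ad47d3f3acaa0bed41a66161f4f4e020e004246820f5042739d389ece941a5f0da178d4f92, nat_lit 0x1d93cedcab5579bff9ec1ae60d6a044d433262d1f46cea88815110261f474ebf48feb12adfcb2ea18, nat_lit 0xb7335b88bfddeeaee6a436570b70a23c144a2438c70927bfdb9aad5f95fe9fe1dbc8eda105ddc3eee, nat_lit 0xfc3faa0a96ffe76aa729ecc5e620a2c81461606af435661c5b4e3d07f803a90e5cca7e2115f60feb4, nat_lit 0x476173b4f1ef84e69362ba34594bdbe5ada76f5ef6be6ea59657df3eb14a58f4fd4f2af251963cdf4, nat_lit 0xde302e4839a4c9d72d2992c5dca7f557abfd7fdefaae5bfebdaa526f247687ca97215f832d8086d0,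 nat_lit 0xeee76667bbd8cdad228690135c0570bbf819f8e72927886fb136986e19364dcffa9aa95db4939b1c9, nat_lit 0x9d461ef3413234c84b8b5d11bec59ea7de57de426e70733fac8a9681a550d7f3017480fb34664b377, nat_lit 0xcf5022bc478e73927d8b4ad1b176083b4103acd4962f295c85fe11323cc84ad941edf0e73dcf8ae2, nat_lit 0xace1d624ef76f6bb6bc49c231e066f6f76b6416bb0f599f391e89c4926b1c7553b2bc985877493bb1, nat_lit 0x97ef9fa6992331c4887f18fa8d212dd4c6ef79c2f9e06ad9956ddf17accf962d27a2c794718ab8d15, nat_lit 0x773f3b8a8ab3895891ed6ee6f66af88d6912578d3f92cadb6d6db65472ff3866ca17614f9e6dde76e, nat_lit 0x7b75f9bbebf775abbb7a66b9775a690d75c207f743abbac2bd605abb90999c18c7d523af3a298945d]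
noncomputable def j3s3_gl : List ℕ := [nat_lit 0x66f33768858cb7d21b2053443cb716b38f589347dcb3a05ca03e14bad8196d0f60beb41ac21c604e3, nat_lit 0x3becc9a62325e487e7a6db576dbe16624f74ad43d6f0a53123c8c453867c9376a6fb5769f92c69c63, nat_lit 0x90d99c2dd4b29b185d05cf03e281030cc08292341c4b072b37858be204644334265b077dc7d863ad3, nat_lit 0x4ca672177ad0996c1de0fe642a7c53563cbf3f934a9cb518ebcd25feb06a5832790079c0d6612f74c, nat_lit 0x180dcd02ef5126bcc7ef36268b467ffb7aa92e1f464eb5ff6beab5ddf0aee81bcf49a2b1f78b2b918]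
noncomputable def j3s3_fg : List ℕ := [nat_lit 0xb4cbdb21aa273d478a0e284245356c53f63ccd3962c9fe56127f4c47b4739b305f983e9da0de542e7]
noncomputable def j3s3_J : List Job := [.as (nat_lit 0x4) (nat_lit 0x8) (nat_lit 0x4) (nat_lit 0x1000100000),
  .as (nat_lit 0x1) (nat_lit 0x2) (nat_lit 0x1) (nat_lit 0x200010000),
  .as (nat_lit 0x200) (nat_lit 0x100) (nat_lit 0x4) (nat_lit 0x6000000000),
  .as (nat_lit 0x100) (nat_lit 0x4) (nat_lit 0x8) (nat_lit 0x803000000000),
  .as (nat_lit 0x20) (nat_lit 0x10) (nat_lit 0x4) (nat_lit 0x8060000000006),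
  .as (nat_lit 0x10) (nat_lit 0x4) (nat_lit 0x8) (nat_lit 0x1013001000003),
  .as (nat_lit 0x20) (nat_lit 0x10) (nat_lit 0x1) (nat_lit 0x86000006),
  .as (nat_lit 0x10) (nat_lit 0x1) (nat_lit 0x2) (nat_lit 0x620011030003),
  .as (nat_lit 0x8) (nat_lit 0x4) (nat_lit 0x1) (nat_lit 0x8048106018003),
  .as (nat_lit 0x10) (nat_lit 0x4) (nat_lit 0x1) (nat_lit 0x880108800000),
  .fu (nat_lit 0) [nat_lit 0, nat_lit 0, nat_lit 0] [nat_lit 1] (nat_lit 0x167306080600810),
  .fu (nat_lit 0) [nat_lit 2, nat_lit 3] [nat_lit 3, nat_lit 2, nat_lit 4] (nat_lit 0x100008508808500004),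
  .fu (nat_lit 0) [nat_lit 2, nat_lit 0] [nat_lit 0, nat_lit 2, nat_lit 1, nat_lit 4] (nat_lit 0x100108238012000008),
  .fu (nat_lit 0) [nat_lit 3, nat_lit 3, nat_lit 3] [nat_lit 1, nat_lit 4, nat_lit 4] (nat_lit 0x260105671603588888)]
noncomputable def j3s3_l1 : List ℕ := [nat_lit 0x0, nat_lit 0x1000000000000000, nat_lit 0x2211011122000112, nat_lit 0x22111210120, nat_lit 0x1202101101010210, nat_lit 0x1202121100220110, nat_lit 0x222200000, nat_lit 0x20000000, nat_lit 0x1202101101010110, nat_lit 0x2101212200110200, nat_lit 0x112200000, nat_lit 0x20000, nat_lit 0x200000]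
noncomputable def j3s3 : SchD where
  P := ⟨nat_lit 3, nat_lit 2, nat_lit 5, nat_lit 13, nat_lit 4, nat_lit 15, (pget (nat_lit 0xc402d00a40250080000007101840510100000000003440050000000000001402050000000000000002401) (nat_lit 14) (nat_lit 0x3fff))⟩
  m1 := nat_lit 13
  nf := nat_lit 5
  rv := (pget (nat_lit 0x18bdab49460f61800) (nat_lit 5) (nat_lit 0x1f))
  dk := (pget (nat_lit 0xb51739) (nat_lit 5) (nat_lit 0x1f))
  gl := j3s3_gl
  fg := j3s3_fg
  fa := (pget (nat_lit 0x0) (nat_lit 1) (nat_lit 0x1))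
  fr := (pget (nat_lit 0x1000101090001) (nat_lit 10) (nat_lit 0x3ff))
  fs := (pget (nat_lit 0x1804252050244) (nat_lit 10) (nat_lit 0x3ff))
  a := nat_lit 1
  es := [nat_lit 1]
  F := nat_lit 198
  c := nat_lit 4
  J := j3s3_J
  l1 := lget j3s3_l1
  l2 := fun e => Bool.rec (motive := fun _ => ℕ) ((fun _ => nat_lit 0) e) (nat_lit 0x303636600331600) (Nat.beq e (nat_lit 1))

noncomputable def j3s3L1_g : List ℕ := [nat_lit 0x66f33768858cb7d21b2053443cb716b38f589347dcb3a05ca03e14bad8196d0f60beb41ac21c604e3, nat_lit 0x3becc9a62325e487e7a6db576dbe16624f74ad43d6f0a53123c8c453867c9376a6fb5769f92c69c63]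
noncomputable def j3s3L1_key : ℕ → ℕ := keyT a2_18.mul j31_key (nat_lit 0xeee76667bd9372dcb8a90dd5c2ebd8cdad22ffa9aa95da49e171e4cbe021a406c7276387cb5d21bec) (nat_lit 69807605)
noncomputable def j3s3L1_kt : ℕ → ℕ := pget (nat_lit 0x1da1831faf787573f8d7ae5d92cdc63e603502045e2766d7bda6cd37667ddeda8c34d3bea46984e58f2c7f3fe50eb86b9f089c7197a3edc749d9a874adaf959435cd46a080ba168c22ce197566ff2510e94421cfb01f9b3c8000000) (nat_lit 27) (nat_lit 0x7ffffff)
noncomputable def j3s3L1_bt : ℕ → ℕ := pget (nat_lit 0xb520d49840) (nat_lit 5) (nat_lit 0x1f)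
noncomputable def j3s3L1 : LvD where
  n := nat_lit 27
  g := j3s3L1_g
  T := [nat_lit 0x66f33768858cb7d21b2053443cb716b38f589347dcb3a05ca03e14bad8196d0f60beb41ac21c604e3, nat_lit 0x3becc9a62325e487e7a6db576dbe16624f74ad43d6f0a53123c8c453867c9376a6fb5769f92c69c63, nat_lit 0x543bbf0998813510cbffb56a9bf04e8432530f9b829d95e7e7e7a7cf52a2bc5d474af3b19bebdda5a, nat_lit 0x89cd51e2f4c697235fd11deccee48387109397f5dfabea3865493749bb31d98fabba9599f6e42b670, nat_lit 0xf3896891fb9c519e3ce03b24098837a90b955fd43eaf04e0cf242222ea4465755613ff4c3c41ca30e, nat_lit 0x9dab9ed59378ecb926faf96969f2c05c603edb41edb0eed84e6d32e7a327948bcf91a29c6e14f64f2, nat_lit 0x9f9fde9ea210b44c1b64b4b71b1290d05c2c6f0bb68196419b70dda2459473d4f7c72ba38db512dbc, nat_lit 0x9bf41dab5abe7d5a78c42923056bd6f5af677cb3ba18be329a4855b0d7d82f26690775c7c4efa326, nat_lit 0xe435a70bdc433e308ae757a7bf904644337309bf41dab76ddbb6ed8e93925c95c687e353bfba5a997, nat_lit 0x800010000200004000080001000020000400008000100002000040000800010000200004000080001,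 nat_lit 0x10500c3c09310dc8c26582b7d05cf5162bcf1d174ecfbb830d90825011bc0cd800cd002266293745c, nat_lit 0x2d2ec6c66f8dca92e10d60c2f421dc08ee01cb0021800f3dca8ae100c18020d0b4cc1b221bd90dadc, nat_lit 0x8456d33f6d6e9af65d799d79defd874ad3b1a4e91725c8409d301e9b32dd8866fc736a389d505efc3, nat_lit 0x880a51017c4aba3159e4ad2716c4f93f29ca5198bcdd17187b8d39d9a66dd77c413e30ca7d583afd0, nat_lit 0x97f5dfabe08dc412e3bd0b5ac1b01fcc0ea22aa8c55522bcbc5a1aa4bc971a19d191ecdce1ad24d6c]
  ab := nat_lit 0x700b00a001007007004008002000004000004004006006005005001001003003002002000000000000000000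
  ia := nat_lit 0xd00500a002007001004000
  ib := nat_lit 0x400400400400400400400400400400400400400400400400400400400400400400400400400400400400400400400400400400400400400400400400400400400400400400400400400400400400400400400400e00c00b008001007000004
  ent := pget (nat_lit 0x4108e10811820060bc2088086c0c2b8015c309810401810000e830c4306004180c15030e23067184b021b060ac306f0c29841bc60801020000) (nat_lit 17) (nat_lit 0x1ffff)
  key := j3s3L1_key
  ks := j3s3L1_kt
  loc := locB j3s3L1_key j3s3L1_kt j3s3L1_bt (nat_lit 24)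

noncomputable def j3s3L1_fix : ℕ → Bool := fixT a2_18.mul j31_fix (nat_lit 0xeee76667bd9372dcb8a90dd5c2ebd8cdad22ffa9aa95da49e171e4cbe021a406c7276387cb5d21bec) (nat_lit 0x5a677d77bb96219f446979b5f9dbf445ab3342a7f057a90b9dc19ef5906bdc35ce2fe246c58323d08)

noncomputable def j3s3L2_g : List ℕ := [nat_lit 0x10500c3c09310dc8c26582b7d05cf5162bcf1d174ecfbb830d90825011bc0cd800cd002266293745c, nat_lit 0xbb5999bdd676df7b6e66afb7569ae03164085724ff8726cde362e46fc736a38942c1f0605612ff4c6]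
noncomputable def j3s3L2_key : ℕ → ℕ := keyT a2_18.mul j31_key (nat_lit 0x292645c776790b79c1f6a82b5505bd9fdadef0a0e8142329f885e99b349d8b1f8ae291645d9e7ede7) (nat_lit 30006797)
noncomputable def j3s3L2_kt : ℕ → ℕ := pget (nat_lit 0x7a34bcae191fc972b55e657b6ca43888216cec25819b430401bb430000000) (nat_lit 27) (nat_lit 0x7ffffff)
noncomputable def j3s3L2_bt : ℕ → ℕ := pget (nat_lit 0xf18) (nat_lit 3) (nat_lit 0x7)
noncomputable def j3s3L2 : LvD where
  n := nat_lit 9
  g := j3s3L2_g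
  T := [nat_lit 0x10500c3c09310dc8c26582b7d05cf5162bcf1d174ecfbb830d90825011bc0cd800cd002266293745c, nat_lit 0xbb5999bdd676df7b6e66afb7569ae03164085724ff8726cde362e46fc736a38942c1f0605612ff4c6, nat_lit 0x2d2ec6c66f8dca92e10d60c2f421dc08ee01cb0021800f3dca8ae100c18020d0b4cc1b221bd90dadc, nat_lit 0xf0292805cdb712db8c4256f07f621f684eb58f04d2832ea8b25518d6ec2f660614f74f2b2cc3c620a, nat_lit 0xd201ec40e70db782dbb63d1b4ac820d9042dc800e100203820090442217044fe3b4e49b21b16cd8f6, nat_lit 0xbefeda6a66aebf565abdd7daefa5a44bd731f814290f0e8b2e518694dd1f2ecf524abc7198405d303, nat_lit 0x800010000200004000080001000020000400008000100002000040000800010000200004000080001, nat_lit 0x630274807906d9c36ddb162d8f4c306e08364c007200301c300e0883329088571d878ed32d2b46c5b, nat_lit 0xe5cb27e18bc019a00d0840413034537f3cba3011080cc2c07860391f028e805ba18594d3e1cbe4e1a, nat_lit 0xddaeeed66b9b659db7bbf5d9abef7012b80ca93855c93b4671b378b5491bf1ce834250b0ab235584b,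 nat_lit 0x69a9b5d5dd596afdf56bbeb59a5f5cc6be23a43c170a094619f34d7cbb3a198af1c568e374c0fb202, nat_lit 0x5c973e1f8722eb8465206c443631b6b0db583d274ac7b9d081ec108fe512a7cfa11694cf06434370b]
  ab := nat_lit 0x9007007008008005000002001002000004004003003001001000000000000000000
  ia := nat_lit 0xb009008007005001002000
  ib := nat_lit 0x200200200200200200200200200200200200200200200200200200200200200200200200200200200200200200200200200200200200200200200200200200200200200200200200200200200200200200200200300a007008001005000002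
  ent := pget (nat_lit 0x8100020504060f142008207040808000) (nat_lit 15) (nat_lit 0x7fff)
  key := j3s3L2_key
  ks := j3s3L2_kt
  loc := locB j3s3L2_key j3s3L2_kt j3s3L2_bt (nat_lit 25)

noncomputable def j3s3L2_fix : ℕ → Bool := fixT a2_18.mul j31_fix (nat_lit 0x292645c776790b79c1f6a82b5505bd9fdadef0a0e8142329f885e99b349d8b1f8ae291645d9e7ede7) (nat_lit 0x2ec7866395efbbe6996905f5c3eb71c9b8e117514fbcf666db776d853bd3c9a42317048f93d49caf1)

noncomputable def j3s3L3_g : List ℕ := []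
noncomputable def j3s3L3_ls : List Lv := []
noncomputable def j3s3L2_ls : List Lv := j3s3L2.lv a2_18.mul a2_18.one :: j3s3L3_ls
noncomputable def j3s3L1_ls : List Lv := j3s3L1.lv a2_18.mul a2_18.one :: j3s3L2_ls
noncomputable def j3s3_aux : List ℕ := [nat_lit 0x66f33768858cb7d21b2053443cb716b38f589347dcb3a05ca03e14bad8196d0f60beb41ac21c604e3, nat_lit 0x3becc9a62325e487e7a6db576dbe16624f74ad43d6f0a53123c8c453867c9376a6fb5769f92c69c63, nat_lit 0x90d99c2dd4b29b185d05cf03e281030cc08292341c4b072b37858be204644334265b077dc7d863ad3, nat_lit 0x4ca672177ad0996c1de0fe642a7c53563cbf3f934a9cb518ebcd25feb06a5832790079c0d6612f74c, nat_lit 0x180dcd02ef5126bcc7ef36268b467ffb7aa92e1f464eb5ff6beab5ddf0aee81bcf49a2b1f78b2b918, nat_lit 0xb4cbdb21aa273d478a0e284245356c53f63ccd3962c9fe56127f4c47b4739b305f983e9da0de542e7, nat_lit 0xeee76667bd9372dcb8a90dd5c2ebd8cdad22ffa9aa95da49e171e4cbe021a406c7276387cb5d21bec, nat_lit 0x5a677d77bb96219f446979b5f9dbf445ab3342a7f057a90b9dc19ef5906bdc35ce2fe246c58323d08,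 nat_lit 0x292645c776790b79c1f6a82b5505bd9fdadef0a0e8142329f885e99b349d8b1f8ae291645d9e7ede7, nat_lit 0x2ec7866395efbbe6996905f5c3eb71c9b8e117514fbcf666db776d853bd3c9a42317048f93d49caf1]
theorem j3s2_sh : j3s2.shapeOK = true := by decide +kernel
theorem j3s2_fin : j3s2.finOK = true := by decide +kernel
theorem j3s2_rel_0 : allR (j3s2.relOK a2_18.mul (eqbQ a2_18.mul Nat.beq a2_18.one j3zs) a2_18.one) (nat_lit 0) (nat_lit 7) = true := by decide +kernel
theorem j3s2_rel : ∀ j < nat_lit 7, (j3s2.relOK a2_18.mul (eqbQ a2_18.mul Nat.beq a2_18.one j3zs) a2_18.one) j = true :=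
  (allR_step (c := nat_lit 7) (fun _ h => absurd h (Nat.not_lt_zero _)) j3s2_rel_0 (by decide))

theorem j3s2_fus_0 : allR (j3s2.fusOK a2_18.mul (eqbQ a2_18.mul Nat.beq a2_18.one j3zs) a2_18.one) (nat_lit 0) (nat_lit 8) = true := by decide +kernel
theorem j3s2_fus : ∀ j < nat_lit 8, (j3s2.fusOK a2_18.mul (eqbQ a2_18.mul Nat.beq a2_18.one j3zs) a2_18.one) j = true :=
  (allR_step (c := nat_lit 8) (fun _ h => absurd h (Nat.not_lt_zero _)) j3s2_fus_0 (by decide))

theorem j3s2_job_0 : allR j3s2.jobOK (nat_lit 0) (nat_lit 26) = true := by decide +kernel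
theorem j3s2_job : ∀ j < nat_lit 26, j3s2.jobOK j = true :=
  (allR_step (c := nat_lit 26) (fun _ h => absurd h (Nat.not_lt_zero _)) j3s2_job_0 (by decide))

theorem j3s2L1_ok : j3s2L1.ok a2_18.mul (eqbQ a2_18.mul Nat.beq a2_18.one j3zs) a2_18.one = true := by decide +kernel
theorem j3s2L1_next : j3s2L1.nextOK a2_18.mul a2_18.one j3s2L2_g (nat_lit 0x1b000004000007) = true := by decide +kernel
theorem j3s2L1_fx : allL j3s2L1_fix j3s2L2_g = true := by decide +kernel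
theorem j3s2L1_k_0 : allR (kchk j3s2L1_key (j3s2L1.lv a2_18.mul a2_18.one).U j3s2L1_kt (nat_lit 32)) (nat_lit 0) (nat_lit 32) = true := by decide +kernel
theorem j3s2L1_k : ∀ j < nat_lit 32, (kchk j3s2L1_key (j3s2L1.lv a2_18.mul a2_18.one).U j3s2L1_kt (nat_lit 32)) j = true :=
  (allR_step (c := nat_lit 32) (fun _ h => absurd h (Nat.not_lt_zero _)) j3s2L1_k_0 (by decide))

theorem j3s2L2_ok : j3s2L2.ok a2_18.mul (eqbQ a2_18.mul Nat.beq a2_18.one j3zs) a2_18.one = true := by decide +kernel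
theorem j3s2L2_next : j3s2L2.nextOK a2_18.mul a2_18.one j3s2L3_g (nat_lit 0x0) = true := by decide +kernel
theorem j3s2L2_fx : allL j3s2L2_fix j3s2L3_g = true := by decide +kernel
theorem j3s2L2_k_0 : allR (kchk j3s2L2_key (j3s2L2.lv a2_18.mul a2_18.one).U j3s2L2_kt (nat_lit 4)) (nat_lit 0) (nat_lit 4) = true := by decide +kernel
theorem j3s2L2_k : ∀ j < nat_lit 4, (kchk j3s2L2_key (j3s2L2.lv a2_18.mul a2_18.one).U j3s2L2_kt (nat_lit 4)) j = true :=
  (allR_step (c := nat_lit 4) (fun _ h => absurd h (Nat.not_lt_zero _)) j3s2L2_k_0 (by decide))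

theorem j3s2_auxok : eltsOK a2_18.mul a2_18.one j31_ls j3s2_aux [nat_lit 0x51adc0, nat_lit 0x1e0c526, nat_lit 0xc41c9e, nat_lit 0xf72ef7, nat_lit 0x2bbabb2, nat_lit 0x2761933, nat_lit 0x107c5d1, nat_lit 0x2b763f7, nat_lit 0x2a5195b, nat_lit 0x1282365, nat_lit 0x4155, nat_lit 0xe39518, nat_lit 0xa00, nat_lit 0x38d38c] = true := by decide +kernel
theorem j3s3_sh : j3s3.shapeOK = true := by decide +kernel
theorem j3s3_fin : j3s3.finOK = true := by decide +kernel
theorem j3s3_rel_0 : allR (j3s3.relOK a2_18.mul (eqbQ a2_18.mul Nat.beq a2_18.one j3zs) a2_18.one) (nat_lit 0) (nat_lit 5) = true := by decide +kernel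
theorem j3s3_rel : ∀ j < nat_lit 5, (j3s3.relOK a2_18.mul (eqbQ a2_18.mul Nat.beq a2_18.one j3zs) a2_18.one) j = true :=
  (allR_step (c := nat_lit 5) (fun _ h => absurd h (Nat.not_lt_zero _)) j3s3_rel_0 (by decide))

theorem j3s3_fus_0 : allR (j3s3.fusOK a2_18.mul (eqbQ a2_18.mul Nat.beq a2_18.one j3zs) a2_18.one) (nat_lit 0) (nat_lit 5) = true := by decide +kernel
theorem j3s3_fus : ∀ j < nat_lit 5, (j3s3.fusOK a2_18.mul (eqbQ a2_18.mul Nat.beq a2_18.one j3zs) a2_18.one) j = true :=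
  (allR_step (c := nat_lit 5) (fun _ h => absurd h (Nat.not_lt_zero _)) j3s3_fus_0 (by decide))

theorem j3s3_job_0 : allR j3s3.jobOK (nat_lit 0) (nat_lit 14) = true := by decide +kernel
theorem j3s3_job : ∀ j < nat_lit 14, j3s3.jobOK j = true :=
  (allR_step (c := nat_lit 14) (fun _ h => absurd h (Nat.not_lt_zero _)) j3s3_job_0 (by decide))

theorem j3s3L1_ok : j3s3L1.ok a2_18.mul (eqbQ a2_18.mul Nat.beq a2_18.one j3zs) a2_18.one = true := by decide +kernel
theorem j3s3L1_next : j3s3L1.nextOK a2_18.mul a2_18.one j3s3L2_g (nat_lit 0x1a00000400001100000300000a000003) = true := by decide +kernel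
theorem j3s3L1_fx : allL j3s3L1_fix j3s3L2_g = true := by decide +kernel
theorem j3s3L1_k_0 : allR (kchk j3s3L1_key (j3s3L1.lv a2_18.mul a2_18.one).U j3s3L1_kt (nat_lit 27)) (nat_lit 0) (nat_lit 27) = true := by decide +kernel
theorem j3s3L1_k : ∀ j < nat_lit 27, (kchk j3s3L1_key (j3s3L1.lv a2_18.mul a2_18.one).U j3s3L1_kt (nat_lit 27)) j = true :=
  (allR_step (c := nat_lit 27) (fun _ h => absurd h (Nat.not_lt_zero _)) j3s3L1_k_0 (by decide))

theorem j3s3L2_ok : j3s3L2.ok a2_18.mul (eqbQ a2_18.mul Nat.beq a2_18.one j3zs) a2_18.one = true := by decide +kernel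
theorem j3s3L2_next : j3s3L2.nextOK a2_18.mul a2_18.one j3s3L3_g (nat_lit 0x0) = true := by decide +kernel
theorem j3s3L2_fx : allL j3s3L2_fix j3s3L3_g = true := by decide +kernel
theorem j3s3L2_k_0 : allR (kchk j3s3L2_key (j3s3L2.lv a2_18.mul a2_18.one).U j3s3L2_kt (nat_lit 9)) (nat_lit 0) (nat_lit 9) = true := by decide +kernel
theorem j3s3L2_k : ∀ j < nat_lit 9, (kchk j3s3L2_key (j3s3L2.lv a2_18.mul a2_18.one).U j3s3L2_kt (nat_lit 9)) j = true :=
  (allR_step (c := nat_lit 9) (fun _ h => absurd h (Nat.not_lt_zero _)) j3s3L2_k_0 (by decide))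

theorem j3s3_auxok : eltsOK a2_18.mul a2_18.one j31_ls j3s3_aux [nat_lit 0x2da7cca, nat_lit 0x1f36992, nat_lit 0x15927bc, nat_lit 0x2649720, nat_lit 0x19ad431, nat_lit 0x1481e02, nat_lit 0x279e, nat_lit 0x2988895, nat_lit 0x10f5, nat_lit 0xf57d6a] = true := by decide +kernel
theorem j3s2_sbd {G : Type*} [Group G] (M : Model G) (h1 : M.mul = a2_18.mul) (h2 : M.eqb = (eqbQ a2_18.mul Nat.beq a2_18.one j3zs))
    (h3 : M.one = a2_18.one) (vv : Valid M j31_ls) {St : Subgroup G} (k1 : Key M St j31_key j31_fix) [Finite G]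
    (hN : Nat.card G = 50232960) : SBd 2 0 G := by
  obtain ⟨R, one, mul, eqb, a1, a2, a3⟩ := M
  dsimp only at h1 h2 h3
  subst h1 h2 h3
  set M : Model G := ⟨R, a2_18.one, a2_18.mul, (eqbQ a2_18.mul Nat.beq a2_18.one j3zs), a1, a2, a3⟩ with hM
  have va := Valid.elts (M := M) vv j3s2_auxok
  obtain ⟨tj3s2L1, hTj3s2L1⟩ := exists_R va (c := (nat_lit 0xace1d624ef76f6bb6bc49c231e066f6f76b6416bb0f599f391e89c4926b1c7553b2bc985877493bb1)) (by (try dsimp only [M]); decide +kernel)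
  have kj3s2L1 : Key M (cjS St tj3s2L1) j3s2L1_key j3s2L1_fix := k1.keyT hTj3s2L1 (R_inv_of hTj3s2L1 (exists_R va (c := (nat_lit 0x97ef9fa6992331c4887f18fa8d212dd4c6ef79c2f9e06ad9956ddf17accf962d27a2c794718ab8d15)) (by (try dsimp only [M]); decide +kernel)) (by (try dsimp only [M]); decide +kernel)) _
  obtain ⟨tj3s2L2, hTj3s2L2⟩ := exists_R va (c := (nat_lit 0x773f3b8a8ab3895891ed6ee6f66af88d6912578d3f92cadb6d6db65472ff3866ca17614f9e6dde76e)) (by (try dsimp only [M]); decide +kernel)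
  have kj3s2L2 : Key M (cjS St tj3s2L2) j3s2L2_key j3s2L2_fix := k1.keyT hTj3s2L2 (R_inv_of hTj3s2L2 (exists_R va (c := (nat_lit 0x7b75f9bbebf775abbb7a66b9775a690d75c207f743abbac2bd605abb90999c18c7d523af3a298945d)) (by (try dsimp only [M]); decide +kernel)) (by (try dsimp only [M]); decide +kernel)) _
  have gj3s2L1 : ∀ c ∈ j3s2L1_g, M.In ⊤ c := valid_sub va (by (try dsimp only [M]); decide +kernel)
  have gj3s2L2 := LvD.valid_next (D := j3s2L1) gj3s2L1 j3s2L1_ok j3s2L1_next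
  have lj3s2L1 := LvD.le_next (D := j3s2L1) gj3s2L1 j3s2L1_ok j3s2L1_next
  have gj3s2L3 := LvD.valid_next (D := j3s2L2) gj3s2L2 j3s2L2_ok j3s2L2_next
  have lj3s2L2 := LvD.le_next (D := j3s2L2) gj3s2L2 j3s2L2_ok j3s2L2_next
  have cj3s2L3 : 1 ≤ Nat.card (M.cl j3s2L3_g) := Nat.card_pos
  have cj3s2L2 : 4 ≤ Nat.card (M.cl j3s2L2_g) := le_trans (by (try dsimp only [M]); decide +kernel) (LvD.lower (D := j3s2L2) gj3s2L2 j3s2L2_ok cj3s2L3 lj3s2L2 kj3s2L2 j3s2L2_fx j3s2L2_k)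
  have cj3s2L1 : 128 ≤ Nat.card (M.cl j3s2L1_g) := le_trans (by (try dsimp only [M]); decide +kernel) (LvD.lower (D := j3s2L1) gj3s2L1 j3s2L1_ok cj3s2L2 lj3s2L1 kj3s2L1 j3s2L1_fx j3s2L1_k)
  exact SchD.sbd M j3s2 (n := 7) (by norm_num) hN (valid_sub va (by (try dsimp only [M]); decide +kernel)) (valid_sub va (by (try dsimp only [M]); decide +kernel))
    (le_trans (by norm_num) (cj3s2L1.trans (Subgroup.card_le_of_le (Model.cl_mono (subL_spec (by (try dsimp only [M]); decide +kernel))))))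
    (by decide +kernel) j3s2_sh j3s2_rel j3s2_fus j3s2_job j3s2_fin

theorem j3s3_sbd {G : Type*} [Group G] (M : Model G) (h1 : M.mul = a2_18.mul) (h2 : M.eqb = (eqbQ a2_18.mul Nat.beq a2_18.one j3zs))
    (h3 : M.one = a2_18.one) (vv : Valid M j31_ls) {St : Subgroup G} (k1 : Key M St j31_key j31_fix) [Finite G]
    (hN : Nat.card G = 50232960) : SBd 3 1 G := by
  obtain ⟨R, one, mul, eqb, a1, a2, a3⟩ := M
  dsimp only at h1 h2 h3
  subst h1 h2 h3
  set M : Model G := ⟨R, a2_18.one, a2_18.mul, (eqbQ a2_18.mul Nat.beq a2_18.one j3zs), a1, a2, a3⟩ with hM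
  have va := Valid.elts (M := M) vv j3s3_auxok
  obtain ⟨tj3s3L1, hTj3s3L1⟩ := exists_R va (c := (nat_lit 0xeee76667bd9372dcb8a90dd5c2ebd8cdad22ffa9aa95da49e171e4cbe021a406c7276387cb5d21bec)) (by (try dsimp only [M]); decide +kernel)
  have kj3s3L1 : Key M (cjS St tj3s3L1) j3s3L1_key j3s3L1_fix := k1.keyT hTj3s3L1 (R_inv_of hTj3s3L1 (exists_R va (c := (nat_lit 0x5a677d77bb96219f446979b5f9dbf445ab3342a7f057a90b9dc19ef5906bdc35ce2fe246c58323d08)) (by (try dsimp only [M]); decide +kernel)) (by (try dsimp only [M]); decide +kernel)) _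
  obtain ⟨tj3s3L2, hTj3s3L2⟩ := exists_R va (c := (nat_lit 0x292645c776790b79c1f6a82b5505bd9fdadef0a0e8142329f885e99b349d8b1f8ae291645d9e7ede7)) (by (try dsimp only [M]); decide +kernel)
  have kj3s3L2 : Key M (cjS St tj3s3L2) j3s3L2_key j3s3L2_fix := k1.keyT hTj3s3L2 (R_inv_of hTj3s3L2 (exists_R va (c := (nat_lit 0x2ec7866395efbbe6996905f5c3eb71c9b8e117514fbcf666db776d853bd3c9a42317048f93d49caf1)) (by (try dsimp only [M]); decide +kernel)) (by (try dsimp only [M]); decide +kernel)) _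
  have gj3s3L1 : ∀ c ∈ j3s3L1_g, M.In ⊤ c := valid_sub va (by (try dsimp only [M]); decide +kernel)
  have gj3s3L2 := LvD.valid_next (D := j3s3L1) gj3s3L1 j3s3L1_ok j3s3L1_next
  have lj3s3L1 := LvD.le_next (D := j3s3L1) gj3s3L1 j3s3L1_ok j3s3L1_next
  have gj3s3L3 := LvD.valid_next (D := j3s3L2) gj3s3L2 j3s3L2_ok j3s3L2_next
  have lj3s3L2 := LvD.le_next (D := j3s3L2) gj3s3L2 j3s3L2_ok j3s3L2_next
  have cj3s3L3 : 1 ≤ Nat.card (M.cl j3s3L3_g) := Nat.card_pos
  have cj3s3L2 : 9 ≤ Nat.card (M.cl j3s3L2_g) := le_trans (by (try dsimp only [M]); decide +kernel) (LvD.lower (D := j3s3L2) gj3s3L2 j3s3L2_ok cj3s3L3 lj3s3L2 kj3s3L2 j3s3L2_fx j3s3L2_k)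
  have cj3s3L1 : 243 ≤ Nat.card (M.cl j3s3L1_g) := le_trans (by (try dsimp only [M]); decide +kernel) (LvD.lower (D := j3s3L1) gj3s3L1 j3s3L1_ok cj3s3L2 lj3s3L1 kj3s3L1 j3s3L1_fx j3s3L1_k)
  exact SchD.sbd M j3s3 (n := 5) (by norm_num) hN (valid_sub va (by (try dsimp only [M]); decide +kernel)) (valid_sub va (by (try dsimp only [M]); decide +kernel))
    (le_trans (by norm_num) (cj3s3L1.trans (Subgroup.card_le_of_le (Model.cl_mono (subL_spec (by (try dsimp only [M]); decide +kernel))))))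
    (by decide +kernel) j3s3_sh j3s3_rel j3s3_fus j3s3_job j3s3_fin

theorem j3_s1 : slpR a2_18.mul a2_18.one (subL [nat_lit 0xff362a8b4545b3f3d872aa385540be201a44096801f507280b8501117fccfaac3d560aff080a01014, nat_lit 0x498af1d1615670ff786bbbf599a6893b51c95c1d7e0ef8d5912fdcedd066ec36b28758533d854ad3f]) (nat_lit 2) (nat_lit 0x1000000) j31_g = true := by decide +kernel
theorem j3_s2 : slpR a2_18.mul a2_18.one (subL [nat_lit 0xc000200003000080000c000200003000080000c000200003000080000c000200003000080000c0002]) (nat_lit 12) (nat_lit 0x5000003000000000000000000000000006000004000003000003000002000001001) [nat_lit 0xff362a8b4545b3f3d872aa385540be201a44096801f507280b8501117fccfaac3d560aff080a01014, nat_lit 0x498af1d1615670ff786bbbf599a6893b51c95c1d7e0ef8d5912fdcedd066ec36b28758533d854ad3f] = true := by decide +kernel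

theorem j3_schur {F : Type*} [Field F] [Fintype F] (hF : Fintype.card F = 4) {ω : F} (hω : ω ^ 2 + ω + 1 = 0) :
    Cfsg.HasCyclicSchurMultiplier (Cfsg.Spor.J3 F ω) 3 := by
  obtain ⟨φ, h⟩ := exists_four hF hω
  obtain ⟨hf, hc, z, -, ho, h3, h1, h2⟩ := h.center
  obtain ⟨St, k, vv, -, -, _, c, s, -⟩ := h.quot _ (QuotientGroup.mk'_surjective _) h1 h2
  have hk := (QuotientGroup.ker_mk' _).trans h3
  have hv : ∀ c ∈ j31_g, (j3M ω φ).In ⊤ c :=
    in_of_slpL' (valid_sub h.valid (band_iff.1 j3_slp).1) (band_iff.1 j3_slp).2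
  refine (hasCov_of_model (j3M ω φ) (QuotientGroup.mk'_surjective _) (perfect_of_simple c (by norm_num)) hk
    (h3 ▸ Subgroup.mem_zpowers z) ho (ms := [17, 4]) (ps := [3])
    (in_of_slpR (M := j3M ω φ) _ (in_cl_self (in_of_slpR _ hv j3_s1)) j3_s2 _ List.mem_cons_self)
    (h1 _ (by decide +kernel)) (by dsimp only [j3M_mul, j3M_eqb, j3M_one]; decide +kernel) (by dsimp only [j3M_mul, j3M_eqb, j3M_one]; decide +kernel) (by norm_num)
    (by simp [Nat.primeFactorsList_prime Nat.prime_three])).schur c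
    (ps := [2, 3, 5, 17, 19]) (l := [(2, 0), (3, 1)]) (by simp; norm_num) (by decide +kernel) ?_
  simpa using ⟨j3s2_sbd _ rfl rfl rfl vv k c, j3s3_sbd _ rfl rfl rfl vv k c⟩

end H29
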