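import Cfsg.Agent.H29.J4c1
import Cfsg.Agent.H2.Cov
import Cfsg.Agent.H7.J4p

/-! Computations with the subgroup `2^11` of `J4` and a duad involution. -/

set_option maxRecDepth 100000
set_option maxHeartbeats 400000
set_option autoImplicit false
set_option linter.style.longLine false

namespace H29.J4m
open Cfsg Cfsg.Spor H7.J4 Subgroup

section
variable {G : Type} [Group G] {M : Model G}

theorem EA.allE {L : List ℕ} (h : EA M L) {f : ℕ → Bool} {c : ℕ} {g : G} (hg : M.R c g)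
    (hn : allE M.mul f L c = true) : ∀ v ∈ M.cl L, ∃ c', M.R c' (v * g) ∧ f c' = true := by
  induction L generalizing c g with
  | nil =>
    intro v hv
    rw [cl_nil, Subgroup.mem_bot] at hv
    exact ⟨c, by rw [hv, one_mul]; exact hg, hn⟩
  | cons a L ih =>
    obtain ⟨α, h1, h2, h3⟩ := h.cons
    obtain ⟨n1, n2⟩ := band_iff.1 hn
    intro v hv
    rcases h3 v hv with k | k
    · obtain ⟨c', k1, k2⟩ := ih h.tail (M.R_mul h1 hg) n2 _ k
      exact ⟨c', M.R_congr k1 (by rw [mul_assoc, ← mul_assoc α, h2, one_mul]), k2⟩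
    · exact ih h.tail hg n1 _ k

theorem R_wv0 (s : Std M) {l : List G} (h : List.Forall₂ M.R L0 l) (w : List ℕ) : M.R (wv0 w) (H28.ev l w) := by
  induction w with
  | nil => rw [H28.ev_nil]; have := M.R_one; rw [s.2.1] at this; exact this
  | cons a w ih =>
    rw [H28.ev_cons]
    have := M.R_mul (R_getD h a) ih
    rw [s.1, s.2.1] at this
    exact this

theorem cj_spec (s : Std M) {a b : ℕ} {g : G} (ha : M.R a g⁻¹) (hb : M.R b g) (h : cj a b = true) (u : G)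
    (hu : ∃ c ∈ dL, M.R c u) : ∃ c ∈ dL, M.R c (g⁻¹ * u * g) := by
  obtain ⟨c, hc, hr⟩ := hu
  have := allL_spec h c hc
  simp only [force_eq] at this
  obtain ⟨c', h1, h2⟩ := anyL_iff.1 this
  have k := M.R_mul (M.R_mul ha hr) hb
  rw [s.1, Nat.eq_of_beq_eq_true h2] at k
  exact ⟨c', h1, k⟩

theorem nc_spec (s : Std M) {p : ℕ} {g : G} (hp : M.R p g) (h : nc p = true) (u : G)
    (hu : ∃ c ∈ dL, M.R c u) : u * g ≠ g * u := by
  obtain ⟨c, hc, hr⟩ := hu
  have := allL_spec h c hc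
  simp only [force_eq] at this
  refine M.ne_of (M.R_mul hr hp) (M.R_mul hp hr) ?_
  rw [s.1, s.2.2]
  exact nb_iff.1 this

theorem fl_spec (s : Std M) {xy c : ℕ} {a u x z : G} (ha : M.R xy a) (hu : M.R c u) (hx : M.R cx x) (hz : M.R cz z)
    (h : fl xy c = true) (h2 : u ^ 2 = 1) (h3 : (u * a) ^ 3 = 1) : u = x ∨ u = z := by
  have e2 := (M.eqb_iff (M.R_mul hu hu) M.R_one).2 (by rw [← h2, sq])
  have r := M.R_mul hu ha
  have e3 := (M.eqb_iff (M.R_mul (M.R_mul r r) r) M.R_one).2 (by rw [← h3, pow_three'])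
  rw [s.1, s.2.1, s.2.2] at e2 e3
  simp only [fl, force_eq, e2, e3, Bool.or_eq_true] at h
  rcases h with h | h
  · exact Or.inl (M.unique hu (Nat.eq_of_beq_eq_true h ▸ hx))
  · exact Or.inr (M.unique hu (Nat.eq_of_beq_eq_true h ▸ hz))

theorem compG (s : Std M) {x y t e : G} (h : List.Forall₂ M.R L1 [x, y, y⁻¹, t, e])
    (hcov : ∀ g : G, ∃ i < 20, ∃ k ∈ closure {x, y, e}, ∃ h ∈ closure {x, y, e},
      g = k * H28.ev [x, y, y⁻¹, t] (H2.Cov.WL.getD i []) * h) :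
    ∃ (E : Subgroup G) (d b : G), Nat.card E = 2 ^ 11 ∧ (∀ g ∈ E, g * g = 1) ∧ e ∈ E ∧ E ≤ closure {x, y, e} ∧
      x ∈ normalizer (E : Set G) ∧ y ∈ normalizer (E : Set G) ∧ d ∈ E ∧ d ≠ 1 ∧
      (∀ g, g⁻¹ * d * g ∈ E → g ∈ closure {x, y, e}) ∧ ¬ IsConj d e ∧ b ∈ closure {x, y} ∧ orderOf b = 11 ∧
      Commute b d ∧ IsConj d x ∧ (∃ g, orderOf (d * (g * d * g⁻¹)) = 23) ∧
      ∀ v ∈ E, (v * x) ^ 2 = 1 → (v * x * (x * y)) ^ 3 = 1 → v = 1 ∨ IsConj (v * x) e := by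
  have rx : M.R cx x := R_getD h 0
  have ry : M.R cy y := R_getD h 1
  have rY : M.R cY y⁻¹ := R_getD h 2
  have rt : M.R ct t := R_getD h 3
  have re : M.R ce e := R_getD h 4
  have h0 : List.Forall₂ M.R L0 [x, y, y⁻¹, t] := .cons rx (.cons ry (.cons rY (.cons rt .nil)))
  have hK : ∀ c ∈ [cx, cy, cY, ce], M.In (closure {x, y, e}) c := by
    have y1 : y ∈ closure {x, y, e} := subset_closure (Or.inr (Or.inl rfl))
    simp only [List.forall_mem_cons]
    exact ⟨⟨_, subset_closure (Or.inl rfl), rx⟩, ⟨_, y1, ry⟩, ⟨_, inv_mem y1, rY⟩,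
      ⟨_, subset_closure (Or.inr (Or.inr rfl)), re⟩, by simp⟩
  have hv := s.map hK eK (L' := eL) (by decide +kernel)
  have ea : EA M eL := EA.of hv (by rw [s.1, s.2.1, s.2.2]; decide +kernel) (by rw [s.1, s.2.2]; decide +kernel)
  have hc : Nat.card (M.cl eL) = 2 ^ 11 := ea.card (by rw [s.1, s.2.1, s.2.2]; decide +kernel)
  have : Finite (M.cl eL) := Nat.finite_of_card_ne_zero (by rw [hc]; positivity)
  have x2 : x * x = 1 := s.eq h (.m (.v 0) (.v 0)) (.v 9) (by decide +kernel)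
  have e2 : e * e = 1 := s.eq h (.m (.v 4) (.v 4)) (.v 9) (by decide +kernel)
  have y3 : y * y = y⁻¹ := s.eq h (.m (.v 1) (.v 1)) (.v 2) (by decide +kernel)
  have xi : x⁻¹ = x := inv_eq_of_mul_eq_one_right x2
  have ei : e⁻¹ = e := inv_eq_of_mul_eq_one_right e2
  have rX : M.R cx x⁻¹ := xi.symm ▸ rx
  have rE : M.R ce e⁻¹ := ei.symm ▸ re
  have nx' := s.norm hv rx rX nx (by decide +kernel)
  have ny' := s.norm hv ry rY ny (by decide +kernel)
  have he : e ∈ M.cl eL := Model.mem_cl List.mem_cons_self re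
  have hE : ∀ c ∈ eL, M.In (M.cl eL) c := fun c hc => (hv c hc).cl hc
  have com : ∀ u ∈ M.cl eL, ∀ v ∈ M.cl eL, u * v = v * u := fun u hu v hv => by
    have k1 : M.cl eL ≤ centralizer (M.cl eL : Set G) := Model.cl_le' fun c hc α hα =>
      le_centralizer_iff.1 (show M.cl eL ≤ centralizer ((zpowers α : Subgroup G) : Set G) from
        Model.cl_le' fun c' hc' β hβ => by
          obtain ⟨γ, g1, -, g3⟩ := ea c' hc'
          rw [M.unique hβ g1]
          rintro _ ⟨n, rfl⟩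
          exact ((g3 c hc α hα).zpow_right n).eq.symm) (mem_zpowers α)
    exact (k1 hv u hu)
  have sq1 : ∀ g ∈ M.cl eL, g * g = 1 := fun g hg => by
    induction hg using closure_induction with
    | mem a ha =>
      obtain ⟨c, hc, hr⟩ := ha
      obtain ⟨γ, g1, g2, -⟩ := ea c hc
      rw [M.unique hr g1]; exact g2
    | one => exact one_mul 1
    | mul a b ha hb ia ib => rw [mul_assoc, ← mul_assoc b, com b hb a ha, mul_assoc, ib, mul_one, ia]
    | inv a ha ia => rw [← mul_inv_rev, ia, inv_one]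
  have nH : closure {x, y, e} ≤ normalizer (M.cl eL : Set G) := (closure_le _).2 (by
    rintro _ (rfl | rfl | rfl)
    exacts [nx', ny', le_normalizer he])
  obtain ⟨d, dE, rd⟩ : M.In (M.cl eL) cd := s.slp hE [xd] (by decide +kernel)
  obtain ⟨z0, zE, rz0⟩ : M.In (M.cl eL) (xz.c kmul kone eL) := by
    rw [← s.1, ← s.2.1]; exact xz.In hE
  have rz : M.R cz (z0 * x) := by
    have := M.R_mul rz0 rx
    rw [s.1, show kmul (xz.c kmul kone eL) cx = cz by decide +kernel] at this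
    exact this
  have h3 : List.Forall₂ M.R L3 [x, y, y⁻¹, t, e, d, z0 * x] :=
    .cons rx (.cons ry (.cons rY (.cons rt (.cons re (.cons rd (.cons rz .nil))))))
  have orb : ∀ k ∈ closure {x, y, e}, ∀ u, (∃ c ∈ dL, M.R c u) → ∃ c ∈ dL, M.R c (k⁻¹ * u * k) := fun k hk => by
    have ml : ∀ a b : G, (∀ u, (∃ c ∈ dL, M.R c u) → ∃ c ∈ dL, M.R c (a⁻¹ * u * a)) →
        (∀ u, (∃ c ∈ dL, M.R c u) → ∃ c ∈ dL, M.R c (b⁻¹ * u * b)) →
        ∀ u, (∃ c ∈ dL, M.R c u) → ∃ c ∈ dL, M.R c ((a * b)⁻¹ * u * (a * b)) := fun a b ia ib u hu => by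
      simpa only [mul_inv_rev, mul_assoc] using ib _ (ia u hu)
    induction hk using closure_induction'' with
    | one => intro u hu; simpa using hu
    | mem a ha =>
      rcases ha with rfl | rfl | rfl
      exacts [cj_spec s rX rx cj1, cj_spec s rY ry cj2, cj_spec s rE re cj3]
    | inv_mem a ha =>
      rcases ha with rfl | rfl | rfl
      · rw [xi]; exact cj_spec s rX rx cj1
      · rw [← y3]; exact ml _ _ (cj_spec s rY ry cj2) (cj_spec s rY ry cj2)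
      · rw [ei]; exact cj_spec s rE re cj3
    | mul a b _ _ ia ib => exact ml a b ia ib
  have dD : ∃ c ∈ dL, M.R c d := ⟨cd, List.mem_append_left _ List.mem_cons_self, rd⟩
  have hD : ∀ g, g⁻¹ * d * g ∈ M.cl eL → g ∈ closure {x, y, e} := fun g hg => by
    obtain ⟨i, hi, k, hk, l, hl, rfl⟩ := hcov g
    rcases Nat.eq_zero_or_pos i with rfl | i1
    · exact mul_mem (mul_mem hk (one_mem _)) hl
    exfalso
    have c1 := wC_all i i1 hi
    rw [wC, force_eq, force_eq] at c1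
    obtain ⟨c1, c2⟩ := band_iff.1 c1
    rw [force_eq, force_eq] at c2
    have r1 := R_wv0 s h0 (H2.Cov.WL.getD i [])
    have r2 := R_wv0 s h0 (ivw (H2.Cov.WL.getD i []))
    generalize H28.ev [x, y, y⁻¹, t] (H2.Cov.WL.getD i []) = w at hg r1
    have q : w * _ = 1 := M.eq_of (M.R_mul r1 r2) M.R_one (by rw [s.1, s.2.1, s.2.2]; exact c1)
    rw [eq_inv_of_mul_eq_one_right q] at r2
    obtain ⟨a, ha, ra⟩ := (Ex.v ([0, 1].getD i 0)).In hE
    have r3 := M.R_mul (M.R_mul r1 ra) r2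
    rw [s.1, s.2.1] at r3
    refine nc_spec s r3 c2 _ (orb k hk d dD) ?_
    have k1 := (mem_normalizer_iff.1 (nH hl) _).1 hg
    have k2 := com _ k1 a ha
    have k3 : k⁻¹ * d * k = w * (l * ((k * w * l)⁻¹ * d * (k * w * l)) * l⁻¹) * w⁻¹ := by group
    generalize l * ((k * w * l)⁻¹ * d * (k * w * l)) * l⁻¹ = m at k2 k3
    rw [k3]
    calc w * m * w⁻¹ * (w * a * w⁻¹) = w * (m * a) * w⁻¹ := by group
      _ = w * a * w⁻¹ * (w * m * w⁻¹) := by rw [k2]; group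
  have gG : xg.g [x, y, y⁻¹, t, e, d, z0 * x] * xG.g [x, y, y⁻¹, t, e, d, z0 * x] = 1 :=
    s.eq h3 (.m xg xG) (.v 9) (by decide +kernel)
  have cz' : IsConj (z0 * x) e := isConj_iff.2 ⟨xw2.g [x, y, y⁻¹, t, e, d, z0 * x], mul_inv_eq_of_eq_mul
    (s.eq h3 (.m xw2 (.v 6)) (.m (.v 4) xw2) (by decide +kernel))⟩
  haveI : Fact (Nat.Prime 11) := ⟨by norm_num⟩
  haveI : Fact (Nat.Prime 23) := ⟨by norm_num⟩
  refine ⟨M.cl eL, d, xb.g [x, y, y⁻¹, t, e, d, z0 * x], hc, sq1, he, Model.cl_le hv, nx', ny', dE,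
    s.ne h3 (.v 5) (.v 9) (by decide +kernel), hD, fun hc => ?_, ?_,
    orderOf_eq_prime (s.eq h3 (.p xb 11) (.v 9) (by decide +kernel)) (s.ne h3 xb (.v 9) (by decide +kernel)),
    s.eq h3 (.m xb (.v 5)) (.m (.v 5) xb) (by decide +kernel),
    isConj_iff.2 ⟨xw1.g [x, y, y⁻¹, t, e, d, z0 * x], mul_inv_eq_of_eq_mul
      (s.eq h3 (.m xw1 (.v 5)) (.m (.v 0) xw1) (by decide +kernel))⟩,
    ⟨xg.g [x, y, y⁻¹, t, e, d, z0 * x], ?_⟩, fun v hv h2 h3' => ?_⟩
  · obtain ⟨g, hg⟩ := isConj_iff.1 hc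
    obtain ⟨c, k1, k2⟩ := orb g⁻¹ (hD g⁻¹ (by rw [inv_inv, hg]; exact he)) d dD
    rw [inv_inv, hg] at k2
    have := (M.eqb_iff k2 re).2 rfl
    rw [s.2.2, nb_iff.1 (allL_spec nje c k1)] at this
    exact absurd this (by simp)
  · have x1 : x ∈ closure {x, y} := subset_closure (Or.inl rfl)
    have y1 : y ∈ closure {x, y} := subset_closure (Or.inr rfl)
    have y2 := inv_mem y1
    simp only [xb, Ex.g, List.getD_cons_zero, List.getD_cons_succ]
    repeat' first | assumption | apply mul_mem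
  · rw [← eq_inv_of_mul_eq_one_right gG]
    exact orderOf_eq_prime (s.eq h3 (.p (.m (.v 5) (.m (.m xg (.v 5)) xG)) 23) (.v 9) (by decide +kernel))
      (s.ne h3 (.m (.v 5) (.m (.m xg (.v 5)) xG)) (.v 9) (by decide +kernel))
  · have f1 := flE
    rw [force_eq, ← s.1] at f1
    obtain ⟨c, k1, k2⟩ := ea.allE rx f1 v hv
    rcases fl_spec s (M.R_mul rx ry) k1 rx rz k2 h2 h3' with k | k
    · exact Or.inl (mul_eq_right.1 k)
    · exact Or.inr (k ▸ cz')

end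

theorem j4_model' : ∃ (M : Model J4), Std M ∧ List.Forall₂ M.R L1 [jx, jy, jy⁻¹, jt, je] := by
  obtain ⟨φ, h0⟩ := ex_phi
  have s : Std ar.gM := ⟨rfl, rfl, rfl⟩
  have h := f1 s h0
  have := H7.JD.j_main.2.1.1
  have hi : Function.Injective φ := by
    rw [← MonoidHom.ker_eq_bot_iff]
    refine (φ.normal_ker.eq_bot_or_eq_top).resolve_right fun k => s.ne h (.v 0) (.v 9) (by decide +kernel) ?_
    exact (show jx ∈ φ.ker from k ▸ Subgroup.mem_top _)
  refine ⟨ar.gM.comap φ hi, ⟨rfl, rfl, rfl⟩, ?_⟩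
  rw [← map_inv] at h
  exact .cons (R_getD h 0) (.cons (R_getD h 1) (.cons (R_getD h 2) (.cons (R_getD h 3) (.cons (R_getD h 4) .nil))))

theorem comp : ∃ (E : Subgroup J4) (d b : J4), Nat.card E = 2 ^ 11 ∧ (∀ g ∈ E, g * g = 1) ∧ je ∈ E ∧ E ≤ closure {jx, jy, je} ∧ jx ∈ normalizer (E : Set J4) ∧ jy ∈ normalizer (E : Set J4) ∧ d ∈ E ∧ d ≠ 1 ∧ (∀ g, g⁻¹ * d * g ∈ E → g ∈ closure {jx, jy, je}) ∧ ¬ IsConj d je ∧ b ∈ closure {jx, jy} ∧ orderOf b = 11 ∧ Commute b d ∧ IsConj d jx ∧ (∃ g, orderOf (d * (g * d * g⁻¹)) = 23) ∧ ∀ v ∈ E, (v * jx) ^ 2 = 1 → (v * jx * (jx * jy)) ^ 3 = 1 → v = 1 ∨ IsConj (v * jx) je := by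
  obtain ⟨M, s, h⟩ := j4_model'
  refine compG s h fun g => ?_
  have h : ∀ r ∈ J4.extra, PresentedGroup.mk (coxRelators J4.edges ∪ {r | r ∈ J4.extra}) r = 1 :=
    fun r hr => PresentedGroup.one_of_mem (Or.inr hr)
  simp only [J4.extra, List.forall_mem_cons, _root_.map_mul, _root_.map_pow, _root_.map_inv] at h
  obtain ⟨h1, h2, h3, h4, h5, h6, h7, h8, h9, h10, h11, h12, -⟩ := h
  obtain ⟨O, o1, -, o3⟩ := H2.Cov.cov h1 h2 h3 h4 h5 h6 h7 h8 h9 h10 h11 h12 H7.JD.j_top (closure {jx, jy, je})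
    (subset_closure (Or.inl rfl)) (subset_closure (Or.inr (Or.inl rfl))) (subset_closure (Or.inr (Or.inr rfl)))
  obtain ⟨i, hi⟩ := o1 g
  exact ⟨i, i.2, o3 i g hi⟩

end H29.J4m
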