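import Cfsg.Agent.H29.LM
import Cfsg.Agent.H29.A2x6
import Cfsg.Agent.H22.Linear

set_option autoImplicit false
set_option maxRecDepth 100000
set_option linter.style.haveILetI false
set_option linter.unusedVariables false
set_option linter.style.longLine false
set_option linter.unusedTactic false
set_option linter.unreachableTactic false

namespace H29

noncomputable def l34_g : List ℕ := [nat_lit 0x810285081, nat_lit 0x810204285, nat_lit 0xa14204081, nat_lit 0x810a14081, nat_lit 0x8102c6081, nat_lit 0x810204ca1]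
noncomputable def l34_z : ℕ := (nat_lit 0xc203080c2)
noncomputable def l34_zs : List ℕ := [nat_lit 0x810204081, nat_lit 0xc203080c2, nat_lit 0x43010c043]
noncomputable def l341_key : ℕ → ℕ := keyS' a2_6.mul (nat_lit 6) (nat_lit 0x3f) (nat_lit 3) (nat_lit 509) (nat_lit 24) [nat_lit 0x3081]
noncomputable def l341_fix : ℕ → Bool := fixS a2_6.mul (nat_lit 6) (nat_lit 0x3f) (nat_lit 3) [nat_lit 0x3081]
theorem l34_key {Q : Type*} [Group Q] (q : QM Q a2_6 l34_g l34_z l34_zs) : ∃ St, Key q.M St l341_key l341_fix :=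
  q.keyS _ _ _ _ _ _ (by decide +kernel)
noncomputable def l34v1_key : ℕ → ℕ := keyP a2_6.mul (nat_lit 0x1) (nat_lit 64)
noncomputable def l34v1_fix : ℕ → Bool := fixP a2_6.mul (nat_lit 0x1)
noncomputable def l34vT1_g : List ℕ := [nat_lit 0x810285081, nat_lit 0x810204285, nat_lit 0xa14204081, nat_lit 0x810a14081, nat_lit 0x8102c6081, nat_lit 0x810204ca1]
noncomputable def l34vT1_key : ℕ → ℕ := keyT a2_6.mul l34v1_key (nat_lit 0x810204081) (nat_lit 0)
noncomputable def l34vT1_kt : ℕ → ℕ := pget (nat_lit 0x3ffbdf3beb9e37db5d33cb1c2fbadb2baa9a279a59238a181f79d71b69961759551349140f38d30b289207185103080) (nat_lit 6) (nat_lit 0x3f)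
noncomputable def l34vT1_bt : ℕ → ℕ := pget (nat_lit 0xef7cefae78df6d74cf2c70c0) (nat_lit 6) (nat_lit 0x3f)
noncomputable def l34vT1 : LvD where
  n := nat_lit 63
  g := l34vT1_g
  T := [nat_lit 0x810285081, nat_lit 0x810204285, nat_lit 0xa14204081, nat_lit 0x810a14081, nat_lit 0x8102c6081, nat_lit 0x810204ca1, nat_lit 0x810204081, nat_lit 0x810a14ca1, nat_lit 0x810204ea5, nat_lit 0xa142c6081, nat_lit 0xad62c6081, nat_lit 0xad6204081, nat_lit 0xad6285081, nat_lit 0xa57285081, nat_lit 0x810a14ea5, nat_lit 0x810a146b5, nat_lit 0x8102c6ca1, nat_lit 0x8106f6ca1, nat_lit 0x810ad6247, nat_lit 0x8105fea95, nat_lit 0xad6285d6f, nat_lit 0x34bca1ea5, nat_lit 0x14f891247, nat_lit 0xa57473853]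
  ab := nat_lit 0x1300d00c01200d00800800c01100f00e01000400500500400100700700100b00000000b009004002004004002005001005003005005000000000000000000000000000000000000
  ia := nat_lit 0x1601401201000e00c00b009008007005004003002001000
  ib := nat_lit 0x1701501301100f00d00b00a008007005004003002001000
  ent := pget (nat_lit 0x2d302b45093383bc20ea183cc80ed3c2cc20d61834cc0f30030c60aa2c3b470863830cb0a324200e06d0028c20833829410ea0037c20ad2020cc0a300200706a043b410a728300505604314e0b33c3ac30e53c31470853424cf0c33c21430840c30c30932838cf0962030cd0a7383b460a7343bcf0ea0c314108f3c39c30c500200d04300200105f3c2b4b080000) (nat_lit 18) (nat_lit 0x3ffff)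
  key := l34vT1_key
  ks := l34vT1_kt
  loc := locB l34vT1_key l34vT1_kt l34vT1_bt (nat_lit 2)

noncomputable def l34vT1_fix : ℕ → Bool := fixT a2_6.mul l34v1_fix (nat_lit 0x810204081) (nat_lit 0x810204081)

noncomputable def l34vT2_g : List ℕ := [nat_lit 0x634853081, nat_lit 0xd2cca1081]
noncomputable def l34vT2_key : ℕ → ℕ := keyT a2_6.mul l34v1_key (nat_lit 0xa148d2853) (nat_lit 18)
noncomputable def l34vT2_kt : ℕ → ℕ := pget (nat_lit 0xffef7cefae78df6d74cf2c70beeb6caeaa689e69648e28607de75c6da6585d65543ce34c2ca2481c61440c2040) (nat_lit 6) (nat_lit 0x3f)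
noncomputable def l34vT2_bt : ℕ → ℕ := pget (nat_lit 0xe34c2ca2481c614410308100) (nat_lit 6) (nat_lit 0x3f)
noncomputable def l34vT2 : LvD where
  n := nat_lit 60
  g := l34vT2_g
  T := [nat_lit 0x634853081, nat_lit 0xd2cca1081, nat_lit 0x57f677081, nat_lit 0x2479de081, nat_lit 0xe676b5081, nat_lit 0x14ffea081, nat_lit 0xce25bd081, nat_lit 0x4b177b081, nat_lit 0x99d53c081, nat_lit 0x7fad2c081, nat_lit 0x7b9d6f081]
  ab := nat_lit 0x1005003003003005000003001004004001001002002000000000000000000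
  ia := nat_lit 0x2009008006005001003000
  ib := nat_lit 0x300300300300300300300300300300300300300300300300300300300300300300300300300300300300300300300300300300300300300300300300300300300300300300300300300300300300300300300300800a002007001005000003
  ent := pget (nat_lit 0x4c60a51436c70800816c50b80024c309b102e020ac1437060ee142346080101cc70e00c20070531028800d70c3e070801818020b50039830ae0825460c0001b040e51c36c00b8042003078142d470e5003b8109c0c380608d1020010651039840bb183b060c808300506b0c26c60ae002cc50f8102b8709b0c2b070f30439860a7183a850c0000) (nat_lit 18) (nat_lit 0x3ffff)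
  key := l34vT2_key
  ks := l34vT2_kt
  loc := locB l34vT2_key l34vT2_kt l34vT2_bt (nat_lit 2)

noncomputable def l34vT2_fix : ℕ → Bool := fixT a2_6.mul l34v1_fix (nat_lit 0xa148d2853) (nat_lit 0x1ce9de285)

noncomputable def l34vT3_g : List ℕ := [nat_lit 0x810a95081, nat_lit 0x810a14081, nat_lit 0x810ad6081, nat_lit 0x810634081]
noncomputable def l34vT3_key : ℕ → ℕ := keyT a2_6.mul l34v1_key (nat_lit 0xa14ea56b5) (nat_lit 52)
noncomputable def l34vT3_kt : ℕ → ℕ := pget (nat_lit 0xcf2c708e28604d24500c2040) (nat_lit 6) (nat_lit 0x3f)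
noncomputable def l34vT3_bt : ℕ → ℕ := pget (nat_lit 0xcc88440) (nat_lit 4) (nat_lit 0xf)
noncomputable def l34vT3 : LvD where
  n := nat_lit 16
  g := l34vT3_g
  T := [nat_lit 0x810a95081, nat_lit 0x810a14081, nat_lit 0x810ad6081, nat_lit 0x810634081, nat_lit 0x810285081, nat_lit 0x810247081, nat_lit 0x810ee6081, nat_lit 0x810677081]
  ab := nat_lit 0x6000002003002000000001000000000000000000000000
  ia := nat_lit 0x7006005004003002001000
  ib := nat_lit 0x7006005004003002001000
  ent := pget (nat_lit 0x1c14182c10200c141c2018150c240c241420081000100410141408201010000) (nat_lit 16) (nat_lit 0xffff)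
  key := l34vT3_key
  ks := l34vT3_kt
  loc := locB l34vT3_key l34vT3_kt l34vT3_bt (nat_lit 3)

noncomputable def l34vT3_fix : ℕ → Bool := fixT a2_6.mul l34v1_fix (nat_lit 0xa14ea56b5) (nat_lit 0x285a95b5b)

noncomputable def l34vT4_g : List ℕ := []
noncomputable def l34vT4_ls : List Lv := []
noncomputable def l34vT3_ls : List Lv := l34vT3.lv a2_6.mul a2_6.one :: l34vT4_ls
noncomputable def l34vT2_ls : List Lv := l34vT2.lv a2_6.mul a2_6.one :: l34vT3_ls
noncomputable def l34vT1_ls : List Lv := l34vT1.lv a2_6.mul a2_6.one :: l34vT2_ls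
noncomputable def l34v_aux : List ℕ := [nat_lit 0x810285081, nat_lit 0x810204285, nat_lit 0xa14204081, nat_lit 0x810a14081, nat_lit 0x8102c6081, nat_lit 0x810204ca1, nat_lit 0x810204081, nat_lit 0xa148d2853, nat_lit 0x1ce9de285, nat_lit 0xa14ea56b5, nat_lit 0x285a95b5b]
theorem l34vT1_ok : l34vT1.ok a2_6.mul Nat.beq a2_6.one = true := by decide +kernel
theorem l34vT1_next : l34vT1.nextOK a2_6.mul a2_6.one l34vT2_g (nat_lit 0x3400000200003800002b00000500000b) = true := by decide +kernel
theorem l34vT1_fx : allL l34vT1_fix l34vT2_g = true := by decide +kernel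
theorem l34vT1_k_0 : allR (kchk l34vT1_key (l34vT1.lv a2_6.mul a2_6.one).U l34vT1_kt (nat_lit 63)) (nat_lit 0) (nat_lit 63) = true := by decide +kernel
theorem l34vT1_k : ∀ j < nat_lit 63, (kchk l34vT1_key (l34vT1.lv a2_6.mul a2_6.one).U l34vT1_kt (nat_lit 63)) j = true :=
  (allR_step (c := nat_lit 63) (fun _ h => absurd h (Nat.not_lt_zero _)) l34vT1_k_0 (by decide))

theorem l34vT2_ok : l34vT2.ok a2_6.mul Nat.beq a2_6.one = true := by decide +kernel
theorem l34vT2_next : l34vT2.nextOK a2_6.mul a2_6.one l34vT3_g (nat_lit 0xb00000100000d00003b00000100003000000500000100001800001000000100002d) = true := by decide +kernel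
theorem l34vT2_fx : allL l34vT2_fix l34vT3_g = true := by decide +kernel
theorem l34vT2_k_0 : allR (kchk l34vT2_key (l34vT2.lv a2_6.mul a2_6.one).U l34vT2_kt (nat_lit 60)) (nat_lit 0) (nat_lit 60) = true := by decide +kernel
theorem l34vT2_k : ∀ j < nat_lit 60, (kchk l34vT2_key (l34vT2.lv a2_6.mul a2_6.one).U l34vT2_kt (nat_lit 60)) j = true :=
  (allR_step (c := nat_lit 60) (fun _ h => absurd h (Nat.not_lt_zero _)) l34vT2_k_0 (by decide))

theorem l34vT3_ok : l34vT3.ok a2_6.mul Nat.beq a2_6.one = true := by decide +kernel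
theorem l34vT3_next : l34vT3.nextOK a2_6.mul a2_6.one l34vT4_g (nat_lit 0x0) = true := by decide +kernel
theorem l34vT3_fx : allL l34vT3_fix l34vT4_g = true := by decide +kernel
theorem l34vT3_k_0 : allR (kchk l34vT3_key (l34vT3.lv a2_6.mul a2_6.one).U l34vT3_kt (nat_lit 16)) (nat_lit 0) (nat_lit 16) = true := by decide +kernel
theorem l34vT3_k : ∀ j < nat_lit 16, (kchk l34vT3_key (l34vT3.lv a2_6.mul a2_6.one).U l34vT3_kt (nat_lit 16)) j = true :=
  (allR_step (c := nat_lit 16) (fun _ h => absurd h (Nat.not_lt_zero _)) l34vT3_k_0 (by decide))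

theorem l34v_auxok : slpR a2_6.mul a2_6.one (wdsOK a2_6.mul a2_6.one l34v_aux [nat_lit 0x1011, nat_lit 0x1036, nat_lit 0x100902b, nat_lit 0x1008, nat_lit 0x1002, nat_lit 0x103a, nat_lit 0x1, nat_lit 0x1009036039029, nat_lit 0x101200102302002b036, nat_lit 0x100300902302001e029031, nat_lit 0x100102b023036039000]) (nat_lit 53) (nat_lit 0x2803100001700000f01a00001900002700001c00001002300000901900001500001f00001600000200000000101b00801001000000700f00000b00000d00001700000100001300b00a01200400000700000300000400000d00d00200100000d00c00000000000000001200000f00000200001300001100200000f01000d00c00f000000000000003000006000003000008005000006003004000006000004) l34_g = true := by decide +kernel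
theorem l34v_low {G : Type*} [Group G] (M : Model G) (h1 : M.mul = a2_6.mul) (h2 : M.eqb = Nat.beq)
    (h3 : M.one = a2_6.one) (vv : ∀ c ∈ l34_g, M.In ⊤ c) {St : Subgroup G} (k1 : Key M St l34v1_key l34v1_fix) [Finite G] :
    60480 ≤ Nat.card (M.cl l34_g) := by
  obtain ⟨R, one, mul, eqb, a1, a2, a3⟩ := M
  dsimp only at h1 h2 h3
  subst h1 h2 h3
  set M : Model G := ⟨R, a2_6.one, a2_6.mul, Nat.beq, a1, a2, a3⟩ with hM
  have va := in_of_slpW (M := M) _ vv l34v_auxok
  obtain ⟨tl34vT1, hTl34vT1⟩ := exists_R va (c := (nat_lit 0x810204081)) (by (try dsimp only [M]); decide +kernel)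
  have kl34vT1 : Key M (cjS St tl34vT1) l34vT1_key l34vT1_fix := k1.keyT hTl34vT1 (R_inv_of hTl34vT1 (exists_R va (c := (nat_lit 0x810204081)) (by (try dsimp only [M]); decide +kernel)) (by (try dsimp only [M]); decide +kernel)) _
  obtain ⟨tl34vT2, hTl34vT2⟩ := exists_R va (c := (nat_lit 0xa148d2853)) (by (try dsimp only [M]); decide +kernel)
  have kl34vT2 : Key M (cjS St tl34vT2) l34vT2_key l34vT2_fix := k1.keyT hTl34vT2 (R_inv_of hTl34vT2 (exists_R va (c := (nat_lit 0x1ce9de285)) (by (try dsimp only [M]); decide +kernel)) (by (try dsimp only [M]); decide +kernel)) _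
  obtain ⟨tl34vT3, hTl34vT3⟩ := exists_R va (c := (nat_lit 0xa14ea56b5)) (by (try dsimp only [M]); decide +kernel)
  have kl34vT3 : Key M (cjS St tl34vT3) l34vT3_key l34vT3_fix := k1.keyT hTl34vT3 (R_inv_of hTl34vT3 (exists_R va (c := (nat_lit 0x285a95b5b)) (by (try dsimp only [M]); decide +kernel)) (by (try dsimp only [M]); decide +kernel)) _
  have gl34vT1 : ∀ c ∈ l34vT1_g, M.In ⊤ c := valid_sub va (by (try dsimp only [M]); decide +kernel)
  have gl34vT2 := LvD.valid_next (D := l34vT1) gl34vT1 l34vT1_ok l34vT1_next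
  have ll34vT1 := LvD.le_next (D := l34vT1) gl34vT1 l34vT1_ok l34vT1_next
  have gl34vT3 := LvD.valid_next (D := l34vT2) gl34vT2 l34vT2_ok l34vT2_next
  have ll34vT2 := LvD.le_next (D := l34vT2) gl34vT2 l34vT2_ok l34vT2_next
  have gl34vT4 := LvD.valid_next (D := l34vT3) gl34vT3 l34vT3_ok l34vT3_next
  have ll34vT3 := LvD.le_next (D := l34vT3) gl34vT3 l34vT3_ok l34vT3_next
  have cl34vT4 : 1 ≤ Nat.card (M.cl l34vT4_g) := Nat.card_pos
  have cl34vT3 : 16 ≤ Nat.card (M.cl l34vT3_g) := le_trans (by (try dsimp only [M]); decide +kernel) (LvD.lower (D := l34vT3) gl34vT3 l34vT3_ok cl34vT4 ll34vT3 kl34vT3 l34vT3_fx l34vT3_k)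
  have cl34vT2 : 960 ≤ Nat.card (M.cl l34vT2_g) := le_trans (by (try dsimp only [M]); decide +kernel) (LvD.lower (D := l34vT2) gl34vT2 l34vT2_ok cl34vT3 ll34vT2 kl34vT2 l34vT2_fx l34vT2_k)
  have cl34vT1 : 60480 ≤ Nat.card (M.cl l34vT1_g) := le_trans (by (try dsimp only [M]); decide +kernel) (LvD.lower (D := l34vT1) gl34vT1 l34vT1_ok cl34vT2 ll34vT1 kl34vT1 l34vT1_fx l34vT1_k)
  exact cl34vT1

theorem l34v_top {G : Type*} [Group G] [Finite G] {ρ : G →* Matrix (Fin 6) (Fin 6) (ZMod 2)} {hρ : Function.Injective ρ}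
    (hv : ∀ c ∈ l34_g, (a2_6.model ρ hρ).In ⊤ c) (hN : Nat.card G = 60480) : (a2_6.model ρ hρ).cl l34_g = ⊤ :=
  let ⟨_, k⟩ := a2_6.keyP' ρ hρ _ _ (by decide +kernel)
  Subgroup.eq_top_of_le_card _ (hN.le.trans (l34v_low _ rfl rfl rfl hv k))

set_option synthInstance.maxSize 4096 in
theorem l34_ex {F : Type*} [Field F] [Fintype F] (hF : Fintype.card F = 4) :
    Nonempty (QM (Matrix.ProjectiveSpecialLinearGroup (Fin 3) F) a2_6 l34_g l34_z l34_zs) := by
  obtain ⟨fm⟩ := exists_fm4 hF
  have hv := FM.in_SL (fm := fm) (a := a2_6) (n := 3) (L := l34_g) (e := Equiv.refl (Fin 3)) (by norm_num) (by decide +kernel)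
  have hN := Nat.eq_of_mul_eq_mul_left (by norm_num : 0 < 3) (show 3 * Nat.card (Matrix.SpecialLinearGroup (Fin 3) F) = 3 * 60480 by
    have h := H22.card_SL (F := F) 3 (by norm_num); rw [hF] at h; exact h.trans (by decide +kernel))
  haveI := Nat.finite_of_card_ne_zero (hN.trans_ne (by norm_num))
  exact ⟨(QM.ofCen _ _ hv (l34v_top hv hN) (m := 3) ((H22.card_center_SL (F := F) 3 (by norm_num)).trans (by rw [hF]; rfl))
    (show slpR a2_6.mul a2_6.one (subL [l34_z]) (nat_lit 10) (nat_lit 0x200000000000000a000009000004000006000004000004000001004) l34_g = true by decide +kernel)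
    (ps := [3]) (by decide +kernel) (by norm_num) (by decide +kernel)).choose⟩

end H29
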