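import Cfsg.Agent.H29.L34M

set_option autoImplicit false
set_option maxRecDepth 100000
set_option linter.style.haveILetI false
set_option linter.unusedVariables false
set_option linter.style.longLine false
set_option linter.unusedTactic false
set_option linter.unreachableTactic false

namespace H29

noncomputable def l34s2_gl : List ℕ := [nat_lit 0xe676b5634, nat_lit 0xc202c6285, nat_lit 0x7b9a1495f, nat_lit 0x3898918d2, nat_lit 0x430ea55bd, nat_lit 0x810853f28]
noncomputable def l34s2_fg : List ℕ := [nat_lit 0x430738ea5, nat_lit 0x24718dd6f, nat_lit 0xe247b914f]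
noncomputable def l34s2_J : List Job := [.as (nat_lit 0x8) (nat_lit 0x8) (nat_lit 0x8) (nat_lit 0x8001000000000),
  .as (nat_lit 0x4) (nat_lit 0x4) (nat_lit 0x4) (nat_lit 0x1000200000000),
  .as (nat_lit 0x1) (nat_lit 0x1) (nat_lit 0x1) (nat_lit 0x8000000),
  .as (nat_lit 0x20) (nat_lit 0x20) (nat_lit 0x8) (nat_lit 0x30000000000000),
  .as (nat_lit 0x20) (nat_lit 0x8) (nat_lit 0x8) (nat_lit 0x1d0000000000000),
  .as (nat_lit 0x20) (nat_lit 0x20) (nat_lit 0x4) (nat_lit 0x6000000000000),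
  .as (nat_lit 0x8) (nat_lit 0x8) (nat_lit 0x4) (nat_lit 0xff903f200c00000),
  .as (nat_lit 0x8) (nat_lit 0x8) (nat_lit 0x2) (nat_lit 0xff823f040180000),
  .as (nat_lit 0x8) (nat_lit 0x8) (nat_lit 0x1) (nat_lit 0xe38040008030000),
  .as (nat_lit 0x4) (nat_lit 0x4) (nat_lit 0x2) (nat_lit 0x180238e40000c00),
  .as (nat_lit 0x4) (nat_lit 0x2) (nat_lit 0x2) (nat_lit 0x8040000400),
  .as (nat_lit 0x4) (nat_lit 0x4) (nat_lit 0x1) (nat_lit 0xe07040008000006),
  .as (nat_lit 0x8) (nat_lit 0x4) (nat_lit 0x2) (nat_lit 0x7201e40000000),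
  .fu (nat_lit 0) [nat_lit 0, nat_lit 0] [] (nat_lit 0x6fc7038c0000707f),
  .fu (nat_lit 0) [nat_lit 1, nat_lit 1] [nat_lit 2] (nat_lit 0x70df703f007e07008),
  .fu (nat_lit 0) [nat_lit 3, nat_lit 3] [nat_lit 2, nat_lit 4] (nat_lit 0x1c40c381ff1c71f91ff),
  .fu (nat_lit 0) [nat_lit 5, nat_lit 5] [nat_lit 2, nat_lit 4] (nat_lit 0x31040e47e381c1007fc0),
  .fu (nat_lit 0) [nat_lit 0, nat_lit 1] [nat_lit 1, nat_lit 0, nat_lit 2] (nat_lit 0x40489048000208002),
  .fu (nat_lit 0) [nat_lit 3, nat_lit 1] [nat_lit 1, nat_lit 3, nat_lit 4] (nat_lit 0x10003cf248000e48202),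
  .fu (nat_lit 1) [nat_lit 6, nat_lit 6] [] (nat_lit 0x180000fc0038000000040),
  .fu (nat_lit 2) [nat_lit 7, nat_lit 7] [] (nat_lit 0xc00000ff8006007038038)]
noncomputable def l34s2_l1 : List ℕ := [nat_lit 0x0, nat_lit 0x9040249001200201, nat_lit 0x1000000000200048, nat_lit 0x1201200001208041, nat_lit 0x8040200008000208, nat_lit 0x40000000000000000, nat_lit 0x48248041249200001, nat_lit 0x200000000000000000, nat_lit 0x41040248048200249, nat_lit 0x200, nat_lit 0x9248000008, nat_lit 0x9009200048, nat_lit 0x8001200000, nat_lit 0x9048000008, nat_lit 0x1041008248, nat_lit 0x9249200048, nat_lit 0x9009200008, nat_lit 0x8001200008, nat_lit 0x8000, nat_lit 0x9048208040]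
noncomputable def l34s2 : SchD where
  P := ⟨nat_lit 2, nat_lit 1, nat_lit 6, nat_lit 12, nat_lit 5, nat_lit 31, (pget (nat_lit 0x2704a08c1081f0380000d41882d0520900000304707e0d4140000000181141c80000000000000049000000000000000201) (nat_lit 11) (nat_lit 0x7ff))⟩
  m1 := nat_lit 20
  nf := nat_lit 8
  rv := (pget (nat_lit 0x8e28607de71b69961551348e347000) (nat_lit 6) (nat_lit 0x3f))
  dk := (pget (nat_lit 0x306924924) (nat_lit 6) (nat_lit 0x3f))
  gl := l34s2_gl
  fg := l34s2_fg
  fa := (pget (nat_lit 0x9000) (nat_lit 2) (nat_lit 0x3))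
  fr := (pget (nat_lit 0x402220110042) (nat_lit 6) (nat_lit 0x3f))
  fs := (pget (nat_lit 0x270d90af0b05) (nat_lit 6) (nat_lit 0x3f))
  a := nat_lit 2
  es := [nat_lit 5, nat_lit 7]
  F := nat_lit 48
  c := nat_lit 3
  J := l34s2_J
  l1 := lget l34s2_l1
  l2 := fun e => Bool.rec (motive := fun _ => ℕ) ((fun e => Bool.rec (motive := fun _ => ℕ) ((fun _ => nat_lit 0) e) (nat_lit 0x26014841024) (Nat.beq e (nat_lit 5))) e) (nat_lit 0x20920132936440010) (Nat.beq e (nat_lit 7))

noncomputable def l34s2L1_g : List ℕ := [nat_lit 0xe676b5634, nat_lit 0xc202c6285, nat_lit 0x7b9a1495f, nat_lit 0x3898918d2]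
noncomputable def l34s2L1_key : ℕ → ℕ := keyT a2_6.mul l341_key (nat_lit 0x43308810) (nat_lit 27)
noncomputable def l34s2L1_kt : ℕ → ℕ := pget (nat_lit 0xe1b59400) (nat_lit 8) (nat_lit 0xff)
noncomputable def l34s2L1_bt : ℕ → ℕ := pget (nat_lit 0x2) (nat_lit 1) (nat_lit 0x1)
noncomputable def l34s2L1 : LvD where
  n := nat_lit 4
  g := l34s2L1_g
  T := [nat_lit 0xe676b5634, nat_lit 0xc202c6285, nat_lit 0x7b9a1495f, nat_lit 0x3898918d2, nat_lit 0xc2095ff6b, nat_lit 0x7b9e2414f, nat_lit 0x810dad57f, nat_lit 0x7b95bdca1, nat_lit 0x430b5bfea, nat_lit 0x247bda14f, nat_lit 0xdee85357f]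
  ab := nat_lit 0x5009008003003003006002002002004000000000000000000000000000000000
  ia := nat_lit 0xa009003007002001005000
  ib := nat_lit 0x500500500500500500500500500500500500500500500500500500500500500500500500500500500500500500500500500500500500500500500500500500500500500500500500500500500500500500500500a003009002007001000005
  ent := pget (nat_lit 0xe0d040200) (nat_lit 9) (nat_lit 0x1ff)
  key := l34s2L1_key
  ks := l34s2L1_kt
  loc := locB l34s2L1_key l34s2L1_kt l34s2L1_bt (nat_lit 7)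

noncomputable def l34s2L1_fix : ℕ → Bool := fixT a2_6.mul l341_fix (nat_lit 0x43308810) (nat_lit 0x43308810)

noncomputable def l34s2L2_g : List ℕ := [nat_lit 0xc202c6285, nat_lit 0x81099dd6f, nat_lit 0x430b5bfea, nat_lit 0x810853f28]
noncomputable def l34s2L2_key : ℕ → ℕ := keyT a2_6.mul l341_key (nat_lit 0x3cadeec63) (nat_lit 121)
noncomputable def l34s2L2_kt : ℕ → ℕ := pget (nat_lit 0xd961706ff743653479238fc7030168a44a00) (nat_lit 9) (nat_lit 0x1ff)
noncomputable def l34s2L2_bt : ℕ → ℕ := pget (nat_lit 0xddda970) (nat_lit 4) (nat_lit 0xf)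
noncomputable def l34s2L2 : LvD where
  n := nat_lit 16
  g := l34s2L2_g
  T := [nat_lit 0xc202c6285, nat_lit 0x81099dd6f, nat_lit 0x430b5bfea, nat_lit 0x810853f28, nat_lit 0x810e244b1, nat_lit 0x810204081, nat_lit 0xc20d6f77b, nat_lit 0x8105bd95f, nat_lit 0x810473b18]
  ab := nat_lit 0x2006001004003000004004002000000000000000000000000000
  ia := nat_lit 0x8007006004003002001000
  ib := nat_lit 0x8007006004003002001000
  ent := pget (nat_lit 0xd1c200410001e1c20141d04201810101008101c1e0c2e142b18200c1d1820000) (nat_lit 16) (nat_lit 0xffff)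
  key := l34s2L2_key
  ks := l34s2L2_kt
  loc := locB l34s2L2_key l34s2L2_kt l34s2L2_bt (nat_lit 6)

noncomputable def l34s2L2_fix : ℕ → Bool := fixT a2_6.mul l341_fix (nat_lit 0x3cadeec63) (nat_lit 0x99dbda7fa)

noncomputable def l34s2L3_g : List ℕ := []
noncomputable def l34s2L3_ls : List Lv := []
noncomputable def l34s2L2_ls : List Lv := l34s2L2.lv a2_6.mul a2_6.one :: l34s2L3_ls
noncomputable def l34s2L1_ls : List Lv := l34s2L1.lv a2_6.mul a2_6.one :: l34s2L2_ls
noncomputable def l34s2_aux : List ℕ := [nat_lit 0xe676b5634, nat_lit 0xc202c6285, nat_lit 0x7b9a1495f, nat_lit 0x3898918d2, nat_lit 0x430ea55bd, nat_lit 0x810853f28, nat_lit 0x430738ea5, nat_lit 0x24718dd6f, nat_lit 0xe247b914f, nat_lit 0x43308810, nat_lit 0x3cadeec63, nat_lit 0x99dbda7fa]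
theorem l34s2_sh : l34s2.shapeOK = true := by decide +kernel
theorem l34s2_fin : l34s2.finOK = true := by decide +kernel
theorem l34s2_rel_0 : allR (l34s2.relOK a2_6.mul (eqbQ a2_6.mul Nat.beq a2_6.one l34_zs) a2_6.one) (nat_lit 0) (nat_lit 6) = true := by decide +kernel
theorem l34s2_rel : ∀ j < nat_lit 6, (l34s2.relOK a2_6.mul (eqbQ a2_6.mul Nat.beq a2_6.one l34_zs) a2_6.one) j = true :=
  (allR_step (c := nat_lit 6) (fun _ h => absurd h (Nat.not_lt_zero _)) l34s2_rel_0 (by decide))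

theorem l34s2_fus_0 : allR (l34s2.fusOK a2_6.mul (eqbQ a2_6.mul Nat.beq a2_6.one l34_zs) a2_6.one) (nat_lit 0) (nat_lit 8) = true := by decide +kernel
theorem l34s2_fus : ∀ j < nat_lit 8, (l34s2.fusOK a2_6.mul (eqbQ a2_6.mul Nat.beq a2_6.one l34_zs) a2_6.one) j = true :=
  (allR_step (c := nat_lit 8) (fun _ h => absurd h (Nat.not_lt_zero _)) l34s2_fus_0 (by decide))

theorem l34s2_job_0 : allR l34s2.jobOK (nat_lit 0) (nat_lit 21) = true := by decide +kernel
theorem l34s2_job : ∀ j < nat_lit 21, l34s2.jobOK j = true :=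
  (allR_step (c := nat_lit 21) (fun _ h => absurd h (Nat.not_lt_zero _)) l34s2_job_0 (by decide))

theorem l34s2L1_ok : l34s2L1.ok a2_6.mul (eqbQ a2_6.mul Nat.beq a2_6.one l34_zs) a2_6.one = true := by decide +kernel
theorem l34s2L1_next : l34s2L1.nextOK a2_6.mul a2_6.one l34s2L2_g (nat_lit 0x100000300000300000100000a000002000000000002000001000000000001000000) = true := by decide +kernel
theorem l34s2L1_fx : allL l34s2L1_fix l34s2L2_g = true := by decide +kernel
theorem l34s2L1_k_0 : allR (kchk l34s2L1_key (l34s2L1.lv a2_6.mul a2_6.one).U l34s2L1_kt (nat_lit 4)) (nat_lit 0) (nat_lit 4) = true := by decide +kernel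
theorem l34s2L1_k : ∀ j < nat_lit 4, (kchk l34s2L1_key (l34s2L1.lv a2_6.mul a2_6.one).U l34s2L1_kt (nat_lit 4)) j = true :=
  (allR_step (c := nat_lit 4) (fun _ h => absurd h (Nat.not_lt_zero _)) l34s2L1_k_0 (by decide))

theorem l34s2L2_ok : l34s2L2.ok a2_6.mul (eqbQ a2_6.mul Nat.beq a2_6.one l34_zs) a2_6.one = true := by decide +kernel
theorem l34s2L2_next : l34s2L2.nextOK a2_6.mul a2_6.one l34s2L3_g (nat_lit 0x0) = true := by decide +kernel
theorem l34s2L2_fx : allL l34s2L2_fix l34s2L3_g = true := by decide +kernel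
theorem l34s2L2_k_0 : allR (kchk l34s2L2_key (l34s2L2.lv a2_6.mul a2_6.one).U l34s2L2_kt (nat_lit 16)) (nat_lit 0) (nat_lit 16) = true := by decide +kernel
theorem l34s2L2_k : ∀ j < nat_lit 16, (kchk l34s2L2_key (l34s2L2.lv a2_6.mul a2_6.one).U l34s2L2_kt (nat_lit 16)) j = true :=
  (allR_step (c := nat_lit 16) (fun _ h => absurd h (Nat.not_lt_zero _)) l34s2L2_k_0 (by decide))

theorem l34s2_auxok : slpR a2_6.mul a2_6.one (wdsOK a2_6.mul a2_6.one l34s2_aux [nat_lit 0x100201202102a028029, nat_lit 0x100300d01202a, nat_lit 0x100101201801902a02e, nat_lit 0x100000101201602a02702e, nat_lit 0x100000201202102102e02b029, nat_lit 0x100b01302a02902c, nat_lit 0x100201302a02e, nat_lit 0x100000101301102a028, nat_lit 0x100000201301b01602a, nat_lit 0x100201301a02102a029027, nat_lit 0x100300001201a01802a02702e, nat_lit 0x100101601102a02e]) (nat_lit 41) (nat_lit 0x1200300900100000700000f01500001b00001200000001301200001100c00200000700000000501300000200000b00000500a00700400000000200000100000200b00000000900900000100700000000000e00000b00000b00000c00000900000d00900c000008000005000002000007000002003004003003005)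 l34_g = true := by decide +kernel
theorem l34s2_sbd {G : Type*} [Group G] (M : Model G) (h1 : M.mul = a2_6.mul) (h2 : M.eqb = (eqbQ a2_6.mul Nat.beq a2_6.one l34_zs))
    (h3 : M.one = a2_6.one) (vv : ∀ c ∈ l34_g, M.In ⊤ c) {St : Subgroup G} (k1 : Key M St l341_key l341_fix) [Finite G]
    (hN : Nat.card G = 20160) : SBd 2 4 G := by
  obtain ⟨R, one, mul, eqb, a1, a2, a3⟩ := M
  dsimp only at h1 h2 h3
  subst h1 h2 h3
  set M : Model G := ⟨R, a2_6.one, a2_6.mul, (eqbQ a2_6.mul Nat.beq a2_6.one l34_zs), a1, a2, a3⟩ with hM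
  have va := in_of_slpW (M := M) _ vv l34s2_auxok
  obtain ⟨tl34s2L1, hTl34s2L1⟩ := exists_R va (c := (nat_lit 0x43308810)) (by (try dsimp only [M]); decide +kernel)
  have kl34s2L1 : Key M (cjS St tl34s2L1) l34s2L1_key l34s2L1_fix := k1.keyT hTl34s2L1 (R_inv_of hTl34s2L1 (exists_R va (c := (nat_lit 0x43308810)) (by (try dsimp only [M]); decide +kernel)) (by (try dsimp only [M]); decide +kernel)) _
  obtain ⟨tl34s2L2, hTl34s2L2⟩ := exists_R va (c := (nat_lit 0x3cadeec63)) (by (try dsimp only [M]); decide +kernel)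
  have kl34s2L2 : Key M (cjS St tl34s2L2) l34s2L2_key l34s2L2_fix := k1.keyT hTl34s2L2 (R_inv_of hTl34s2L2 (exists_R va (c := (nat_lit 0x99dbda7fa)) (by (try dsimp only [M]); decide +kernel)) (by (try dsimp only [M]); decide +kernel)) _
  have gl34s2L1 : ∀ c ∈ l34s2L1_g, M.In ⊤ c := valid_sub va (by (try dsimp only [M]); decide +kernel)
  have gl34s2L2 := LvD.valid_next (D := l34s2L1) gl34s2L1 l34s2L1_ok l34s2L1_next
  have ll34s2L1 := LvD.le_next (D := l34s2L1) gl34s2L1 l34s2L1_ok l34s2L1_next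
  have gl34s2L3 := LvD.valid_next (D := l34s2L2) gl34s2L2 l34s2L2_ok l34s2L2_next
  have ll34s2L2 := LvD.le_next (D := l34s2L2) gl34s2L2 l34s2L2_ok l34s2L2_next
  have cl34s2L3 : 1 ≤ Nat.card (M.cl l34s2L3_g) := Nat.card_pos
  have cl34s2L2 : 16 ≤ Nat.card (M.cl l34s2L2_g) := le_trans (by (try dsimp only [M]); decide +kernel) (LvD.lower (D := l34s2L2) gl34s2L2 l34s2L2_ok cl34s2L3 ll34s2L2 kl34s2L2 l34s2L2_fx l34s2L2_k)
  have cl34s2L1 : 64 ≤ Nat.card (M.cl l34s2L1_g) := le_trans (by (try dsimp only [M]); decide +kernel) (LvD.lower (D := l34s2L1) gl34s2L1 l34s2L1_ok cl34s2L2 ll34s2L1 kl34s2L1 l34s2L1_fx l34s2L1_k)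
  exact SchD.sbd M l34s2 (n := 6) (by norm_num) hN (valid_sub va (by (try dsimp only [M]); decide +kernel)) (valid_sub va (by (try dsimp only [M]); decide +kernel))
    (le_trans (by norm_num) (cl34s2L1.trans (Subgroup.card_le_of_le (Model.cl_mono (subL_spec (by (try dsimp only [M]); decide +kernel))))))
    (by decide +kernel) l34s2_sh l34s2_rel l34s2_fus l34s2_job l34s2_fin

end H29
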