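import Cfsg.Agent.H29.L34M

set_option autoImplicit false
set_option maxRecDepth 100000
set_option linter.style.haveILetI false
set_option linter.unusedVariables false
set_option linter.style.longLine false
set_option linter.unusedTactic false
set_option linter.unreachableTactic false

namespace H29

noncomputable def l34s3_gl : List ℕ := [nat_lit 0x853bda043, nat_lit 0x2047388d2]
noncomputable def l34s3_fg : List ℕ := [nat_lit 0xee6bda043]
noncomputable def l34s3_J : List Job := [.as (nat_lit 0x8) (nat_lit 0x4) (nat_lit 0x1) (nat_lit 0x600),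
  .fu (nat_lit 0) [nat_lit 0, nat_lit 0, nat_lit 0] [] (nat_lit 0x60080),
  .fu (nat_lit 0) [nat_lit 1, nat_lit 1, nat_lit 1] [] (nat_lit 0x608000)]
noncomputable def l34s3_l1 : List ℕ := [nat_lit 0x0, nat_lit 0x200, nat_lit 0x10000, nat_lit 0x2000]
noncomputable def l34s3 : SchD where
  P := ⟨nat_lit 3, nat_lit 2, nat_lit 2, nat_lit 11, nat_lit 2, nat_lit 3, (pget (nat_lit 0x1c801) (nat_lit 5) (nat_lit 0x1f))⟩
  m1 := nat_lit 4
  nf := nat_lit 2
  rv := (pget (nat_lit 0xe0) (nat_lit 2) (nat_lit 0x3))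
  dk := (pget (nat_lit 0x24) (nat_lit 3) (nat_lit 0x7))
  gl := l34s3_gl
  fg := l34s3_fg
  fa := (pget (nat_lit 0x0) (nat_lit 1) (nat_lit 0x1))
  fr := (pget (nat_lit 0x21) (nat_lit 3) (nat_lit 0x7))
  fs := (pget (nat_lit 0x82) (nat_lit 4) (nat_lit 0xf))
  a := nat_lit 1
  es := [nat_lit 2]
  F := nat_lit 14
  c := nat_lit 4
  J := l34s3_J
  l1 := lget l34s3_l1
  l2 := fun e => Bool.rec (motive := fun _ => ℕ) ((fun _ => nat_lit 0) e) (nat_lit 0x20) (Nat.beq e (nat_lit 2))

noncomputable def l34s3L1_g : List ℕ := [nat_lit 0x853bda043, nat_lit 0x2047388d2]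
noncomputable def l34s3L1_key : ℕ → ℕ := keyT a2_6.mul l341_key (nat_lit 0xa57ca17b9) (nat_lit 143)
noncomputable def l34s3L1_kt : ℕ → ℕ := pget (nat_lit 0xf68f00) (nat_lit 8) (nat_lit 0xff)
noncomputable def l34s3L1_bt : ℕ → ℕ := pget (nat_lit 0x0) (nat_lit 1) (nat_lit 0x1)
noncomputable def l34s3L1 : LvD where
  n := nat_lit 3
  g := l34s3L1_g
  T := [nat_lit 0x853bda043, nat_lit 0x2047388d2, nat_lit 0x8915bd0c2, nat_lit 0x738810e67]
  ab := nat_lit 0x1001000000000000000000
  ia := nat_lit 0x3001002000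
  ib := nat_lit 0x2002002002002002002002002002002002002002002002002002002002002002002002002002002002002002002002002002002002002002002002002002002002002002002002002002002002002002002002002002002002001003000002
  ent := pget (nat_lit 0xc18100) (nat_lit 8) (nat_lit 0xff)
  key := l34s3L1_key
  ks := l34s3L1_kt
  loc := locB l34s3L1_key l34s3L1_kt l34s3L1_bt (nat_lit 8)

noncomputable def l34s3L1_fix : ℕ → Bool := fixT a2_6.mul l341_fix (nat_lit 0xa57ca17b9) (nat_lit 0x853738dad)

noncomputable def l34s3L2_g : List ℕ := [nat_lit 0x853bda043]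
noncomputable def l34s3L2_key : ℕ → ℕ := keyT a2_6.mul l341_key (nat_lit 0xc2891d2c) (nat_lit 80)
noncomputable def l34s3L2_kt : ℕ → ℕ := pget (nat_lit 0xfe1600) (nat_lit 8) (nat_lit 0xff)
noncomputable def l34s3L2_bt : ℕ → ℕ := pget (nat_lit 0x0) (nat_lit 1) (nat_lit 0x1)
noncomputable def l34s3L2 : LvD where
  n := nat_lit 3
  g := l34s3L2_g
  T := [nat_lit 0x853bda043, nat_lit 0x8915bd0c2]
  ab := nat_lit 0x0
  ia := nat_lit 0x1000
  ib := nat_lit 0x1001001001001001001001001001001001001001001001001001001001001001001001001001001001001001001001001001001001001001001001001001001001001001001001001001001001001001001001001001001001001001000001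
  ent := pget (nat_lit 0x104080) (nat_lit 7) (nat_lit 0x7f)
  key := l34s3L2_key
  ks := l34s3L2_kt
  loc := locB l34s3L2_key l34s3L2_kt l34s3L2_bt (nat_lit 8)

noncomputable def l34s3L2_fix : ℕ → Bool := fixT a2_6.mul l341_fix (nat_lit 0xc2891d2c) (nat_lit 0xd2cb99c20)

noncomputable def l34s3L3_g : List ℕ := []
noncomputable def l34s3L3_ls : List Lv := []
noncomputable def l34s3L2_ls : List Lv := l34s3L2.lv a2_6.mul a2_6.one :: l34s3L3_ls
noncomputable def l34s3L1_ls : List Lv := l34s3L1.lv a2_6.mul a2_6.one :: l34s3L2_ls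
noncomputable def l34s3_aux : List ℕ := [nat_lit 0x853bda043, nat_lit 0x2047388d2, nat_lit 0xee6bda043, nat_lit 0xa57ca17b9, nat_lit 0x853738dad, nat_lit 0xc2891d2c, nat_lit 0xd2cb99c20]
theorem l34s3_sh : l34s3.shapeOK = true := by decide +kernel
theorem l34s3_fin : l34s3.finOK = true := by decide +kernel
theorem l34s3_rel_0 : allR (l34s3.relOK a2_6.mul (eqbQ a2_6.mul Nat.beq a2_6.one l34_zs) a2_6.one) (nat_lit 0) (nat_lit 2) = true := by decide +kernel
theorem l34s3_rel : ∀ j < nat_lit 2, (l34s3.relOK a2_6.mul (eqbQ a2_6.mul Nat.beq a2_6.one l34_zs) a2_6.one) j = true :=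
  (allR_step (c := nat_lit 2) (fun _ h => absurd h (Nat.not_lt_zero _)) l34s3_rel_0 (by decide))

theorem l34s3_fus_0 : allR (l34s3.fusOK a2_6.mul (eqbQ a2_6.mul Nat.beq a2_6.one l34_zs) a2_6.one) (nat_lit 0) (nat_lit 2) = true := by decide +kernel
theorem l34s3_fus : ∀ j < nat_lit 2, (l34s3.fusOK a2_6.mul (eqbQ a2_6.mul Nat.beq a2_6.one l34_zs) a2_6.one) j = true :=
  (allR_step (c := nat_lit 2) (fun _ h => absurd h (Nat.not_lt_zero _)) l34s3_fus_0 (by decide))

theorem l34s3_job_0 : allR l34s3.jobOK (nat_lit 0) (nat_lit 3) = true := by decide +kernel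
theorem l34s3_job : ∀ j < nat_lit 3, l34s3.jobOK j = true :=
  (allR_step (c := nat_lit 3) (fun _ h => absurd h (Nat.not_lt_zero _)) l34s3_job_0 (by decide))

theorem l34s3L1_ok : l34s3L1.ok a2_6.mul (eqbQ a2_6.mul Nat.beq a2_6.one l34_zs) a2_6.one = true := by decide +kernel
theorem l34s3L1_next : l34s3L1.nextOK a2_6.mul a2_6.one l34s3L2_g (nat_lit 0x0) = true := by decide +kernel
theorem l34s3L1_fx : allL l34s3L1_fix l34s3L2_g = true := by decide +kernel
theorem l34s3L1_k_0 : allR (kchk l34s3L1_key (l34s3L1.lv a2_6.mul a2_6.one).U l34s3L1_kt (nat_lit 3)) (nat_lit 0) (nat_lit 3) = true := by decide +kernel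
theorem l34s3L1_k : ∀ j < nat_lit 3, (kchk l34s3L1_key (l34s3L1.lv a2_6.mul a2_6.one).U l34s3L1_kt (nat_lit 3)) j = true :=
  (allR_step (c := nat_lit 3) (fun _ h => absurd h (Nat.not_lt_zero _)) l34s3L1_k_0 (by decide))

theorem l34s3L2_ok : l34s3L2.ok a2_6.mul (eqbQ a2_6.mul Nat.beq a2_6.one l34_zs) a2_6.one = true := by decide +kernel
theorem l34s3L2_next : l34s3L2.nextOK a2_6.mul a2_6.one l34s3L3_g (nat_lit 0x0) = true := by decide +kernel
theorem l34s3L2_fx : allL l34s3L2_fix l34s3L3_g = true := by decide +kernel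
theorem l34s3L2_k_0 : allR (kchk l34s3L2_key (l34s3L2.lv a2_6.mul a2_6.one).U l34s3L2_kt (nat_lit 3)) (nat_lit 0) (nat_lit 3) = true := by decide +kernel
theorem l34s3L2_k : ∀ j < nat_lit 3, (kchk l34s3L2_key (l34s3L2.lv a2_6.mul a2_6.one).U l34s3L2_kt (nat_lit 3)) j = true :=
  (allR_step (c := nat_lit 3) (fun _ h => absurd h (Nat.not_lt_zero _)) l34s3L2_k_0 (by decide))

theorem l34s3_auxok : slpR a2_6.mul a2_6.one (wdsOK a2_6.mul a2_6.one l34s3_aux [nat_lit 0x101e027, nat_lit 0x1010020030032030034, nat_lit 0x100100500200f027020, nat_lit 0x100100500201802002000c03002e, nat_lit 0x100100001c00c030034031, nat_lit 0x100402702703002602e, nat_lit 0x100101802002000c03002f032031]) (nat_lit 47) (nat_lit 0x400f01600400d00000100000000800001201900000300001500000c00001301300001b01c01100a00000300300800800700000000601400001300000b00000000100901000f00800300000f00000e00000100d00100c00200b00000100000000f00000400000b00000a00000c00000e00a00c008000000000000006000007000008000001000003006005004)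 l34_g = true := by decide +kernel
theorem l34s3_sbd {G : Type*} [Group G] (M : Model G) (h1 : M.mul = a2_6.mul) (h2 : M.eqb = (eqbQ a2_6.mul Nat.beq a2_6.one l34_zs))
    (h3 : M.one = a2_6.one) (vv : ∀ c ∈ l34_g, M.In ⊤ c) {St : Subgroup G} (k1 : Key M St l341_key l341_fix) [Finite G]
    (hN : Nat.card G = 20160) : SBd 3 1 G := by
  obtain ⟨R, one, mul, eqb, a1, a2, a3⟩ := M
  dsimp only at h1 h2 h3
  subst h1 h2 h3
  set M : Model G := ⟨R, a2_6.one, a2_6.mul, (eqbQ a2_6.mul Nat.beq a2_6.one l34_zs), a1, a2, a3⟩ with hM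
  have va := in_of_slpW (M := M) _ vv l34s3_auxok
  obtain ⟨tl34s3L1, hTl34s3L1⟩ := exists_R va (c := (nat_lit 0xa57ca17b9)) (by (try dsimp only [M]); decide +kernel)
  have kl34s3L1 : Key M (cjS St tl34s3L1) l34s3L1_key l34s3L1_fix := k1.keyT hTl34s3L1 (R_inv_of hTl34s3L1 (exists_R va (c := (nat_lit 0x853738dad)) (by (try dsimp only [M]); decide +kernel)) (by (try dsimp only [M]); decide +kernel)) _
  obtain ⟨tl34s3L2, hTl34s3L2⟩ := exists_R va (c := (nat_lit 0xc2891d2c)) (by (try dsimp only [M]); decide +kernel)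
  have kl34s3L2 : Key M (cjS St tl34s3L2) l34s3L2_key l34s3L2_fix := k1.keyT hTl34s3L2 (R_inv_of hTl34s3L2 (exists_R va (c := (nat_lit 0xd2cb99c20)) (by (try dsimp only [M]); decide +kernel)) (by (try dsimp only [M]); decide +kernel)) _
  have gl34s3L1 : ∀ c ∈ l34s3L1_g, M.In ⊤ c := valid_sub va (by (try dsimp only [M]); decide +kernel)
  have gl34s3L2 := LvD.valid_next (D := l34s3L1) gl34s3L1 l34s3L1_ok l34s3L1_next
  have ll34s3L1 := LvD.le_next (D := l34s3L1) gl34s3L1 l34s3L1_ok l34s3L1_next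
  have gl34s3L3 := LvD.valid_next (D := l34s3L2) gl34s3L2 l34s3L2_ok l34s3L2_next
  have ll34s3L2 := LvD.le_next (D := l34s3L2) gl34s3L2 l34s3L2_ok l34s3L2_next
  have cl34s3L3 : 1 ≤ Nat.card (M.cl l34s3L3_g) := Nat.card_pos
  have cl34s3L2 : 3 ≤ Nat.card (M.cl l34s3L2_g) := le_trans (by (try dsimp only [M]); decide +kernel) (LvD.lower (D := l34s3L2) gl34s3L2 l34s3L2_ok cl34s3L3 ll34s3L2 kl34s3L2 l34s3L2_fx l34s3L2_k)
  have cl34s3L1 : 9 ≤ Nat.card (M.cl l34s3L1_g) := le_trans (by (try dsimp only [M]); decide +kernel) (LvD.lower (D := l34s3L1) gl34s3L1 l34s3L1_ok cl34s3L2 ll34s3L1 kl34s3L1 l34s3L1_fx l34s3L1_k)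
  exact SchD.sbd M l34s3 (n := 2) (by norm_num) hN (valid_sub va (by (try dsimp only [M]); decide +kernel)) (valid_sub va (by (try dsimp only [M]); decide +kernel))
    (le_trans (by norm_num) (cl34s3L1.trans (Subgroup.card_le_of_le (Model.cl_mono (subL_spec (by (try dsimp only [M]); decide +kernel))))))
    (by decide +kernel) l34s3_sh l34s3_rel l34s3_fus l34s3_job l34s3_fin

end H29
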