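import Cfsg.Agent.H29.Mr1D

set_option autoImplicit false
set_option maxRecDepth 100000
set_option linter.style.haveILetI false
set_option linter.unusedVariables false
set_option linter.style.longLine false
set_option linter.unusedTactic false
set_option linter.unreachableTactic false

namespace H29

theorem mrG1_ok : mrG1.ok mrG_mul mrG_eqb mrG_one = true := by decide +kernel
theorem mrG1_next : mrG1.nextOK mrG_mul mrG_one mrG2_g (nat_lit 0x5f00000100004e00005900001000001d) = true := by decide +kernel
theorem mrG1_s_0 : allR (schk mrG_mul mrG_eqb mrG_one mrG1_g (mrG1.lv mrG_mul mrG_one) mrG2_ls) (nat_lit 0) (nat_lit 60) = true := by decide +kernel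
theorem mrG1_s_1 : allR (schk mrG_mul mrG_eqb mrG_one mrG1_g (mrG1.lv mrG_mul mrG_one) mrG2_ls) (nat_lit 60) (nat_lit 52) = true := by decide +kernel
theorem mrG2_ok : mrG2.ok mrG_mul mrG_eqb mrG_one = true := by decide +kernel
theorem mrG2_next : mrG2.nextOK mrG_mul mrG_one mrG3_g (nat_lit 0xd00000500001100001400000300000a00000800000000000c) = true := by decide +kernel
theorem mrG2_s_0 : allR (schk mrG_mul mrG_eqb mrG_one mrG2_g (mrG2.lv mrG_mul mrG_one) mrG3_ls) (nat_lit 0) (nat_lit 30) = true := by decide +kernel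
theorem mrG3_ok : mrG3.ok mrG_mul mrG_eqb mrG_one = true := by decide +kernel
theorem mrG3_next : mrG3.nextOK mrG_mul mrG_one mrG4_g (nat_lit 0x1700000a00000700000d00000200001a) = true := by decide +kernel
theorem mrG3_s_0 : allR (schk mrG_mul mrG_eqb mrG_one mrG3_g (mrG3.lv mrG_mul mrG_one) mrG4_ls) (nat_lit 0) (nat_lit 27) = true := by decide +kernel
theorem mrG4_ok : mrG4.ok mrG_mul mrG_eqb mrG_one = true := by decide +kernel
theorem mrG4_next : mrG4.nextOK mrG_mul mrG_one mrG5_g (nat_lit 0x1000001000001000000000000000001000001000000) = true := by decide +kernel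
theorem mrG4_s_0 : allR (schk mrG_mul mrG_eqb mrG_one mrG4_g (mrG4.lv mrG_mul mrG_one) mrG5_ls) (nat_lit 0) (nat_lit 2) = true := by decide +kernel
theorem mrG5_ok : mrG5.ok mrG_mul mrG_eqb mrG_one = true := by decide +kernel
theorem mrG5_next : mrG5.nextOK mrG_mul mrG_one mrG6_g (nat_lit 0x3000002000003) = true := by decide +kernel
theorem mrG5_s_0 : allR (schk mrG_mul mrG_eqb mrG_one mrG5_g (mrG5.lv mrG_mul mrG_one) mrG6_ls) (nat_lit 0) (nat_lit 6) = true := by decide +kernel
theorem mrG6_ok : mrG6.ok mrG_mul mrG_eqb mrG_one = true := by decide +kernel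
theorem mrG6_next : mrG6.nextOK mrG_mul mrG_one mrG7_g (nat_lit 0x0) = true := by decide +kernel
theorem mrG6_s_0 : allR (schk mrG_mul mrG_eqb mrG_one mrG6_g (mrG6.lv mrG_mul mrG_one) mrG7_ls) (nat_lit 0) (nat_lit 3) = true := by decide +kernel
theorem mrE1_ok : mrE1.ok mrE_mul mrE_eqb mrE_one = true := by decide +kernel
theorem mrE1_next : mrE1.nextOK mrE_mul mrE_one mrE2_g (nat_lit 0x5f000003000042000043000003000014) = true := by decide +kernel

end H29
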