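import Cfsg.Agent.H29.Mr1D

set_option autoImplicit false
set_option maxRecDepth 100000
set_option linter.style.haveILetI false
set_option linter.unusedVariables false
set_option linter.style.longLine false
set_option linter.unusedTactic false
set_option linter.unreachableTactic false

namespace H29

theorem mrE1_s_0 : allR (schk mrE_mul mrE_eqb mrE_one mrE1_g (mrE1.lv mrE_mul mrE_one) mrE2_ls) (nat_lit 0) (nat_lit 60) = true := by decide +kernel
theorem mrE1_s_1 : allR (schk mrE_mul mrE_eqb mrE_one mrE1_g (mrE1.lv mrE_mul mrE_one) mrE2_ls) (nat_lit 60) (nat_lit 52) = true := by decide +kernel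
theorem mrE2_ok : mrE2.ok mrE_mul mrE_eqb mrE_one = true := by decide +kernel
theorem mrE2_next : mrE2.nextOK mrE_mul mrE_one mrE3_g (nat_lit 0x400000600000f00001700000100000c000010000000000001) = true := by decide +kernel
theorem mrE2_s_0 : allR (schk mrE_mul mrE_eqb mrE_one mrE2_g (mrE2.lv mrE_mul mrE_one) mrE3_ls) (nat_lit 0) (nat_lit 30) = true := by decide +kernel
theorem mrE3_ok : mrE3.ok mrE_mul mrE_eqb mrE_one = true := by decide +kernel
theorem mrE3_next : mrE3.nextOK mrE_mul mrE_one mrE4_g (nat_lit 0xa000000000012000014000004000015) = true := by decide +kernel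
theorem mrE3_s_0 : allR (schk mrE_mul mrE_eqb mrE_one mrE3_g (mrE3.lv mrE_mul mrE_one) mrE4_ls) (nat_lit 0) (nat_lit 27) = true := by decide +kernel
theorem mrE4_ok : mrE4.ok mrE_mul mrE_eqb mrE_one = true := by decide +kernel
theorem mrE4_next : mrE4.nextOK mrE_mul mrE_one mrE5_g (nat_lit 0x1000005000000000001000000000000000000000005000001) = true := by decide +kernel
theorem mrE4_s_0 : allR (schk mrE_mul mrE_eqb mrE_one mrE4_g (mrE4.lv mrE_mul mrE_one) mrE5_ls) (nat_lit 0) (nat_lit 2) = true := by decide +kernel
theorem mrE5_ok : mrE5.ok mrE_mul mrE_eqb mrE_one = true := by decide +kernel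
theorem mrE5_next : mrE5.nextOK mrE_mul mrE_one mrE6_g (nat_lit 0x5000005000004) = true := by decide +kernel
theorem mrE5_s_0 : allR (schk mrE_mul mrE_eqb mrE_one mrE5_g (mrE5.lv mrE_mul mrE_one) mrE6_ls) (nat_lit 0) (nat_lit 6) = true := by decide +kernel
theorem mrE6_ok : mrE6.ok mrE_mul mrE_eqb mrE_one = true := by decide +kernel
theorem mrE6_next : mrE6.nextOK mrE_mul mrE_one mrE7_g (nat_lit 0x0) = true := by decide +kernel
theorem mrE6_s_0 : allR (schk mrE_mul mrE_eqb mrE_one mrE6_g (mrE6.lv mrE_mul mrE_one) mrE7_ls) (nat_lit 0) (nat_lit 3) = true := by decide +kernel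
theorem mr_w1 : wdsOK a3_8.mul a3_8.one mrG_a [nat_lit 0x1002002000003001002001000001001003002000, nat_lit 0x1002002000000001003003001002001001000003001, nat_lit 0x1003000002001000002003000003002000002002001, nat_lit 0x1002001001003000002003001002002000003002000000002] u43_g = true := by decide +kernel
theorem mr_w2 : wdsOK a3_8.mul a3_8.one u43_g [nat_lit 0x1002001003001000001000002003001003, nat_lit 0x1001001002001001003001001003003002001001000000, nat_lit 0x1001001003000002001000000001002000001, nat_lit 0x1001001000001000002003001001003001003000002001000001] mrG_a = true := by decide +kernel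

end H29
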