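import Cfsg.Agent.H29.Mr1D

set_option autoImplicit false
set_option maxRecDepth 100000
set_option linter.style.haveILetI false
set_option linter.unusedVariables false
set_option linter.style.longLine false
set_option linter.unusedTactic false
set_option linter.unreachableTactic false

namespace H29

theorem mr_w3 : wdsOK a2_24.mul a2_24.one mrE_g [nat_lit 0x1000, nat_lit 0x1001001000001000000000, nat_lit 0x1000002, nat_lit 0x1003000000] mrE_a = true := by decide +kernel
theorem mr_w4 : wdsOK a2_24.mul a2_24.one mrE_a [nat_lit 0x1000, nat_lit 0x1000001000001001000000, nat_lit 0x1002000, nat_lit 0x1003000000] mrE_g = true := by decide +kernel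
theorem mrX1_ok : mrX1.ok a2_24.mul Nat.beq a2_24.one = true := by decide +kernel
theorem mrX1_next : mrX1.nextOK a2_24.mul a2_24.one mrX2_g (nat_lit 0x500001600000500005d00001100006f) = true := by decide +kernel
theorem mrX1_fx : allL mrX1_fix mrX2_g = true := by decide +kernel
theorem mrX1_s_0 : allR (schk a2_24.mul Nat.beq a2_24.one mrX1_g (mrX1.lv a2_24.mul a2_24.one) mrX2_ls) (nat_lit 0) (nat_lit 60) = true := by decide +kernel
theorem mrX1_s_1 : allR (schk a2_24.mul Nat.beq a2_24.one mrX1_g (mrX1.lv a2_24.mul a2_24.one) mrX2_ls) (nat_lit 60) (nat_lit 52) = true := by decide +kernel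
theorem mrX1_k_0 : allR (kchk mrX1_key (mrX1.lv a2_24.mul a2_24.one).U mrX1_kt (nat_lit 112)) (nat_lit 0) (nat_lit 112) = true := by decide +kernel
theorem mrX2_ok : mrX2.ok a2_24.mul Nat.beq a2_24.one = true := by decide +kernel
theorem mrX2_next : mrX2.nextOK a2_24.mul a2_24.one mrX3_g (nat_lit 0x800000000000200000e000000000019000011000007000018) = true := by decide +kernel
theorem mrX2_fx : allL mrX2_fix mrX3_g = true := by decide +kernel
theorem mrX2_s_0 : allR (schk a2_24.mul Nat.beq a2_24.one mrX2_g (mrX2.lv a2_24.mul a2_24.one) mrX3_ls) (nat_lit 0) (nat_lit 30) = true := by decide +kernel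
theorem mrX2_k_0 : allR (kchk mrX2_key (mrX2.lv a2_24.mul a2_24.one).U mrX2_kt (nat_lit 30)) (nat_lit 0) (nat_lit 30) = true := by decide +kernel
theorem mrX3_ok : mrX3.ok a2_24.mul Nat.beq a2_24.one = true := by decide +kernel
theorem mrX3_next : mrX3.nextOK a2_24.mul a2_24.one mrX4_g (nat_lit 0xf00000200000800000b00000800000d) = true := by decide +kernel
theorem mrX3_fx : allL mrX3_fix mrX4_g = true := by decide +kernel
theorem mrX3_s_0 : allR (schk a2_24.mul Nat.beq a2_24.one mrX3_g (mrX3.lv a2_24.mul a2_24.one) mrX4_ls) (nat_lit 0) (nat_lit 27) = true := by decide +kernel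
theorem mrX3_k_0 : allR (kchk mrX3_key (mrX3.lv a2_24.mul a2_24.one).U mrX3_kt (nat_lit 27)) (nat_lit 0) (nat_lit 27) = true := by decide +kernel
theorem mrX4_ok : mrX4.ok a2_24.mul Nat.beq a2_24.one = true := by decide +kernel
theorem mrX4_next : mrX4.nextOK a2_24.mul a2_24.one mrX5_g (nat_lit 0x1000001000004) = true := by decide +kernel
theorem mrX4_fx : allL mrX4_fix mrX5_g = true := by decide +kernel
theorem mrX4_s_0 : allR (schk a2_24.mul Nat.beq a2_24.one mrX4_g (mrX4.lv a2_24.mul a2_24.one) mrX5_ls) (nat_lit 0) (nat_lit 9) = true := by decide +kernel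

end H29
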