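import Cfsg.Agent.H29.Mr1D
import Cfsg.Agent.H29.Mr1C1
import Cfsg.Agent.H29.Mr1C2
import Cfsg.Agent.H29.Mr1C3
import Cfsg.Agent.H29.Mr1C4

set_option autoImplicit false
set_option maxRecDepth 100000
set_option linter.style.haveILetI false
set_option linter.unusedVariables false
set_option linter.style.longLine false
set_option linter.unusedTactic false
set_option linter.unreachableTactic false

namespace H29

theorem mrG1_s : ∀ j < nat_lit 112, (schk mrG_mul mrG_eqb mrG_one mrG1_g (mrG1.lv mrG_mul mrG_one) mrG2_ls) j = true :=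
  (allR_step (c := nat_lit 112) (allR_step (c := nat_lit 60) (fun _ h => absurd h (Nat.not_lt_zero _)) mrG1_s_0 (by decide)) mrG1_s_1 (by decide))

theorem mrG2_s : ∀ j < nat_lit 30, (schk mrG_mul mrG_eqb mrG_one mrG2_g (mrG2.lv mrG_mul mrG_one) mrG3_ls) j = true :=
  (allR_step (c := nat_lit 30) (fun _ h => absurd h (Nat.not_lt_zero _)) mrG2_s_0 (by decide))

theorem mrG3_s : ∀ j < nat_lit 27, (schk mrG_mul mrG_eqb mrG_one mrG3_g (mrG3.lv mrG_mul mrG_one) mrG4_ls) j = true :=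
  (allR_step (c := nat_lit 27) (fun _ h => absurd h (Nat.not_lt_zero _)) mrG3_s_0 (by decide))

theorem mrG4_s : ∀ j < nat_lit 2, (schk mrG_mul mrG_eqb mrG_one mrG4_g (mrG4.lv mrG_mul mrG_one) mrG5_ls) j = true :=
  (allR_step (c := nat_lit 2) (fun _ h => absurd h (Nat.not_lt_zero _)) mrG4_s_0 (by decide))

theorem mrG5_s : ∀ j < nat_lit 6, (schk mrG_mul mrG_eqb mrG_one mrG5_g (mrG5.lv mrG_mul mrG_one) mrG6_ls) j = true :=
  (allR_step (c := nat_lit 6) (fun _ h => absurd h (Nat.not_lt_zero _)) mrG5_s_0 (by decide))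

theorem mrG6_s : ∀ j < nat_lit 3, (schk mrG_mul mrG_eqb mrG_one mrG6_g (mrG6.lv mrG_mul mrG_one) mrG7_ls) j = true :=
  (allR_step (c := nat_lit 3) (fun _ h => absurd h (Nat.not_lt_zero _)) mrG6_s_0 (by decide))

theorem mrE1_s : ∀ j < nat_lit 112, (schk mrE_mul mrE_eqb mrE_one mrE1_g (mrE1.lv mrE_mul mrE_one) mrE2_ls) j = true :=
  (allR_step (c := nat_lit 112) (allR_step (c := nat_lit 60) (fun _ h => absurd h (Nat.not_lt_zero _)) mrE1_s_0 (by decide)) mrE1_s_1 (by decide))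

theorem mrE2_s : ∀ j < nat_lit 30, (schk mrE_mul mrE_eqb mrE_one mrE2_g (mrE2.lv mrE_mul mrE_one) mrE3_ls) j = true :=
  (allR_step (c := nat_lit 30) (fun _ h => absurd h (Nat.not_lt_zero _)) mrE2_s_0 (by decide))

theorem mrE3_s : ∀ j < nat_lit 27, (schk mrE_mul mrE_eqb mrE_one mrE3_g (mrE3.lv mrE_mul mrE_one) mrE4_ls) j = true :=
  (allR_step (c := nat_lit 27) (fun _ h => absurd h (Nat.not_lt_zero _)) mrE3_s_0 (by decide))

theorem mrE4_s : ∀ j < nat_lit 2, (schk mrE_mul mrE_eqb mrE_one mrE4_g (mrE4.lv mrE_mul mrE_one) mrE5_ls) j = true :=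
  (allR_step (c := nat_lit 2) (fun _ h => absurd h (Nat.not_lt_zero _)) mrE4_s_0 (by decide))

theorem mrE5_s : ∀ j < nat_lit 6, (schk mrE_mul mrE_eqb mrE_one mrE5_g (mrE5.lv mrE_mul mrE_one) mrE6_ls) j = true :=
  (allR_step (c := nat_lit 6) (fun _ h => absurd h (Nat.not_lt_zero _)) mrE5_s_0 (by decide))

theorem mrE6_s : ∀ j < nat_lit 3, (schk mrE_mul mrE_eqb mrE_one mrE6_g (mrE6.lv mrE_mul mrE_one) mrE7_ls) j = true :=
  (allR_step (c := nat_lit 3) (fun _ h => absurd h (Nat.not_lt_zero _)) mrE6_s_0 (by decide))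

theorem mrX1_s : ∀ j < nat_lit 112, (schk a2_24.mul Nat.beq a2_24.one mrX1_g (mrX1.lv a2_24.mul a2_24.one) mrX2_ls) j = true :=
  (allR_step (c := nat_lit 112) (allR_step (c := nat_lit 60) (fun _ h => absurd h (Nat.not_lt_zero _)) mrX1_s_0 (by decide)) mrX1_s_1 (by decide))

theorem mrX1_k : ∀ j < nat_lit 112, (kchk mrX1_key (mrX1.lv a2_24.mul a2_24.one).U mrX1_kt (nat_lit 112)) j = true :=
  (allR_step (c := nat_lit 112) (fun _ h => absurd h (Nat.not_lt_zero _)) mrX1_k_0 (by decide))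

theorem mrX2_s : ∀ j < nat_lit 30, (schk a2_24.mul Nat.beq a2_24.one mrX2_g (mrX2.lv a2_24.mul a2_24.one) mrX3_ls) j = true :=
  (allR_step (c := nat_lit 30) (fun _ h => absurd h (Nat.not_lt_zero _)) mrX2_s_0 (by decide))

theorem mrX2_k : ∀ j < nat_lit 30, (kchk mrX2_key (mrX2.lv a2_24.mul a2_24.one).U mrX2_kt (nat_lit 30)) j = true :=
  (allR_step (c := nat_lit 30) (fun _ h => absurd h (Nat.not_lt_zero _)) mrX2_k_0 (by decide))

theorem mrX3_s : ∀ j < nat_lit 27, (schk a2_24.mul Nat.beq a2_24.one mrX3_g (mrX3.lv a2_24.mul a2_24.one) mrX4_ls) j = true :=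
  (allR_step (c := nat_lit 27) (fun _ h => absurd h (Nat.not_lt_zero _)) mrX3_s_0 (by decide))

theorem mrX3_k : ∀ j < nat_lit 27, (kchk mrX3_key (mrX3.lv a2_24.mul a2_24.one).U mrX3_kt (nat_lit 27)) j = true :=
  (allR_step (c := nat_lit 27) (fun _ h => absurd h (Nat.not_lt_zero _)) mrX3_k_0 (by decide))

theorem mrX4_s : ∀ j < nat_lit 9, (schk a2_24.mul Nat.beq a2_24.one mrX4_g (mrX4.lv a2_24.mul a2_24.one) mrX5_ls) j = true :=
  (allR_step (c := nat_lit 9) (fun _ h => absurd h (Nat.not_lt_zero _)) mrX4_s_0 (by decide))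

theorem mrX4_k : ∀ j < nat_lit 9, (kchk mrX4_key (mrX4.lv a2_24.mul a2_24.one).U mrX4_kt (nat_lit 9)) j = true :=
  (allR_step (c := nat_lit 9) (fun _ h => absurd h (Nat.not_lt_zero _)) mrX4_k_0 (by decide))

theorem mrX5_s : ∀ j < nat_lit 4, (schk a2_24.mul Nat.beq a2_24.one mrX5_g (mrX5.lv a2_24.mul a2_24.one) mrX6_ls) j = true :=
  (allR_step (c := nat_lit 4) (fun _ h => absurd h (Nat.not_lt_zero _)) mrX5_s_0 (by decide))

theorem mrX5_k : ∀ j < nat_lit 4, (kchk mrX5_key (mrX5.lv a2_24.mul a2_24.one).U mrX5_kt (nat_lit 4)) j = true :=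
  (allR_step (c := nat_lit 4) (fun _ h => absurd h (Nat.not_lt_zero _)) mrX5_k_0 (by decide))

theorem mrG_chain {G : Type*} [Group G] (M : Model G) (h1 : M.mul = mrG_mul) (h2 : M.eqb = mrG_eqb)
    (h3 : M.one = mrG_one) (g1 : ∀ c ∈ mrG1_g, M.In ⊤ c) : Chain M (M.cl mrG1_g) mrG1_ls := by
  obtain ⟨R, one, mul, eqb, a1, a2, a3⟩ := M
  dsimp only at h1 h2 h3
  subst h1 h2 h3
  set M : Model G := ⟨R, mrG_one, mrG_mul, mrG_eqb, a1, a2, a3⟩ with hM
  have g2 := LvD.valid_next (D := mrG1) g1 mrG1_ok mrG1_next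
  have g3 := LvD.valid_next (D := mrG2) g2 mrG2_ok mrG2_next
  have g4 := LvD.valid_next (D := mrG3) g3 mrG3_ok mrG3_next
  have g5 := LvD.valid_next (D := mrG4) g4 mrG4_ok mrG4_next
  have g6 := LvD.valid_next (D := mrG5) g5 mrG5_ok mrG5_next
  have g7 := LvD.valid_next (D := mrG6) g6 mrG6_ok mrG6_next
  have e7 : Chain M (M.cl mrG7_g) mrG7_ls := Exact.nil.1
  have e6 := LvD.chain (D := mrG6) g6 mrG6_ok e7 (LvD.le_next (D := mrG6) g6 mrG6_ok mrG6_next) mrG6_s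
  have e5 := LvD.chain (D := mrG5) g5 mrG5_ok e6 (LvD.le_next (D := mrG5) g5 mrG5_ok mrG5_next) mrG5_s
  have e4 := LvD.chain (D := mrG4) g4 mrG4_ok e5 (LvD.le_next (D := mrG4) g4 mrG4_ok mrG4_next) mrG4_s
  have e3 := LvD.chain (D := mrG3) g3 mrG3_ok e4 (LvD.le_next (D := mrG3) g3 mrG3_ok mrG3_next) mrG3_s
  have e2 := LvD.chain (D := mrG2) g2 mrG2_ok e3 (LvD.le_next (D := mrG2) g2 mrG2_ok mrG2_next) mrG2_s
  have e1 := LvD.chain (D := mrG1) g1 mrG1_ok e2 (LvD.le_next (D := mrG1) g1 mrG1_ok mrG1_next) mrG1_s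
  exact e1

theorem mrG_hom {G A : Type*} [Group G] [Group A] (M : Model G) (N : Model A) (h1 : M.mul = a2_24.mul) (h2 : M.eqb = Nat.beq)
    (h3 : M.one = a2_24.one) (k1 : N.mul = a3_8.mul) (k2 : N.eqb = (eqbQ a3_8.mul Nat.beq a3_8.one u43_zs)) (k3 : N.one = a3_8.one)
    (hs : ∀ a g, M.R a g → a < 2 ^ (nat_lit 576)) (hg : ∀ c ∈ mrG_g, M.In ⊤ c) (ha : ∀ c ∈ mrG_a, N.In ⊤ c)
    {K : Subgroup G} (hK : M.cl mrG_g = K) (hc : 3265920 ≤ Nat.card K) :
    ∃ φ : K →* A, φ.range = N.cl mrG_a ∧ ∀ i < mrG_g.length, ∀ x y, M.R (lgetD 0 mrG_g i) x → N.R (lgetD 0 mrG_a i) y →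
      ∀ hx, φ ⟨x, hx⟩ = y := by
  obtain ⟨R, one, mul, eqb, a1, a2, a3⟩ := M
  obtain ⟨R', one', mul', eqb', b1, b2, b3⟩ := N
  dsimp only at h1 h2 h3 k1 k2 k3
  subst h1 h2 h3 k1 k2 k3
  exact exists_hom_of_graph (L := mrG1_g) (s := nat_lit 576) (mk := (nat_lit 0xffffffffffffffffffffffffffffffffffffffffffffffffffffffffffffffffffffffffffffffffffffffffffffffffffffffffffffffffffffffffffffffffffffffffffffffff)) (one := mrG_one) (hs := hs) (hmk := by decide +kernel)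
    (hone := by dsimp only; decide +kernel) hg ha (by decide +kernel)
    (mrG_chain _ (by unfold mrG_mul; dsimp only [Model.prod]) (by unfold mrG_eqb; dsimp only [Model.prod]) (by dsimp only [Model.prod]))
    hK (le_trans (by decide +kernel) hc)

theorem mrE_chain {G : Type*} [Group G] (M : Model G) (h1 : M.mul = mrE_mul) (h2 : M.eqb = mrE_eqb)
    (h3 : M.one = mrE_one) (g1 : ∀ c ∈ mrE1_g, M.In ⊤ c) : Chain M (M.cl mrE1_g) mrE1_ls := by
  obtain ⟨R, one, mul, eqb, a1, a2, a3⟩ := M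
  dsimp only at h1 h2 h3
  subst h1 h2 h3
  set M : Model G := ⟨R, mrE_one, mrE_mul, mrE_eqb, a1, a2, a3⟩ with hM
  have g2 := LvD.valid_next (D := mrE1) g1 mrE1_ok mrE1_next
  have g3 := LvD.valid_next (D := mrE2) g2 mrE2_ok mrE2_next
  have g4 := LvD.valid_next (D := mrE3) g3 mrE3_ok mrE3_next
  have g5 := LvD.valid_next (D := mrE4) g4 mrE4_ok mrE4_next
  have g6 := LvD.valid_next (D := mrE5) g5 mrE5_ok mrE5_next
  have g7 := LvD.valid_next (D := mrE6) g6 mrE6_ok mrE6_next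
  have e7 : Chain M (M.cl mrE7_g) mrE7_ls := Exact.nil.1
  have e6 := LvD.chain (D := mrE6) g6 mrE6_ok e7 (LvD.le_next (D := mrE6) g6 mrE6_ok mrE6_next) mrE6_s
  have e5 := LvD.chain (D := mrE5) g5 mrE5_ok e6 (LvD.le_next (D := mrE5) g5 mrE5_ok mrE5_next) mrE5_s
  have e4 := LvD.chain (D := mrE4) g4 mrE4_ok e5 (LvD.le_next (D := mrE4) g4 mrE4_ok mrE4_next) mrE4_s
  have e3 := LvD.chain (D := mrE3) g3 mrE3_ok e4 (LvD.le_next (D := mrE3) g3 mrE3_ok mrE3_next) mrE3_s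
  have e2 := LvD.chain (D := mrE2) g2 mrE2_ok e3 (LvD.le_next (D := mrE2) g2 mrE2_ok mrE2_next) mrE2_s
  have e1 := LvD.chain (D := mrE1) g1 mrE1_ok e2 (LvD.le_next (D := mrE1) g1 mrE1_ok mrE1_next) mrE1_s
  exact e1

theorem mrE_hom {G A : Type*} [Group G] [Group A] (M : Model G) (N : Model A) (h1 : M.mul = a2_24.mul) (h2 : M.eqb = Nat.beq)
    (h3 : M.one = a2_24.one) (k1 : N.mul = a2_24.mul) (k2 : N.eqb = Nat.beq) (k3 : N.one = a2_24.one)
    (hs : ∀ a g, M.R a g → a < 2 ^ (nat_lit 576)) (hg : ∀ c ∈ mrE_g, M.In ⊤ c) (ha : ∀ c ∈ mrE_a, N.In ⊤ c)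
    {K : Subgroup G} (hK : M.cl mrE_g = K) (hc : 3265920 ≤ Nat.card K) :
    ∃ φ : K →* A, φ.range = N.cl mrE_a ∧ ∀ i < mrE_g.length, ∀ x y, M.R (lgetD 0 mrE_g i) x → N.R (lgetD 0 mrE_a i) y →
      ∀ hx, φ ⟨x, hx⟩ = y := by
  obtain ⟨R, one, mul, eqb, a1, a2, a3⟩ := M
  obtain ⟨R', one', mul', eqb', b1, b2, b3⟩ := N
  dsimp only at h1 h2 h3 k1 k2 k3
  subst h1 h2 h3 k1 k2 k3
  exact exists_hom_of_graph (L := mrE1_g) (s := nat_lit 576) (mk := (nat_lit 0xffffffffffffffffffffffffffffffffffffffffffffffffffffffffffffffffffffffffffffffffffffffffffffffffffffffffffffffffffffffffffffffffffffffffffffffff)) (one := mrE_one) (hs := hs) (hmk := by decide +kernel)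
    (hone := by dsimp only; decide +kernel) hg ha (by decide +kernel)
    (mrE_chain _ (by unfold mrE_mul; dsimp only [Model.prod]) (by unfold mrE_eqb; dsimp only [Model.prod]) (by dsimp only [Model.prod]))
    hK (le_trans (by decide +kernel) hc)

theorem mrX_card {G : Type*} [Group G] (M : Model G) (h1 : M.mul = a2_24.mul) (h2 : M.eqb = Nat.beq)
    (h3 : M.one = a2_24.one) (vv : ∀ c ∈ cMc_g, M.In ⊤ c) {St : Subgroup G} (k1 : Key M St cMc1_key cMc1_fix) [Finite G] : (∀ c ∈ mrX_aux, M.In ⊤ c) ∧ (∀ c ∈ mrX1_g, M.In ⊤ c) ∧ Nat.card (M.cl mrX1_g) = 3265920 := by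
  obtain ⟨R, one, mul, eqb, a1, a2, a3⟩ := M
  dsimp only at h1 h2 h3
  subst h1 h2 h3
  set M : Model G := ⟨R, a2_24.one, a2_24.mul, Nat.beq, a1, a2, a3⟩ with hM
  have va := in_of_slpW (M := M) _ vv mrX_auxok
  obtain ⟨tmrX1, hTmrX1⟩ := exists_R va (c := (nat_lit 0x7e7ed7949a7abe70a9efc43eec0049c4300d7af06d6f7235c10aee3da00057fc29c1a6f80004006fa908000fab8a4efbbb6f9baff530081bf34bf882b40eb78800016305affe7ed6)) (by (try dsimp only [M]); decide +kernel)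
  have kmrX1 : Key M (cjS St tmrX1) mrX1_key mrX1_fix := k1.keyT hTmrX1 (R_inv_of hTmrX1 (exists_R va (c := (nat_lit 0x57adbf8cc0c139eff6d7e349800005bf6321c43fd0f572998146eeede143a51bec7ff2559ed001000800e04c6f963e13a84efb95fa58bda001fdb46297b64afafc12bd5d73d7adbe)) (by (try dsimp only [M]); decide +kernel)) (by (try dsimp only [M]); decide +kernel)) _
  obtain ⟨tmrX2, hTmrX2⟩ := exists_R va (c := (nat_lit 0x68c80ea7f391302f7c39d451d337e4d50fb29897de65b2f12ff53110cef6fdc341308ff45f3ce377f38b1feeda3e7f7e4193f96ed0c83ee1a0402dbbc144db0146ef1bfbf2e8c80f)) (by (try dsimp only [M]); decide +kernel)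
  have kmrX2 : Key M (cjS St tmrX2) mrX2_key mrX2_fix := k1.keyT hTmrX2 (R_inv_of hTmrX2 (exists_R va (c := (nat_lit 0x7c061000bcfec10aee1118eb79af7ec8abde809be69c23feffd12b74e0658069be1b194ddd6d4066cd9702ec8fcbdde51cbd7e3fa9803db50810d4804315eb5337e57e676efc0611)) (by (try dsimp only [M]); decide +kernel)) (by (try dsimp only [M]); decide +kernel)) _
  obtain ⟨tmrX3, hTmrX3⟩ := exists_R va (c := (nat_lit 0xdfc71f33ec2166e861949a7a93796e302f7c5fe9614ffc491ed0007d18398008017659531c23ff5337e5d207772fefd7c93ee57792c2fd7446e7f62480867ffaf0e4cfad965fc71e)) (by (try dsimp only [M]); decide +kernel)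
  have kmrX3 : Key M (cjS St tmrX3) mrX3_key mrX3_fix := k1.keyT hTmrX3 (R_inv_of hTmrX3 (exists_R va (c := (nat_lit 0x9fd7bb20ad7e809be666e8617d7545a1a901eed0c953b815308ff41b194d2d78477ff25580200169f40a868ed7eabed7bb56f8bda001ebf61430afaf72a6fd5eb08c151aeb1fd7ba)) (by (try dsimp only [M]); decide +kernel)) (by (try dsimp only [M]); decide +kernel)) _
  obtain ⟨tmrX4, hTmrX4⟩ := exists_R va (c := (nat_lit 0x634e7b7af0e5c94dac6b59a5828fc6f3418fe301f6884bdc001000ded285c4300d9837be6637826de142f6c51a9847f7804ddd192110c6f750820001e4fb90443fd1d1acb7e34e7a)) (by (try dsimp only [M]); decide +kernel)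
  have kmrX4 : Key M (cjS St tmrX4) mrX4_key mrX4_fix := k1.keyT hTmrX4 (R_inv_of hTmrX4 (exists_R va (c := (nat_lit 0x7c6fbf90d4818785eec159f8fdc341fe6229800011c1a80310cef694a1055cb05500800057e34868424068ee3fa0c440d38c8feba8509a3e420146efdf47be6de14246efb2fc6fbe)) (by (try dsimp only [M]); decide +kernel)) (by (try dsimp only [M]); decide +kernel)) _
  obtain ⟨tmrX5, hTmrX5⟩ := exists_R va (c := (nat_lit 0x67ab7d9ef0a3e63783a8cfea7f5cc18785eeff7983f9d6030080002ff5319897de90d481810cfd3148dfa394dbed0cb72c169d041e9fbda001dfd036840e3ffafc12773f7ce7ab7c)) (by (try dsimp only [M]); decide +kernel)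
  have kmrX5 : Key M (cjS St tmrX5) mrX5_key mrX5_fix := k1.keyT hTmrX5 (R_inv_of hTmrX5 (exists_R va (c := (nat_lit 0x453d5f3df8b1809be61dda2dfbca815f8661bee1a18902fe008000b24221308ff465b2f17b56083dd580b9d3fb5a573b776f7c1837bf57e09a01d4020116a777f38b0007afc53d5e)) (by (try dsimp only [M]); decide +kernel)) (by (try dsimp only [M]); decide +kernel)) _
  have gmrX1 : ∀ c ∈ mrX1_g, M.In ⊤ c := valid_sub va (by (try dsimp only [M]); decide +kernel)
  have gmrX2 := LvD.valid_next (D := mrX1) gmrX1 mrX1_ok mrX1_next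
  have lmrX1 := LvD.le_next (D := mrX1) gmrX1 mrX1_ok mrX1_next
  have gmrX3 := LvD.valid_next (D := mrX2) gmrX2 mrX2_ok mrX2_next
  have lmrX2 := LvD.le_next (D := mrX2) gmrX2 mrX2_ok mrX2_next
  have gmrX4 := LvD.valid_next (D := mrX3) gmrX3 mrX3_ok mrX3_next
  have lmrX3 := LvD.le_next (D := mrX3) gmrX3 mrX3_ok mrX3_next
  have gmrX5 := LvD.valid_next (D := mrX4) gmrX4 mrX4_ok mrX4_next
  have lmrX4 := LvD.le_next (D := mrX4) gmrX4 mrX4_ok mrX4_next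
  have gmrX6 := LvD.valid_next (D := mrX5) gmrX5 mrX5_ok mrX5_next
  have lmrX5 := LvD.le_next (D := mrX5) gmrX5 mrX5_ok mrX5_next
  have emrX6 : Exact M (M.cl mrX6_g) mrX6_ls ∧ True := ⟨Exact.nil, trivial⟩
  have emrX5 := LvD.exact (D := mrX5) gmrX5 mrX5_ok emrX6.1 lmrX5 mrX5_s kmrX5 mrX5_fx mrX5_k
  have emrX4 := LvD.exact (D := mrX4) gmrX4 mrX4_ok emrX5.1 lmrX4 mrX4_s kmrX4 mrX4_fx mrX4_k
  have emrX3 := LvD.exact (D := mrX3) gmrX3 mrX3_ok emrX4.1 lmrX3 mrX3_s kmrX3 mrX3_fx mrX3_k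
  have emrX2 := LvD.exact (D := mrX2) gmrX2 mrX2_ok emrX3.1 lmrX2 mrX2_s kmrX2 mrX2_fx mrX2_k
  have emrX1 := LvD.exact (D := mrX1) gmrX1 mrX1_ok emrX2.1 lmrX1 mrX1_s kmrX1 mrX1_fx mrX1_k
  have cmrX : Nat.card (M.cl mrX1_g) = 3265920 := emrX1.1.2.trans (by (try dsimp only [M]); decide +kernel)
  exact ⟨va, gmrX1, cmrX⟩

end H29
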