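import Cfsg.Agent.H29.Mr2D
import Cfsg.Agent.H29.Mr2C1
import Cfsg.Agent.H29.Mr2C2
import Cfsg.Agent.H29.Mr2C3
import Cfsg.Agent.H29.Mr2C4
import Cfsg.Agent.H29.Mr2C5
import Cfsg.Agent.H29.Mr2C6
import Cfsg.Agent.H29.Mr2C7
import Cfsg.Agent.H29.Mr2C8

set_option autoImplicit false
set_option maxRecDepth 100000
set_option linter.style.haveILetI false
set_option linter.unusedVariables false
set_option linter.style.longLine false
set_option linter.unusedTactic false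
set_option linter.unreachableTactic false

namespace H29

theorem mrJ1_s : ∀ j < nat_lit 30, (schk a2_24.mul Nat.beq a2_24.one mrJ1_g (mrJ1.lv a2_24.mul a2_24.one) mrJ2_ls) j = true :=
  (allR_step (c := nat_lit 30) (fun _ h => absurd h (Nat.not_lt_zero _)) mrJ1_s_0 (by decide))

theorem mrJ1_k : ∀ j < nat_lit 30, (kchk mrJ1_key (mrJ1.lv a2_24.mul a2_24.one).U mrJ1_kt (nat_lit 30)) j = true :=
  (allR_step (c := nat_lit 30) (fun _ h => absurd h (Nat.not_lt_zero _)) mrJ1_k_0 (by decide))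

theorem mrJ2_s : ∀ j < nat_lit 2, (schk a2_24.mul Nat.beq a2_24.one mrJ2_g (mrJ2.lv a2_24.mul a2_24.one) mrJ3_ls) j = true :=
  (allR_step (c := nat_lit 2) (fun _ h => absurd h (Nat.not_lt_zero _)) mrJ2_s_0 (by decide))

theorem mrJ2_k : ∀ j < nat_lit 2, (kchk mrJ2_key (mrJ2.lv a2_24.mul a2_24.one).U mrJ2_kt (nat_lit 2)) j = true :=
  (allR_step (c := nat_lit 2) (fun _ h => absurd h (Nat.not_lt_zero _)) mrJ2_k_0 (by decide))

theorem mrJ3_s : ∀ j < nat_lit 27, (schk a2_24.mul Nat.beq a2_24.one mrJ3_g (mrJ3.lv a2_24.mul a2_24.one) mrJ4_ls) j = true :=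
  (allR_step (c := nat_lit 27) (fun _ h => absurd h (Nat.not_lt_zero _)) mrJ3_s_0 (by decide))

theorem mrJ3_k : ∀ j < nat_lit 27, (kchk mrJ3_key (mrJ3.lv a2_24.mul a2_24.one).U mrJ3_kt (nat_lit 27)) j = true :=
  (allR_step (c := nat_lit 27) (fun _ h => absurd h (Nat.not_lt_zero _)) mrJ3_k_0 (by decide))

theorem mrJ4_s : ∀ j < nat_lit 6, (schk a2_24.mul Nat.beq a2_24.one mrJ4_g (mrJ4.lv a2_24.mul a2_24.one) mrJ5_ls) j = true :=
  (allR_step (c := nat_lit 6) (fun _ h => absurd h (Nat.not_lt_zero _)) mrJ4_s_0 (by decide))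

theorem mrJ4_k : ∀ j < nat_lit 6, (kchk mrJ4_key (mrJ4.lv a2_24.mul a2_24.one).U mrJ4_kt (nat_lit 6)) j = true :=
  (allR_step (c := nat_lit 6) (fun _ h => absurd h (Nat.not_lt_zero _)) mrJ4_k_0 (by decide))

theorem mrJ5_s : ∀ j < nat_lit 3, (schk a2_24.mul Nat.beq a2_24.one mrJ5_g (mrJ5.lv a2_24.mul a2_24.one) mrJ6_ls) j = true :=
  (allR_step (c := nat_lit 3) (fun _ h => absurd h (Nat.not_lt_zero _)) mrJ5_s_0 (by decide))

theorem mrJ5_k : ∀ j < nat_lit 3, (kchk mrJ5_key (mrJ5.lv a2_24.mul a2_24.one).U mrJ5_kt (nat_lit 3)) j = true :=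
  (allR_step (c := nat_lit 3) (fun _ h => absurd h (Nat.not_lt_zero _)) mrJ5_k_0 (by decide))

theorem mrU1_s : ∀ j < nat_lit 2, (schk a2_24.mul Nat.beq a2_24.one mrU1_g (mrU1.lv a2_24.mul a2_24.one) mrU2_ls) j = true :=
  (allR_step (c := nat_lit 2) (fun _ h => absurd h (Nat.not_lt_zero _)) mrU1_s_0 (by decide))

theorem mrU1_k : ∀ j < nat_lit 2, (kchk mrU1_key (mrU1.lv a2_24.mul a2_24.one).U mrU1_kt (nat_lit 2)) j = true :=
  (allR_step (c := nat_lit 2) (fun _ h => absurd h (Nat.not_lt_zero _)) mrU1_k_0 (by decide))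

theorem mrU2_s : ∀ j < nat_lit 27, (schk a2_24.mul Nat.beq a2_24.one mrU2_g (mrU2.lv a2_24.mul a2_24.one) mrU3_ls) j = true :=
  (allR_step (c := nat_lit 27) (fun _ h => absurd h (Nat.not_lt_zero _)) mrU2_s_0 (by decide))

theorem mrU2_k : ∀ j < nat_lit 27, (kchk mrU2_key (mrU2.lv a2_24.mul a2_24.one).U mrU2_kt (nat_lit 27)) j = true :=
  (allR_step (c := nat_lit 27) (fun _ h => absurd h (Nat.not_lt_zero _)) mrU2_k_0 (by decide))

theorem mrU3_s : ∀ j < nat_lit 6, (schk a2_24.mul Nat.beq a2_24.one mrU3_g (mrU3.lv a2_24.mul a2_24.one) mrU4_ls) j = true :=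
  (allR_step (c := nat_lit 6) (fun _ h => absurd h (Nat.not_lt_zero _)) mrU3_s_0 (by decide))

theorem mrU3_k : ∀ j < nat_lit 6, (kchk mrU3_key (mrU3.lv a2_24.mul a2_24.one).U mrU3_kt (nat_lit 6)) j = true :=
  (allR_step (c := nat_lit 6) (fun _ h => absurd h (Nat.not_lt_zero _)) mrU3_k_0 (by decide))

theorem mrU4_s : ∀ j < nat_lit 3, (schk a2_24.mul Nat.beq a2_24.one mrU4_g (mrU4.lv a2_24.mul a2_24.one) mrU5_ls) j = true :=
  (allR_step (c := nat_lit 3) (fun _ h => absurd h (Nat.not_lt_zero _)) mrU4_s_0 (by decide))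

theorem mrU4_k : ∀ j < nat_lit 3, (kchk mrU4_key (mrU4.lv a2_24.mul a2_24.one).U mrU4_kt (nat_lit 3)) j = true :=
  (allR_step (c := nat_lit 3) (fun _ h => absurd h (Nat.not_lt_zero _)) mrU4_k_0 (by decide))

theorem mrW1_s : ∀ j < nat_lit 10, (schk a2_24.mul Nat.beq a2_24.one mrW1_g (mrW1.lv a2_24.mul a2_24.one) mrW2_ls) j = true :=
  (allR_step (c := nat_lit 10) (fun _ h => absurd h (Nat.not_lt_zero _)) mrW1_s_0 (by decide))

theorem mrW1_k : ∀ j < nat_lit 10, (kchk mrW1_key (mrW1.lv a2_24.mul a2_24.one).U mrW1_kt (nat_lit 10)) j = true :=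
  (allR_step (c := nat_lit 10) (fun _ h => absurd h (Nat.not_lt_zero _)) mrW1_k_0 (by decide))

theorem mrW2_s : ∀ j < nat_lit 2, (schk a2_24.mul Nat.beq a2_24.one mrW2_g (mrW2.lv a2_24.mul a2_24.one) mrW3_ls) j = true :=
  (allR_step (c := nat_lit 2) (fun _ h => absurd h (Nat.not_lt_zero _)) mrW2_s_0 (by decide))

theorem mrW2_k : ∀ j < nat_lit 2, (kchk mrW2_key (mrW2.lv a2_24.mul a2_24.one).U mrW2_kt (nat_lit 2)) j = true :=
  (allR_step (c := nat_lit 2) (fun _ h => absurd h (Nat.not_lt_zero _)) mrW2_k_0 (by decide))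

theorem mrW3_s : ∀ j < nat_lit 6, (schk a2_24.mul Nat.beq a2_24.one mrW3_g (mrW3.lv a2_24.mul a2_24.one) mrW4_ls) j = true :=
  (allR_step (c := nat_lit 6) (fun _ h => absurd h (Nat.not_lt_zero _)) mrW3_s_0 (by decide))

theorem mrW3_k : ∀ j < nat_lit 6, (kchk mrW3_key (mrW3.lv a2_24.mul a2_24.one).U mrW3_kt (nat_lit 6)) j = true :=
  (allR_step (c := nat_lit 6) (fun _ h => absurd h (Nat.not_lt_zero _)) mrW3_k_0 (by decide))

theorem mrW4_s : ∀ j < nat_lit 3, (schk a2_24.mul Nat.beq a2_24.one mrW4_g (mrW4.lv a2_24.mul a2_24.one) mrW5_ls) j = true :=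
  (allR_step (c := nat_lit 3) (fun _ h => absurd h (Nat.not_lt_zero _)) mrW4_s_0 (by decide))

theorem mrW4_k : ∀ j < nat_lit 3, (kchk mrW4_key (mrW4.lv a2_24.mul a2_24.one).U mrW4_kt (nat_lit 3)) j = true :=
  (allR_step (c := nat_lit 3) (fun _ h => absurd h (Nat.not_lt_zero _)) mrW4_k_0 (by decide))

theorem mrC1_s : ∀ j < nat_lit 6, (schk a2_24.mul Nat.beq a2_24.one mrC1_g (mrC1.lv a2_24.mul a2_24.one) mrC2_ls) j = true :=
  (allR_step (c := nat_lit 6) (fun _ h => absurd h (Nat.not_lt_zero _)) mrC1_s_0 (by decide))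

theorem mrC1_k : ∀ j < nat_lit 6, (kchk mrC1_key (mrC1.lv a2_24.mul a2_24.one).U mrC1_kt (nat_lit 6)) j = true :=
  (allR_step (c := nat_lit 6) (fun _ h => absurd h (Nat.not_lt_zero _)) mrC1_k_0 (by decide))

theorem mrC2_s : ∀ j < nat_lit 2, (schk a2_24.mul Nat.beq a2_24.one mrC2_g (mrC2.lv a2_24.mul a2_24.one) mrC3_ls) j = true :=
  (allR_step (c := nat_lit 2) (fun _ h => absurd h (Nat.not_lt_zero _)) mrC2_s_0 (by decide))

theorem mrC2_k : ∀ j < nat_lit 2, (kchk mrC2_key (mrC2.lv a2_24.mul a2_24.one).U mrC2_kt (nat_lit 2)) j = true :=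
  (allR_step (c := nat_lit 2) (fun _ h => absurd h (Nat.not_lt_zero _)) mrC2_k_0 (by decide))

theorem mrC3_s : ∀ j < nat_lit 3, (schk a2_24.mul Nat.beq a2_24.one mrC3_g (mrC3.lv a2_24.mul a2_24.one) mrC4_ls) j = true :=
  (allR_step (c := nat_lit 3) (fun _ h => absurd h (Nat.not_lt_zero _)) mrC3_s_0 (by decide))

theorem mrC3_k : ∀ j < nat_lit 3, (kchk mrC3_key (mrC3.lv a2_24.mul a2_24.one).U mrC3_kt (nat_lit 3)) j = true :=
  (allR_step (c := nat_lit 3) (fun _ h => absurd h (Nat.not_lt_zero _)) mrC3_k_0 (by decide))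

theorem mrC4_s : ∀ j < nat_lit 2, (schk a2_24.mul Nat.beq a2_24.one mrC4_g (mrC4.lv a2_24.mul a2_24.one) mrC5_ls) j = true :=
  (allR_step (c := nat_lit 2) (fun _ h => absurd h (Nat.not_lt_zero _)) mrC4_s_0 (by decide))

theorem mrC4_k : ∀ j < nat_lit 2, (kchk mrC4_key (mrC4.lv a2_24.mul a2_24.one).U mrC4_kt (nat_lit 2)) j = true :=
  (allR_step (c := nat_lit 2) (fun _ h => absurd h (Nat.not_lt_zero _)) mrC4_k_0 (by decide))

theorem mrP1_s : ∀ j < nat_lit 3, (schk a2_24.mul Nat.beq a2_24.one mrP1_g (mrP1.lv a2_24.mul a2_24.one) mrP2_ls) j = true :=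
  (allR_step (c := nat_lit 3) (fun _ h => absurd h (Nat.not_lt_zero _)) mrP1_s_0 (by decide))

theorem mrP1_k : ∀ j < nat_lit 3, (kchk mrP1_key (mrP1.lv a2_24.mul a2_24.one).U mrP1_kt (nat_lit 3)) j = true :=
  (allR_step (c := nat_lit 3) (fun _ h => absurd h (Nat.not_lt_zero _)) mrP1_k_0 (by decide))

theorem mrP2_s : ∀ j < nat_lit 27, (schk a2_24.mul Nat.beq a2_24.one mrP2_g (mrP2.lv a2_24.mul a2_24.one) mrP3_ls) j = true :=
  (allR_step (c := nat_lit 27) (fun _ h => absurd h (Nat.not_lt_zero _)) mrP2_s_0 (by decide))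

theorem mrP2_k : ∀ j < nat_lit 27, (kchk mrP2_key (mrP2.lv a2_24.mul a2_24.one).U mrP2_kt (nat_lit 27)) j = true :=
  (allR_step (c := nat_lit 27) (fun _ h => absurd h (Nat.not_lt_zero _)) mrP2_k_0 (by decide))

theorem mrP3_s : ∀ j < nat_lit 3, (schk a2_24.mul Nat.beq a2_24.one mrP3_g (mrP3.lv a2_24.mul a2_24.one) mrP4_ls) j = true :=
  (allR_step (c := nat_lit 3) (fun _ h => absurd h (Nat.not_lt_zero _)) mrP3_s_0 (by decide))

theorem mrP3_k : ∀ j < nat_lit 3, (kchk mrP3_key (mrP3.lv a2_24.mul a2_24.one).U mrP3_kt (nat_lit 3)) j = true :=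
  (allR_step (c := nat_lit 3) (fun _ h => absurd h (Nat.not_lt_zero _)) mrP3_k_0 (by decide))

theorem mrP4_s : ∀ j < nat_lit 3, (schk a2_24.mul Nat.beq a2_24.one mrP4_g (mrP4.lv a2_24.mul a2_24.one) mrP5_ls) j = true :=
  (allR_step (c := nat_lit 3) (fun _ h => absurd h (Nat.not_lt_zero _)) mrP4_s_0 (by decide))

theorem mrP4_k : ∀ j < nat_lit 3, (kchk mrP4_key (mrP4.lv a2_24.mul a2_24.one).U mrP4_kt (nat_lit 3)) j = true :=
  (allR_step (c := nat_lit 3) (fun _ h => absurd h (Nat.not_lt_zero _)) mrP4_k_0 (by decide))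

theorem mrB1_s : ∀ j < nat_lit 3, (schk a2_24.mul Nat.beq a2_24.one mrB1_g (mrB1.lv a2_24.mul a2_24.one) mrB2_ls) j = true :=
  (allR_step (c := nat_lit 3) (fun _ h => absurd h (Nat.not_lt_zero _)) mrB1_s_0 (by decide))

theorem mrB1_k : ∀ j < nat_lit 3, (kchk mrB1_key (mrB1.lv a2_24.mul a2_24.one).U mrB1_kt (nat_lit 3)) j = true :=
  (allR_step (c := nat_lit 3) (fun _ h => absurd h (Nat.not_lt_zero _)) mrB1_k_0 (by decide))

theorem mrB2_s : ∀ j < nat_lit 27, (schk a2_24.mul Nat.beq a2_24.one mrB2_g (mrB2.lv a2_24.mul a2_24.one) mrB3_ls) j = true :=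
  (allR_step (c := nat_lit 27) (fun _ h => absurd h (Nat.not_lt_zero _)) mrB2_s_0 (by decide))

theorem mrB2_k : ∀ j < nat_lit 27, (kchk mrB2_key (mrB2.lv a2_24.mul a2_24.one).U mrB2_kt (nat_lit 27)) j = true :=
  (allR_step (c := nat_lit 27) (fun _ h => absurd h (Nat.not_lt_zero _)) mrB2_k_0 (by decide))

theorem mrB3_s : ∀ j < nat_lit 2, (schk a2_24.mul Nat.beq a2_24.one mrB3_g (mrB3.lv a2_24.mul a2_24.one) mrB4_ls) j = true :=
  (allR_step (c := nat_lit 2) (fun _ h => absurd h (Nat.not_lt_zero _)) mrB3_s_0 (by decide))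

theorem mrB3_k : ∀ j < nat_lit 2, (kchk mrB3_key (mrB3.lv a2_24.mul a2_24.one).U mrB3_kt (nat_lit 2)) j = true :=
  (allR_step (c := nat_lit 2) (fun _ h => absurd h (Nat.not_lt_zero _)) mrB3_k_0 (by decide))

theorem mrB4_s : ∀ j < nat_lit 6, (schk a2_24.mul Nat.beq a2_24.one mrB4_g (mrB4.lv a2_24.mul a2_24.one) mrB5_ls) j = true :=
  (allR_step (c := nat_lit 6) (fun _ h => absurd h (Nat.not_lt_zero _)) mrB4_s_0 (by decide))

theorem mrB4_k : ∀ j < nat_lit 6, (kchk mrB4_key (mrB4.lv a2_24.mul a2_24.one).U mrB4_kt (nat_lit 6)) j = true :=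
  (allR_step (c := nat_lit 6) (fun _ h => absurd h (Nat.not_lt_zero _)) mrB4_k_0 (by decide))

theorem mrB5_s : ∀ j < nat_lit 3, (schk a2_24.mul Nat.beq a2_24.one mrB5_g (mrB5.lv a2_24.mul a2_24.one) mrB6_ls) j = true :=
  (allR_step (c := nat_lit 3) (fun _ h => absurd h (Nat.not_lt_zero _)) mrB5_s_0 (by decide))

theorem mrB5_k : ∀ j < nat_lit 3, (kchk mrB5_key (mrB5.lv a2_24.mul a2_24.one).U mrB5_kt (nat_lit 3)) j = true :=
  (allR_step (c := nat_lit 3) (fun _ h => absurd h (Nat.not_lt_zero _)) mrB5_k_0 (by decide))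

theorem mrA1_s : ∀ j < nat_lit 4, (schk a2_24.mul Nat.beq a2_24.one mrA1_g (mrA1.lv a2_24.mul a2_24.one) mrA2_ls) j = true :=
  (allR_step (c := nat_lit 4) (fun _ h => absurd h (Nat.not_lt_zero _)) mrA1_s_0 (by decide))

theorem mrA1_k : ∀ j < nat_lit 4, (kchk mrA1_key (mrA1.lv a2_24.mul a2_24.one).U mrA1_kt (nat_lit 4)) j = true :=
  (allR_step (c := nat_lit 4) (fun _ h => absurd h (Nat.not_lt_zero _)) mrA1_k_0 (by decide))

theorem mrA2_s : ∀ j < nat_lit 3, (schk a2_24.mul Nat.beq a2_24.one mrA2_g (mrA2.lv a2_24.mul a2_24.one) mrA3_ls) j = true :=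
  (allR_step (c := nat_lit 3) (fun _ h => absurd h (Nat.not_lt_zero _)) mrA2_s_0 (by decide))

theorem mrA2_k : ∀ j < nat_lit 3, (kchk mrA2_key (mrA2.lv a2_24.mul a2_24.one).U mrA2_kt (nat_lit 3)) j = true :=
  (allR_step (c := nat_lit 3) (fun _ h => absurd h (Nat.not_lt_zero _)) mrA2_k_0 (by decide))

theorem mrA3_s : ∀ j < nat_lit 2, (schk a2_24.mul Nat.beq a2_24.one mrA3_g (mrA3.lv a2_24.mul a2_24.one) mrA4_ls) j = true :=
  (allR_step (c := nat_lit 2) (fun _ h => absurd h (Nat.not_lt_zero _)) mrA3_s_0 (by decide))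

theorem mrA3_k : ∀ j < nat_lit 2, (kchk mrA3_key (mrA3.lv a2_24.mul a2_24.one).U mrA3_kt (nat_lit 2)) j = true :=
  (allR_step (c := nat_lit 2) (fun _ h => absurd h (Nat.not_lt_zero _)) mrA3_k_0 (by decide))

theorem mrA4_s : ∀ j < nat_lit 27, (schk a2_24.mul Nat.beq a2_24.one mrA4_g (mrA4.lv a2_24.mul a2_24.one) mrA5_ls) j = true :=
  (allR_step (c := nat_lit 27) (fun _ h => absurd h (Nat.not_lt_zero _)) mrA4_s_0 (by decide))

theorem mrA4_k : ∀ j < nat_lit 27, (kchk mrA4_key (mrA4.lv a2_24.mul a2_24.one).U mrA4_kt (nat_lit 27)) j = true :=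
  (allR_step (c := nat_lit 27) (fun _ h => absurd h (Nat.not_lt_zero _)) mrA4_k_0 (by decide))

theorem mrA5_s : ∀ j < nat_lit 6, (schk a2_24.mul Nat.beq a2_24.one mrA5_g (mrA5.lv a2_24.mul a2_24.one) mrA6_ls) j = true :=
  (allR_step (c := nat_lit 6) (fun _ h => absurd h (Nat.not_lt_zero _)) mrA5_s_0 (by decide))

theorem mrA5_k : ∀ j < nat_lit 6, (kchk mrA5_key (mrA5.lv a2_24.mul a2_24.one).U mrA5_kt (nat_lit 6)) j = true :=
  (allR_step (c := nat_lit 6) (fun _ h => absurd h (Nat.not_lt_zero _)) mrA5_k_0 (by decide))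

theorem mrA6_s : ∀ j < nat_lit 3, (schk a2_24.mul Nat.beq a2_24.one mrA6_g (mrA6.lv a2_24.mul a2_24.one) mrA7_ls) j = true :=
  (allR_step (c := nat_lit 3) (fun _ h => absurd h (Nat.not_lt_zero _)) mrA6_s_0 (by decide))

theorem mrA6_k : ∀ j < nat_lit 3, (kchk mrA6_key (mrA6.lv a2_24.mul a2_24.one).U mrA6_kt (nat_lit 3)) j = true :=
  (allR_step (c := nat_lit 3) (fun _ h => absurd h (Nat.not_lt_zero _)) mrA6_k_0 (by decide))

theorem mrL1_s : ∀ j < nat_lit 56, (schk a2_24.mul Nat.beq a2_24.one mrL1_g (mrL1.lv a2_24.mul a2_24.one) mrL2_ls) j = true :=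
  (allR_step (c := nat_lit 56) (fun _ h => absurd h (Nat.not_lt_zero _)) mrL1_s_0 (by decide))

theorem mrL1_k : ∀ j < nat_lit 56, (kchk mrL1_key (mrL1.lv a2_24.mul a2_24.one).U mrL1_kt (nat_lit 56)) j = true :=
  (allR_step (c := nat_lit 56) (fun _ h => absurd h (Nat.not_lt_zero _)) mrL1_k_0 (by decide))

theorem mrL2_s : ∀ j < nat_lit 10, (schk a2_24.mul Nat.beq a2_24.one mrL2_g (mrL2.lv a2_24.mul a2_24.one) mrL3_ls) j = true :=
  (allR_step (c := nat_lit 10) (fun _ h => absurd h (Nat.not_lt_zero _)) mrL2_s_0 (by decide))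

theorem mrL2_k : ∀ j < nat_lit 10, (kchk mrL2_key (mrL2.lv a2_24.mul a2_24.one).U mrL2_kt (nat_lit 10)) j = true :=
  (allR_step (c := nat_lit 10) (fun _ h => absurd h (Nat.not_lt_zero _)) mrL2_k_0 (by decide))

theorem mrL3_s : ∀ j < nat_lit 2, (schk a2_24.mul Nat.beq a2_24.one mrL3_g (mrL3.lv a2_24.mul a2_24.one) mrL4_ls) j = true :=
  (allR_step (c := nat_lit 2) (fun _ h => absurd h (Nat.not_lt_zero _)) mrL3_s_0 (by decide))

theorem mrL3_k : ∀ j < nat_lit 2, (kchk mrL3_key (mrL3.lv a2_24.mul a2_24.one).U mrL3_kt (nat_lit 2)) j = true :=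
  (allR_step (c := nat_lit 2) (fun _ h => absurd h (Nat.not_lt_zero _)) mrL3_k_0 (by decide))

theorem mrL4_s : ∀ j < nat_lit 9, (schk a2_24.mul Nat.beq a2_24.one mrL4_g (mrL4.lv a2_24.mul a2_24.one) mrL5_ls) j = true :=
  (allR_step (c := nat_lit 9) (fun _ h => absurd h (Nat.not_lt_zero _)) mrL4_s_0 (by decide))

theorem mrL4_k : ∀ j < nat_lit 9, (kchk mrL4_key (mrL4.lv a2_24.mul a2_24.one).U mrL4_kt (nat_lit 9)) j = true :=
  (allR_step (c := nat_lit 9) (fun _ h => absurd h (Nat.not_lt_zero _)) mrL4_k_0 (by decide))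

theorem mrL5_s : ∀ j < nat_lit 2, (schk a2_24.mul Nat.beq a2_24.one mrL5_g (mrL5.lv a2_24.mul a2_24.one) mrL6_ls) j = true :=
  (allR_step (c := nat_lit 2) (fun _ h => absurd h (Nat.not_lt_zero _)) mrL5_s_0 (by decide))

theorem mrL5_k : ∀ j < nat_lit 2, (kchk mrL5_key (mrL5.lv a2_24.mul a2_24.one).U mrL5_kt (nat_lit 2)) j = true :=
  (allR_step (c := nat_lit 2) (fun _ h => absurd h (Nat.not_lt_zero _)) mrL5_k_0 (by decide))

theorem mrD1_dc : ∀ j < nat_lit 112, (dcAt2 a2_24.mul Nat.beq a2_24.one mrJ1_ls mrJ1_ls mrD1_x mrX1_g mrD1_ms mrD1_tb (nat_lit 112)) j = true :=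
  (allR_step (c := nat_lit 112) (allR_step (c := nat_lit 60) (fun _ h => absurd h (Nat.not_lt_zero _)) mrD1_dc_0 (by decide)) mrD1_dc_1 (by decide))

theorem mrD4_dc : ∀ j < nat_lit 405, (dcAt2 a2_24.mul Nat.beq a2_24.one mrC1_ls mrC1_ls mrD4_x mrJ1_g mrD4_ms mrD4_tb (nat_lit 405)) j = true :=
  (allR_step (c := nat_lit 405) (allR_step (c := nat_lit 400) (allR_step (c := nat_lit 300) (allR_step (c := nat_lit 200) (allR_step (c := nat_lit 100) (fun _ h => absurd h (Nat.not_lt_zero _)) mrD4_dc_0 (by decide)) mrD4_dc_1 (by decide)) mrD4_dc_2 (by decide)) mrD4_dc_3 (by decide)) mrD4_dc_4 (by decide))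

theorem mrD6_dc : ∀ j < nat_lit 162, (dcAt2 a2_24.mul Nat.beq a2_24.one mrJ1_ls mrL1_ls mrD6_x mrX1_g mrD6_ms mrD6_tb (nat_lit 162)) j = true :=
  (allR_step (c := nat_lit 162) (allR_step (c := nat_lit 120) (allR_step (c := nat_lit 60) (fun _ h => absurd h (Nat.not_lt_zero _)) mrD6_dc_0 (by decide)) mrD6_dc_1 (by decide)) mrD6_dc_2 (by decide))

theorem mrD2_dc : ∀ j < nat_lit 1120, (dcAt2 a2_24.mul Nat.beq a2_24.one mrP1_ls mrB1_ls mrD2_x mrX1_g mrD2_ms mrD2_tb (nat_lit 1120)) j = true :=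
  (allR_step (c := nat_lit 1120) (allR_step (c := nat_lit 1040) (allR_step (c := nat_lit 960) (allR_step (c := nat_lit 880) (allR_step (c := nat_lit 800) (allR_step (c := nat_lit 720) (allR_step (c := nat_lit 640) (allR_step (c := nat_lit 560) (allR_step (c := nat_lit 480) (allR_step (c := nat_lit 400) (allR_step (c := nat_lit 320) (allR_step (c := nat_lit 240) (allR_step (c := nat_lit 160) (allR_step (c := nat_lit 80) (fun _ h => absurd h (Nat.not_lt_zero _)) mrD2_dc_0 (by decide)) mrD2_dc_1 (by decide)) mrD2_dc_2 (by decide)) mrD2_dc_3 (by decide)) mrD2_dc_4 (by decide)) mrD2_dc_5 (by decide)) mrD2_dc_6 (by decide)) mrD2_dc_7 (by decide)) mrD2_dc_8 (by decide)) mrD2_dc_9 (by decide)) mrD2_dc_10 (by decide)) mrD2_dc_11 (by decide)) mrD2_dc_12 (by decide)) mrD2_dc_13 (by decide))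

theorem mrD3_dc : ∀ j < nat_lit 4, (dcAt2 a2_24.mul Nat.beq a2_24.one [] mrP1_ls mrD3_x mrB1_g mrD3_ms mrD3_tb (nat_lit 4)) j = true :=
  (allR_step (c := nat_lit 4) (fun _ h => absurd h (Nat.not_lt_zero _)) mrD3_dc_0 (by decide))

theorem mr_ov : ∀ j < nat_lit 32, (ov4At a2_24.mul Nat.beq a2_24.one mrJ1_ls mrA1_ls mrD2_x mrD3_x mrP1_g mrX1_g 4 mr_W) j = true :=
  (allR_step (c := nat_lit 32) (allR_step (c := nat_lit 16) (fun _ h => absurd h (Nat.not_lt_zero _)) mr_ov_0 (by decide)) mr_ov_1 (by decide))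

theorem mr_aU : ∀ j < nat_lit 2, (fun j => force ((mrU1.lv a2_24.mul a2_24.one).U j) (allC a2_24.mul mr_fU mrU2_ls)) j = true :=
  (allR_step (c := nat_lit 2) (allR_step (c := nat_lit 1) (fun _ h => absurd h (Nat.not_lt_zero _)) mr_aU_0 (by decide)) mr_aU_1 (by decide))

structure MrF {X : Type*} [Group X] (M : Model X) : Prop where
  h1 : M.mul = a2_24.mul
  h2 : M.eqb = Nat.beq
  h3 : M.one = a2_24.one
  vv : ∀ c ∈ mrX1_g, M.In ⊤ c
  va : ∀ c ∈ mr_aux, M.In ⊤ c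
  top : M.cl mrX1_g = ⊤
  card : Nat.card X = 3265920
  cJ : Chain M (M.cl mrJ1_g) mrJ1_ls
  nJ : Nat.card (M.cl mrJ1_g) = 29160
  cU : Chain M (M.cl mrU1_g) mrU1_ls
  nU : Nat.card (M.cl mrU1_g) = 972
  cW : Chain M (M.cl mrW1_g) mrW1_ls
  nW : Nat.card (M.cl mrW1_g) = 360
  cC : Chain M (M.cl mrC1_g) mrC1_ls
  nC : Nat.card (M.cl mrC1_g) = 72
  cP : Chain M (M.cl mrP1_g) mrP1_ls
  nP : Nat.card (M.cl mrP1_g) = 729
  cB : Chain M (M.cl mrB1_g) mrB1_ls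
  nB : Nat.card (M.cl mrB1_g) = 2916
  cA : Chain M (M.cl mrA1_g) mrA1_ls
  nA : Nat.card (M.cl mrA1_g) = 11664
  cL : Chain M (M.cl mrL1_g) mrL1_ls
  nL : Nat.card (M.cl mrL1_g) = 20160

theorem mr_facts {G : Type*} [Group G] (M : Model G) (h1 : M.mul = a2_24.mul) (h2 : M.eqb = Nat.beq)
    (h3 : M.one = a2_24.one) (vv : ∀ c ∈ mrX1_g, M.In ⊤ c) {St : Subgroup G} (k1 : Key M St mr1_key mr1_fix) [Finite G] (ht : M.cl mrX1_g = ⊤) (hc : Nat.card G = 3265920) : MrF M := by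
  obtain ⟨R, one, mul, eqb, a1, a2, a3⟩ := M
  dsimp only at h1 h2 h3
  subst h1 h2 h3
  set M : Model G := ⟨R, a2_24.one, a2_24.mul, Nat.beq, a1, a2, a3⟩ with hM
  have va := in_of_slpW (M := M) _ vv mr_auxok
  obtain ⟨tmrJ1, hTmrJ1⟩ := exists_R va (c := (nat_lit 0x3b57fd400000db721353b815c8c043c1a80390d48110adf6c8abde7bd83366e861860eba6bb80a1b30010f57e4240fabe02f6f494dad688fcf16db0a86e6f839f5020e4f0fbb57fc)) (by (try dsimp only [M]); decide +kernel)
  have kmrJ1 : Key M (cjS St tmrJ1) mrJ1_key mrJ1_fix := k1.keyT hTmrJ1 (R_inv_of hTmrJ1 (exists_R va (c := (nat_lit 0x8f53fb4000008e1f267afc13010cfc602e7e71bc05904f9c3f4c0f6bf615777c85e22809be6070faf0e4a5adeffca144b49ee53fa98072f1c8831366988fd75337e5a21f670f53fa)) (by (try dsimp only [M]); decide +kernel)) (by (try dsimp only [M]); decide +kernel)) _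
  obtain ⟨tmrJ2, hTmrJ2⟩ := exists_R va (c := (nat_lit 0x6f7b7f400000a626d6c1a80310adf6fec2c1ffe48b2ff4b1860eba777c85a01fe8b1850114a10472f1c84137e9eb658c9c07fd3db508aff5305ed284e94cbd8fe4942326cfef7b7e)) (by (try dsimp only [M]); decide +kernel)
  have kmrJ2 : Key M (cjS St tmrJ2) mrJ2_key mrJ2_fix := k1.keyT hTmrJ2 (R_inv_of hTmrJ2 (exists_R va (c := (nat_lit 0x2ffdfb4000007ffffeddb107a626d69640a1ded285eff385fdc3418e1f263fea4581d37c6fc43fbda00189da7d8dce3d0cce1c7e320c7b3218d7fc280e4f0f041e9f921ebfaffdfa)) (by (try dsimp only [M]); decide +kernel)) (by (try dsimp only [M]); decide +kernel)) _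
  obtain ⟨tmrJ3, hTmrJ3⟩ := exists_R va (c := (nat_lit 0xdeefce4000004bd52d0800005e5d239b30000313675f86614dbea15fe9617af0e5c1f3a96bb80a40b006030a2ffaabff8104ff0902ff060ebb622808ae4efba0ad7ffed02e5eefcf)) (by (try dsimp only [M]); decide +kernel)
  have kmrJ3 : Key M (cjS St tmrJ3) mrJ3_key mrJ3_fix := k1.keyT hTmrJ3 (R_inv_of hTmrJ3 (exists_R va (c := (nat_lit 0x59bf9c400000b66000ff7983100000244a97ecc00096db0bddb107bff20ff7911b3f4c0f90cef7aff4b0e64bec9052bf0a07db402dbbfdb4622626d77dfffc314600642e13d9bf9d)) (by (try dsimp only [M]); decide +kernel)) (by (try dsimp only [M]); decide +kernel)) _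
  obtain ⟨tmrJ4, hTmrJ4⟩ := exists_R va (c := (nat_lit 0xfc8f9c4000001b194d74d445f2f1c97f5cc1fdc341ec004915fa595cb0555d6d4149f0008fe494663782443ed0cff294f9afdf314600757298a44a969816cf1c23ff918fd77c8f9d)) (by (try dsimp only [M]); decide +kernel)
  have kmrJ4 : Key M (cjS St tmrJ4) mrJ4_key mrJ4_fix := k1.keyT hTmrJ4 (R_inv_of hTmrJ4 (exists_R va (c := (nat_lit 0x6d0d5a400000fb3219b660007afe111ed000f9d603e30a01dff709fbab01e8424115fa59f65952fdb462a8473bf3fff90883fb7792c2ffffff7fd12a298ecb550fb30f0759ed0d5b)) (by (try dsimp only [M]); decide +kernel)) (by (try dsimp only [M]); decide +kernel)) _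
  obtain ⟨tmrJ5, hTmrJ5⟩ := exists_R va (c := (nat_lit 0xbb2fe8400000992111444d99d4b0003374316ba8519fb1917ff8d1fb3219a01fe8002000c4863adf8660366edd01d27c9c07fdbeaffd840001ef72342fbfed1b02103b2f6d3b2fe9)) (by (try dsimp only [M]); decide +kernel)
  have kmrJ5 : Key M (cjS St tmrJ5) mrJ5_key mrJ5_fix := k1.keyT hTmrJ5 (R_inv_of hTmrJ5 (exists_R va (c := (nat_lit 0x1817be4000002ff531fcb10d9a1091800021ddb107ecc000fb5609f9d603001000d7e09b0902fffaf0e48856fff5f7fd5007b473418e757298df86603845af5007b7c35eda9817bf)) (by (try dsimp only [M]); decide +kernel)) (by (try dsimp only [M]); decide +kernel)) _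
  have gmrJ1 : ∀ c ∈ mrJ1_g, M.In ⊤ c := valid_sub va (by (try dsimp only [M]); decide +kernel)
  have gmrJ2 := LvD.valid_next (D := mrJ1) gmrJ1 mrJ1_ok mrJ1_next
  have lmrJ1 := LvD.le_next (D := mrJ1) gmrJ1 mrJ1_ok mrJ1_next
  have gmrJ3 := LvD.valid_next (D := mrJ2) gmrJ2 mrJ2_ok mrJ2_next
  have lmrJ2 := LvD.le_next (D := mrJ2) gmrJ2 mrJ2_ok mrJ2_next
  have gmrJ4 := LvD.valid_next (D := mrJ3) gmrJ3 mrJ3_ok mrJ3_next
  have lmrJ3 := LvD.le_next (D := mrJ3) gmrJ3 mrJ3_ok mrJ3_next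
  have gmrJ5 := LvD.valid_next (D := mrJ4) gmrJ4 mrJ4_ok mrJ4_next
  have lmrJ4 := LvD.le_next (D := mrJ4) gmrJ4 mrJ4_ok mrJ4_next
  have gmrJ6 := LvD.valid_next (D := mrJ5) gmrJ5 mrJ5_ok mrJ5_next
  have lmrJ5 := LvD.le_next (D := mrJ5) gmrJ5 mrJ5_ok mrJ5_next
  have emrJ6 : Exact M (M.cl mrJ6_g) mrJ6_ls ∧ True := ⟨Exact.nil, trivial⟩
  have emrJ5 := LvD.exact (D := mrJ5) gmrJ5 mrJ5_ok emrJ6.1 lmrJ5 mrJ5_s kmrJ5 mrJ5_fx mrJ5_k
  have emrJ4 := LvD.exact (D := mrJ4) gmrJ4 mrJ4_ok emrJ5.1 lmrJ4 mrJ4_s kmrJ4 mrJ4_fx mrJ4_k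
  have emrJ3 := LvD.exact (D := mrJ3) gmrJ3 mrJ3_ok emrJ4.1 lmrJ3 mrJ3_s kmrJ3 mrJ3_fx mrJ3_k
  have emrJ2 := LvD.exact (D := mrJ2) gmrJ2 mrJ2_ok emrJ3.1 lmrJ2 mrJ2_s kmrJ2 mrJ2_fx mrJ2_k
  have emrJ1 := LvD.exact (D := mrJ1) gmrJ1 mrJ1_ok emrJ2.1 lmrJ1 mrJ1_s kmrJ1 mrJ1_fx mrJ1_k
  have cmrJ : Nat.card (M.cl mrJ1_g) = 29160 := emrJ1.1.2.trans (by (try dsimp only [M]); decide +kernel)
  obtain ⟨tmrU1, hTmrU1⟩ := exists_R va (c := (nat_lit 0x6f7b7f400000ffe48b90d48110adf6e63783a626d6860eba2ff4b19fb191a01fe8b1850114a104bfea44b49fedc48044e70ee51f7e4df6a824840001e94cbd3148df2326cfef7b7e)) (by (try dsimp only [M]); decide +kernel)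
  have kmrU1 : Key M (cjS St tmrU1) mrU1_key mrU1_fix := k1.keyT hTmrU1 (R_inv_of hTmrU1 (exists_R va (c := (nat_lit 0x4d7aff400000308ff4f9d6038785ee800011bdd581dff709fdc341904f9c5d6d41b847fa6fc43ffb4001ce1d73903dbf475d2439f5027fd12ad3b8140e4f0f494dadce4d37cd7afe)) (by (try dsimp only [M]); decide +kernel)) (by (try dsimp only [M]); decide +kernel)) _
  obtain ⟨tmrU2, hTmrU2⟩ := exists_R va (c := (nat_lit 0x79fbff400000cbf883964d5aa626d6c4300d9837be3374317db46390d481992111010cfc1f7e4d7da304a21f6db08baddaef0064df39df86601b3001ee3b613bd680164f0ff9fbfe)) (by (try dsimp only [M]); decide +kernel)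
  have kmrU2 : Key M (cjS St tmrU2) mrU2_key mrU2_fix := k1.keyT hTmrU2 (R_inv_of hTmrU2 (exists_R va (c := (nat_lit 0x3d5ff9400000a626d6c8abdec0b0078785ee8069befda3058e1f26ffb2a3777c85bff20f6cf04afb40019b1c6fff503a7df454ff981c9ed001fdb462823b77093012f55dacbd5ff8)) (by (try dsimp only [M]); decide +kernel)) (by (try dsimp only [M]); decide +kernel)) _
  obtain ⟨tmrU3, hTmrU3⟩ := exists_R va (c := (nat_lit 0x80adf6400000c0b0077b40008004013374317724d3ede1437af0e5bee1a19fb19110adf6b3ec20fafe1033a7f57b67f7be5b06f65952bfea449dda2c5b49646bea027a4c1600adf7)) (by (try dsimp only [M]); decide +kernel)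
  have kmrU3 : Key M (cjS St tmrU3) mrU3_key mrU3_fix := k1.keyT hTmrU3 (R_inv_of hTmrU3 (exists_R va (c := (nat_lit 0x411aee400000bff20fc10aeec8c043deb08db1d000c1a803e228099640a13da000fec2c15337e5880001a11eedc3a3e00e1e26dfea60dd6d40cbd52ccfc7de3de122fcabebc11aef)) (by (try dsimp only [M]); decide +kernel)) (by (try dsimp only [M]); decide +kernel)) _
  obtain ⟨tmrU4, hTmrU4⟩ := exists_R va (c := (nat_lit 0x9649eb400000f9d60346f751308ff47fa41d904f9c79af7e71bc057afe119837befda305fff254e8c0bc9036bbcff294d8f6fd1c23fff4e064bda001152e6790cef79816cf1649ea)) (by (try dsimp only [M]); decide +kernel)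
  have kmrU4 : Key M (cjS St tmrU4) mrU4_key mrU4_fix := k1.keyT hTmrU4 (R_inv_of hTmrU4 (exists_R va (c := (nat_lit 0x4d7aff400000f9d603b185016c451774d445904f9cfdc341bdd5818e1f2690d4815d6d41a0ad7fe8c0bce10df9a176d60903fb4159f9d3d1786e702a1feeda006b3f5ebff6cd7afe)) (by (try dsimp only [M]); decide +kernel)) (by (try dsimp only [M]); decide +kernel)) _
  have gmrU1 : ∀ c ∈ mrU1_g, M.In ⊤ c := valid_sub va (by (try dsimp only [M]); decide +kernel)
  have gmrU2 := LvD.valid_next (D := mrU1) gmrU1 mrU1_ok mrU1_next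
  have lmrU1 := LvD.le_next (D := mrU1) gmrU1 mrU1_ok mrU1_next
  have gmrU3 := LvD.valid_next (D := mrU2) gmrU2 mrU2_ok mrU2_next
  have lmrU2 := LvD.le_next (D := mrU2) gmrU2 mrU2_ok mrU2_next
  have gmrU4 := LvD.valid_next (D := mrU3) gmrU3 mrU3_ok mrU3_next
  have lmrU3 := LvD.le_next (D := mrU3) gmrU3 mrU3_ok mrU3_next
  have gmrU5 := LvD.valid_next (D := mrU4) gmrU4 mrU4_ok mrU4_next
  have lmrU4 := LvD.le_next (D := mrU4) gmrU4 mrU4_ok mrU4_next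
  have emrU5 : Exact M (M.cl mrU5_g) mrU5_ls ∧ True := ⟨Exact.nil, trivial⟩
  have emrU4 := LvD.exact (D := mrU4) gmrU4 mrU4_ok emrU5.1 lmrU4 mrU4_s kmrU4 mrU4_fx mrU4_k
  have emrU3 := LvD.exact (D := mrU3) gmrU3 mrU3_ok emrU4.1 lmrU3 mrU3_s kmrU3 mrU3_fx mrU3_k
  have emrU2 := LvD.exact (D := mrU2) gmrU2 mrU2_ok emrU3.1 lmrU2 mrU2_s kmrU2 mrU2_fx mrU2_k
  have emrU1 := LvD.exact (D := mrU1) gmrU1 mrU1_ok emrU2.1 lmrU1 mrU1_s kmrU1 mrU1_fx mrU1_k
  have cmrU : Nat.card (M.cl mrU1_g) = 972 := emrU1.1.2.trans (by (try dsimp only [M]); decide +kernel)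
  obtain ⟨tmrW1, hTmrW1⟩ := exists_R va (c := (nat_lit 0x7bbfef4000006ba8519a10918069beb18501860ebaa626d6c0b007f2f313308ff49fb1913f3118d7fc28cb457dfd7238600e3d41a6f944300c9ed00137e25f149a7bddfc79fbbfee)) (by (try dsimp only [M]); decide +kernel)
  have kmrW1 : Key M (cjS St tmrW1) mrW1_key mrW1_fix := k1.keyT hTmrW1 (R_inv_of hTmrW1 (exists_R va (c := (nat_lit 0x4d7aff4000005d6d41904f9cb847fa964d5aff7983bdd581dff7098e1f26308ff490d4816fc43ffff072cb457dd4f02649756414908463a0019ed0014bf72d3de12282cd5fcd7afe)) (by (try dsimp only [M]); decide +kernel)) (by (try dsimp only [M]); decide +kernel)) _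
  obtain ⟨tmrW2, hTmrW2⟩ := exists_R va (c := (nat_lit 0xbb2fe8400000fb32192ff4b1f5729965b2f17ff459992111002000d4b000a01fe86ba851bdf8b0ffffff33a7f55e7d50b16e3dca5d75ff99148010010edd303f31182fbfed3b2fe9)) (by (try dsimp only [M]); decide +kernel)
  have kmrW2 : Key M (cjS St tmrW2) mrW2_key mrW2_fix := k1.keyT hTmrW2 (R_inv_of hTmrW2 (exists_R va (c := (nat_lit 0x488bde400000fcb10dbff20fd7e09bc8c043ded285b66000ff7983efa909008000800011149a7be5b2f0a8dbb3801bf5065b54fff254fff8d0dfe960eba3df084bdd873dbac88bdf)) (by (try dsimp only [M]); decide +kernel)) (by (try dsimp only [M]); decide +kernel)) _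
  obtain ⟨tmrW3, hTmrW3⟩ := exists_R va (c := (nat_lit 0x1817be400000ded285c1f3a99837be080000fcb10dbdd581800021f9d603ddb1072ff531c4863ab7c05e9b7032fbe41adfe0963f3118b37430bda00144a6bb041e9fe5e29c9817bf)) (by (try dsimp only [M]); decide +kernel)
  have kmrW3 : Key M (cjS St tmrW3) mrW3_key mrW3_fix := k1.keyT hTmrW3 (R_inv_of hTmrW3 (exists_R va (c := (nat_lit 0x1bf24000009640a1db72130400007ff8d1b42121c1a803ff7983e30a01881bf26e3000fff254d3d178a8dbb3dfe3600813fb4617738080016ed0c8145b5b2620284193f9801bf3)) (by (try dsimp only [M]); decide +kernel)) (by (try dsimp only [M]); decide +kernel)) _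
  obtain ⟨tmrW4, hTmrW4⟩ := exists_R va (c := (nat_lit 0x80adf6400000bee1a17b4000cbf8830020006ba8519fb1917724d3c0b007800401337431f7d826bfea4431eb7771af73b49ee5ca5d75ffffff831366143df3009be75b496400adf7)) (by (try dsimp only [M]); decide +kernel)
  have kmrW4 : Key M (cjS St tmrW4) mrW4_key mrW4_fix := k1.keyT hTmrW4 (R_inv_of hTmrW4 (exists_R va (c := (nat_lit 0x59bf9c400000ff7983904f9cf7911bc1a803ecc000ddb107bff20ff9d603040000d7e09b0c0edb802001c9fedde2a692028dc68fe494b7c05e9a3e429609f839f50295a797d9bf9d)) (by (try dsimp only [M]); decide +kernel)) (by (try dsimp only [M]); decide +kernel)) _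
  have gmrW1 : ∀ c ∈ mrW1_g, M.In ⊤ c := valid_sub va (by (try dsimp only [M]); decide +kernel)
  have gmrW2 := LvD.valid_next (D := mrW1) gmrW1 mrW1_ok mrW1_next
  have lmrW1 := LvD.le_next (D := mrW1) gmrW1 mrW1_ok mrW1_next
  have gmrW3 := LvD.valid_next (D := mrW2) gmrW2 mrW2_ok mrW2_next
  have lmrW2 := LvD.le_next (D := mrW2) gmrW2 mrW2_ok mrW2_next
  have gmrW4 := LvD.valid_next (D := mrW3) gmrW3 mrW3_ok mrW3_next
  have lmrW3 := LvD.le_next (D := mrW3) gmrW3 mrW3_ok mrW3_next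
  have gmrW5 := LvD.valid_next (D := mrW4) gmrW4 mrW4_ok mrW4_next
  have lmrW4 := LvD.le_next (D := mrW4) gmrW4 mrW4_ok mrW4_next
  have emrW5 : Exact M (M.cl mrW5_g) mrW5_ls ∧ True := ⟨Exact.nil, trivial⟩
  have emrW4 := LvD.exact (D := mrW4) gmrW4 mrW4_ok emrW5.1 lmrW4 mrW4_s kmrW4 mrW4_fx mrW4_k
  have emrW3 := LvD.exact (D := mrW3) gmrW3 mrW3_ok emrW4.1 lmrW3 mrW3_s kmrW3 mrW3_fx mrW3_k
  have emrW2 := LvD.exact (D := mrW2) gmrW2 mrW2_ok emrW3.1 lmrW2 mrW2_s kmrW2 mrW2_fx mrW2_k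
  have emrW1 := LvD.exact (D := mrW1) gmrW1 mrW1_ok emrW2.1 lmrW1 mrW1_s kmrW1 mrW1_fx mrW1_k
  have cmrW : Nat.card (M.cl mrW1_g) = 360 := emrW1.1.2.trans (by (try dsimp only [M]); decide +kernel)
  obtain ⟨tmrC1, hTmrC1⟩ := exists_R va (c := (nat_lit 0x6f7b7f400000ffe48b90d48110adf6e63783a626d6860eba2ff4b19fb191a01fe8b1850114a104bfea44b49fedc48044e70ee51f7e4df6a824840001e94cbd3148df2326cfef7b7e)) (by (try dsimp only [M]); decide +kernel)
  have kmrC1 : Key M (cjS St tmrC1) mrC1_key mrC1_fix := k1.keyT hTmrC1 (R_inv_of hTmrC1 (exists_R va (c := (nat_lit 0x4d7aff400000308ff4f9d6038785ee800011bdd581dff709fdc341904f9c5d6d41b847fa6fc43ffb4001ce1d73903dbf475d2439f5027fd12ad3b8140e4f0f494dadce4d37cd7afe)) (by (try dsimp only [M]); decide +kernel)) (by (try dsimp only [M]); decide +kernel)) _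
  obtain ⟨tmrC2, hTmrC2⟩ := exists_R va (c := (nat_lit 0x1b86d64000006c4517e637839fb191ede143eff385b18501f2f313b6600046f7519921110cc0c0faf0e48a1337dcd0c44975645337e5000020ad78460aa7cf14908496c7e39b86d7)) (by (try dsimp only [M]); decide +kernel)
  have kmrC2 : Key M (cjS St tmrC2) mrC2_key mrC2_fix := k1.keyT hTmrC2 (R_inv_of hTmrC2 (exists_R va (c := (nat_lit 0x10cf26400000777c85eff38590d481dcf087e63783ecc000fbca81ff79834dbea1bee1a16301f7fdb462815ac7f331e277fc243f6320000020ad7846000baf01d40296c7e390cf27)) (by (try dsimp only [M]); decide +kernel)) (by (try dsimp only [M]); decide +kernel)) _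
  obtain ⟨tmrC3, hTmrC3⟩ := exists_R va (c := (nat_lit 0x4fcedf400000fb6223bee1a110adf6ffd12b8069beb847fa337431992111a01fe89640a114a1049b194ca81f6df5a904d01d6d251bedf4d4449ed001f21675065b57207a2fcfcede)) (by (try dsimp only [M]); decide +kernel)
  have kmrC3 : Key M (cjS St tmrC3) mrC3_key mrC3_fix := k1.keyT hTmrC3 (R_inv_of hTmrC3 (exists_R va (c := (nat_lit 0x4d7aff400000b18501bdd581b847fa964d5af9d603dff709904f9cfdc3415d6d418785ee6301f7fbd832f415fad4f026475d24b4f424e8c0bcd3b814d80fb5324220ce4d37cd7afe)) (by (try dsimp only [M]); decide +kernel)) (by (try dsimp only [M]); decide +kernel)) _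
  obtain ⟨tmrC4, hTmrC4⟩ := exists_R va (c := (nat_lit 0x203fe8400000fdc341fb5609a01fe85fe961efa909bdd581800021e30a019b300049f000b20efd9118eabec0e0fdb898fd14c23ed488aff4b0fff07244a6bb298fdbbbcffba03fe9)) (by (try dsimp only [M]); decide +kernel)
  have kmrC4 : Key M (cjS St tmrC4) mrC4_key mrC4_fix := k1.keyT hTmrC4 (R_inv_of hTmrC4 (exists_R va (c := (nat_lit 0x1037be400000c4300db4212167f625337431db7213ecc000c0b007ffe48b9837be6c45178b35e0e5b2f0b8f7ff8803da77f38827f3908080016ed0c83eb1887dfa884193f99037bf)) (by (try dsimp only [M]); decide +kernel)) (by (try dsimp only [M]); decide +kernel)) _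
  have gmrC1 : ∀ c ∈ mrC1_g, M.In ⊤ c := valid_sub va (by (try dsimp only [M]); decide +kernel)
  have gmrC2 := LvD.valid_next (D := mrC1) gmrC1 mrC1_ok mrC1_next
  have lmrC1 := LvD.le_next (D := mrC1) gmrC1 mrC1_ok mrC1_next
  have gmrC3 := LvD.valid_next (D := mrC2) gmrC2 mrC2_ok mrC2_next
  have lmrC2 := LvD.le_next (D := mrC2) gmrC2 mrC2_ok mrC2_next
  have gmrC4 := LvD.valid_next (D := mrC3) gmrC3 mrC3_ok mrC3_next
  have lmrC3 := LvD.le_next (D := mrC3) gmrC3 mrC3_ok mrC3_next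
  have gmrC5 := LvD.valid_next (D := mrC4) gmrC4 mrC4_ok mrC4_next
  have lmrC4 := LvD.le_next (D := mrC4) gmrC4 mrC4_ok mrC4_next
  have emrC5 : Exact M (M.cl mrC5_g) mrC5_ls ∧ True := ⟨Exact.nil, trivial⟩
  have emrC4 := LvD.exact (D := mrC4) gmrC4 mrC4_ok emrC5.1 lmrC4 mrC4_s kmrC4 mrC4_fx mrC4_k
  have emrC3 := LvD.exact (D := mrC3) gmrC3 mrC3_ok emrC4.1 lmrC3 mrC3_s kmrC3 mrC3_fx mrC3_k
  have emrC2 := LvD.exact (D := mrC2) gmrC2 mrC2_ok emrC3.1 lmrC2 mrC2_s kmrC2 mrC2_fx mrC2_k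
  have emrC1 := LvD.exact (D := mrC1) gmrC1 mrC1_ok emrC2.1 lmrC1 mrC1_s kmrC1 mrC1_fx mrC1_k
  have cmrC : Nat.card (M.cl mrC1_g) = 72 := emrC1.1.2.trans (by (try dsimp only [M]); decide +kernel)
  obtain ⟨tmrP1, hTmrP1⟩ := exists_R va (c := (nat_lit 0x6f7b7f400000ffe48b90d48110adf6e63783a626d6860eba2ff4b19fb191a01fe8b1850114a104bfea44b49fedc48044e70ee51f7e4df6a824840001e94cbd3148df2326cfef7b7e)) (by (try dsimp only [M]); decide +kernel)
  have kmrP1 : Key M (cjS St tmrP1) mrP1_key mrP1_fix := k1.keyT hTmrP1 (R_inv_of hTmrP1 (exists_R va (c := (nat_lit 0x4d7aff400000308ff4f9d6038785ee800011bdd581dff709fdc341904f9c5d6d41b847fa6fc43ffb4001ce1d73903dbf475d2439f5027fd12ad3b8140e4f0f494dadce4d37cd7afe)) (by (try dsimp only [M]); decide +kernel)) (by (try dsimp only [M]); decide +kernel)) _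
  obtain ⟨tmrP2, hTmrP2⟩ := exists_R va (c := (nat_lit 0x4fcedf4000008069beede14310adf6e22809fb6223337431b847fa74e065a01fe89640a114a1047bab00701ea9efe324b16e3d3f6320aff5307cb10cf21675af9134207a2fcfcede)) (by (try dsimp only [M]); decide +kernel)
  have kmrP2 : Key M (cjS St tmrP2) mrP2_key mrP2_fix := k1.keyT hTmrP2 (R_inv_of hTmrP2 (exists_R va (c := (nat_lit 0x2ffdfb400000bff20fded28581d37cc10aeeddb107eff3858e1f26fdc3413fea45a626d641a6f9fd1838f3f2fe9114100cce1c8fe494b37430d7fc28d80fb53f3118921ebfaffdfa)) (by (try dsimp only [M]); decide +kernel)) (by (try dsimp only [M]); decide +kernel)) _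
  obtain ⟨tmrP3, hTmrP3⟩ := exists_R va (c := (nat_lit 0x4fcedf400000fb6223bee1a110adf6ffd12b8069beb847fa337431992111a01fe89640a114a1049b194ca81f6df5a904d01d6d251bedf4d4449ed001f21675065b57207a2fcfcede)) (by (try dsimp only [M]); decide +kernel)
  have kmrP3 : Key M (cjS St tmrP3) mrP3_key mrP3_fix := k1.keyT hTmrP3 (R_inv_of hTmrP3 (exists_R va (c := (nat_lit 0x4d7aff400000b18501bdd581b847fa964d5af9d603dff709904f9cfdc3415d6d418785ee6301f7fbd832f415fad4f026475d24b4f424e8c0bcd3b814d80fb5324220ce4d37cd7afe)) (by (try dsimp only [M]); decide +kernel)) (by (try dsimp only [M]); decide +kernel)) _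
  obtain ⟨tmrP4, hTmrP4⟩ := exists_R va (c := (nat_lit 0x679eef400000ddb1077d1839904f9c881bf281d37c2ff531b4212146f7517f99158004010c0edb48abdf7759d30c07dbc741960a301810d4807571c2d835eb1897df539bece79eee)) (by (try dsimp only [M]); decide +kernel)
  have kmrP4 : Key M (cjS St tmrP4) mrP4_key mrP4_fix := k1.keyT hTmrP4 (R_inv_of hTmrP4 (exists_R va (c := (nat_lit 0x73d3f400000c8abdefbca817ff8d10326cdeff385b847faa626d6a01fe890d48174e065dfea6080100183e6a7dfe3600903fb324220fff07227f24a53cdba2a2bfb6889cf873d3e)) (by (try dsimp only [M]); decide +kernel)) (by (try dsimp only [M]); decide +kernel)) _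
  have gmrP1 : ∀ c ∈ mrP1_g, M.In ⊤ c := valid_sub va (by (try dsimp only [M]); decide +kernel)
  have gmrP2 := LvD.valid_next (D := mrP1) gmrP1 mrP1_ok mrP1_next
  have lmrP1 := LvD.le_next (D := mrP1) gmrP1 mrP1_ok mrP1_next
  have gmrP3 := LvD.valid_next (D := mrP2) gmrP2 mrP2_ok mrP2_next
  have lmrP2 := LvD.le_next (D := mrP2) gmrP2 mrP2_ok mrP2_next
  have gmrP4 := LvD.valid_next (D := mrP3) gmrP3 mrP3_ok mrP3_next
  have lmrP3 := LvD.le_next (D := mrP3) gmrP3 mrP3_ok mrP3_next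
  have gmrP5 := LvD.valid_next (D := mrP4) gmrP4 mrP4_ok mrP4_next
  have lmrP4 := LvD.le_next (D := mrP4) gmrP4 mrP4_ok mrP4_next
  have emrP5 : Exact M (M.cl mrP5_g) mrP5_ls ∧ True := ⟨Exact.nil, trivial⟩
  have emrP4 := LvD.exact (D := mrP4) gmrP4 mrP4_ok emrP5.1 lmrP4 mrP4_s kmrP4 mrP4_fx mrP4_k
  have emrP3 := LvD.exact (D := mrP3) gmrP3 mrP3_ok emrP4.1 lmrP3 mrP3_s kmrP3 mrP3_fx mrP3_k
  have emrP2 := LvD.exact (D := mrP2) gmrP2 mrP2_ok emrP3.1 lmrP2 mrP2_s kmrP2 mrP2_fx mrP2_k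
  have emrP1 := LvD.exact (D := mrP1) gmrP1 mrP1_ok emrP2.1 lmrP1 mrP1_s kmrP1 mrP1_fx mrP1_k
  have cmrP : Nat.card (M.cl mrP1_g) = 729 := emrP1.1.2.trans (by (try dsimp only [M]); decide +kernel)
  obtain ⟨tmrB1, hTmrB1⟩ := exists_R va (c := (nat_lit 0x48ebde4000006ba851deb08d244a97fec2c1f7911bf571c3c0b007c8abdefda305fb32197dfa88840001000200ff9918eda9403db508801001e6e86033c9cff65952eea848c8ebdf)) (by (try dsimp only [M]); decide +kernel)
  have kmrB1 : Key M (cjS St tmrB1) mrB1_key mrB1_fix := k1.keyT hTmrB1 (R_inv_of hTmrB1 (exists_R va (c := (nat_lit 0xe5f264000005e5d23ddb107fb622380040176a82571bc051ed0008e1f266e300080002177f38b7ec2c0000200095badce7f801490847b32185ff7080e4f0f30afaf00cf8f8e5f27)) (by (try dsimp only [M]); decide +kernel)) (by (try dsimp only [M]); decide +kernel)) _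
  obtain ⟨tmrB2, hTmrB2⟩ := exists_R va (c := (nat_lit 0x67ff6f4000008069be6371d5d7e09bf572999921112ff4b18000117ff8d1010cfcdcf0877792c27b56087a4cfe063fc3cffbde5337e579d602630a00f03ff1550fb346ecfee7ff6e)) (by (try dsimp only [M]); decide +kernel)
  have kmrB2 : Key M (cjS St tmrB2) mrB2_key mrB2_fix := k1.keyT hTmrB2 (R_inv_of hTmrB2 (exists_R va (c := (nat_lit 0x8443e740000057fc29fb56097d1839d7e09b904f9c7afc1379af7e3f4c0f7ffffe010cfc0a30181fb190f77fae81cddd5e7d50443fd1eba850808001ad8b5bb3bc10446f990443e6)) (by (try dsimp only [M]); decide +kernel)) (by (try dsimp only [M]); decide +kernel)) _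
  obtain ⟨tmrB3, hTmrB3⟩ := exists_R va (c := (nat_lit 0xd50b4f40000090d48165b2f19a10913374317724d3bee1a17bd833b847fa9837be10adf6b20efdffa41c5c638a4f7bffb08badbeaffdf6a824d7fc280eefdd3ed48832dafd550b4e)) (by (try dsimp only [M]); decide +kernel)
  have kmrB3 : Key M (cjS St tmrB3) mrB3_key mrB3_fix := k1.keyT hTmrB3 (R_inv_of hTmrB3 (exists_R va (c := (nat_lit 0x31ef3400000efa909fcb10ddeb08d81d37cddb107904f9cb18501bff20f1b194df7911b0902fffaf0e4e34e9ef5f7fd5fa7fdbcbdffaff4b0df8660cd7bfa000eafc35eda831ef2)) (by (try dsimp only [M]); decide +kernel)) (by (try dsimp only [M]); decide +kernel)) _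
  obtain ⟨tmrB4, hTmrB4⟩ := exists_R va (c := (nat_lit 0x48ebde4000006ba851f571c3f7911bdeb08dc1a803fec2c1fb3219b1d0005cb0559fb19173418ebf4c0e90ff99be5b061f7e44028fc75ff7089dda2c6889cf6bea02e927cfc8ebdf)) (by (try dsimp only [M]); decide +kernel)
  have kmrB4 : Key M (cjS St tmrB4) mrB4_key mrB4_fix := k1.keyT hTmrB4 (R_inv_of hTmrB4 (exists_R va (c := (nat_lit 0x10cf26400000fbca81e63783dcf087cbf883bdd581ff7983ecc0008e1f266e300090d4810146effaf0e496f0a4b547cd093ae48b35e0e8c0bc9dda2cb6ef8f251bedbecf6d90cf27)) (by (try dsimp only [M]); decide +kernel)) (by (try dsimp only [M]); decide +kernel)) _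
  obtain ⟨tmrB5, hTmrB5⟩ := exists_R va (c := (nat_lit 0x1037be400000c0b007ffb2a39837befb3219ffe48bb42121db7213c4300d002000e3a0005007bdc44d98aaf710eb658c475d248b35e0aff530d3b814d80fb5494dadb3bfbf9037bf)) (by (try dsimp only [M]); decide +kernel)
  have kmrB5 : Key M (cjS St tmrB5) mrB5_key mrB5_fix := k1.keyT hTmrB5 (R_inv_of hTmrB5 (exists_R va (c := (nat_lit 0x1037be400000ffe48b9fb1919837beffd12bc0b007db7213b4212190d481002000e3a0005007bd9dda2ccbd32cf1d6040cce1cfff254ef7234d7fc28d80fb5041e9fb3bfbf9037bf)) (by (try dsimp only [M]); decide +kernel)) (by (try dsimp only [M]); decide +kernel)) _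
  have gmrB1 : ∀ c ∈ mrB1_g, M.In ⊤ c := valid_sub va (by (try dsimp only [M]); decide +kernel)
  have gmrB2 := LvD.valid_next (D := mrB1) gmrB1 mrB1_ok mrB1_next
  have lmrB1 := LvD.le_next (D := mrB1) gmrB1 mrB1_ok mrB1_next
  have gmrB3 := LvD.valid_next (D := mrB2) gmrB2 mrB2_ok mrB2_next
  have lmrB2 := LvD.le_next (D := mrB2) gmrB2 mrB2_ok mrB2_next
  have gmrB4 := LvD.valid_next (D := mrB3) gmrB3 mrB3_ok mrB3_next
  have lmrB3 := LvD.le_next (D := mrB3) gmrB3 mrB3_ok mrB3_next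
  have gmrB5 := LvD.valid_next (D := mrB4) gmrB4 mrB4_ok mrB4_next
  have lmrB4 := LvD.le_next (D := mrB4) gmrB4 mrB4_ok mrB4_next
  have gmrB6 := LvD.valid_next (D := mrB5) gmrB5 mrB5_ok mrB5_next
  have lmrB5 := LvD.le_next (D := mrB5) gmrB5 mrB5_ok mrB5_next
  have emrB6 : Exact M (M.cl mrB6_g) mrB6_ls ∧ True := ⟨Exact.nil, trivial⟩
  have emrB5 := LvD.exact (D := mrB5) gmrB5 mrB5_ok emrB6.1 lmrB5 mrB5_s kmrB5 mrB5_fx mrB5_k
  have emrB4 := LvD.exact (D := mrB4) gmrB4 mrB4_ok emrB5.1 lmrB4 mrB4_s kmrB4 mrB4_fx mrB4_k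
  have emrB3 := LvD.exact (D := mrB3) gmrB3 mrB3_ok emrB4.1 lmrB3 mrB3_s kmrB3 mrB3_fx mrB3_k
  have emrB2 := LvD.exact (D := mrB2) gmrB2 mrB2_ok emrB3.1 lmrB2 mrB2_s kmrB2 mrB2_fx mrB2_k
  have emrB1 := LvD.exact (D := mrB1) gmrB1 mrB1_ok emrB2.1 lmrB1 mrB1_s kmrB1 mrB1_fx mrB1_k
  have cmrB : Nat.card (M.cl mrB1_g) = 2916 := emrB1.1.2.trans (by (try dsimp only [M]); decide +kernel)
  obtain ⟨tmrA1, hTmrA1⟩ := exists_R va (c := (nat_lit 0x800000400000200000100000080000040000020000010000008000004000002000001000000800000400000200000100000080000040000020000010000008000004000002000001)) (by (try dsimp only [M]); decide +kernel)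
  have kmrA1 : Key M (cjS St tmrA1) mrA1_key mrA1_fix := k1.keyT hTmrA1 (R_inv_of hTmrA1 (exists_R va (c := (nat_lit 0x800000400000200000100000080000040000020000010000008000004000002000001000000800000400000200000100000080000040000020000010000008000004000002000001)) (by (try dsimp only [M]); decide +kernel)) (by (try dsimp only [M]); decide +kernel)) _
  obtain ⟨tmrA2, hTmrA2⟩ := exists_R va (c := (nat_lit 0x1b86d64000006c4517e637839fb191ede143eff385b18501f2f313b6600046f7519921110cc0c0faf0e48a1337dcd0c44975645337e5000020ad78460aa7cf14908496c7e39b86d7)) (by (try dsimp only [M]); decide +kernel)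
  have kmrA2 : Key M (cjS St tmrA2) mrA2_key mrA2_fix := k1.keyT hTmrA2 (R_inv_of hTmrA2 (exists_R va (c := (nat_lit 0x10cf26400000777c85eff38590d481dcf087e63783ecc000fbca81ff79834dbea1bee1a16301f7fdb462815ac7f331e277fc243f6320000020ad7846000baf01d40296c7e390cf27)) (by (try dsimp only [M]); decide +kernel)) (by (try dsimp only [M]); decide +kernel)) _
  obtain ⟨tmrA3, hTmrA3⟩ := exists_R va (c := (nat_lit 0x6f7b7f400000ffe48b90d48110adf6e63783a626d6860eba2ff4b19fb191a01fe8b1850114a104bfea44b49fedc48044e70ee51f7e4df6a824840001e94cbd3148df2326cfef7b7e)) (by (try dsimp only [M]); decide +kernel)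
  have kmrA3 : Key M (cjS St tmrA3) mrA3_key mrA3_fix := k1.keyT hTmrA3 (R_inv_of hTmrA3 (exists_R va (c := (nat_lit 0x4d7aff400000308ff4f9d6038785ee800011bdd581dff709fdc341904f9c5d6d41b847fa6fc43ffb4001ce1d73903dbf475d2439f5027fd12ad3b8140e4f0f494dadce4d37cd7afe)) (by (try dsimp only [M]); decide +kernel)) (by (try dsimp only [M]); decide +kernel)) _
  obtain ⟨tmrA4, hTmrA4⟩ := exists_R va (c := (nat_lit 0x81171f4000007f5cc1f2f1c96b59a57db46366e8615fe961010cfc3fea454dbea17d18391c23ff7fb2a2e58e4cc22affbbcf732a2bfb0069bf2626d776eb3e009be7773f3801171e)) (by (try dsimp only [M]); decide +kernel)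
  have kmrA4 : Key M (cjS St tmrA4) mrA4_key mrA4_fix := k1.keyT hTmrA4 (R_inv_of hTmrA4 (exists_R va (c := (nat_lit 0x380877400000a01fe896db0b0326cd4dbea1eff385bdd581e88fcee63783f2f1c946f751c4863ae8c0bcc5cbe68b37af41c5b13f3118ffa41c060ebb464ab45007bd4d5d96b80876)) (by (try dsimp only [M]); decide +kernel)) (by (try dsimp only [M]); decide +kernel)) _
  obtain ⟨tmrA5, hTmrA5⟩ := exists_R va (c := (nat_lit 0x31ef3400000c1f3a9fda305ec004976a825efa90981d37cfcb10d8785ee904f9c1b194dfd7446fafc1290fd9bc93ddd8b37af056f1fb7c05eef24a66556f84805fbbbafbf831ef2)) (by (try dsimp only [M]); decide +kernel)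
  have kmrA5 : Key M (cjS St tmrA5) mrA5_key mrA5_fix := k1.keyT hTmrA5 (R_inv_of hTmrA5 (exists_R va (c := (nat_lit 0x5757f400000f9d603eeb88976a8254dbea1e30a019a1091ff7983860ebac10aee308ff4beaffdbfea44b8943efb8ddd5001df084bdde371d4663782028b5b1b0210283dc985757e)) (by (try dsimp only [M]); decide +kernel)) (by (try dsimp only [M]); decide +kernel)) _
  obtain ⟨tmrA6, hTmrA6⟩ := exists_R va (c := (nat_lit 0x7caaee400000fdc341ddb107b421215fe961fcb10df2f1c9fbab01c10aeec1f3a96b59a5f7d826a00001c41ba2bf488e8803da73418e8020019a3e4248abcd6cf04afd7146fcaaef)) (by (try dsimp only [M]); decide +kernel)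
  have kmrA6 : Key M (cjS St tmrA6) mrA6_key mrA6_fix := k1.keyT hTmrA6 (R_inv_of hTmrA6 (exists_R va (c := (nat_lit 0xe5f26400000800401ecc00067f62571bc05c1a803b42121c0b007e30a018000216e3000ce7f04f9af7fa69f67966b422a166b3de122831366688fcf207a2f201f6b065f0f8e5f27)) (by (try dsimp only [M]); decide +kernel)) (by (try dsimp only [M]); decide +kernel)) _
  have gmrA1 : ∀ c ∈ mrA1_g, M.In ⊤ c := valid_sub va (by (try dsimp only [M]); decide +kernel)
  have gmrA2 := LvD.valid_next (D := mrA1) gmrA1 mrA1_ok mrA1_next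
  have lmrA1 := LvD.le_next (D := mrA1) gmrA1 mrA1_ok mrA1_next
  have gmrA3 := LvD.valid_next (D := mrA2) gmrA2 mrA2_ok mrA2_next
  have lmrA2 := LvD.le_next (D := mrA2) gmrA2 mrA2_ok mrA2_next
  have gmrA4 := LvD.valid_next (D := mrA3) gmrA3 mrA3_ok mrA3_next
  have lmrA3 := LvD.le_next (D := mrA3) gmrA3 mrA3_ok mrA3_next
  have gmrA5 := LvD.valid_next (D := mrA4) gmrA4 mrA4_ok mrA4_next
  have lmrA4 := LvD.le_next (D := mrA4) gmrA4 mrA4_ok mrA4_next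
  have gmrA6 := LvD.valid_next (D := mrA5) gmrA5 mrA5_ok mrA5_next
  have lmrA5 := LvD.le_next (D := mrA5) gmrA5 mrA5_ok mrA5_next
  have gmrA7 := LvD.valid_next (D := mrA6) gmrA6 mrA6_ok mrA6_next
  have lmrA6 := LvD.le_next (D := mrA6) gmrA6 mrA6_ok mrA6_next
  have emrA7 : Exact M (M.cl mrA7_g) mrA7_ls ∧ True := ⟨Exact.nil, trivial⟩
  have emrA6 := LvD.exact (D := mrA6) gmrA6 mrA6_ok emrA7.1 lmrA6 mrA6_s kmrA6 mrA6_fx mrA6_k
  have emrA5 := LvD.exact (D := mrA5) gmrA5 mrA5_ok emrA6.1 lmrA5 mrA5_s kmrA5 mrA5_fx mrA5_k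
  have emrA4 := LvD.exact (D := mrA4) gmrA4 mrA4_ok emrA5.1 lmrA4 mrA4_s kmrA4 mrA4_fx mrA4_k
  have emrA3 := LvD.exact (D := mrA3) gmrA3 mrA3_ok emrA4.1 lmrA3 mrA3_s kmrA3 mrA3_fx mrA3_k
  have emrA2 := LvD.exact (D := mrA2) gmrA2 mrA2_ok emrA3.1 lmrA2 mrA2_s kmrA2 mrA2_fx mrA2_k
  have emrA1 := LvD.exact (D := mrA1) gmrA1 mrA1_ok emrA2.1 lmrA1 mrA1_s kmrA1 mrA1_fx mrA1_k
  have cmrA : Nat.card (M.cl mrA1_g) = 11664 := emrA1.1.2.trans (by (try dsimp only [M]); decide +kernel)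
  obtain ⟨tmrL1, hTmrL1⟩ := exists_R va (c := (nat_lit 0xb00ff4400000001000bdd58149f00046f751308ff45fe9617f99156f72357af0e571bc053146007ec2c0840ed79c0eb7feb0e25f3ce36228085b7212449bb33242204627d3300ff5)) (by (try dsimp only [M]); decide +kernel)
  have kmrL1 : Key M (cjS St tmrL1) mrL1_key mrL1_fix := k1.keyT hTmrL1 (R_inv_of hTmrL1 (exists_R va (c := (nat_lit 0x6a8fce4000009b3000bdd5810326cd5d6d41fda30596db0be88fcefbca81eeb889200000b9d450dcb054974c5fd9b01648300a093012b7c05e48c04271fffc59f2067f7547ea8fcf)) (by (try dsimp only [M]); decide +kernel)) (by (try dsimp only [M]); decide +kernel)) _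
  obtain ⟨tmrL2, hTmrL2⟩ := exists_R va (c := (nat_lit 0x7caaee400000fcb10d9b3000b42121001000fdc341fbab01f2f1c996db0bc1f3a96b59a5f7d826fff0729eb97fd9ebf5faabff009be790adf7b7c05e48abcd065b57fd7146fcaaef)) (by (try dsimp only [M]); decide +kernel)
  have kmrL2 : Key M (cjS St tmrL2) mrL2_key mrL2_fix := k1.keyT hTmrL2 (R_inv_of hTmrL2 (exists_R va (c := (nat_lit 0x59bf9c400000dcf087ecc0006c45173f4c0fc1a803db7213ffe48bff7983d7e09b040000ce7f04f9af7ff7bfd7966b425001df1b0210c6f750688fcf3f0d9b065b57065f0fd9bf9d)) (by (try dsimp only [M]); decide +kernel)) (by (try dsimp only [M]); decide +kernel)) _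
  obtain ⟨tmrL3, hTmrL3⟩ := exists_R va (c := (nat_lit 0xf0daee40000067f6250010007db4639b30003f4c0f57fc295ef4697f5cc171bc05fb56097792c25cf0860726cfdade5f9c0eb7041e9f3847fb7ec2c0bade7b90cef7ef268670daef)) (by (try dsimp only [M]); decide +kernel)
  have kmrL3 : Key M (cjS St tmrL3) mrL3_key mrL3_fix := k1.keyT hTmrL3 (R_inv_of hTmrL3 (exists_R va (c := (nat_lit 0x59bf9c400000c1a803ecc0003f4c0f7afc13ff798396db0bbff20fddb107f7911b1000008fe494f724d29816cf8cd7770a07db27f3908326cc2626d719159f028fc7642e13d9bf9d)) (by (try dsimp only [M]); decide +kernel)) (by (try dsimp only [M]); decide +kernel)) _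
  obtain ⟨tmrL4, hTmrL4⟩ := exists_R va (c := (nat_lit 0x6f7b7f400000fec2c1860eba2ff4b1a626d6ffe48b10adf6c1a8037ff459800401deb08d5007bd3dd5806e7f85eb658cb49ee5494dadeb59a47dc340ced2fe8b35e04f196eef7b7e)) (by (try dsimp only [M]); decide +kernel)
  have kmrL4 : Key M (cjS St tmrL4) mrL4_key mrL4_fix := k1.keyT hTmrL4 (R_inv_of hTmrL4 (exists_R va (c := (nat_lit 0x75cfb400000e88fcef2f3139837bebee1a1eff385ded285fcb10d8e1f261dda2d81d37c461773802001a17b7d8e5f551f7e44fff254dcb054dd6d40868f57028fc7b92ed7875cfa)) (by (try dsimp only [M]); decide +kernel)) (by (try dsimp only [M]); decide +kernel)) _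
  obtain ⟨tmrL5, hTmrL5⟩ := exists_R va (c := (nat_lit 0x48ebde4000006ba851f571c3f7911bdeb08dc1a803fec2c1fb3219b1d0005cb0559fb19173418ebf4c0e90ff99be5b061f7e44028fc75ff7089dda2c6889cf6bea02e927cfc8ebdf)) (by (try dsimp only [M]); decide +kernel)
  have kmrL5 : Key M (cjS St tmrL5) mrL5_key mrL5_fix := k1.keyT hTmrL5 (R_inv_of hTmrL5 (exists_R va (c := (nat_lit 0x10cf26400000fbca81e63783dcf087cbf883bdd581ff7983ecc0008e1f266e300090d4810146effaf0e496f0a4b547cd093ae48b35e0e8c0bc9dda2cb6ef8f251bedbecf6d90cf27)) (by (try dsimp only [M]); decide +kernel)) (by (try dsimp only [M]); decide +kernel)) _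
  have gmrL1 : ∀ c ∈ mrL1_g, M.In ⊤ c := valid_sub va (by (try dsimp only [M]); decide +kernel)
  have gmrL2 := LvD.valid_next (D := mrL1) gmrL1 mrL1_ok mrL1_next
  have lmrL1 := LvD.le_next (D := mrL1) gmrL1 mrL1_ok mrL1_next
  have gmrL3 := LvD.valid_next (D := mrL2) gmrL2 mrL2_ok mrL2_next
  have lmrL2 := LvD.le_next (D := mrL2) gmrL2 mrL2_ok mrL2_next
  have gmrL4 := LvD.valid_next (D := mrL3) gmrL3 mrL3_ok mrL3_next
  have lmrL3 := LvD.le_next (D := mrL3) gmrL3 mrL3_ok mrL3_next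
  have gmrL5 := LvD.valid_next (D := mrL4) gmrL4 mrL4_ok mrL4_next
  have lmrL4 := LvD.le_next (D := mrL4) gmrL4 mrL4_ok mrL4_next
  have gmrL6 := LvD.valid_next (D := mrL5) gmrL5 mrL5_ok mrL5_next
  have lmrL5 := LvD.le_next (D := mrL5) gmrL5 mrL5_ok mrL5_next
  have emrL6 : Exact M (M.cl mrL6_g) mrL6_ls ∧ True := ⟨Exact.nil, trivial⟩
  have emrL5 := LvD.exact (D := mrL5) gmrL5 mrL5_ok emrL6.1 lmrL5 mrL5_s kmrL5 mrL5_fx mrL5_k
  have emrL4 := LvD.exact (D := mrL4) gmrL4 mrL4_ok emrL5.1 lmrL4 mrL4_s kmrL4 mrL4_fx mrL4_k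
  have emrL3 := LvD.exact (D := mrL3) gmrL3 mrL3_ok emrL4.1 lmrL3 mrL3_s kmrL3 mrL3_fx mrL3_k
  have emrL2 := LvD.exact (D := mrL2) gmrL2 mrL2_ok emrL3.1 lmrL2 mrL2_s kmrL2 mrL2_fx mrL2_k
  have emrL1 := LvD.exact (D := mrL1) gmrL1 mrL1_ok emrL2.1 lmrL1 mrL1_s kmrL1 mrL1_fx mrL1_k
  have cmrL : Nat.card (M.cl mrL1_g) = 20160 := emrL1.1.2.trans (by (try dsimp only [M]); decide +kernel)
  exact ⟨rfl, rfl, rfl, vv, va, ht, hc, emrJ1.1.1, cmrJ, emrU1.1.1, cmrU, emrW1.1.1, cmrW, emrC1.1.1, cmrC, emrP1.1.1, cmrP, emrB1.1.1, cmrB, emrA1.1.1, cmrA, emrL1.1.1, cmrL⟩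

end H29
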