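import Cfsg.Agent.H29.Mr2

set_option autoImplicit false
set_option maxRecDepth 100000
set_option linter.style.haveILetI false
set_option linter.unusedVariables false
set_option linter.style.longLine false
set_option linter.unusedTactic false
set_option linter.unreachableTactic false

namespace H29

open Subgroup MulAction

variable {X Y Ω : Type*} [Group X] [Finite X] [Group Y] [MulAction Y Ω] {M : Model X} {ι : X →* Y} {s : Y} {a b c : Ω}

theorem mr_A (F : MrF M) {K : Subgroup X} (hK : 112 * Nat.card K = Nat.card X) :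
    ∃ g, ∀ x, g⁻¹ * x * g ∈ K ↔ x ∈ M.cl mrJ1_g := by
  obtain ⟨h1, h2, h3, vv, va, top, card, cJ, nJ, cU, nU, cW, nW, cC, nC, cP, nP, cB, nB, cA, nA, cL, nL⟩ := F
  obtain ⟨R, one, mul, eqb, a1, a2, a3⟩ := M
  dsimp only at h1 h2 h3
  subst h1 h2 h3
  set M : Model X := ⟨R, a2_24.one, a2_24.mul, Nat.beq, a1, a2, a3⟩ with hM
  haveI : Fact (Nat.Prime 3) := ⟨by norm_num⟩
  have iK : K.index = 112 := Nat.eq_of_mul_eq_mul_right Nat.card_pos (K.index_mul_card.trans hK.symm)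
  obtain ⟨g, hg⟩ := exists_conj_le (p := 3) (P := M.cl mrP1_g) (K := K) (IsPGroup.of_card (n := 6) nP)
    (by rw [iK]; norm_num)
  let L := K.comap (MulAut.conj g⁻¹).toMonoidHom
  have mL : ∀ x, x ∈ L ↔ g⁻¹ * x * g ∈ K := fun x => by simp [L]
  have nL' : Nat.card L = 29160 := by rw [card_conj_of g mL]; omega
  obtain ⟨x, hx⟩ := exists_fun_R (valid_sub (l := mrD2_x) va (by (try dsimp only [M]); decide +kernel))
  obtain ⟨τ, hτ⟩ := exists_fun_R (valid_sub (l := mrD3_x) va (by (try dsimp only [M]); decide +kernel))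
  rcases over_par (K := L) cJ cA hx hτ (valid_sub (l := mrP1_g) va (by (try dsimp only [M]); decide +kernel)) top (cJ.cl_le_of_sift mr_PJ)
    (cA.cl_le_of_sift mr_PA) (fun x => dc2_cover cP cB hx (ms := mrD2_ms) (by decide) (by dsimp only [M]; exact mrD2_0) mrD2_dc x (top ▸ mem_top x)) (dc2_cover Chain.nil cP hτ (ms := mrD3_ms) (by decide) (by dsimp only [M]; exact mrD3_0) mrD3_dc) mr_ov
    (fun x hx => (mL x).2 (hg x hx)) (fun e => by rw [e, card_top, card] at nL'; omega) with h | h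
  · exact ⟨g, fun x => by rw [← eq_of_le_of_card_ge h (by rw [nL', nJ]), mL]⟩
  · have := card_le_of_le h
    rw [nL', nA] at this
    omega

theorem mr_inf (F : MrF M) (hJ : Sx ι b = M.cl mrJ1_g) : ∃ r : ℕ → X, (∀ i, M.R (lgetD M.one mrD1_x i) (r i)) ∧
    (∀ x, x ∈ Sx ι b ∨ ∃ i < 2, ∃ j ∈ Sx ι b, (j * r i)⁻¹ * x ∈ Sx ι b) ∧ ∀ i < 2, Sx ι b ⊓ Sx ι (ι (r i) • b) =
      M.cl ([mrU1_g, mrW1_g].getD i []) := by
  obtain ⟨h1, h2, h3, vv, va, top, card, cJ, nJ, cU, nU, cW, nW, cC, nC, cP, nP, cB, nB, cA, nA, cL, nL⟩ := F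
  obtain ⟨R, one, mul, eqb, a1, a2, a3⟩ := M
  dsimp only at h1 h2 h3
  subst h1 h2 h3
  set M : Model X := ⟨R, a2_24.one, a2_24.mul, Nat.beq, a1, a2, a3⟩ with hM
  obtain ⟨r, hr⟩ := exists_fun_R (valid_sub (l := mrD1_x) va (by (try dsimp only [M]); decide +kernel))
  have cov := cov_conv (fun x => dc2_cover cJ cJ hr (ms := mrD1_ms) (by decide) (by dsimp only [M]; exact mrD1_0) mrD1_dc x (top ▸ mem_top x))
  refine ⟨r, hr, hJ ▸ cov, inf_eq_of_sum hJ (n := fun i => [30, 81].getD i 0) cov (fun i hi u hu => ?_)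
    (fun i hi => ?_) (by rw [card, nJ]; rfl)⟩
  · interval_cases i
    exacts [⟨(cjIn_spec cJ (hr 0) mr_cU).1 hu, (cjIn_spec cJ (hr 0) mr_cU).2 u hu⟩, ⟨(cjIn_spec cJ (hr 1) mr_cW).1 hu, (cjIn_spec cJ (hr 1) mr_cW).2 u hu⟩]
  · interval_cases i
    exacts [nJ.trans (congrArg (30 * ·) nU).symm, nJ.trans (congrArg (81 * ·) nW).symm]

/-- A swap of type `i`. -/
structure MrS (M : Model X) (ι : X →* Y) (s : Y) (a b c : Ω) (i : ℕ) : Prop where
  h : Rk3 ι a b c 112 162
  hJ : Sx ι b = M.cl mrJ1_g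
  sa : s • a = b
  sb : s • b = a
  sd : ∀ t, M.R mr_t t → s • ι t • b = ι t • b
  ty : ∀ k, Pr M (AlS ι s) (lgetD M.one mrJ1_g k) (lgetD M.one (mr_T i) k)

theorem mr_N (F : MrF M) {u : X} (ru : M.R mr_u u) :
    ∀ n ∈ M.cl mrU1_g, ∀ c ∈ mr_NL, ∀ y, M.R c y → n * u = y * n → ∃ c ∈ mr_NL, M.R c n := by
  obtain ⟨h1, h2, h3, vv, va, top, card, cJ, nJ, cU, nU, cW, nW, cC, nC, cP, nP, cB, nB, cA, nA, cL, nL⟩ := F
  obtain ⟨R, one, mul, eqb, a1, a2, a3⟩ := M
  dsimp only at h1 h2 h3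
  subst h1 h2 h3
  set M : Model X := ⟨R, a2_24.one, a2_24.mul, Nat.beq, a1, a2, a3⟩ with hM
  intro n hn c hc y ry e
  obtain ⟨cx, rx, e3⟩ := cU.allC_top mr_aU n hn
  rcases Bool.or_eq_true_iff.1 (band_iff.1 e3).2 with e4 | e4
  · obtain ⟨c', hc', e4⟩ := anyL_iff.1 e4
    obtain ⟨y', -, ry'⟩ := valid_sub (l := mr_NL) va (by (try dsimp only [M]); decide +kernel) c' hc'
    exact ⟨c', hc', M.eq_of rx ry' e4 ▸ ry'⟩
  · have e5 := allL_spec e4 c hc
    rw [force_eq, force_eq, show Nat.beq _ _ = true from (M.eqb_iff (M.R_mul rx ru) (M.R_mul ry rx)).2 e] at e5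
    cases e5

theorem mr_B (F : MrF M) (h : Rk3 ι a b c 112 162) (hJ : Sx ι b = M.cl mrJ1_g) : ∃ s, ∃ i < 4, MrS M ι s a b c i := by
  obtain ⟨r, hr, cov, eI⟩ := mr_inf F hJ
  obtain ⟨u, ru⟩ := exists_R F.va (c := mr_u) (by decide +kernel)
  have hN := mr_N F ru
  obtain ⟨h1, h2, h3, vv, va, top, card, cJ, nJ, cU, nU, cW, nW, cC, nC, cP, nP, cB, nB, cA, nA, cL, nL⟩ := F
  obtain ⟨R, one, mul, eqb, a1, a2, a3⟩ := M
  dsimp only at h1 h2 h3
  subst h1 h2 h3
  set M : Model X := ⟨R, a2_24.one, a2_24.mul, Nat.beq, a1, a2, a3⟩ with hM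
  haveI : Fact (Nat.Prime 2) := ⟨by norm_num⟩
  have rt : M.R mr_t (r 0) := hr 0
  have eU : Sx ι b ⊓ Sx ι (ι (r 0) • b) = M.cl mrU1_g := eI 0 (by norm_num)
  obtain ⟨z, rz⟩ := exists_R va (c := mr_v) (by (try dsimp only [M]); decide +kernel)
  obtain ⟨j, rj⟩ := exists_R va (c := mr_w) (by (try dsimp only [M]); decide +kernel)
  have mu : u ∈ M.cl mrU1_g := Model.mem_cl (subL_spec (l := [mr_u]) (by (try dsimp only [M]); decide +kernel) _ (by simp)) ru
  have mz : z ∈ M.cl mrU1_g := Model.mem_cl (subL_spec (l := [mr_v]) (by (try dsimp only [M]); decide +kernel) _ (by simp)) rz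
  have r4 : M.R mr_z (u ^ 2) := R_pw_of ru (by (try dsimp only [M]); decide +kernel) (by norm_num)
  have tt : r 0 * r 0 ∈ Sx ι b := M.eq_of (M.R_mul rt rt) r4 (by (try dsimp only [M]); decide +kernel) ▸ (eU.ge (pow_mem mu 2)).1
  have nc : Nat.card (Sx ι c) = 20160 := by have := h.c2; omega
  obtain ⟨s1, sa, sb⟩ := h.swap (by norm_num) (by norm_num)
  obtain ⟨k, hk, e1⟩ := h.img (by norm_num) sa sb (m := fun i => [972, 360].getD i 0) (i := 0) cov
    (fun i hi => by rw [eI i hi]; interval_cases i; exacts [nU, nW]) (by norm_num) (by rw [hJ, nJ]; decide)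
    (by rw [nc]; decide) (by decide)
  have st : ∀ {s} {w}, s • a = b → s • b = a → w ∈ Sx ι b → (ι w * s) • a = b ∧ (ι w * s) • b = a :=
    fun p q r => ⟨by rw [mul_smul, p, mem_Sx.1 r], by rw [mul_smul, q, h.fix]⟩
  have sd : ∀ {s} {w}, s • ι (r 0) • b = ι (r 0) • b → w ∈ M.cl mrU1_g → (ι w * s) • ι (r 0) • b = ι (r 0) • b :=
    fun p r => by rw [mul_smul, p, mem_Sx.1 (eU.ge r).2]
  obtain ⟨a2, b2⟩ := st sa sb (inv_mem hk)
  have d2 : (ι k⁻¹ * s1) • ι (r 0) • b = ι (r 0) • b := by rw [mul_smul, map_inv, inv_smul_eq_iff]; exact e1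
  obtain ⟨y, my, hy⟩ := h.norm a2 b2 d2 eU mu
  have ou : orderOf u = 2 ^ 2 := orderOf_of_ordOK (n := 4) (ps := [2]) ru (by (try dsimp only [M]); decide +kernel) (by norm_num) (by norm_num)
    (mem_of_primeFactorsList (by norm_num) (by simp [Nat.primeFactorsList_ofNat]))
  obtain ⟨w, mw, n, hn, e2⟩ := exists_conj_pow (m := 243) mu my ou ((hy.order h.inj).trans ou) nU (by norm_num)
  obtain ⟨a3, b3⟩ := st a2 b2 (eU.ge mw).1
  have d3 := sd d2 mw
  obtain ⟨x, mx, hx⟩ := h.norm a3 b3 d3 eU mz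
  obtain ⟨y3, hy3⟩ := exists_al h.rng b3 (hJ.ge (Model.mem_cl (l := mrJ1_g) (c := mr_w) (subL_spec (l := [mr_w]) (by (try dsimp only [M]); decide +kernel) _ (by simp)) rj))
  obtain ⟨cx, rx, e3⟩ := cU.allC_top mr_aU x mx
  obtain ⟨q, hq⟩ := exists_fun_R (valid_sub (l := mrD4_x) va (by (try dsimp only [M]); decide +kernel))
  have hu := e2 ▸ hy.adj w
  obtain ⟨ca, cy, ra, ry, e4⟩ := en4At_spec h.inj cC ru rz rj rx
    (show n < 4 from hn) (by norm_num) (by norm_num) (rels_lt (by decide)) (rels_lt (by decide)) (rels_lt (by decide))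
    (by (try dsimp only [M]); decide +kernel) (by (try dsimp only [M]); decide +kernel) (by (try dsimp only [M]); decide +kernel) (M.ne_of rz M.R_one (by (try dsimp only [M]); decide +kernel)) (M.ne_of r4 M.R_one (by (try dsimp only [M]); decide +kernel)) ((commB_iff rj r4).1 (by (try dsimp only [M]); decide +kernel))
    (cent_of_cov (cl_comm (l := mrC1_g) r4 (by (try dsimp only [M]); decide +kernel)) hq r4 (dc2_cover cC cC hq (ms := mrD4_ms) (by decide) (by dsimp only [M]; exact mrD4_0) mrD4_dc) (by (try dsimp only [M]); decide +kernel))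
    (hJ ▸ a3 ▸ hy3.fix (h.fix j)) hu hx hy3 (band_iff.1 e3).1
  have vN := valid_sub (l := mr_NL) va (by (try dsimp only [M]); decide +kernel)
  have e5 := badL_spec h.inj (l := mrJ1_g) (Pr.three ⟨_, _, ru, ra, hu⟩ ⟨_, _, rz, rx, hx⟩ ⟨_, _, rj, ry, hy3⟩) rt ru vN hN
    (h.cube' a3 b3 d3 tt eU) (h.sq a3 b3 d3 eU) mr_E
  obtain ⟨i, hi, e6⟩ := anyL_iff.1 ((Bool.or_eq_true_iff.1 e4).resolve_left (Bool.eq_false_iff.1 e5))
  obtain ⟨A, -, rA⟩ := Model.in_lgetD (valid_sub (l := mr_TA) va (by (try dsimp only [M]); decide +kernel)) i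
  obtain ⟨B, -, rB⟩ := Model.in_lgetD (valid_sub (l := mr_TB) va (by (try dsimp only [M]); decide +kernel)) i
  obtain ⟨C, -, rC⟩ := Model.in_lgetD (valid_sub (l := mr_TC) va (by (try dsimp only [M]); decide +kernel)) i
  obtain ⟨v, mv, p1, p2, p3⟩ := hit3_spec (U := M.cl mrU1_g) (fun c hc => cU.in_of_sift (vN c hc) (allL_spec mr_NU c hc))
    rA rB rC ra rx ry e6 hu hx hy3
  obtain ⟨a4, b4⟩ := st a3 b3 (eU.ge mv).1
  exact ⟨_, i, by revert hi; simp; omega, h, hJ, a4, b4, fun t ht => M.unique rt ht ▸ sd d3 mv,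
    Pr.three ⟨_, _, ru, rA, p1⟩ ⟨_, _, rz, rB, p2⟩ ⟨_, _, rj, rC, p3⟩⟩

theorem mr_step (F : MrF M) (e : X ≃* X)
    (he : ∀ i < 4, ∀ x y, M.R (lgetD 0 mrE_g i) x → M.R (lgetD 0 mrE_a i) y → e x = y) {i : ℕ} (hi : i < 3)
    (S : MrS M ι s a b c (i + 1)) : MrS M (ι.comp e.toMonoidHom) s a b c i := by
  obtain ⟨h1, h2, h3, vv, va, top, card, cJ, nJ, cU, nU, cW, nW, cC, nC, cP, nP, cB, nB, cA, nA, cL, nL⟩ := F
  obtain ⟨R, one, mul, eqb, a1, a2, a3⟩ := M
  dsimp only at h1 h2 h3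
  subst h1 h2 h3
  set M : Model X := ⟨R, a2_24.one, a2_24.mul, Nat.beq, a1, a2, a3⟩ with hM
  have h := S.h.comp e
  have g : ∀ k < 4, Pr M e.toMonoidHom.graph (lgetD 0 mrE_g k) (mr_d k) := fun k hk =>
    let ⟨x, _, rx⟩ := valid_sub (l := mrE_g) va (by (try dsimp only [M]); decide +kernel) _ (lgetD_mem hk)
    let ⟨y, _, ry⟩ := valid_sub (l := mrE_a) va (by (try dsimp only [M]); decide +kernel) _ (lgetD_mem hk)
    ⟨x, y, rx, ry, he k hk x y rx ry⟩
  have g3 := Pr.three (g 0 (by norm_num)) (g 1 (by norm_num)) (g 2 (by norm_num))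
  have e1 := all1_lt (all1_lt mr_twok i hi)
  refine ⟨h, (eq_of_le_of_card_ge (Model.cl_le' fun c hc x rx => ?_) ?_).symm, S.sa, S.sb, fun t rt => ?_,
    Pr.three (twOK_spec S.ty g3 (g 0 (by norm_num)) (e1 0 (by norm_num)))
      (twOK_spec S.ty g3 (g 1 (by norm_num)) (e1 1 (by norm_num)))
      (twOK_spec S.ty g3 (g 2 (by norm_num)) (e1 2 (by norm_num)))⟩
  · obtain ⟨k, hk, rfl⟩ := exists_lgetD 0 hc
    have hk' : k < 3 := hk
    obtain ⟨x', y, p, q, r⟩ := g k (by omega)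
    obtain rfl : x' = x := M.unique p (by interval_cases k <;> exact rx)
    show e x' ∈ Sx ι b
    rw [S.hJ, show e x' = y from r]
    exact cJ.mem_of_sift _ _ q (by interval_cases k <;> exact (by (try dsimp only [M]); decide +kernel))
  · have := h.c1
    omega
  · obtain ⟨x, y, p, q, r⟩ := g 3 (by norm_num)
    obtain rfl : x = t := M.unique p rt
    have e2 : x⁻¹ * y ∈ Sx ι b := S.hJ ▸ cJ.mem_of_sift _ _
      (M.R_mul (R_inv_of rt (exists_R va (c := mr_ti) (by (try dsimp only [M]); decide +kernel)) (by (try dsimp only [M]); decide +kernel)) q) (by (try dsimp only [M]); decide +kernel)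
    have e3 : ι.comp e.toMonoidHom x • b = ι x • b := by
      show ι (e x) • b = _
      rw [show e x = y from r, ← mul_inv_cancel_left x y, map_mul, mul_smul, mem_Sx.1 e2]
    rw [e3]
    exact S.sd x rt

theorem mr_G (F : MrF M) (T : MrS M ι s a b c 0) {S : Type*} [Group S] {f : X →* S} (hf : Function.Injective f)
    {s0 : S} {t z : X} (rt : M.R mr_t t) (rz : M.R mr_z z) (ss0 : s0 * s0 = f z) (br0 : (s0 * f t) ^ 3 = f z)
    (h0 : ∀ c j y, M.R c j → M.R (alD a2_24.mul mr_s mr_si c) y → s0 * f j = f y * s0) : s * s = ι z ∧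
    s * ι t * s = ι t * s * ι t ∧ ∀ j ∈ M.cl mrJ1_g, ∃ y ∈ M.cl mrJ1_g, Al (ι.prod f) (s, s0) j y := by
  obtain ⟨r, hr, -, eI⟩ := mr_inf F T.hJ
  obtain ⟨u, ru⟩ := exists_R F.va (c := mr_u) (by decide +kernel)
  have hN := mr_N F ru
  obtain ⟨h1, h2, h3, vv, va, top, card, cJ, nJ, cU, nU, cW, nW, cC, nC, cP, nP, cB, nB, cA, nA, cL, nL⟩ := F
  obtain ⟨R, one, mul, eqb, a1, a2, a3⟩ := M
  dsimp only at h1 h2 h3
  subst h1 h2 h3
  set M : Model X := ⟨R, a2_24.one, a2_24.mul, Nat.beq, a1, a2, a3⟩ with hM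
  obtain rfl := M.unique rt (hr 0)
  have eU : Sx ι b ⊓ Sx ι (ι (r 0) • b) = M.cl mrU1_g := eI 0 (by norm_num)
  have hal : ∀ j ∈ M.cl mrJ1_g, ∃ y, Al (ι.prod f) (s, s0) j y ∧ y ∈ M.cl mrJ1_g :=
    Al.cl (one_mem _) (fun _ _ => mul_mem) (fun _ => inv_mem) (l := {g | ∃ c ∈ mrJ1_g, M.R c g}) fun x ⟨c, hc, rx⟩ => by
      obtain ⟨k, hk, rfl⟩ := exists_lgetD M.one hc
      have hk' : k < 3 := hk
      obtain ⟨x', y, p, q, e⟩ := T.ty k
      obtain rfl := M.unique p rx
      have e1 : lgetD M.one (mr_T 0) k = alD a2_24.mul mr_s mr_si (lgetD M.one mrJ1_g k) := by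
        interval_cases k <;> exact (by (try dsimp only [M]); decide +kernel)
      exact ⟨y, Prod.ext e (h0 _ _ _ p (e1 ▸ q)), cJ.mem_of_sift _ _ q (by interval_cases k <;> exact (by (try dsimp only [M]); decide +kernel))⟩
  obtain ⟨v, rv⟩ := exists_R va (c := mr_v) (by (try dsimp only [M]); decide +kernel)
  have mu : u ∈ M.cl mrU1_g := Model.mem_cl (subL_spec (l := [mr_u]) (by (try dsimp only [M]); decide +kernel) _ (by simp)) ru
  have mv : v ∈ M.cl mrU1_g := Model.mem_cl (subL_spec (l := [mr_v]) (by (try dsimp only [M]); decide +kernel) _ (by simp)) rv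
  obtain ⟨ss, br⟩ := T.h.good3 T.sa T.sb (T.sd _ rt) (M.eq_of (M.R_mul rt rt) rz (by (try dsimp only [M]); decide +kernel))
    (M.eq_of (M.R_mul rz rz) M.R_one (by (try dsimp only [M]); decide +kernel)) eU (cU.mem_of_sift _ _ rz (by (try dsimp only [M]); decide +kernel)) hf ss0 br0
    (fun x hx => (hal x (cJ.cl_le_of_sift mr_UJ hx)).imp fun _ h => h.1)
    (fun x hx => by simpa using (cjIn_spec cU (R_inv_of rt (exists_R va (c := mr_ti) (by (try dsimp only [M]); decide +kernel)) (by (try dsimp only [M]); decide +kernel)) mr_tU).2 x hx)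
    fun w mw e => by
      obtain ⟨c, hc, rc⟩ := hN w mw mr_u (subL_spec (l := [mr_u]) (by (try dsimp only [M]); decide +kernel) _ (by simp)) u ru (e u mu)
      have e1 := allL_spec (show allL (fun c => Nat.beq c a2_24.one || (commB a2_24.mul Nat.beq c mr_v).not) mr_NL = true by
        decide +kernel) c hc
      rw [show commB a2_24.mul Nat.beq c mr_v = true from (commB_iff rc rv).2 (e v mv), Bool.not_true, Bool.or_false] at e1
      exact M.eq_of rc M.R_one e1
  exact ⟨ss, br, fun j hj => (hal j hj).imp fun _ h => ⟨h.2, h.1⟩⟩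

theorem mr_C (F : MrF M) (C : ImD M ι s (M.cl mrJ1_g) (alD a2_24.mul mr_s mr_si) mr_t mr_z) (ha : ∀ x, ι x • a = a)
    {t' : X} (rt : M.R mr_tp t') :
    ∀ d ∈ closure (Set.range ι ∪ {s}), R3T ι a (s • a) (s • ι t' • s • a) (d • a) := by
  obtain ⟨h1, h2, h3, vv, va, top, card, cJ, nJ, cU, nU, cW, nW, cC, nC, cP, nP, cB, nB, cA, nA, cL, nL⟩ := F
  obtain ⟨R, one, mul, eqb, a1, a2, a3⟩ := M
  dsimp only at h1 h2 h3
  subst h1 h2 h3
  set M : Model X := ⟨R, a2_24.one, a2_24.mul, Nat.beq, a1, a2, a3⟩ with hM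
  have hJ := C.fixb cJ ha
  have f3 : Im M ι s mr_tp (s • a) M.one _ := Im.dfn rt
  have f2 := Im.t' C ha
  have m0 := f3.mv' C (cJ.in_elt 12342) ((cJ.in_elt 14396).mono hJ) (nat_lit 0x488fce400000e88fceddb1070800003f4c0f9b3000fb5609ded285efa9098004017f5cc1f65952802001a48ed7ff69c00c07db000040e5b2f048abdf2803df57e34848abcdc88fcf) (nat_lit 0x144f9c400000fb321910000049f00071bc05444d99ecc000b66000b18501e22809fbab015337e5810cfd58bfda677e7e2582bf1a2bbf5ed2842626d77627975007bdf74f6a944f9d) (by (try dsimp only [M]); decide +kernel)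
  have k0 := f3.fix m0 (valid_of_mem va (c := (nat_lit 0x144f9c400000fb321910000049f00071bc05444d99ecc000b66000b18501e22809fbab015337e5810cfd58bfda677e7e2582bf1a2bbf5ed2842626d77627975007bdf74f6a944f9d)) (by (try dsimp only [M]); decide +kernel)) (by (try dsimp only [M]); decide +kernel)
  have m1 := f3.mv' C (cJ.in_elt 16927) ((cJ.in_elt 3926).mono hJ) (nat_lit 0x488fce400000e88fceddb1070800003f4c0f9b3000fb5609ded285efa9098004017f5cc1f65952802001a48ed7ff69c00c07db000040e5b2f048abdf2803df57e34848abcdc88fcf) (nat_lit 0x89d5a400000ffe48bb66000001000eeb88990d481d4b0007b4000d7e09b7724d3f2f1c9084bddb08ff5d3d43e677e7ebbcf73443fd1dfe9600069bf7679d3550fb37b375e889d5b) (by (try dsimp only [M]); decide +kernel)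
  have k1 := f3.fix m1 (valid_of_mem va (c := (nat_lit 0x89d5a400000ffe48bb66000001000eeb88990d481d4b0007b4000d7e09b7724d3f2f1c9084bddb08ff5d3d43e677e7ebbcf73443fd1dfe9600069bf7679d3550fb37b375e889d5b)) (by (try dsimp only [M]); decide +kernel)) (by (try dsimp only [M]); decide +kernel)
  have n1 := f3.mv' C (cJ.in_elt 0) ((cJ.in_elt 0).mono hJ) (nat_lit 0x488fce400000e88fceddb1070800003f4c0f9b3000fb5609ded285efa9098004017f5cc1f65952802001a48ed7ff69c00c07db000040e5b2f048abdf2803df57e34848abcdc88fcf) (nat_lit 0x800000400000200000100000080000040000020000010000008000004000002000001000000800000400000200000100000080000040000020000010000008000004000002000001) (by (try dsimp only [M]); decide +kernel)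
  have n2 := f2.mv' C (cJ.in_elt 10282) ((cJ.in_elt 10275).mono hJ) (nat_lit 0x1f037c40000068c0bd9640a19fb191f57299e3a000deb08db1d000eed0c97af0e5bee1a1443fd1c6f750ba19f5c717c06ebff95337e57bab0095fa58017bcd1897dfae45fd9f037d) (nat_lit 0x385ee40000074e065deb08dbee1a1c0b007ffd12be3a000eed0c9c8c0435ef46990d48166cd97de5d22a219cff87d024975643db5083dd580ad78460aa7cf3de1228aed2b8385ef) (by (try dsimp only [M]); decide +kernel)
  have n3 := (n1.braid' C n2 (nat_lit 0x1b86d64000006c4517e637839fb191ede143eff385b18501f2f313b6600046f7519921110cc0c0faf0e48a1337dcd0c44975645337e5000020ad78460aa7cf14908496c7e39b86d7) (nat_lit 0x1817be400000f9d603c1f3a90010006f7235fb5609ddb107fcb10dded2859837be080000bdf8b0b37430d835af9bd4906605b14805fbfb40010000106141bf01d40244a6bb9817bf) (by (try dsimp only [M]); decide +kernel)).sym' C (nat_lit 0x10cf26400000777c85eff38590d481dcf087e63783ecc000fbca81ff79834dbea1bee1a16301f7fdb462815ac7f331e277fc243f6320000020ad7846000baf01d40296c7e390cf27)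 (by (try dsimp only [M]); decide +kernel)
  have n4 := f3.mv' C (cJ.in_elt 0) ((cJ.in_elt 7).mono hJ) (nat_lit 0x1817be400000f9d603c1f3a90010006f7235fb5609ddb107fcb10dded2859837be080000bdf8b0b37430d835af9bd4906605b14805fbfb40010000106141bf01d40244a6bb9817bf) (nat_lit 0x800000400000200000100000080000040000020000010000008000004000002000001000000800000400000200000100000080000040000020000010000008000004000002000001) (by (try dsimp only [M]); decide +kernel)
  have k2 := n4.fix n3 (valid_of_mem va (c := (nat_lit 0x10cf26400000777c85eff38590d481dcf087e63783ecc000fbca81ff79834dbea1bee1a16301f7fdb462815ac7f331e277fc243f6320000020ad7846000baf01d40296c7e390cf27)) (by (try dsimp only [M]); decide +kernel)) (by (try dsimp only [M]); decide +kernel)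
  have n5 := f3.mv' C (cJ.in_elt 21083) ((cJ.in_elt 0).mono hJ) (nat_lit 0xa02d5a4000001ed0002ff531ee702b53d17957fc2900100066e8615ef469b421217db4634805fb0069bfc039d3840cfbfa9912550fb34bf882eba850c48df36bb80ac56d2b202d5b) (nat_lit 0x9cb5ee400000008000d7e09b8785ee2ff5317b40007ff07368c0bd6371d59fb19153d1790a075f000400d0e72d7df454faf612093012e02e7febf6149816cffd744699f4121cb5ef) (by (try dsimp only [M]); decide +kernel)
  have n6 := f3.mv' C (cJ.in_elt 21079) ((cJ.in_elt 7145).mono hJ) (nat_lit 0x79fbff400000a626d6cbf883c4300d964d5ae9f40b992111e842419837be7db463800401494dadd7fc28ee3b61b08bad21cbf5b3ec20c9f001b08ff5d40fb55007bdda73fef9fbfe) (nat_lit 0xfecbde400000004000b1d000fe62296b59a565b2f11118eb74e065008000bee1a166e861006b3f1837bfcb7eda7b9f6ffbdfbd2a2bfbe02e7fec4516e98b7dc4863a9b1baf7ecbdf) (by (try dsimp only [M]); decide +kernel)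
  have n7 := n5.braid' C n6 (nat_lit 0x1656fd400000f2f313efa909ee702bcbf883bdd5818e1f2696db0bff79835fe961964d5a3148dffaf0e49657bc82cdd771af73ca5d75e02e7fa44a9682f6f85007b7898fd79656fc) (nat_lit 0x6d0d5a400000b66000fdc341a7f24bd4b000fbab01dff709f9d603f2f313001000e84241149a7bfd1838a48e7b80d5ee0cce1cb02f7de02e7ffafc12caf96e056f1fa55759ed0d5b) (by (try dsimp only [M]); decide +kernel)
  have hL : M.cl mrL1_g ≤ Sx ι (s • ι t' • s • a) := Model.cl_le fun c hc => by
    simp only [mrL1_g, List.mem_cons, List.not_mem_nil, or_false] at hc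
    rcases hc with rfl | rfl | rfl
    exacts [k0, k1, k2]
  obtain ⟨r, hr⟩ := exists_fun_R (valid_sub (l := mrD1_x) va (by (try dsimp only [M]); decide +kernel))
  obtain ⟨q, hq⟩ := exists_fun_R (valid_sub (l := mrD6_x) va (by (try dsimp only [M]); decide +kernel))
  obtain ⟨z, -, ss⟩ := C.ss
  have al := fun j hj => (C.al' cJ j hj).imp fun _ h => h.2
  refine r3_closed' ha ss rfl (r3_step2 ha al hJ (k := 2) (fun x => dc2_cover cJ cJ hr (ms := mrD1_ms) (by decide) (by dsimp only [M]; exact mrD1_0) mrD1_dc x (top ▸ mem_top x))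
    (Or.inl (by rw [← mul_smul, ss, ha])) fun i hi => ?_) (r3_step2 ha al hL (k := 1)
    (fun x => dc2_cover cJ cL hq (ms := mrD6_ms) (by decide) (by dsimp only [M]; exact mrD6_0) mrD6_dc x (top ▸ mem_top x)) (Or.inr (Or.inl ⟨z * t', by rw [← mul_smul, ss, map_mul, mul_smul]⟩)) fun i hi => ?_)
  · interval_cases i
    exacts [f2.rb (hr 0) (by (try dsimp only [M]); decide +kernel), f3.rc (hr 1) (by (try dsimp only [M]); decide +kernel)]
  · interval_cases i
    exact n7.rc (hq 0) (by (try dsimp only [M]); decide +kernel)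

theorem mr_D (F : MrF M) (T : MrS M ι s a b c 0) {t' : X} (rt : M.R mr_tp t') : ∀ x, ι x • s • ι t' • b ≠ a := by
  obtain ⟨q, hq, -, eI⟩ := mr_inf F T.hJ
  have eC : Sx ι b ⊓ Sx ι (ι t' • b) = M.cl mrW1_g := M.unique rt (F.h3 ▸ hq 1) ▸ eI 1 (by norm_num)
  intro x e
  have e2 : ι t' • b = b := smul_left_cancel s ((smul_left_cancel (ι x) (e.trans (T.h.fix x).symm)).trans T.sb.symm)
  have := F.nJ
  rw [e2, inf_idem, T.hJ] at eC
  rw [eC, F.nW] at this
  cases this

end H29
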