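import Cfsg.Agent.H29.Mr3
import Cfsg.Agent.H29.Mr1
import Cfsg.Agent.S0280

set_option autoImplicit false
set_option maxRecDepth 100000
set_option linter.style.haveILetI false
set_option linter.unusedVariables false
set_option linter.style.longLine false
set_option linter.unusedTactic false
set_option linter.unreachableTactic false

namespace H29

open Subgroup MulAction

theorem alD_rel {S : Type*} [Group S] {M : Model S} {c0 c1 c : ℕ} {s0 j y : S} (h0 : M.R c0 s0) (h1 : M.R c1 s0⁻¹)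
    (rj : M.R c j) (ry : M.R (alD M.mul c0 c1 c) y) : s0 * j = y * s0 := by
  rw [M.unique ry (M.R_mul h0 (M.R_mul rj h1)), mul_assoc, inv_mul_cancel_right]

theorem mr_fin0 {S Y Ω : Type*} [Group S] [Finite S] [IsSimpleGroup S] [Group Y] [Finite Y] [MulAction Y Ω] (M : Model S)
    (h1 : M.mul = a2_24.mul) (h2 : M.eqb = Nat.beq) (h3 : M.one = a2_24.one) (vs : ∀ c ∈ mrX_aux, M.In ⊤ c)
    (top : M.cl cMc_g = ⊤) {H : Subgroup S} (hH : H ≠ ⊤) (F : MrF (M.sub H)) {ι : H →* Y} {s : Y} {a b c : Ω}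
    (T : MrS (M.sub H) ι s a b c 0) (hG : Nat.card Y ≤ Nat.card S) : Nonempty (Y ≃* S) := by
  obtain ⟨R, one, mul, eqb, a1, a2, a3⟩ := M
  dsimp only at h1 h2 h3
  subst h1 h2 h3
  set M : Model S := ⟨R, a2_24.one, a2_24.mul, Nat.beq, a1, a2, a3⟩ with hM
  have vx : ∀ c ∈ mr_xl, M.In H c := fun c hc =>
    let ⟨x, _, r⟩ := F.va c (subL_spec (by decide +kernel) c hc); ⟨x, x.2, r⟩
  obtain ⟨s0, rs⟩ := exists_R vs (c := mr_s) (by decide +kernel)
  have ri := R_inv_of rs (exists_R vs (c := mr_si) (by decide +kernel)) (by dsimp only [M]; decide +kernel)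
  obtain ⟨t, rt⟩ := exists_R F.va (c := mr_t) (by decide +kernel)
  obtain ⟨z, rz⟩ := exists_R F.va (c := mr_z) (by decide +kernel)
  obtain ⟨t', rt'⟩ := exists_R F.va (c := mr_tp) (by decide +kernel)
  have rst := M.R_mul rs rt
  have ss0 : s0 * s0 = z := M.eq_of (M.R_mul rs rs) rz (by dsimp only [M]; decide +kernel)
  obtain ⟨ss, br, hal⟩ := mr_G F T H.subtype_injective rt rz ss0
    (M.eq_of (M.R_pw rst 3 (by norm_num)) rz (by dsimp only [M]; decide +kernel)) fun c j y => alD_rel rs ri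
  have C := imD_prod (M := M) (ι := ι) rs ri rz ss ss0 rt br
    (M.eq_of (M.R_mul rst rs) (M.R_mul (M.R_mul rt rs) rt) (by dsimp only [M]; decide +kernel)) hal
  have := mr_C F C (pp_fix T.h.fix) rt'
  exact r3_final (u := (s, s0)) (v := (s, s0) * (ι.prod H.subtype t' * (s, s0))) hH hG
    (fun T h1 h2 => top_le_iff.1 (top.ge.trans (Model.cl_le (le_of_wds (List.forall_mem_cons.2 ⟨⟨_, h2, rs⟩,
      List.forall_mem_cons.2 ⟨⟨_, h1 t'.2, rt'⟩, fun c hc => (vx c hc).mono h1⟩⟩) mr_gw))))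
    (fun x => T.sa.symm ▸ T.h.ne (by norm_num) x) (fun x => by simpa [mul_smul, T.sa] using mr_D F T rt' x)
    (by simpa only [mul_smul] using this)

theorem mr_aut {X : Type*} [Group X] [Finite X] {M : Model X} (F : MrF M) (hs : ∀ a g, M.R a g → a < 2 ^ (nat_lit 576)) :
    ∃ e : X ≃* X, ∀ i < 4, ∀ x y, M.R (lgetD 0 mrE_g i) x → M.R (lgetD 0 mrE_a i) y → e x = y := by
  have va : ∀ c ∈ mrE_a, M.In ⊤ c := valid_sub F.va (by decide +kernel)
  obtain ⟨φ, h3, h4⟩ := mrE_hom M M F.h1 F.h2 F.h3 F.h1 F.h2 F.h3 hs F.vv va (K := ⊤) F.top (by rw [card_top, F.card])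
  have h5 : φ.range = ⊤ := top_le_iff.1 (F.top.ge.trans (h3 ▸ Model.cl_le
    (le_of_wds (t := mrE_g) (in_cl_self va) (by rw [F.h1, F.h3]; exact mr_w3))))
  let ψ := φ.comp (topEquiv (G := X)).symm.toMonoidHom
  have h6 : Function.Surjective ψ := (MonoidHom.range_eq_top.1 h5).comp topEquiv.symm.surjective
  exact ⟨MulEquiv.ofBijective ψ (Finite.surjective_iff_bijective.1 h6), fun i hi x y rx ry => h4 i hi x y rx ry trivial⟩

theorem mr_fin {S Y Ω : Type*} [Group S] [Finite S] [IsSimpleGroup S] [Group Y] [Finite Y] [MulAction Y Ω] (M : Model S)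
    (h1 : M.mul = a2_24.mul) (h2 : M.eqb = Nat.beq) (h3 : M.one = a2_24.one) (vs : ∀ c ∈ mrX_aux, M.In ⊤ c)
    (top : M.cl cMc_g = ⊤) (hs : ∀ a g, M.R a g → a < 2 ^ (nat_lit 576)) {H : Subgroup S} (hH : H ≠ ⊤)
    (F : MrF (M.sub H)) {ι : H →* Y} {a b c : Ω} (h : Rk3 ι a b c 112 162) (hG : Nat.card Y ≤ Nat.card S) :
    Nonempty (Y ≃* S) := by
  obtain ⟨g, hg⟩ := mr_A F h.c1
  obtain ⟨s, i, hi, T⟩ := mr_B F (h.move g) (Subgroup.ext fun x => mem_Sx_smul.trans (hg x))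
  obtain ⟨e, he⟩ := mr_aut F fun a g hg => hs a g hg
  clear h hg
  generalize ι g • b = b0 at T
  induction i generalizing ι with
  | zero => exact mr_fin0 M h1 h2 h3 vs top hH F T hG
  | succ i ih => exact ih (by omega) (mr_step F e he (by omega) T)

theorem mr_iso {G : Type*} [Group G] [Finite G] (M : Model G) (h1 : M.mul = a2_24.mul) (h2 : M.eqb = Nat.beq)
    (h3 : M.one = a2_24.one) (hs : ∀ a g, M.R a g → a < 2 ^ (nat_lit 576)) (vv : ∀ c ∈ mrX1_g, M.In ⊤ c)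
    (hc : Nat.card (M.cl mrX1_g) = 3265920) {F : Type*} [Field F] [Fintype F] (hF : Fintype.card F = 9) :
    Nonempty (M.cl mrX1_g ≃* Cfsg.PSU 4 F 3) := by
  obtain ⟨q⟩ := u43_ex hF
  have hN : Nat.card (Cfsg.PSU 4 F 3) = 3265920 := by
    have h := (Cfsg.Agent.S0280.result (q := 3) hF 4 (by norm_num)).trans (show _ = 52254720 by decide +kernel)
    norm_num at h
    omega
  haveI := Nat.finite_of_card_ne_zero (hN.trans_ne (by norm_num))
  have va : ∀ c ∈ mrG_a, q.M.In ⊤ c := le_of_wds q.valid mr_w1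
  obtain ⟨φ, h3, -⟩ := mrG_hom M q.M h1 h2 h3 rfl rfl rfl hs vv va (K := M.cl mrX1_g) rfl hc.ge
  exact ⟨MulEquiv.ofBijective φ ((MonoidHom.range_eq_top.1 (top_le_iff.1 (q.cl_top.ge.trans (h3 ▸ Model.cl_le
    (le_of_wds (in_cl_self va) mr_w2))))).bijective_of_nat_card_le (hc.trans hN.symm).le)⟩

end H29
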