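import Cfsg.Agent.H29.Gr2
import Cfsg.Agent.H29.QM

set_option autoImplicit false
set_option linter.style.haveILetI false

/-! Recognition of rank three groups from the point stabiliser: the abstract part. -/

namespace H29

open Subgroup MulAction

section
variable {X Y Ω : Type*} [Group X] [Group Y] [MulAction Y Ω]

/-- The stabiliser of a point in `X`. -/
def Sx (ι : X →* Y) (ω : Ω) : Subgroup X := (stabilizer Y ω).comap ι

theorem mem_Sx {ι : X →* Y} {ω : Ω} {x : X} : x ∈ Sx ι ω ↔ ι x • ω = ω := Iff.rfl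

theorem mem_Sx_smul {ι : X →* Y} {ω : Ω} {x g : X} : x ∈ Sx ι (ι g • ω) ↔ g⁻¹ * x * g ∈ Sx ι ω := by
  simp only [mem_Sx, map_mul, map_inv, mul_smul, inv_smul_eq_iff]

theorem card_conj_of {K L : Subgroup X} (g : X) (h : ∀ x, x ∈ L ↔ g⁻¹ * x * g ∈ K) : Nat.card L = Nat.card K :=
  Nat.card_congr ⟨fun x => ⟨_, (h x).1 x.2⟩, fun y => ⟨g * y * g⁻¹, (h _).2 (by simp [mul_assoc])⟩,
    fun x => by simp [mul_assoc], fun y => by simp [mul_assoc]⟩

theorem card_Sx_smul (ι : X →* Y) (ω : Ω) (g : X) : Nat.card (Sx ι (ι g • ω)) = Nat.card (Sx ι ω) :=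
  card_conj_of g fun _ => mem_Sx_smul

/-- `s` conjugates `x` to `y`. -/
def Al (ι : X →* Y) (s : Y) (x y : X) : Prop := s * ι x = ι y * s

variable {ι : X →* Y} {s : Y} {a b : Ω}

theorem Al.mul {x y x' y' : X} (h : Al ι s x y) (h' : Al ι s x' y') : Al ι s (x * x') (y * y') := by
  unfold Al at *; rw [map_mul, map_mul, ← mul_assoc, h, mul_assoc, h', mul_assoc]
theorem Al.one : Al ι s 1 1 := by simp [Al]
theorem Al.inv {x y : X} (h : Al ι s x y) : Al ι s x⁻¹ y⁻¹ := by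
  unfold Al at *; rw [map_inv, map_inv, mul_inv_eq_iff_eq_mul, mul_assoc, h, inv_mul_cancel_left]
theorem Al.pow {x y : X} (h : Al ι s x y) (n : ℕ) : Al ι s (x ^ n) (y ^ n) := by
  induction n with
  | zero => simpa using Al.one
  | succ n ih => rw [pow_succ, pow_succ]; exact ih.mul h
theorem Al.uniq (hι : Function.Injective ι) {x y y' : X} (h : Al ι s x y) (h' : Al ι s x y') : y = y' :=
  hι (mul_right_cancel (h.symm.trans h'))
theorem Al.uniq' (hι : Function.Injective ι) {x x' y : X} (h : Al ι s x y) (h' : Al ι s x' y) : x = x' :=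
  hι (mul_left_cancel (h.trans h'.symm))
theorem Al.adj {x y : X} (h : Al ι s x y) (u : X) : Al ι (ι u * s) x (u * y * u⁻¹) := by
  unfold Al at *; rw [mul_assoc, h]; simp [mul_assoc]
theorem Al.comp {s' : Y} {x y z : X} (h : Al ι s x y) (h' : Al ι s' y z) : Al ι (s' * s) x z := by
  unfold Al at *; rw [mul_assoc, h, ← mul_assoc, h', mul_assoc]
theorem Al.self (u x : X) : Al ι (ι u) x (u * x * u⁻¹) := by simp [Al]
theorem Al.fix {x y : X} (h : Al ι s x y) {ω : Ω} (hx : x ∈ Sx ι ω) : y ∈ Sx ι (s • ω) := by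
  rw [mem_Sx, ← mul_smul, ← h, mul_smul, mem_Sx.1 hx]
theorem Al.symm' {x y : X} (h : Al ι s x y) : Al ι s⁻¹ y x := by
  unfold Al at *; rw [inv_mul_eq_iff_eq_mul, ← mul_assoc, h, mul_inv_cancel_right]
theorem Al.order (hι : Function.Injective ι) {x y : X} (h : Al ι s x y) : orderOf y = orderOf x := by
  rw [orderOf_eq_orderOf_iff]
  exact fun n => ⟨fun e => (h.pow n).uniq' hι (by rw [e]; exact Al.one),
    fun e => Al.uniq hι (h.pow n) (by rw [e]; exact Al.one)⟩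
theorem Al.cl {l : Set X} {P : X → Prop} (h1 : P 1) (h2 : ∀ x y, P x → P y → P (x * y)) (h3 : ∀ x, P x → P x⁻¹)
    (h : ∀ x ∈ l, ∃ y, Al ι s x y ∧ P y) : ∀ x ∈ closure l, ∃ y, Al ι s x y ∧ P y := by
  intro x hx
  induction hx using closure_induction with
  | mem x hx => exact h x hx
  | one => exact ⟨1, Al.one, h1⟩
  | mul x y _ _ p q => obtain ⟨u, p, p'⟩ := p; obtain ⟨v, q, q'⟩ := q; exact ⟨_, p.mul q, h2 _ _ p' q'⟩
  | inv x _ p => obtain ⟨u, p, p'⟩ := p; exact ⟨_, p.inv, h3 _ p'⟩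

theorem exists_al (hr : ∀ y : Y, y • a = a → ∃ x, ι x = y) {ω : Ω} (h : s • ω = a) {x : X} (hx : x ∈ Sx ι ω) :
    ∃ y, Al ι s x y := by
  obtain ⟨y, hy⟩ := hr (s * ι x * s⁻¹) (by rw [mul_smul, mul_smul, ← h, inv_smul_smul, mem_Sx.1 hx])
  exact ⟨y, by rw [Al, hy]; simp⟩

theorem card_al (hι : Function.Injective ι) (hr : ∀ y : Y, y • a = a → ∃ x, ι x = y) (ha : ∀ x, ι x • a = a)
    (h : s • b = a) (ω : Ω) :
    Nat.card (Sx ι (s • a) ⊓ Sx ι (s • ω) : Subgroup X) = Nat.card (Sx ι b ⊓ Sx ι ω : Subgroup X) := by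
  have h' : s⁻¹ • s • a = a := inv_smul_smul s a
  choose f hf using fun x : (Sx ι b ⊓ Sx ι ω : Subgroup X) => exists_al hr h x.2.1
  let F : (Sx ι b ⊓ Sx ι ω : Subgroup X) → (Sx ι (s • a) ⊓ Sx ι (s • ω) : Subgroup X) :=
    fun x => ⟨f x, (hf x).fix (ha _), (hf x).fix x.2.2⟩
  refine (Nat.card_congr (Equiv.ofBijective F ⟨fun x y e => Subtype.ext ((hf x).uniq' hι ?_), fun y => ?_⟩)).symm
  · rw [show f x = f y from congrArg Subtype.val e]; exact hf y
  obtain ⟨x, hx⟩ := exists_al hr h' y.2.1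
  have h1 := hx.fix (ha y.1)
  have h2 := hx.fix y.2.2
  rw [inv_smul_smul] at h2
  rw [← h, inv_smul_smul] at h1
  exact ⟨⟨x, h1, h2⟩, Subtype.ext ((hf _).uniq hι (by simpa using hx.symm'))⟩

/-- The data of a rank three action. -/
structure Rk3 (ι : X →* Y) (a b c : Ω) (n1 n2 : ℕ) : Prop where
  inj : Function.Injective ι
  rng : ∀ y : Y, y • a = a → ∃ x, ι x = y
  fix : ∀ x, ι x • a = a
  tr : ∀ ω : Ω, ∃ y : Y, y • ω = a
  cov : ∀ ω : Ω, ω = a ∨ (∃ x, ω = ι x • b) ∨ ∃ x, ω = ι x • c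
  c1 : n1 * Nat.card (Sx ι b) = Nat.card X
  c2 : n2 * Nat.card (Sx ι c) = Nat.card X

theorem Rk3.symm {c : Ω} {n1 n2 : ℕ} (h : Rk3 ι a b c n1 n2) : Rk3 ι a c b n2 n1 :=
  ⟨h.inj, h.rng, h.fix, h.tr, fun ω => (h.cov ω).imp_right Or.symm, h.c2, h.c1⟩

theorem Rk3.move {c : Ω} {n1 n2 : ℕ} (h : Rk3 ι a b c n1 n2) (g : X) : Rk3 ι a (ι g • b) c n1 n2 :=
  ⟨h.inj, h.rng, h.fix, h.tr, fun ω => (h.cov ω).imp_right (Or.imp_left fun ⟨x, hx⟩ =>
    ⟨x * g⁻¹, by simp [hx, mul_smul]⟩), by rw [card_Sx_smul, h.c1], h.c2⟩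

theorem Sx_a (ha : ∀ x, ι x • a = a) : Sx ι a = ⊤ := eq_top_iff.2 fun x _ => ha x

theorem Rk3.ne [Finite X] {c : Ω} {n1 n2 : ℕ} (h : Rk3 ι a b c n1 n2) (h1 : n1 ≠ 1) (x : X) : ι x • b ≠ a := by
  intro e
  have h2 := h.c1
  rw [← card_Sx_smul ι b x, e, Sx_a h.fix, card_top] at h2
  exact h1 (Nat.eq_of_mul_eq_mul_right Nat.card_pos (h2.trans (one_mul _).symm))

theorem Rk3.swap [Finite X] {c : Ω} {n1 n2 : ℕ} (h : Rk3 ι a b c n1 n2) (h1 : n1 ≠ 1) (h2 : n1 ≠ n2) :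
    ∃ s : Y, s • a = b ∧ s • b = a := by
  obtain ⟨g, hg⟩ := h.tr b
  have h3 := card_al h.inj h.rng h.fix hg b
  rw [hg, Sx_a h.fix, inf_top_eq, inf_idem] at h3
  rcases h.cov (g • a) with e | ⟨x, e⟩ | ⟨x, e⟩
  · exact absurd (by simpa using (smul_left_cancel g (hg.trans e.symm) : b = a)) (h.ne h1 1)
  · exact ⟨(ι x)⁻¹ * g, by rw [mul_smul, e, inv_smul_smul], by rw [mul_smul, hg, ← map_inv, h.fix]⟩
  · rw [e, card_Sx_smul] at h3
    exact absurd (Nat.eq_of_mul_eq_mul_right Nat.card_pos (h.c1.trans (h3 ▸ h.c2.symm))) h2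

/-- The image of a neighbour under the swap. -/
theorem Rk3.img [Finite X] {c : Ω} {n1 n2 : ℕ} (h : Rk3 ι a b c n1 n2) (h1 : n1 ≠ 1) (sa : s • a = b) (sb : s • b = a)
    {k : ℕ} {r : ℕ → X} {m : ℕ → ℕ} (cov : ∀ x, x ∈ Sx ι b ∨ ∃ i < k, ∃ j ∈ Sx ι b, (j * r i)⁻¹ * x ∈ Sx ι b)
    (hm : ∀ i < k, Nat.card (Sx ι b ⊓ Sx ι (ι (r i) • b) : Subgroup X) = m i) {i : ℕ} (hi : i < k)
    (h0 : m i ≠ Nat.card (Sx ι b)) (h2 : ¬ m i ∣ Nat.card (Sx ι c)) (h3 : ∀ i' < k, m i' = m i → i' = i) :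
    ∃ j ∈ Sx ι b, s • ι (r i) • b = ι j • ι (r i) • b := by
  have h4 := card_al h.inj h.rng h.fix sb (ι (r i) • b)
  rw [sa, hm i hi] at h4
  rcases h.cov (s • ι (r i) • b) with e | ⟨x, e⟩ | ⟨x, e⟩
  · have e2 : ι (r i) • b = b := smul_left_cancel s (e.trans sb.symm)
    have h5 := hm i hi
    rw [e2, inf_idem] at h5
    exact absurd h5.symm h0
  · rcases cov x with hx | ⟨i', hi', j, hj, hx⟩
    · rw [mem_Sx.1 hx] at e
      exact absurd (smul_left_cancel s (e.trans sa.symm)) (h.ne h1 _)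
    · have e2 : ι x • b = ι j • ι (r i') • b := by
        rw [← mul_smul, ← map_mul, ← inv_smul_eq_iff, ← map_inv, ← mul_smul, ← map_mul]; exact hx
      have h5 : Nat.card (Sx ι b ⊓ Sx ι (ι j • ι (r i') • b) : Subgroup X) = m i' := by
        rw [← hm i' hi']
        refine card_conj_of j fun x => ?_
        rw [mem_inf, mem_inf, mem_Sx_smul, ← mem_Sx_smul (ω := b), mem_Sx.1 hj]
      rw [e, e2, h5] at h4
      obtain rfl := h3 i' hi' h4
      exact ⟨j, hj, e.trans e2⟩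
  · rw [e] at h4
    exact absurd (h4 ▸ card_Sx_smul ι c x ▸ card_dvd_of_le inf_le_right) h2

/-- Orbit lengths: upper bounds that add up to the index are exact. -/
theorem inf_eq_of_sum [Finite X] {J : Subgroup X} (hJ : Sx ι b = J) {k : ℕ} {r : ℕ → X} {U : ℕ → Subgroup X}
    {n : ℕ → ℕ} (cov : ∀ x, x ∈ J ∨ ∃ i < k, ∃ j ∈ J, (j * r i)⁻¹ * x ∈ J)
    (hU : ∀ i < k, ∀ u ∈ U i, u ∈ J ∧ (r i)⁻¹ * u * r i ∈ J) (hn : ∀ i < k, Nat.card J = n i * Nat.card (U i))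
    (hs : Nat.card X = (1 + ∑ i ∈ Finset.range k, n i) * Nat.card J) :
    ∀ i < k, Sx ι b ⊓ Sx ι (ι (r i) • b) = U i := by
  classical
  subst hJ
  set J := Sx ι b
  have h0 : 0 < Nat.card J := Nat.card_pos
  let O : ℕ → Set (X ⧸ J) := fun i => orbit J (r i : X ⧸ J)
  have hle : ∀ i < k, U i ≤ J ⊓ Sx ι (ι (r i) • b) := fun i hi u hu => ⟨(hU i hi u hu).1, mem_Sx_smul.2 (hU i hi u hu).2⟩
  have hst : ∀ i, (O i).ncard * Nat.card (J ⊓ Sx ι (ι (r i) • b) : Subgroup X) = Nat.card J := fun i => by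
    have h7 := (stabilizer J (r i : X ⧸ J)).index_mul_card
    rw [index_stabilizer] at h7
    rw [← h7, ← Nat.card_congr (subgroupOfEquivOfLe (inf_le_left : J ⊓ Sx ι (ι (r i) • b) ≤ J)).toEquiv]
    congr 3
    ext x
    rw [mem_subgroupOf, mem_inf, mem_Sx_smul, mem_stabilizer_iff, eq_comm]
    refine ⟨fun h => QuotientGroup.eq.2 (by simpa [mul_assoc] using h.2), fun h => ⟨x.2, ?_⟩⟩
    simpa [mul_assoc] using QuotientGroup.eq.1 h
  have hb : ∀ i < k, (O i).ncard ≤ n i := fun i hi => by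
    have := Nat.mul_le_mul_left (O i).ncard (card_le_of_le (hle i hi))
    rw [hst i, hn i hi] at this
    exact Nat.le_of_mul_le_mul_right this Nat.card_pos
  have hc : (Set.univ : Set (X ⧸ J)) ⊆ {((1 : X) : X ⧸ J)} ∪ ⋃ i ∈ Finset.range k, O i := fun q _ => by
    obtain ⟨g, rfl⟩ := QuotientGroup.mk_surjective q
    rcases cov g with h | ⟨i, hi, j, hj, h⟩
    · exact Or.inl (QuotientGroup.eq.2 (by simpa using h))
    · exact Or.inr (Set.mem_biUnion (Finset.mem_range.2 hi) ⟨⟨j, hj⟩, QuotientGroup.eq.2 h⟩)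
  have h4 := (Set.ncard_le_ncard hc).trans ((Set.ncard_union_le _ _).trans
    (Nat.add_le_add_left (Finset.set_ncard_biUnion_le _ _) _))
  rw [Set.ncard_univ, Set.ncard_singleton, ← index] at h4
  have h5 : J.index = 1 + ∑ i ∈ Finset.range k, n i :=
    Nat.eq_of_mul_eq_mul_right h0 (J.index_mul_card.trans hs)
  have h6 := (Finset.sum_eq_sum_iff_of_le fun i hi => hb i (Finset.mem_range.1 hi)).1
    (le_antisymm (Finset.sum_le_sum fun i hi => hb i (Finset.mem_range.1 hi)) (by omega))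
  intro i hi
  refine (eq_of_le_of_card_ge (hle i hi) (le_of_eq ?_)).symm
  have h7 := hst i
  rw [h6 i (Finset.mem_range.2 hi), hn i hi] at h7
  refine Nat.eq_of_mul_eq_mul_left (Nat.pos_of_ne_zero fun e => ?_) h7
  rw [hn i hi, e] at h0; simp at h0

/-- A subgroup that contains `K₂` with index less than `m`, where `K₂` moves every other coset of `P` to `m` places. -/
theorem le_of_small_index [Finite X] {K K₂ P : Subgroup X} (h1 : K₂ ≤ K) (h2 : K₂ ≤ P) {m : ℕ}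
    (hc : Nat.card K < m * Nat.card K₂)
    (cov : ∀ x, x ∈ P ∨ ∃ k ∈ K₂, ∃ r, (k * r)⁻¹ * x ∈ P ∧ ∃ e : ℕ → X, (∀ i < m, e i ∈ K₂) ∧
      ∀ i < m, ∀ j < m, (e i * r)⁻¹ * (e j * r) ∈ P → i = j) : K ≤ P := by
  intro x hx
  rcases cov x with h | ⟨k, hk, r, h3, e, h4, h5⟩
  · exact h
  refine absurd (card_ge_of_distinct h1 (n := m) (u := fun i => k * e i * k⁻¹ * x)
    (fun i hi => mul_mem (h1 (mul_mem (mul_mem hk (h4 i hi)) (inv_mem hk))) hx) fun i hi j hj h => h5 i hi j hj ?_)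
    (not_le.2 hc)
  have := mul_mem (mul_mem h3 (h2 h)) (inv_mem h3)
  simpa [mul_assoc] using this

/-- The three orbits. -/
def R3T (ι : X →* Y) (a b c ω : Ω) : Prop := ω = a ∨ (∃ x, ω = ι x • b) ∨ ∃ x, ω = ι x • c

theorem R3T.smul {c ω : Ω} (ha : ∀ x, ι x • a = a) (h : R3T ι a b c ω) (g : X) : R3T ι a b c (ι g • ω) := by
  rcases h with rfl | ⟨x, rfl⟩ | ⟨x, rfl⟩
  · exact Or.inl (ha g)
  · exact Or.inr (Or.inl ⟨g * x, by rw [map_mul, mul_smul]⟩)
  · exact Or.inr (Or.inr ⟨g * x, by rw [map_mul, mul_smul]⟩)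

theorem r3_step {c p : Ω} (ha : ∀ x, ι x • a = a) {J K : Subgroup X} (hJ : ∀ j ∈ J, ∃ y, Al ι s j y)
    (hK : K ≤ Sx ι p) (cov : ∀ x, ∃ j ∈ J, ∃ r, (j * r)⁻¹ * x ∈ K ∧ R3T ι a b c (s • ι r • p)) (x : X) :
    R3T ι a b c (s • ι x • p) := by
  obtain ⟨j, hj, r, h1, h2⟩ := cov x
  obtain ⟨y, hy⟩ := hJ j hj
  have e : ι x • p = ι j • ι r • p := by
    rw [← mul_smul, ← map_mul, ← inv_smul_eq_iff, ← map_inv, ← mul_smul, ← map_mul]; exact hK h1
  rw [e, ← mul_smul, hy, mul_smul]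
  exact h2.smul ha y

theorem r3_closed {c : Ω} (ha : ∀ x, ι x • a = a) (ss : s * s = 1) (sa : s • a = b)
    (h1 : ∀ x, R3T ι a b c (s • ι x • b)) (h2 : ∀ x, R3T ι a b c (s • ι x • c)) :
    ∀ d ∈ closure (Set.range ι ∪ {s}), R3T ι a b c (d • a) := by
  have hs : ∀ ω, R3T ι a b c ω → R3T ι a b c (s • ω) := by
    rintro _ (rfl | ⟨x, rfl⟩ | ⟨x, rfl⟩)
    exacts [Or.inr (Or.inl ⟨1, by simp [sa]⟩), h1 x, h2 x]
  intro d hd
  induction hd using closure_induction_left with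
  | one => exact Or.inl (one_smul _ _)
  | mul_left x hx y _ h =>
    rw [mul_smul]
    rcases hx with ⟨x, rfl⟩ | rfl
    exacts [h.smul ha x, hs _ h]
  | inv_mul_cancel x hx y _ h =>
    rw [mul_smul]
    rcases hx with ⟨x, rfl⟩ | rfl
    · rw [← map_inv]; exact h.smul ha _
    · rw [inv_eq_of_mul_eq_one_right ss]; exact hs _ h

end

section
variable {S Y Ω : Type*} [Group S] [Group Y] [MulAction Y Ω]

/-- The points of the product. -/
abbrev PP (H : Subgroup S) (Y : Type*) [Group Y] {Ω : Type*} [MulAction Y Ω] (a : Ω) : Type _ :=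
  (Y × S) ⧸ (stabilizer Y a).prod H

/-- The base point of the product. -/
def pp0 (H : Subgroup S) (Y : Type*) [Group Y] {Ω : Type*} [MulAction Y Ω] (a : Ω) : PP H Y a := ((1 : Y × S) : PP H Y a)

theorem pp_eq {H : Subgroup S} {a : Ω} {u v : Y × S} :
    u • pp0 H Y a = v • pp0 H Y a ↔ u.1 • a = v.1 • a ∧ u.2⁻¹ * v.2 ∈ H := by
  simp only [pp0, Quotient.smul_mk, smul_eq_mul, mul_one, QuotientGroup.eq, mem_prod, mem_stabilizer_iff,
    Prod.fst_mul, Prod.fst_inv, Prod.snd_mul, Prod.snd_inv, mul_smul, inv_smul_eq_iff]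
  rw [eq_comm]

theorem r3_final [Finite S] [IsSimpleGroup S] [Finite Y] {H : Subgroup S} (hH : H ≠ ⊤) {ι : H →* Y} {s : Y} {s0 : S}
    {a : Ω} (hc : Nat.card Y ≤ Nat.card S) (hgen : ∀ T : Subgroup S, H ≤ T → s0 ∈ T → T = ⊤) {u v : Y × S}
    (hu : ∀ x, ι x • u.1 • a ≠ a) (hv : ∀ x, ι x • v.1 • a ≠ a)
    (h : ∀ d ∈ closure (Set.range (ι.prod H.subtype) ∪ {(s, s0)}),
      R3T (ι.prod H.subtype) (pp0 H Y a) (u • pp0 H Y a) (v • pp0 H Y a) (d • pp0 H Y a)) : Nonempty (Y ≃* S) := by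
  set D := closure (Set.range (ι.prod H.subtype) ∪ {(s, s0)})
  let f : D →* Y := (MonoidHom.fst Y S).comp D.subtype
  let g : D →* S := (MonoidHom.snd Y S).comp D.subtype
  have hg : Function.Surjective g := MonoidHom.range_eq_top.1 (hgen _
    (fun x hx => ⟨⟨_, subset_closure (Or.inl ⟨⟨x, hx⟩, rfl⟩)⟩, rfl⟩) ⟨⟨_, subset_closure (Or.inr rfl)⟩, rfl⟩)
  have hN : (f.ker.map g).Normal := Normal.map inferInstance g hg
  have hle : f.ker.map g ≤ H := by
    rintro _ ⟨d, hd, rfl⟩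
    have h1 : d.1.1 = 1 := hd
    rcases h d d.2 with e | ⟨x, e⟩ | ⟨x, e⟩
    · have := (pp_eq.1 (e.trans (one_smul (Y × S) _).symm)).2
      show d.1.2 ∈ H
      simpa using this
    · rw [← mul_smul, pp_eq, h1, one_smul] at e
      exact absurd (by simpa [mul_smul] using e.1.symm) (hu x)
    · rw [← mul_smul, pp_eq, h1, one_smul] at e
      exact absurd (by simpa [mul_smul] using e.1.symm) (hv x)
  have hb : f.ker.map g = ⊥ := hN.eq_bot_or_eq_top.resolve_right fun e => hH (top_le_iff.1 (e ▸ hle))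
  have hf : Function.Injective f := (injective_iff_map_eq_one f).2 fun d hd =>
    Subtype.ext (Prod.ext hd (mem_bot.1 (hb ▸ mem_map_of_mem g hd)))
  have c1 := Nat.card_le_card_of_injective f hf
  have c2 := Nat.card_le_card_of_surjective g hg
  exact ⟨(MulEquiv.ofBijective f ((Nat.bijective_iff_injective_and_card f).2 ⟨hf, by omega⟩)).symm.trans
    (MulEquiv.ofBijective g (hg.bijective_of_nat_card_le (by omega)))⟩

end

theorem rk3_of {Ω X : Type*} [Group X] [Fintype Ω] [DecidableEq Ω] {n1 n2 : ℕ} (hΩ : Fintype.card Ω = 1 + n1 + n2)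
    (G : Subgroup (Equiv.Perm Ω)) [IsPretransitive G Ω] (a : Ω) (e : X ≃* stabilizer G a) (b c : Ω)
    (hb : (orbit (stabilizer G a) b).ncard = n1) (hc : (orbit (stabilizer G a) c).ncard = n2)
    (h1 : n1 ≠ 1) (h2 : n2 ≠ 1) (h3 : n1 ≠ n2) :
    Rk3 ((stabilizer G a).subtype.comp e.toMonoidHom) a b c n1 n2 ∧ Nat.card G = (1 + n1 + n2) * Nat.card X := by
  set ι := (stabilizer G a).subtype.comp e.toMonoidHom
  have hs : ∀ ω : Ω, (orbit (stabilizer G a) ω).ncard * Nat.card (Sx ι ω) = Nat.card X := fun ω => by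
    have h7 := (stabilizer (stabilizer G a) ω).index_mul_card
    rw [index_stabilizer] at h7
    rw [Nat.card_congr e.toEquiv, ← h7]
    congr 1
    exact Nat.card_congr ⟨fun x => ⟨e x, x.2⟩, fun y => ⟨e.symm y, by
      show ((e (e.symm y) : stabilizer G a) : G) • ω = ω
      rw [e.apply_symm_apply]; exact y.2⟩, fun x => by simp, fun y => by simp⟩
  have ho : orbit (stabilizer G a) a = {a} := by
    ext x; exact ⟨fun ⟨g, hg⟩ => hg.symm.trans g.2, fun h => by rw [Set.mem_singleton_iff.1 h]; exact mem_orbit_self a⟩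
  have hd : ∀ x y : Ω, (orbit (stabilizer G a) x).ncard ≠ (orbit (stabilizer G a) y).ncard →
      Disjoint (orbit (stabilizer G a) x) (orbit (stabilizer G a) y) := fun x y h =>
    Set.disjoint_left.2 fun z p q => h (by rw [← orbit_eq_iff.2 p, ← orbit_eq_iff.2 q])
  have ha : (orbit (stabilizer G a) a).ncard = 1 := by rw [ho, Set.ncard_singleton]
  have hu : orbit (stabilizer G a) a ∪ orbit (stabilizer G a) b ∪ orbit (stabilizer G a) c = Set.univ := by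
    refine Set.eq_of_subset_of_ncard_le (Set.subset_univ _) (le_of_eq ?_)
    rw [Set.ncard_union_eq (Set.disjoint_union_left.2 ⟨hd _ _ (by omega), hd _ _ (by omega)⟩),
      Set.ncard_union_eq (hd _ _ (by omega)), ha, hb, hc, Set.ncard_univ, Nat.card_eq_fintype_card, hΩ]
  refine ⟨⟨Subtype.val_injective.comp e.injective, fun y hy => ⟨e.symm ⟨y, hy⟩, by simp [ι]⟩, fun x => (e x).2,
    fun ω => exists_smul_eq G ω a, fun ω => ?_, hb ▸ hs b, hc ▸ hs c⟩, ?_⟩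
  · rcases (hu ▸ Set.mem_univ ω : ω ∈ _ ∪ _ ∪ _) with (h | ⟨g, h⟩) | ⟨g, h⟩
    · exact Or.inl (by rwa [ho] at h)
    · exact Or.inr (Or.inl ⟨e.symm g, by rw [← h]; simp [ι]; rfl⟩)
    · exact Or.inr (Or.inr ⟨e.symm g, by rw [← h]; simp [ι]; rfl⟩)
  · rw [Nat.card_congr e.toEquiv, ← (stabilizer G a).index_mul_card, index_stabilizer_of_transitive,
      Nat.card_eq_fintype_card, hΩ]

end H29
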