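import Cfsg.Agent.H29.R3

set_option autoImplicit false
set_option linter.style.haveILetI false

/-! Recognition of rank three groups from the point stabiliser: checks on codes. -/

namespace H29

open Subgroup MulAction

section
variable {G : Type*} [Group G] {M : Model G}

noncomputable def dcU2 (mul : ℕ → ℕ → ℕ) (one : ℕ) (ls : List Lv) (gs : List ℕ) (ms : ℕ → ℕ) (j : ℕ) : ℕ :=
  force (ms j) fun m => force (eltL mul one ls (Nat.div m 256)) fun h =>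
    force (lgetD one gs (Nat.mod m 256)) fun x => mul h x

noncomputable def dcAt2 (mul : ℕ → ℕ → ℕ) (eqb : ℕ → ℕ → Bool) (one : ℕ) (ls ls2 : List Lv) (gs S : List ℕ)
    (ms tb : ℕ → ℕ) (n j : ℕ) : Bool :=
  force (dcU2 mul one ls gs ms j) fun u => all1 (fun i => force (tb (Nat.add (Nat.mul j S.length) i)) fun e =>
    force (mul (lgetD 0 S i) u) fun x => force (dcU2 mul one ls gs ms (Nat.mod e n)) fun v =>
      force (eltL mul one ls2 (Nat.div e n)) fun h => force (mul v h) fun y => eqb x y) 0 S.length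

theorem dc2_cover {H K : Subgroup G} {ls ls2 : List Lv} (hH : Chain M H ls) (hK : Chain M K ls2) {gs S : List ℕ}
    {ms tb : ℕ → ℕ} {n : ℕ} {r : ℕ → G} (hg : ∀ i, M.R (lgetD M.one gs i) (r i)) (hn : 0 < n)
    (h0 : M.eqb (dcU2 M.mul M.one ls gs ms 0) M.one = true)
    (h : ∀ j < n, dcAt2 M.mul M.eqb M.one ls ls2 gs S ms tb n j = true) :
    ∀ g ∈ M.cl S, ∃ h ∈ H, h⁻¹ * g ∈ K ∨ ∃ i < gs.length, (h * r i)⁻¹ * g ∈ K := by
  have h1 : ∀ j, ∃ u, M.R (dcU2 M.mul M.one ls gs ms j) u ∧ ∃ h ∈ H, ∃ i, u = h * r i :=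
    fun j => by
      obtain ⟨a, ha, ra⟩ := hH.in_elt (ms j / 256)
      exact ⟨_, M.R_mul ra (hg _), a, ha, _, rfl⟩
  choose u hu hu' using h1
  intro g hg'
  obtain ⟨j, -, hj⟩ := cover_of_closed (H := K) (u := u) hn (M.eq_of (hu 0) M.R_one h0) (fun s hs j hj => by
    obtain ⟨c, hc, rs⟩ := hs
    obtain ⟨i, hi, rfl⟩ := exists_lgetD 0 hc
    have h2 := h j hj
    simp only [dcAt2, force_eq] at h2
    obtain ⟨a, ha, ra⟩ := hK.in_elt (tb (j * S.length + i) / n)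
    refine ⟨tb (j * S.length + i) % n, Nat.mod_lt _ hn, ?_⟩
    rw [M.eq_of (M.R_mul rs (hu j)) (M.R_mul (hu _) ra) (all1_lt h2 i hi)]
    exact (inv_mul_cancel_left _ a).symm ▸ ha) g hg'
  obtain ⟨a, ha, i, e⟩ := hu' j
  refine ⟨a, ha, ?_⟩
  by_cases hi : i < gs.length
  · exact Or.inr ⟨i, hi, e ▸ hj⟩
  · have h3 := hg i
    rw [lgetD_eq, List.getD_eq_default _ _ (not_lt.1 hi)] at h3
    rw [e, M.unique h3 M.R_one, mul_one] at hj
    exact Or.inl hj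

theorem exists_fun_R {l : List ℕ} (h : ∀ c ∈ l, M.In ⊤ c) : ∃ r : ℕ → G, ∀ i, M.R (lgetD M.one l i) (r i) :=
  let ⟨_, _, h⟩ := exists_list_R h; ⟨_, h⟩

/-- `w` is outside a subgroup of order `n`: a multiple of it has an order that does not divide `n`. -/
noncomputable def nmem (mul : ℕ → ℕ → ℕ) (eqb : ℕ → ℕ → Bool) (one : ℕ) (ls : List Lv) (n w m : ℕ) : Bool :=
  force (eltL mul one ls m) fun p => force (mul w p) fun x => force (pw mul one x n) fun y => (eqb y one).not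

theorem nmem_spec {K : Subgroup G} {ls : List Lv} (hK : Chain M K ls) {n w m : ℕ} (hn : Nat.card K = n)
    (hb : n < 2 ^ 64) {g : G} (hw : M.R w g) (h : nmem M.mul M.eqb M.one ls n w m = true) : g ∉ K := fun hg => by
  obtain ⟨p, hp, rp⟩ := hK.in_elt m
  simp only [nmem, force_eq] at h
  rw [(M.eqb_iff (M.R_pw (M.R_mul hw rp) n hb) M.R_one).2
    (congrArg Subtype.val (hn ▸ pow_card_eq_one' (x := (⟨_, mul_mem hg hp⟩ : K))))] at h
  cases h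

noncomputable def mvAt (mul : ℕ → ℕ → ℕ) (eqb : ℕ → ℕ → Bool) (one : ℕ) (lk lp : List Lv) (n m : ℕ)
    (gs gi mg : List ℕ) (ms : ℕ → ℕ) (i : ℕ) : Bool :=
  force (lgetD one gs i) fun r => force (lgetD one gi i) fun ri => force (eltL mul one lk (lgetD 0 mg i)) fun g =>
    band (force (mul r ri) fun x => eqb x one) (all1 (fun d => force (pw mul one g (Nat.succ d)) fun x =>
      force (mul x r) fun y => force (mul ri y) fun w => force (ms (Nat.add (Nat.mul i m) d)) (nmem mul eqb one lp n w))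
      0 (Nat.pred m))

theorem le_of_small [Finite G] {K K₂ P : Subgroup G} {lk lp : List Lv} (c2 : Chain M K₂ lk) (cp : Chain M P lp)
    (h1 : K₂ ≤ K) (h2 : K₂ ≤ P) {m n : ℕ} (hc : Nat.card K < m * Nat.card K₂) (hn : Nat.card P = n)
    (hb : n < 2 ^ 64) (hm : m < 2 ^ 64) {gs gi mg : List ℕ} {ms : ℕ → ℕ} {r : ℕ → G}
    (hg : ∀ i, M.R (lgetD M.one gs i) (r i)) (hi : ∀ c ∈ gi, M.In ⊤ c)
    (cov : ∀ x, ∃ h ∈ K₂, h⁻¹ * x ∈ P ∨ ∃ i < gs.length, (h * r i)⁻¹ * x ∈ P)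
    (h : all1 (mvAt M.mul M.eqb M.one lk lp n m gs gi mg ms) 0 gs.length = true) : K ≤ P := by
  refine le_of_small_index h1 h2 hc fun x => ?_
  obtain ⟨k, hk, e | ⟨i, hi', e⟩⟩ := cov x
  · exact Or.inl (by simpa using mul_mem (h2 hk) e)
  have h3 := all1_lt h i hi'
  simp only [mvAt, force_eq, band_iff] at h3
  obtain ⟨g, hg', rg⟩ := c2.in_elt (lgetD 0 mg i)
  have ri := R_inv_of (hg i) (let ⟨y, _, hy⟩ := Model.in_lgetD hi i; ⟨y, hy⟩) h3.1
  have h4 : ∀ d, 0 < d → d < m → (r i)⁻¹ * (g ^ d * r i) ∉ P := fun d d0 dm => by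
    obtain ⟨d, rfl⟩ : ∃ e, d = e + 1 := ⟨d - 1, by omega⟩
    exact nmem_spec cp hn hb (M.R_mul ri (M.R_mul (M.R_pw rg _ (by omega)) (hg i)))
      (all1_lt h3.2 d (by simp only [Nat.pred_eq_sub_one]; omega))
  refine Or.inr ⟨k, hk, r i, e, fun a => g ^ a, fun a _ => pow_mem hg' a, fun a ha b hb' e => ?_⟩
  rcases lt_trichotomy a b with l | l | l
  · obtain ⟨d, rfl⟩ := Nat.exists_eq_add_of_lt l
    exact absurd (by simpa [pow_add, mul_assoc] using e) (h4 (d + 1) (by omega) (by omega))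
  · exact l
  · obtain ⟨d, rfl⟩ := Nat.exists_eq_add_of_lt l
    exact absurd (by simpa [pow_add, mul_assoc] using inv_mem e) (h4 (d + 1) (by omega) (by omega))

theorem norm_of_cj [Finite G] {P : Subgroup G} {l : List ℕ}
    (h : ∀ c ∈ l, ∀ a, M.R c a → ∀ k ∈ P, a⁻¹ * k * a ∈ P) : ∀ n ∈ M.cl l, ∀ k ∈ P, n⁻¹ * k * n ∈ P := by
  have : M.cl l ≤ normalizer P := Model.cl_le' fun c hc a ha => by
    rw [← inv_mem_iff]
    exact mem_normalizer_fintype fun n hn => by simpa using h c hc a ha n hn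
  intro n hn k hk
  simpa using (mem_normalizer_iff.1 (inv_mem (this hn)) k).1 hk

noncomputable def cjAll (mul : ℕ → ℕ → ℕ) (eqb : ℕ → ℕ → Bool) (one : ℕ) (ls : List Lv) (l ms : List ℕ)
    (g : List ℕ) (mss : List (List ℕ)) : Bool :=
  all1 (fun i => force (lgetD 0 g i) fun x => cjIn mul eqb one ls x l ms (mss.getD i [])) 0 g.length

theorem cjAll_spec [Finite G] {ls : List Lv} {l ms g : List ℕ} {mss : List (List ℕ)} (hP : Chain M (M.cl l) ls)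
    (h : cjAll M.mul M.eqb M.one ls l ms g mss = true) : ∀ n ∈ M.cl g, ∀ k ∈ M.cl l, n⁻¹ * k * n ∈ M.cl l :=
  norm_of_cj fun c hc a ha => by
    obtain ⟨i, hi, rfl⟩ := exists_lgetD 0 hc
    exact (cjIn_spec hP ha (all1_lt h i hi)).2

/-- Words in `l` give the entries of `t`. -/
theorem le_of_wds {K : Subgroup G} {t ws l : List ℕ} (hl : ∀ c ∈ l, M.In K c)
    (h : wdsOK M.mul M.one t ws l = true) : ∀ c ∈ t, M.In K c := in_of_slpW 0 (ab := 0) hl h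

theorem exists_conj_le [Finite G] {p : ℕ} [Fact p.Prime] {P K : Subgroup G} (hP : IsPGroup p P) (hK : ¬ p ∣ K.index) :
    ∃ g, ∀ x ∈ P, g⁻¹ * x * g ∈ K := by
  obtain ⟨c, hc⟩ := hP.nonempty_fixed_point_of_prime_not_dvd_card (G ⧸ K) hK
  obtain ⟨g, rfl⟩ := QuotientGroup.mk_surjective c
  exact ⟨g, fun x hx => by simpa [mul_assoc] using inv_mem (QuotientGroup.eq.1 (hc ⟨x, hx⟩))⟩

end

section
variable {X Y Ω : Type*} [Group X] [Group Y] [MulAction Y Ω] {N : Model X} {ι : X →* Y} {s : Y}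

theorem Al.not_killed (hι : Function.Injective ι) {a b c a' b' c' : ℕ} {x y z x' y' z' : X} (ha : N.R a x)
    (hb : N.R b y) (hc : N.R c z) (ha' : N.R a' x') (hb' : N.R b' y') (hc' : N.R c' z') (h1 : Al ι s x x')
    (h2 : Al ι s y y') (h3 : Al ι s z z') {rels : List (List ℕ × ℕ)} (hl : ∀ x ∈ rels, x.2 < 2 ^ 64)
    (h : killed N.mul N.eqb N.one (let3 a b c) rels = false) :
    killed N.mul N.eqb N.one (let3 a' b' c') rels = false := by
  rw [killed_iff (R_let3 ha hb hc) hl] at h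
  rw [killed_iff (R_let3 ha' hb' hc') hl]
  intro w hw
  have h4 : ∀ v : List ℕ, Al ι s (v.map (let3 x y z)).prod (v.map (let3 x' y' z')).prod := fun v => by
    induction v with
    | nil => exact Al.one
    | cons i v ih =>
      rw [List.map_cons, List.map_cons, List.prod_cons, List.prod_cons]
      refine Al.mul ?_ ih
      rcases i with _ | _ | i
      exacts [h1, h2, h3]
  exact ((h4 w.1).pow w.2).uniq hι (by rw [h w hw]; exact Al.one)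

/-- `s • x • p = y • q`. -/
def Im (N : Model X) (ι : X →* Y) (s : Y) (cx : ℕ) (p : Ω) (cy : ℕ) (q : Ω) : Prop :=
  ∃ x y, N.R cx x ∧ N.R cy y ∧ s • ι x • p = ι y • q

/-- The amalgam relations. -/
structure ImC (N : Model X) (ι : X →* Y) (s : Y) (J : Subgroup X) (al : ℕ → ℕ) (ct : ℕ) : Prop where
  ss : s * s = 1
  br : ∃ t, N.R ct t ∧ s * ι t * s = ι t * s * ι t
  hal : ∀ j ∈ J, ∀ c, N.R c j → ∃ y, N.R (al c) y ∧ Al ι s j y

variable {J : Subgroup X} {al : ℕ → ℕ} {ct cx cy cx2 cy2 : ℕ} {p q q2 : Ω}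

theorem Im.mv (C : ImC N ι s J al ct) (h : Im N ι s cx p cy q) {cj ck : ℕ} (hj : N.In J cj) (hk : N.In (Sx ι p) ck)
    (cA cB : ℕ) (e : (force cj fun j => force ck fun k => force (N.mul cx k) fun u => band (Nat.beq cA (N.mul j u))
      (force (al j) fun v => Nat.beq cB (N.mul v cy))) = true) : Im N ι s cA p cB q := by
  obtain ⟨x, y, rx, ry, h⟩ := h
  obtain ⟨j, hj, rj⟩ := hj
  obtain ⟨k, hk, rk⟩ := hk
  obtain ⟨j', rj', hj'⟩ := C.hal j hj _ rj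
  simp only [force_eq, band_iff] at e
  refine ⟨_, _, R_mul_of rj (N.R_mul rx rk) e.1, R_mul_of rj' ry e.2, ?_⟩
  rw [map_mul, map_mul, map_mul, mul_smul, mul_smul, mul_smul, mem_Sx.1 hk, ← h, ← mul_smul, hj', mul_smul]

theorem Im.sym (C : ImC N ι s J al ct) (h : Im N ι s cx p cy q) : Im N ι s cy q cx p := by
  obtain ⟨x, y, rx, ry, h⟩ := h
  exact ⟨y, x, ry, rx, by rw [← h, ← mul_smul, C.ss, one_smul]⟩

theorem Im.braid (C : ImC N ι s J al ct) (h : Im N ι s cx p cy q) (h2 : Im N ι s cx2 p cy2 q2) (cA cB : ℕ)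
    (e : band (force (N.mul ct cx) fun u => N.eqb cx2 u)
      (band (Nat.beq cA (N.mul ct cy)) (Nat.beq cB (N.mul ct cy2))) = true) : Im N ι s cA q cB q2 := by
  obtain ⟨x, y, rx, ry, h⟩ := h
  obtain ⟨x2, y2, rx2, ry2, h2⟩ := h2
  obtain ⟨t, rt, ht⟩ := C.br
  simp only [force_eq, band_iff] at e
  refine ⟨_, _, R_mul_of rt ry e.2.1, R_mul_of rt ry2 e.2.2, ?_⟩
  rw [N.eq_of rx2 (N.R_mul rt rx) e.1, map_mul, mul_smul] at h2
  rw [map_mul, map_mul, mul_smul, mul_smul, ← h, ← h2, ← mul_smul, ← mul_smul, ht, mul_smul, mul_smul]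

theorem Im.fix (h : Im N ι s cx p cy q) (h2 : Im N ι s cx2 p cy2 q) {cz : ℕ} (hz : N.In ⊤ cz)
    (e : band (N.eqb cx cx2) (force (N.mul cy cz) fun u => N.eqb u cy2) = true) : N.In (Sx ι q) cz := by
  obtain ⟨x, y, rx, ry, h⟩ := h
  obtain ⟨x2, y2, rx2, ry2, h2⟩ := h2
  obtain ⟨z, -, rz⟩ := hz
  simp only [force_eq, band_iff] at e
  rw [← N.eq_of rx rx2 e.1, h, ← N.eq_of (N.R_mul ry rz) ry2 e.2, map_mul, mul_smul] at h2
  exact ⟨z, (smul_left_cancel _ h2).symm, rz⟩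

theorem Im.rb {a b c : Ω} (h : Im N ι s cx p cy b) {r : X} (hr : N.R cx2 r) (e : N.eqb cx2 cx = true) :
    R3T ι a b c (s • ι r • p) := by
  obtain ⟨x, y, rx, ry, h⟩ := h
  exact Or.inr (Or.inl ⟨y, N.eq_of hr rx e ▸ h⟩)

theorem Im.rc {a b c : Ω} (h : Im N ι s cx p cy c) {r : X} (hr : N.R cx2 r) (e : N.eqb cx2 cx = true) :
    R3T ι a b c (s • ι r • p) := by
  obtain ⟨x, y, rx, ry, h⟩ := h
  exact Or.inr (Or.inr ⟨y, N.eq_of hr rx e ▸ h⟩)

theorem Im.t (C : ImC N ι s J al ct) {a : Ω} (ha : ∀ x, ι x • a = a) : Im N ι s ct (s • a) ct (s • a) := by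
  obtain ⟨t, rt, ht⟩ := C.br
  exact ⟨t, t, rt, rt, by rw [← mul_smul, ← mul_smul, ht, mul_smul, mul_smul, ha]⟩

theorem Im.dfn {r : X} (hr : N.R cx r) : Im N ι s cx p N.one (s • ι r • p) :=
  ⟨r, 1, hr, N.R_one, by simp⟩

theorem ImC.fixb (C : ImC N ι s J al ct) {ls : List Lv} (hJ : Chain N J ls) {a : Ω} (ha : ∀ x, ι x • a = a) :
    J ≤ Sx ι (s • a) := fun j hj => by
  obtain ⟨c, hc⟩ := hJ.exists_code j hj
  obtain ⟨y, -, hy⟩ := C.hal j hj c hc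
  have := hy.symm'.fix (ha y)
  rwa [inv_eq_of_mul_eq_one_right C.ss] at this

theorem ImC.al' (C : ImC N ι s J al ct) {ls : List Lv} (hJ : Chain N J ls) : ∀ j ∈ J, ∃ y, Al ι s j y := fun j hj =>
  let ⟨c, hc⟩ := hJ.exists_code j hj; let ⟨y, _, hy⟩ := C.hal j hj c hc; ⟨y, hy⟩

end

section
variable {S Y : Type*} [Group S] [Group Y] {M : Model S} {H : Subgroup S} {ι : H →* Y} {s : Y} {s0 : S}

/-- Conjugation by an involution on codes. -/
noncomputable def alC (mul : ℕ → ℕ → ℕ) (c0 c : ℕ) : ℕ := force (mul c c0) fun x => mul c0 x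

theorem imC_prod {c0 ct : ℕ} (h0 : M.R c0 s0) (ss : s * s = 1) (ss0 : s0 * s0 = 1) {t : H} (rt : M.R ct t)
    (br : s * ι t * s = ι t * s * ι t) (br0 : s0 * t * s0 = t * s0 * t) {l : List ℕ}
    (hl : ∀ c ∈ l, ∀ j, (M.sub H).R c j → ∃ y : H, Al ι s j y ∧ s0 * j = y * s0) :
    ImC (M.sub H) (ι.prod H.subtype) (s, s0) ((M.sub H).cl l) (alC M.mul c0) ct := by
  refine ⟨Prod.ext ss ss0, ⟨t, rt, Prod.ext br br0⟩, fun j hj c hc => ?_⟩
  obtain ⟨y, hy, -⟩ := Al.cl (ι := ι.prod H.subtype) (s := (s, s0)) (P := fun _ => True) trivial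
    (fun _ _ _ _ => trivial) (fun _ _ => trivial) (l := {g | ∃ c ∈ l, (M.sub H).R c g})
    (fun x ⟨c, h1, h2⟩ => let ⟨y, h3, h4⟩ := hl c h1 x h2; ⟨y, Prod.ext h3 h4, trivial⟩) j hj
  refine ⟨y, ?_, hy⟩
  have e : s0 * j = y * s0 := congrArg Prod.snd hy
  have : (y : S) = s0 * (j * s0) := by rw [← mul_assoc, e, mul_assoc, ss0, mul_one]
  show M.R _ (y : S)
  rw [this]
  exact M.R_mul h0 (M.R_mul hc h0)

variable {Ω : Type*} [MulAction Y Ω] {a : Ω}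

theorem mem_Sx_pp {u : Y × S} {x : H} : x ∈ Sx (ι.prod H.subtype) (u • pp0 H Y a) ↔
    x ∈ Sx ι (u.1 • a) ∧ (x * u.2)⁻¹ * u.2 ∈ H := by
  rw [mem_Sx, ← mul_smul, pp_eq, mem_Sx, ← mul_smul]; rfl

theorem pp_fix (ha : ∀ x, ι x • a = a) (x : H) : (ι.prod H.subtype) x • pp0 H Y a = pp0 H Y a := by
  have := (pp_eq (H := H) (a := a) (u := (ι.prod H.subtype) x) (v := 1)).2 ⟨by simpa using ha x, by simp⟩
  rwa [one_smul] at this

end

/-- Overgroups of `P` in `J`. -/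
theorem over_J {X : Type*} [Group X] [Finite X] {J Nn P M1 L : Subgroup X} {x τ : ℕ → X} {k l : ℕ} {c : X}
    (hN : Nn ≤ J) (cov : ∀ g ∈ J, ∃ n ∈ Nn, n⁻¹ * g ∈ Nn ∨ ∃ i < k, (n * x i)⁻¹ * g ∈ Nn)
    (covN : ∀ n ∈ Nn, ∃ j < l, (τ j)⁻¹ * n ∈ P) (hτ : ∀ j < l, τ j ∈ Nn)
    (norm : ∀ n ∈ Nn, ∀ p ∈ P, n⁻¹ * p * n ∈ P) (hM : P ≤ M1)
    (cls : ∀ i < k, ∀ j < l, (∀ L : Subgroup X, P ≤ L → x i * τ j ∈ L → J ≤ L) ∨
      (x i * τ j ∈ M1 ∧ ∀ L : Subgroup X, P ≤ L → x i * τ j ∈ L → c ∈ L))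
    (cls2 : ∀ j < l, τ j ∈ M1 ∨ ∀ L : Subgroup X, P ≤ L → c ∈ L → τ j * c * (τ j)⁻¹ ∈ L → J ≤ L)
    (h1 : P ≤ L) (h2 : L ≤ J) (h3 : Nat.card Nn + Nat.card M1 < Nat.card L) : J ≤ L := by
  by_contra hne
  let Lc : X → Subgroup X := fun n => L.comap (MulAut.conj n).toMonoidHom
  have mL : ∀ n g, g ∈ Lc n ↔ n * g * n⁻¹ ∈ L := fun _ _ => Iff.rfl
  have p1 : ∀ n ∈ Nn, P ≤ Lc n := fun n hn p hp => (mL _ _).2 (h1 (by simpa using norm _ (inv_mem hn) p hp))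
  have p2 : ∀ n ∈ Nn, ¬ J ≤ Lc n := fun n hn h => hne fun j hj => by
    simpa [mul_assoc] using (mL _ _).1 (h (mul_mem (mul_mem (inv_mem (hN hn)) hj) (hN hn)))
  have p3 : ∀ g ∈ L, g ∈ Nn ∨ ∃ n ∈ Nn, c ∈ Lc n ∧ n⁻¹ * g * n ∈ M1 := fun g hg => by
    obtain ⟨n, hn, e | ⟨i, hi, e⟩⟩ := cov g (h2 hg)
    · exact Or.inl (by simpa using mul_mem hn e)
    obtain ⟨j, hj, e2⟩ := covN _ (mul_mem e hn)
    have e3 : n⁻¹ * g * n = x i * τ j * ((τ j)⁻¹ * ((n * x i)⁻¹ * g * n)) := by group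
    have e4 : x i * τ j ∈ Lc n := by
      have : n⁻¹ * g * n ∈ Lc n := (mL _ _).2 (by simpa [mul_assoc] using hg)
      rwa [e3, mul_mem_cancel_right (p1 n hn e2)] at this
    rcases cls i hi j hj with h | ⟨h, h'⟩
    · exact absurd (h _ (p1 n hn) e4) (p2 n hn)
    · exact Or.inr ⟨n, hn, h' _ (p1 n hn) e4, e3 ▸ mul_mem h (hM e2)⟩
  have p4 : ∃ n0, ∀ g ∈ L, g ∈ Nn ∨ n0⁻¹ * g * n0 ∈ M1 := by
    by_cases hx : ∃ n ∈ Nn, c ∈ Lc n
    · obtain ⟨n0, hn0, hc0⟩ := hx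
      refine ⟨n0, fun g hg => (p3 g hg).imp_right fun ⟨n, hn, hc, hm⟩ => ?_⟩
      obtain ⟨j, hj, e⟩ := covN _ (mul_mem (inv_mem hn0) hn)
      have h4 : τ j ∈ M1 := (cls2 j hj).resolve_right fun h => p2 n0 hn0 (h _ (p1 n0 hn0) hc0 (by
        have h5 := p1 n0 hn0 (norm _ (inv_mem (hτ j hj)) _ e)
        have h6 : n0⁻¹ * n * c * (n0⁻¹ * n)⁻¹ ∈ Lc n0 := (mL _ _).2 (by simpa [mul_assoc] using (mL _ _).1 hc)
        have := mul_mem (mul_mem (inv_mem h5) h6) h5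
        simpa [mul_assoc] using this))
      have h7 : n0⁻¹ * n ∈ M1 := by simpa using mul_mem h4 (hM e)
      simpa [mul_assoc] using mul_mem (mul_mem h7 hm) (inv_mem h7)
    · exact ⟨1, fun g hg => (p3 g hg).imp_right fun ⟨n, hn, hc, _⟩ => absurd ⟨n, hn, hc⟩ hx⟩
  obtain ⟨n0, p4⟩ := p4
  have h8 : (L : Set X) ⊆ Nn ∪ (M1.comap (MulAut.conj n0⁻¹).toMonoidHom) := fun g hg =>
    (p4 g hg).imp_right fun h => by simpa using h
  have h9 := (Set.ncard_le_ncard h8).trans (Set.ncard_union_le _ _)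
  have h10 : Nat.card (M1.comap (MulAut.conj n0⁻¹).toMonoidHom) = Nat.card M1 := card_conj_of n0 fun x => by simp
  simp only [← Nat.card_coe_set_eq, SetLike.coe_sort_coe, h10] at h9
  omega

end H29
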