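import Cfsg.Agent.H29.R3b

set_option autoImplicit false
set_option linter.style.haveILetI false

/-! Recognition of rank three groups from the point stabiliser: the swap and overgroups. -/

namespace H29

open Subgroup MulAction

theorem card_inf_lt {X : Type*} [Group X] [Finite X] {K J : Subgroup X} {n n' m : ℕ}
    (hK : n * Nat.card K = Nat.card X) (hJ : n' * Nat.card J = Nat.card X) (h : m * (n * n') < Nat.card X) :
    m < Nat.card (K ⊓ J : Subgroup X) := by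
  have h1 : K.index = n := Nat.eq_of_mul_eq_mul_right Nat.card_pos (K.index_mul_card.trans hK.symm)
  have h2 : J.index = n' := Nat.eq_of_mul_eq_mul_right Nat.card_pos (J.index_mul_card.trans hJ.symm)
  have h3 := index_inf_le (H := K) (K := J)
  rw [h1, h2] at h3
  by_contra h4
  have := Nat.mul_le_mul (not_lt.1 h4) h3
  rw [(K ⊓ J).card_mul_index] at this
  omega

theorem exists_conj_pow {X : Type*} [Group X] [Finite X] {U : Subgroup X} {p e m : ℕ} [Fact p.Prime] {x y : X}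
    (hx : x ∈ U) (hy : y ∈ U) (ox : orderOf x = p ^ e) (oy : orderOf y = p ^ e) (hU : Nat.card U = m * p ^ e)
    (hm : ¬ p ∣ m) : ∃ w ∈ U, ∃ k < p ^ e, w * y * w⁻¹ = x ^ k := by
  classical
  have h1 : (zpowers (⟨x, hx⟩ : U)).index = m := by
    have := (zpowers (⟨x, hx⟩ : U)).index_mul_card
    rw [Nat.card_zpowers, orderOf_mk, ox, hU] at this
    exact Nat.eq_of_mul_eq_mul_right (pow_pos (Fact.out : p.Prime).pos e) this
  obtain ⟨g, hg⟩ := exists_conj_le (P := zpowers (⟨y, hy⟩ : U)) (K := zpowers (⟨x, hx⟩ : U))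
    (IsPGroup.of_card (n := e) (by rw [Nat.card_zpowers, orderOf_mk, oy])) (h1 ▸ hm)
  obtain ⟨k, hk, e2⟩ := Finset.mem_image.1 (mem_zpowers_iff_mem_range_orderOf.1 (hg _ (mem_zpowers _)))
  rw [orderOf_mk, ox, Finset.mem_range] at hk
  exact ⟨(g⁻¹ : U), (g⁻¹).2, k, hk, by simpa using (congrArg Subtype.val e2).symm⟩

section
variable {X Y Ω : Type*} [Group X] [Group Y] [MulAction Y Ω] {ι : X →* Y} {s : Y} {a b c d : Ω} {n1 n2 : ℕ}

theorem al_cl (f : X →* X) {l : Set X} (h : ∀ x ∈ l, Al ι s x (f x)) : ∀ x ∈ closure l, Al ι s x (f x) := by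
  intro x hx
  induction hx using closure_induction with
  | mem x hx => exact h x hx
  | one => simpa using Al.one
  | mul x y _ _ p q => simpa using p.mul q
  | inv x _ p => simpa using p.inv

theorem Rk3.norm (h : Rk3 ι a b c n1 n2) (sa : s • a = b) (sb : s • b = a) (sd : s • d = d) {U : Subgroup X}
    (hU : Sx ι b ⊓ Sx ι d = U) {u : X} (hu : u ∈ U) : ∃ y ∈ U, Al ι s u y := by
  subst hU
  obtain ⟨y, hy⟩ := exists_al h.rng sb hu.1
  exact ⟨y, ⟨sa ▸ hy.fix (h.fix u), sd ▸ hy.fix hu.2⟩, hy⟩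

theorem Rk3.fix3 (h : Rk3 ι a b c n1 n2) {g : Y} (ga : g • a = a) (gb : g • b = b) (gd : g • d = d) {U : Subgroup X}
    (hU : Sx ι b ⊓ Sx ι d = U) : ∃ w ∈ U, ι w = g := by
  obtain ⟨w, rfl⟩ := h.rng g ga
  exact ⟨w, hU ▸ ⟨gb, gd⟩, rfl⟩

theorem Rk3.cube (h : Rk3 ι a b c n1 n2) (sa : s • a = b) (sb : s • b = a) {t : X} (sd : s • ι t • b = ι t • b)
    (tt : t * t = 1) {U : Subgroup X} (hU : Sx ι b ⊓ Sx ι (ι t • b) = U) :
    ∃ w ∈ U, ι w = s * ι t * (s * ι t * (s * ι t)) := by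
  have e : ∀ ω : Ω, ι t • ι t • ω = ω := fun ω => by rw [← mul_smul, ← map_mul, tt, map_one, one_smul]
  refine h.fix3 ?_ ?_ ?_ hU <;> simp only [mul_smul, h.fix, sa, sb, sd, e]

theorem Al.comm (hι : Function.Injective ι) {w x y : X} (h : Al ι (ι w) x y) : w * x = y * w :=
  hι (by simpa [Al] using h)

theorem Rk3.good (h : Rk3 ι a b c n1 n2) (sa : s • a = b) (sb : s • b = a) {t : X} (sd : s • ι t • b = ι t • b)
    (tt : t * t = 1) {U : Subgroup X} (hU : Sx ι b ⊓ Sx ι (ι t • b) = U) (hα : ∀ u ∈ U, Al ι s u (t * u * t⁻¹))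
    (hZ : ∀ w ∈ U, (∀ u ∈ U, w * u = u * w) → w = 1) : s * s = 1 ∧ s * ι t * s = ι t * s * ι t := by
  have h1 : ∀ u ∈ U, Al ι s (t * u * t⁻¹) u := fun u hu => by
    obtain ⟨y, hy, e⟩ := h.norm sa sb sd hU hu
    have := hα _ (e.uniq h.inj (hα u hu) ▸ hy)
    rwa [show t * (t * u * t⁻¹) * t⁻¹ = t * t * u * (t * t)⁻¹ by group, tt, one_mul, inv_one, mul_one] at this
  obtain ⟨w, hw, e⟩ := h.fix3 (g := s * s) (by rw [mul_smul, sa, sb]) (by rw [mul_smul, sb, sa])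
    (by rw [mul_smul, sd, sd]) hU
  have ss : s * s = 1 := by
    rw [← e, hZ w hw fun u hu => Al.comm h.inj (e ▸ (hα u hu).comp (h1 u hu)), map_one]
  obtain ⟨v, hv, e2⟩ := h.cube sa sb sd tt hU
  have h2 : ∀ u ∈ U, Al ι (s * ι t) u u := fun u hu => (Al.self t u).comp (h1 u hu)
  rw [hZ v hv fun u hu => Al.comm h.inj (e2 ▸ ((h2 u hu).comp (h2 u hu)).comp (h2 u hu)), map_one] at e2
  have t2 : ι t * ι t = 1 := by rw [← map_mul, tt, map_one]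
  refine ⟨ss, ?_⟩
  calc s * ι t * s = s * ι t * s * (ι t * (s * (ι t * ι t) * s) * ι t) := by rw [t2, mul_one, ss, mul_one, t2, mul_one]
    _ = s * ι t * (s * ι t * (s * ι t)) * (ι t * s * ι t) := by simp only [mul_assoc]
    _ = _ := by rw [← e2, one_mul]

theorem Rk3.bad (h : Rk3 ι a b c n1 n2) (sa : s • a = b) (sb : s • b = a) {t : X} (sd : s • ι t • b = ι t • b)
    (tt : t * t = 1) {U : Subgroup X} (hU : Sx ι b ⊓ Sx ι (ι t • b) = U) (hα : ∀ u ∈ U, Al ι s u u)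
    (ht : ∀ u ∈ U, t * u * t⁻¹ ∈ U) : ∃ w ∈ U, ∀ u ∈ U, w * u = t * u * t⁻¹ * w := by
  obtain ⟨v, hv, e2⟩ := h.cube sa sb sd tt hU
  have h2 : ∀ u ∈ U, Al ι (s * ι t) u (t * u * t⁻¹) := fun u hu => (Al.self t u).comp (hα _ (ht u hu))
  refine ⟨v, hv, fun u hu => Al.comm h.inj ?_⟩
  have := ((h2 u hu).comp (h2 _ (ht u hu))).comp (h2 _ (ht _ (ht u hu)))
  rwa [← e2, show t * (t * u * t⁻¹) * t⁻¹ = t * t * u * (t * t)⁻¹ by group, tt, one_mul, inv_one, mul_one] at this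

theorem r3_step2 {p : Ω} (ha : ∀ x, ι x • a = a) {J K : Subgroup X} (hJ : ∀ j ∈ J, ∃ y, Al ι s j y)
    (hK : K ≤ Sx ι p) {k : ℕ} {r : ℕ → X} (cov : ∀ x, ∃ h ∈ J, h⁻¹ * x ∈ K ∨ ∃ i < k, (h * r i)⁻¹ * x ∈ K)
    (h0 : R3T ι a b c (s • p)) (h : ∀ i < k, R3T ι a b c (s • ι (r i) • p)) (x : X) : R3T ι a b c (s • ι x • p) :=
  r3_step ha hJ hK (fun x => by
    obtain ⟨j, hj, e | ⟨i, hi, e⟩⟩ := cov x
    exacts [⟨j, hj, 1, by simpa using e, by simpa using h0⟩, ⟨j, hj, _, e, h i hi⟩]) x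

theorem cov_conv {J : Subgroup X} {k : ℕ} {r : ℕ → X}
    (cov : ∀ x, ∃ h ∈ J, h⁻¹ * x ∈ J ∨ ∃ i < k, (h * r i)⁻¹ * x ∈ J) (x : X) :
    x ∈ J ∨ ∃ i < k, ∃ j ∈ J, (j * r i)⁻¹ * x ∈ J := by
  obtain ⟨j, hj, e | ⟨i, hi, e⟩⟩ := cov x
  exacts [Or.inl (by simpa using mul_mem hj e), Or.inr ⟨i, hi, j, hj, e⟩]

theorem ImC.fst {S : Type*} [Group S] {N : Model X} {f : X →* S} {s0 : S} {J : Subgroup X} {al : ℕ → ℕ} {ct : ℕ}
    (C : ImC N (ι.prod f) (s, s0) J al ct) : ImC N ι s J al ct :=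
  ⟨congrArg Prod.fst C.ss, let ⟨t, h1, h2⟩ := C.br; ⟨t, h1, congrArg Prod.fst h2⟩, fun j hj c hc =>
    let ⟨y, h1, h2⟩ := C.hal j hj c hc; ⟨y, h1, congrArg Prod.fst h2⟩⟩

variable {M : Model X}

/-- `n * A = a * n` and `n * B = b * n` for some listed `n`. -/
noncomputable def hitL (mul : ℕ → ℕ → ℕ) (eqb : ℕ → ℕ → Bool) (NL : List ℕ) (A B a b : ℕ) : Bool :=
  anyL (fun n => band (force (mul n A) fun x => force (mul a n) fun y => eqb x y)
    (force (mul n B) fun x => force (mul b n) fun y => eqb x y)) NL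

theorem hitL_spec {U : Subgroup X} {NL : List ℕ} (hN : ∀ c ∈ NL, M.In U c) {A B a b : ℕ} {x y x' y' u v : X}
    (hA : M.R A x) (hB : M.R B y) (ha : M.R a x') (hb : M.R b y') (h : hitL M.mul M.eqb NL A B a b = true)
    (h1 : Al ι s u x') (h2 : Al ι s v y') : ∃ n ∈ U, Al ι (ι n * s) u x ∧ Al ι (ι n * s) v y := by
  obtain ⟨c, hc, e⟩ := anyL_iff.1 h
  obtain ⟨n, hn, rn⟩ := hN c hc
  simp only [force_eq, band_iff] at e
  have e1 := M.eq_of (M.R_mul rn hA) (M.R_mul ha rn) e.1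
  have e2 := M.eq_of (M.R_mul rn hB) (M.R_mul hb rn) e.2
  refine ⟨n⁻¹, inv_mem hn, ?_, ?_⟩
  · simpa [mul_assoc, ← e1] using h1.adj n⁻¹
  · simpa [mul_assoc, ← e2] using h2.adj n⁻¹

theorem hitL_one {w A B a b : ℕ} {n x y x' y' : X} (hw : M.R w n) (hA : M.R A x) (hB : M.R B y) (ha : M.R a x')
    (hb : M.R b y') (h1 : n * x = x' * n) (h2 : n * y = y' * n) : hitL M.mul M.eqb [w] A B a b = true :=
  anyL_iff.2 ⟨w, by simp, band_iff.2 ⟨(M.eqb_iff (M.R_mul hw hA) (M.R_mul ha hw)).2 h1,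
    (M.eqb_iff (M.R_mul hw hB) (M.R_mul hb hw)).2 h2⟩⟩

noncomputable def enAt (mul : ℕ → ℕ → ℕ) (eqb : ℕ → ℕ → Bool) (one u p : ℕ) (r0 r1 : List (List ℕ × ℕ)) (NL : List ℕ)
    (A1 B1 A2 B2 x : ℕ) : Bool :=
  killed mul eqb one (let3 x x x) r0 || eqb x one || all1 (fun k => force (pw mul one u k) fun a =>
    killed mul eqb one (let3 a x x) r1 || hitL mul eqb NL A1 B1 a x || hitL mul eqb NL A2 B2 a x) 0 p

theorem enAt_spec (hι : Function.Injective ι) {U : Subgroup X} {NL : List ℕ} (hN : ∀ c ∈ NL, M.In U c)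
    {u z p k A1 B1 A2 B2 x : ℕ} {r0 r1 : List (List ℕ × ℕ)} {gu gz gx a1 b1 a2 b2 : X} (hu : M.R u gu) (hz : M.R z gz)
    (hx : M.R x gx) (p1 : M.R A1 a1) (q1 : M.R B1 b1) (p2 : M.R A2 a2) (q2 : M.R B2 b2) (hk : k < p) (hp : p < 2 ^ 64)
    (l0 : ∀ x ∈ r0, x.2 < 2 ^ 64) (l1 : ∀ x ∈ r1, x.2 < 2 ^ 64)
    (k0 : killed M.mul M.eqb M.one (let3 z z z) r0 = false) (k1 : killed M.mul M.eqb M.one (let3 u z z) r1 = false)
    (z1 : gz ≠ 1) (h1 : Al ι s gu (gu ^ k)) (h2 : Al ι s gz gx) (h : enAt M.mul M.eqb M.one u p r0 r1 NL A1 B1 A2 B2 x = true) :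
    ∃ n ∈ U, (Al ι (ι n * s) gu a1 ∧ Al ι (ι n * s) gz b1) ∨ (Al ι (ι n * s) gu a2 ∧ Al ι (ι n * s) gz b2) := by
  have ra := M.R_pw hu k (by omega)
  have x1 : M.eqb x M.one = false := Bool.eq_false_iff.2 fun e =>
    z1 (h2.uniq' hι (by rw [M.eq_of hx M.R_one e]; exact Al.one))
  simp only [enAt, Al.not_killed hι hz hz hz hx hx hx h2 h2 h2 l0 k0, x1, Bool.false_or] at h
  have h3 := all1_lt h k hk
  simp only [force_eq, Al.not_killed hι hu hz hz ra hx hx h1 h2 h2 l1 k1, Bool.false_or, Bool.or_eq_true] at h3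
  rcases h3 with h3 | h3
  · obtain ⟨n, hn, e⟩ := hitL_spec hN p1 q1 ra hx h3 h1 h2; exact ⟨n, hn, Or.inl e⟩
  · obtain ⟨n, hn, e⟩ := hitL_spec hN p2 q2 ra hx h3 h1 h2; exact ⟨n, hn, Or.inr e⟩

noncomputable def ovAt (mul : ℕ → ℕ → ℕ) (eqb : ℕ → ℕ → Bool) (one : ℕ) (lm : List Lv) (xs ts pg Jg : List ℕ) (cx l : ℕ)
    (W : List (List ℕ)) (e : ℕ) : Bool :=
  force (lgetD one xs (Nat.div e l)) fun x => force (lgetD one ts (Nat.mod e l)) fun τ => force (mul x τ) fun g =>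
    wdsOK mul one Jg (W.getD e []) (g :: pg) || band (sift mul eqb one lm g) (wdsOK mul one [cx] (W.getD e []) (g :: pg))

noncomputable def ov2At (mul : ℕ → ℕ → ℕ) (eqb : ℕ → ℕ → Bool) (one : ℕ) (lm : List Lv) (ts pg Jg : List ℕ) (cx o : ℕ)
    (W : List (List ℕ)) (j : ℕ) : Bool :=
  force (lgetD one ts j) fun τ => sift mul eqb one lm τ || force (pw mul one τ o) fun σ =>
    band (force (mul τ σ) fun x => eqb x one) (force (mul cx σ) fun x => force (mul τ x) fun d =>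
      wdsOK mul one Jg (W.getD j []) (cx :: d :: pg))

theorem over_J_of [Finite X] {Jg Ng pg xs ts : List ℕ} {M1 L : Subgroup X} {lm : List Lv} (cm : Chain M M1 lm)
    {x τ : ℕ → X} (hx : ∀ i, M.R (lgetD M.one xs i) (x i)) (hτ : ∀ i, M.R (lgetD M.one ts i) (τ i))
    (hp : ∀ c ∈ pg, M.In ⊤ c) {cx o : ℕ} (hc : M.In ⊤ cx) (ho : o < 2 ^ 64) (hN : M.cl Ng ≤ M.cl Jg)
    (cov : ∀ g ∈ M.cl Jg, ∃ n ∈ M.cl Ng, n⁻¹ * g ∈ M.cl Ng ∨ ∃ i < xs.length, (n * x i)⁻¹ * g ∈ M.cl Ng)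
    (covN : ∀ g ∈ M.cl Ng, ∃ n ∈ (⊥ : Subgroup X), n⁻¹ * g ∈ M.cl pg ∨ ∃ i < ts.length, (n * τ i)⁻¹ * g ∈ M.cl pg)
    (ht : ∀ c ∈ ts, M.In (M.cl Ng) c) (norm : ∀ n ∈ M.cl Ng, ∀ p ∈ M.cl pg, n⁻¹ * p * n ∈ M.cl pg)
    (hM : M.cl pg ≤ M1) {W W2 : List (List ℕ)}
    (e1 : ∀ e < xs.length * (ts.length + 1), ovAt M.mul M.eqb M.one lm xs ts pg Jg cx (ts.length + 1) W e = true)
    (e2 : all1 (ov2At M.mul M.eqb M.one lm ts pg Jg cx o W2) 0 (ts.length + 1) = true)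
    (h1 : M.cl pg ≤ L) (h2 : L ≤ M.cl Jg) (h3 : Nat.card (M.cl Ng) + Nat.card M1 < Nat.card L) : M.cl Jg ≤ L := by
  obtain ⟨c, -, rc⟩ := hc
  have hP : ∀ L : Subgroup X, M.cl pg ≤ L → ∀ d ∈ pg, M.In L d := fun L h d hd => (in_cl_self hp d hd).mono h
  refine over_J (x := x) (τ := τ) (k := xs.length) (l := ts.length + 1) (c := c) hN cov (fun n hn => ?_)
    (fun j _ => (Model.in_lgetD ht j).mem (hτ j)) norm hM (fun i hi j hj => ?_) (fun j hj => ?_) h1 h2 h3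
  · obtain ⟨_, rfl, e | ⟨i, hi, e⟩⟩ := covN n hn
    · have h4 := hτ ts.length
      rw [lgetD_eq, List.getD_eq_default _ _ le_rfl] at h4
      exact ⟨ts.length, by omega, by rwa [M.unique h4 M.R_one]⟩
    · exact ⟨i, by omega, by simpa using e⟩
  · have h4 := e1 (i * (ts.length + 1) + j) (by nlinarith)
    have h5 : Nat.div (i * (ts.length + 1) + j) (ts.length + 1) = i := by
      show (_ : ℕ) / (_ : ℕ) = _
      rw [add_comm, Nat.add_mul_div_right _ _ (by omega), Nat.div_eq_of_lt hj, zero_add]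
    have h6 : Nat.mod (i * (ts.length + 1) + j) (ts.length + 1) = j := by
      show (_ : ℕ) % (_ : ℕ) = _
      rw [add_comm, Nat.add_mul_mod_self_right, Nat.mod_eq_of_lt hj]
    simp only [ovAt, force_eq, h5, h6, Bool.or_eq_true, band_iff] at h4
    have rg := M.R_mul (hx i) (hτ j)
    refine h4.imp (fun h L p q => Model.cl_le (le_of_wds (List.forall_mem_cons.2 ⟨⟨_, q, rg⟩, hP L p⟩) h))
      fun h => ⟨cm.mem_of_sift _ _ rg h.1, fun L p q =>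
        (le_of_wds (List.forall_mem_cons.2 ⟨⟨_, q, rg⟩, hP L p⟩) h.2 cx (by simp)).mem rc⟩
  · have h4 := all1_lt e2 j hj
    simp only [ov2At, force_eq, Bool.or_eq_true, band_iff] at h4
    refine h4.imp (cm.mem_of_sift _ _ (hτ j)) fun h L p q q' => Model.cl_le (le_of_wds (List.forall_mem_cons.2
      ⟨⟨_, q, rc⟩, List.forall_mem_cons.2 ⟨⟨_, q', ?_⟩, hP L p⟩⟩) h.2)
    rw [mul_assoc]
    exact M.R_mul (hτ j) (M.R_mul rc (R_inv_of (hτ j) ⟨_, M.R_pw (hτ j) o ho⟩ h.1))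

/-- The centraliser of `z` inside `J` from a double coset cover. -/
theorem cent_of_cov {J C : Subgroup X} {z : X} (hC : ∀ c ∈ C, c * z = z * c) {xs : List ℕ} {r : ℕ → X}
    (hr : ∀ i, M.R (lgetD M.one xs i) (r i)) {Z : ℕ} (hz : M.R Z z)
    (cov : ∀ g ∈ J, ∃ h ∈ C, h⁻¹ * g ∈ C ∨ ∃ i < xs.length, (h * r i)⁻¹ * g ∈ C)
    (h : allL (fun c => (commB M.mul M.eqb c Z).not) xs = true) : ∀ g ∈ J, g * z = z * g → g ∈ C := by
  intro g hg e
  obtain ⟨k, hk, h1 | ⟨i, hi, h1⟩⟩ := cov g hg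
  · simpa using mul_mem hk h1
  have m : ∀ c, c * z = z * c ↔ c ∈ centralizer {z} := fun c => mem_centralizer_singleton_iff.symm
  have h2 := mul_mem (mul_mem (inv_mem ((m _).1 (hC k hk))) ((m _).1 e)) (inv_mem ((m _).1 (hC _ h1)))
  have h3 := allL_spec h _ (lgetD_mem (d := M.one) hi)
  rw [(commB_iff (hr i) hz).2 ((m _).2 (by simpa [mul_assoc] using h2))] at h3
  cases h3

end

theorem imC_prod' {S Y : Type*} [Group S] [Group Y] {M : Model S} {H : Subgroup S} {ι : H →* Y} {s : Y} {s0 : S}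
    {c0 ct : ℕ} (h0 : M.R c0 s0) (ss : s * s = 1) (ss0 : s0 * s0 = 1) {t : H} (rt : M.R ct t)
    (br : s * ι t * s = ι t * s * ι t) (br0 : s0 * t * s0 = t * s0 * t) {l : List ℕ}
    (hl : ∀ c ∈ l, ∀ j, (M.sub H).R c j → ∃ y : H, Al ι s j y ∧ (M.sub H).R (alC M.mul c0 c) y) :
    ImC (M.sub H) (ι.prod H.subtype) (s, s0) ((M.sub H).cl l) (alC M.mul c0) ct :=
  imC_prod h0 ss ss0 rt br br0 fun c hc j rj => let ⟨y, hy, ry⟩ := hl c hc j rj
    ⟨y, hy, by rw [M.unique (g := (y : S)) ry (M.R_mul h0 (M.R_mul rj h0)), mul_assoc, mul_assoc, ss0, mul_one]; rfl⟩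

end H29
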