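import Cfsg.Agent.H29.R3c

set_option autoImplicit false
set_option linter.style.haveILetI false

/-! Recognition of rank three groups from the point stabiliser: more checks. -/

namespace H29

open Subgroup MulAction

section
variable {G : Type*} [Group G] {M : Model G}

theorem Key.not_mem {St : Subgroup G} {key : ℕ → ℕ} {fix : ℕ → Bool} (k : Key M St key fix) {l : List ℕ}
    (h : allL fix l = true) (c : ℕ) (g : G) (hc : M.R c g)
    (e : (force (key c) fun k => (Nat.beq k (key M.one)).not) = true) : g ∉ M.cl l := fun hg => by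
  rw [force_eq, k.inv M.R_one hc (by simpa using k.cl_le h hg), Nat.beq_refl] at e
  cases e

noncomputable def mvAt2 (mul : ℕ → ℕ → ℕ) (eqb : ℕ → ℕ → Bool) (one : ℕ) (lk : List Lv) (nm : ℕ → Bool) (m : ℕ)
    (gs gi mg : List ℕ) (i : ℕ) : Bool :=
  force (lgetD one gs i) fun r => force (lgetD one gi i) fun ri => force (eltL mul one lk (lgetD 0 mg i)) fun g =>
    band (force (mul r ri) fun x => eqb x one) (all1 (fun d => force (pw mul one g (Nat.succ d)) fun x =>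
      force (mul x r) fun y => force (mul ri y) nm) 0 (Nat.pred m))

theorem le_of_small2 [Finite G] {K K₂ P : Subgroup G} {lk : List Lv} (c2 : Chain M K₂ lk)
    (h1 : K₂ ≤ K) (h2 : K₂ ≤ P) (hn : ∀ n ∈ P, ∀ k ∈ K₂, n⁻¹ * k * n ∈ K₂) {m : ℕ} (hc : Nat.card K < m * Nat.card K₂)
    {nm : ℕ → Bool} (hnm : ∀ c g, M.R c g → nm c = true → g ∉ P) (hm : m < 2 ^ 64) {gs gi mg : List ℕ} {r : ℕ → G}
    (hg : ∀ i, M.R (lgetD M.one gs i) (r i)) (hi : ∀ c ∈ gi, M.In ⊤ c)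
    (cov : ∀ x, ∃ h ∈ P, h⁻¹ * x ∈ P ∨ ∃ i < gs.length, (h * r i)⁻¹ * x ∈ P)
    (h : all1 (mvAt2 M.mul M.eqb M.one lk nm m gs gi mg) 0 gs.length = true) : K ≤ P := by
  refine le_of_small_index h1 h2 hc fun x => ?_
  obtain ⟨k, hk, e | ⟨i, hi', e⟩⟩ := cov x
  · exact Or.inl (by simpa using mul_mem hk e)
  have h3 := all1_lt h i hi'
  simp only [mvAt2, force_eq, band_iff] at h3
  obtain ⟨g, hg', rg⟩ := c2.in_elt (lgetD 0 mg i)
  have ri := R_inv_of (hg i) (let ⟨y, _, hy⟩ := Model.in_lgetD hi i; ⟨y, hy⟩) h3.1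
  have h4 : ∀ d, 0 < d → d < m → (r i)⁻¹ * (g ^ d * r i) ∉ P := fun d d0 dm => by
    obtain ⟨d, rfl⟩ : ∃ e, d = e + 1 := ⟨d - 1, by omega⟩
    exact hnm _ _ (M.R_mul ri (M.R_mul (M.R_pw rg _ (by omega)) (hg i)))
      (all1_lt h3.2 d (by simp only [Nat.pred_eq_sub_one]; omega))
  refine Or.inr ⟨1, one_mem _, k * r i, by simpa using e, fun a => k * g ^ a * k⁻¹,
    fun a _ => by simpa using hn _ (inv_mem hk) _ (pow_mem hg' a), fun a ha b hb' e => ?_⟩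
  rcases lt_trichotomy a b with l | l | l
  · obtain ⟨d, rfl⟩ := Nat.exists_eq_add_of_lt l
    exact absurd (by simpa [pow_add, mul_assoc] using e) (h4 (d + 1) (by omega) (by omega))
  · exact l
  · obtain ⟨d, rfl⟩ := Nat.exists_eq_add_of_lt l
    exact absurd (by simpa [pow_add, mul_assoc] using inv_mem e) (h4 (d + 1) (by omega) (by omega))

noncomputable def ov3At (mul : ℕ → ℕ → ℕ) (eqb : ℕ → ℕ → Bool) (one : ℕ) (xs pg A B : List ℕ) (y o : ℕ)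
    (W : List (List ℕ)) (j : ℕ) : Bool :=
  force (lgetD one xs j) fun τ => force (pw mul one τ o) fun σ =>
    band (force (mul τ σ) fun x => eqb x one) (force (mul y τ) fun x => force (mul σ x) fun d =>
      wdsOK mul one A (W.getD j []) (d :: pg) || wdsOK mul one B (W.getD j []) (d :: pg))

/-- A subgroup that contains `P` and a conjugate of `⟨y⟩`. -/
theorem over_two {N1 N2 K : Subgroup G} {xs pg A B : List ℕ} {y o : ℕ} {W : List (List ℕ)} {r : ℕ → G}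
    (hr : ∀ i, M.R (lgetD M.one xs i) (r i)) (hp : ∀ c ∈ pg, M.In ⊤ c) (hy : M.In ⊤ y) (ho : o < 2 ^ 64)
    (cov : ∀ g, ∃ m ∈ N1, m⁻¹ * g ∈ N2 ∨ ∃ i < xs.length, (m * r i)⁻¹ * g ∈ N2)
    (n1 : ∀ n ∈ N1, ∀ k ∈ M.cl [y], n⁻¹ * k * n ∈ M.cl [y]) (n2 : ∀ n ∈ N2, ∀ k ∈ M.cl pg, n⁻¹ * k * n ∈ M.cl pg)
    (h : ∀ j < xs.length + 1, ov3At M.mul M.eqb M.one xs pg A B y o W j = true) (h1 : M.cl pg ≤ K)
    (h2 : ∃ g, ∀ x ∈ M.cl [y], g⁻¹ * x * g ∈ K) :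
    ∃ n, (∀ x ∈ M.cl A, n⁻¹ * x * n ∈ K) ∨ ∀ x ∈ M.cl B, n⁻¹ * x * n ∈ K := by
  obtain ⟨g, hg⟩ := h2
  obtain ⟨m, hm, e⟩ := cov g
  obtain ⟨i, hi, e⟩ : ∃ i < xs.length + 1, (m * r i)⁻¹ * g ∈ N2 := by
    rcases e with e | ⟨i, hi, e⟩
    · have h4 := hr xs.length
      rw [lgetD_eq, List.getD_eq_default _ _ le_rfl] at h4
      exact ⟨xs.length, by omega, by rwa [M.unique h4 M.R_one, mul_one]⟩
    · exact ⟨i, by omega, e⟩
  obtain ⟨y', -, ry⟩ := hy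
  let L := K.comap (MulAut.conj ((m * r i)⁻¹ * g)⁻¹).toMonoidHom
  have mL : ∀ x, x ∈ L ↔ ((m * r i)⁻¹ * g)⁻¹ * x * ((m * r i)⁻¹ * g) ∈ K := fun x => by simp [L, mul_assoc]
  have h3 := h i hi
  simp only [ov3At, force_eq, band_iff, Bool.or_eq_true] at h3
  have h4 : ∀ c ∈ M.mul (pw M.mul M.one (lgetD M.one xs i) o) (M.mul y (lgetD M.one xs i)) :: pg, M.In L c :=
    List.forall_mem_cons.2 ⟨⟨_, (mL _).2 (by
      simpa [mul_assoc] using hg _ (n1 _ (inv_mem hm) _ (Model.mem_cl (l := [y]) (by simp) ry))),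
      M.R_mul (R_inv_of (hr i) ⟨_, M.R_pw (hr i) o ho⟩ h3.1) (M.R_mul ry (hr i))⟩,
      fun c hc => (in_cl_self hp c hc).mono fun x hx => (mL x).2 (h1 (n2 _ e x hx))⟩
  exact ⟨_, h3.2.imp (fun h x hx => (mL x).1 (Model.cl_le (le_of_wds h4 h) hx))
    fun h x hx => (mL x).1 (Model.cl_le (le_of_wds h4 h) hx)⟩

end

section
variable {X Y Ω : Type*} [Group X] [Group Y] [MulAction Y Ω] {ι : X →* Y} {s : Y} {a b c d : Ω} {n1 n2 : ℕ}
  {M : Model X}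

theorem Rk3.good2 (h : Rk3 ι a b c n1 n2) (sa : s • a = b) (sb : s • b = a) {t : X} (sd : s • ι t • b = ι t • b)
    (tt : t * t = 1) {U : Subgroup X} (hU : Sx ι b ⊓ Sx ι (ι t • b) = U) {S : Type*} [Group S] {f : X →* S}
    (hf : Function.Injective f) {s0 : S} (ss0 : s0 * s0 = 1) (br0 : s0 * f t * (s0 * f t * (s0 * f t)) = 1)
    (hα : ∀ u ∈ U, ∃ y, Al (ι.prod f) (s, s0) u y) (ht : ∀ u ∈ U, t * u * t⁻¹ ∈ U)
    (hZ : ∀ w ∈ U, (∀ u ∈ U, w * u = u * w) → w = 1) : s * s = 1 ∧ s * ι t * s = ι t * s * ι t := by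
  have h1 : ∀ u ∈ U, ∃ y ∈ U, Al (ι.prod f) (s, s0) u y := fun u hu => by
    obtain ⟨y, hy, e⟩ := h.norm sa sb sd hU hu
    obtain ⟨y', e'⟩ := hα u hu
    exact ⟨y, hy, Al.uniq h.inj (congrArg Prod.fst e') e ▸ e'⟩
  have h0 : ∀ {g : Y × S} {u y : X}, Al (ι.prod f) g u y → g.2 = 1 → Al ι g.1 u u := fun {g u y} e e1 => by
    obtain rfl : u = y := hf (by simpa [e1] using congrArg Prod.snd e)
    exact congrArg Prod.fst e
  obtain ⟨w, hw, e⟩ := h.fix3 (g := s * s) (by rw [mul_smul, sa, sb]) (by rw [mul_smul, sb, sa])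
    (by rw [mul_smul, sd, sd]) hU
  have ss : s * s = 1 := by
    rw [← e, hZ w hw fun u hu => Al.comm h.inj ?_, map_one]
    obtain ⟨y, hy, p⟩ := h1 u hu
    obtain ⟨y', -, q⟩ := h1 y hy
    exact e ▸ h0 (p.comp q) ss0
  obtain ⟨v, hv, e2⟩ := h.cube sa sb sd tt hU
  have h2 : ∀ u ∈ U, ∃ y ∈ U, Al (ι.prod f) (s * ι t, s0 * f t) u y := fun u hu =>
    let ⟨y, hy, p⟩ := h1 _ (ht u hu); ⟨y, hy, (Al.self t u).comp p⟩
  rw [hZ v hv fun u hu => Al.comm h.inj ?_, map_one] at e2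
  · have t2 : ι t * ι t = 1 := by rw [← map_mul, tt, map_one]
    refine ⟨ss, ?_⟩
    calc s * ι t * s = s * ι t * s * (ι t * (s * (ι t * ι t) * s) * ι t) := by rw [t2, mul_one, ss, mul_one, t2, mul_one]
      _ = s * ι t * (s * ι t * (s * ι t)) * (ι t * s * ι t) := by simp only [mul_assoc]
      _ = _ := by rw [← e2, one_mul]
  obtain ⟨y, hy, p⟩ := h2 u hu
  obtain ⟨y', hy', q⟩ := h2 y hy
  obtain ⟨y'', -, r⟩ := h2 y' hy'
  exact e2 ▸ h0 ((p.comp q).comp r) br0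

/-- Conjugate triples. -/
noncomputable def hit3 (mul : ℕ → ℕ → ℕ) (eqb : ℕ → ℕ → Bool) (NL : List ℕ) (A B C a b c : ℕ) : Bool :=
  anyL (fun n => band (hitL mul eqb [n] A B a b) (hitL mul eqb [n] C C c c)) NL

theorem hit3_spec {U : Subgroup X} {NL : List ℕ} (hN : ∀ c ∈ NL, M.In U c) {A B C a b c : ℕ}
    {x y z x' y' z' u v w : X} (hA : M.R A x) (hB : M.R B y) (hC : M.R C z) (ha : M.R a x') (hb : M.R b y')
    (hc : M.R c z') (h : hit3 M.mul M.eqb NL A B C a b c = true) (h1 : Al ι s u x') (h2 : Al ι s v y')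
    (h3 : Al ι s w z') : ∃ n ∈ U, Al ι (ι n * s) u x ∧ Al ι (ι n * s) v y ∧ Al ι (ι n * s) w z := by
  obtain ⟨c, hc', e⟩ := anyL_iff.1 h
  obtain ⟨n, hn, rn⟩ := hN c hc'
  simp only [hitL, anyL_iff, List.mem_singleton, exists_eq_left, force_eq, band_iff] at e
  have e1 := M.eq_of (M.R_mul rn hA) (M.R_mul ha rn) e.1.1
  have e2 := M.eq_of (M.R_mul rn hB) (M.R_mul hb rn) e.1.2
  have e3 := M.eq_of (M.R_mul rn hC) (M.R_mul hc rn) e.2.1
  refine ⟨n⁻¹, inv_mem hn, ?_, ?_, ?_⟩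
  · simpa [mul_assoc, ← e1] using h1.adj n⁻¹
  · simpa [mul_assoc, ← e2] using h2.adj n⁻¹
  · simpa [mul_assoc, ← e3] using h3.adj n⁻¹

noncomputable def en3At (mul : ℕ → ℕ → ℕ) (eqb : ℕ → ℕ → Bool) (one u p e : ℕ) (r0 r1 r2 : List (List ℕ × ℕ))
    (NL : List ℕ) (lc : List Lv) (A1 B1 C1 A2 B2 C2 x : ℕ) : Bool :=
  killed mul eqb one (let3 x x x) r0 || eqb x one || all1 (fun k => force (pw mul one u k) fun a =>
    force (pw mul one a e) fun z => eqb z one || band (force (pw mul one u e) fun z' => eqb z z')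
      (killed mul eqb one (let3 a x x) r1 || allC mul (fun y => killed mul eqb one (let3 a x y) r2 ||
        hit3 mul eqb NL A1 B1 C1 a x y || hit3 mul eqb NL A2 B2 C2 a x y) lc one)) 0 p

theorem en3At_spec (hι : Function.Injective ι) {U J C : Subgroup X} {NL : List ℕ} (hN : ∀ c ∈ NL, M.In U c)
    {lc : List Lv} (cC : Chain M C lc) {u v w p e k A1 B1 C1 A2 B2 C2 x : ℕ} {r0 r1 r2 : List (List ℕ × ℕ)}
    {gu gv gw gx gy a1 b1 c1 a2 b2 c2 : X} (hu : M.R u gu) (hv : M.R v gv) (hw : M.R w gw) (hx : M.R x gx)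
    (p1 : M.R A1 a1) (q1 : M.R B1 b1) (t1 : M.R C1 c1) (p2 : M.R A2 a2) (q2 : M.R B2 b2) (t2 : M.R C2 c2)
    (hk : k < p) (hp : p < 2 ^ 64) (he : e < 2 ^ 64) (l0 : ∀ x ∈ r0, x.2 < 2 ^ 64) (l1 : ∀ x ∈ r1, x.2 < 2 ^ 64)
    (l2 : ∀ x ∈ r2, x.2 < 2 ^ 64) (k0 : killed M.mul M.eqb M.one (let3 v v v) r0 = false)
    (k1 : killed M.mul M.eqb M.one (let3 u v v) r1 = false) (k2 : killed M.mul M.eqb M.one (let3 u v w) r2 = false)
    (v1 : gv ≠ 1) (u1 : gu ^ e ≠ 1) (hc : gw * gu ^ e = gu ^ e * gw)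
    (hC : ∀ g ∈ J, g * gu ^ e = gu ^ e * g → g ∈ C) (hy : gy ∈ J)
    (h1 : Al ι s gu (gu ^ k)) (h2 : Al ι s gv gx) (h3 : Al ι s gw gy)
    (h : en3At M.mul M.eqb M.one u p e r0 r1 r2 NL lc A1 B1 C1 A2 B2 C2 x = true) :
    ∃ n ∈ U, (Al ι (ι n * s) gu a1 ∧ Al ι (ι n * s) gv b1 ∧ Al ι (ι n * s) gw c1) ∨
      (Al ι (ι n * s) gu a2 ∧ Al ι (ι n * s) gv b2 ∧ Al ι (ι n * s) gw c2) := by
  have ra := M.R_pw hu k (by omega)
  have rz := M.R_pw ra e he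
  have x1 : M.eqb x M.one = false := Bool.eq_false_iff.2 fun e =>
    v1 (h2.uniq' hι (by rw [M.eq_of hx M.R_one e]; exact Al.one))
  have z1 : M.eqb (pw M.mul M.one (pw M.mul M.one u k) e) M.one = false := Bool.eq_false_iff.2 fun e' =>
    u1 ((h1.pow e).uniq' hι (by rw [M.eq_of rz M.R_one e']; exact Al.one))
  simp only [en3At, Al.not_killed hι hv hv hv hx hx hx h2 h2 h2 l0 k0, x1, Bool.false_or] at h
  have h4 := all1_lt h k hk
  simp only [force_eq, z1, Al.not_killed hι hu hv hv ra hx hx h1 h2 h2 l1 k1, Bool.false_or, band_iff] at h4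
  have h5 := h1.pow e
  rw [M.eq_of rz (M.R_pw hu e he) h4.1] at h5
  obtain ⟨y, ry, h6⟩ := cC.allC_spec M.R_one h4.2 gy (hC gy hy ((h3.mul h5).uniq hι (hc ▸ h5.mul h3)))
  rw [one_mul] at ry
  simp only [Al.not_killed hι hu hv hw ra hx ry h1 h2 h3 l2 k2, Bool.false_or, Bool.or_eq_true] at h6
  rcases h6 with h6 | h6
  · obtain ⟨n, hn, e⟩ := hit3_spec hN p1 q1 t1 ra hx ry h6 h1 h2 h3; exact ⟨n, hn, Or.inl e⟩
  · obtain ⟨n, hn, e⟩ := hit3_spec hN p2 q2 t2 ra hx ry h6 h1 h2 h3; exact ⟨n, hn, Or.inr e⟩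

end

end H29
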