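import Cfsg.Agent.H29.R3d

set_option autoImplicit false
set_option linter.style.haveILetI false

/-! Recognition of rank three groups from the point stabiliser: swaps whose square is not trivial. -/

namespace H29

open Subgroup MulAction

section
variable {X : Type*} [Group X] {M : Model X} {D : Subgroup (X × X)}

/-- The codes `c` and `d` give a pair in `D`. -/
def Pr (M : Model X) (D : Subgroup (X × X)) (c d : ℕ) : Prop := ∃ x y, M.R c x ∧ M.R d y ∧ (x, y) ∈ D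

theorem Pr.evW {l l' : List ℕ} (h : ∀ i, Pr M D (lgetD M.one l i) (lgetD M.one l' i)) (n : ℕ) :
    ∀ w, Pr M D (evW M.mul M.one l n w) (evW M.mul M.one l' n w) := by
  induction n with
  | zero => intro w; exact ⟨1, 1, M.R_one, M.R_one, one_mem D⟩
  | succ n ih =>
    intro w
    cases n with
    | zero => exact h _
    | succ n =>
      obtain ⟨x, y, p, q, r⟩ := h (Nat.land w 4095)
      obtain ⟨x', y', p', q', r'⟩ := ih (Nat.shiftRight w 12)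
      exact ⟨_, _, M.R_mul p p', M.R_mul q q', mul_mem r r'⟩

theorem Pr.three {a b c a' b' c' : ℕ} (h1 : Pr M D a a') (h2 : Pr M D b b') (h3 : Pr M D c c') (i : ℕ) :
    Pr M D (lgetD M.one [a, b, c] i) (lgetD M.one [a', b', c'] i) := by
  rcases i with _ | _ | _ | i
  exacts [h1, h2, h3, ⟨1, 1, M.R_one, M.R_one, one_mem D⟩]

noncomputable def ov4At (mul : ℕ → ℕ → ℕ) (eqb : ℕ → ℕ → Bool) (one : ℕ) (la lb : List Lv) (xs ts pg S : List ℕ) (l : ℕ)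
    (W : List (List ℕ)) (e : ℕ) : Bool :=
  force (lgetD one xs (Nat.div e l)) fun x => force (lgetD one ts (Nat.mod e l)) fun τ => force (mul x τ) fun g =>
    sift mul eqb one la g || sift mul eqb one lb g || wdsOK mul one S (W.getD e []) (g :: pg)

/-- A proper overgroup of `P` lies in `A` or in `B`. -/
theorem over_par {A B N K : Subgroup X} {la lb : List Lv} (cA : Chain M A la) (cB : Chain M B lb)
    {xs ts pg S : List ℕ} {x τ : ℕ → X} (hx : ∀ i, M.R (lgetD M.one xs i) (x i))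
    (hτ : ∀ i, M.R (lgetD M.one ts i) (τ i)) (hp : ∀ c ∈ pg, M.In ⊤ c) (top : M.cl S = ⊤) (hA : M.cl pg ≤ A)
    (hB : M.cl pg ≤ B) (cov : ∀ g, ∃ h ∈ M.cl pg, h⁻¹ * g ∈ N ∨ ∃ i < xs.length, (h * x i)⁻¹ * g ∈ N)
    (covN : ∀ g ∈ N, ∃ n ∈ (⊥ : Subgroup X), n⁻¹ * g ∈ M.cl pg ∨ ∃ i < ts.length, (n * τ i)⁻¹ * g ∈ M.cl pg)
    {W : List (List ℕ)}
    (e1 : ∀ e < (xs.length + 1) * (ts.length + 1), ov4At M.mul M.eqb M.one la lb xs ts pg S (ts.length + 1) W e = true)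
    (h1 : M.cl pg ≤ K) (h2 : K ≠ ⊤) : K ≤ A ∨ K ≤ B := by
  have d1 : ∀ {l : List ℕ} {r : ℕ → X}, (∀ i, M.R (lgetD M.one l i) (r i)) → r l.length = 1 := fun {l r} h => by
    have h4 := h l.length
    rw [lgetD_eq, List.getD_eq_default _ _ le_rfl] at h4
    exact M.unique h4 M.R_one
  refine SubgroupClass.subset_union.1 fun g hg => ?_
  obtain ⟨h, hh, e⟩ := cov g
  obtain ⟨i, hi, e⟩ : ∃ i < xs.length + 1, (h * x i)⁻¹ * g ∈ N := by
    rcases e with e | ⟨i, hi, e⟩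
    exacts [⟨xs.length, by omega, by rwa [d1 hx, mul_one]⟩, ⟨i, by omega, e⟩]
  obtain ⟨_, rfl, e2⟩ := covN _ e
  obtain ⟨j, hj, e2⟩ : ∃ j < ts.length + 1, (τ j)⁻¹ * ((h * x i)⁻¹ * g) ∈ M.cl pg := by
    rcases e2 with e2 | ⟨j, hj, e2⟩
    exacts [⟨ts.length, by omega, by rwa [d1 hτ]⟩, ⟨j, by omega, by simpa using e2⟩]
  have e3 : g = h * (x i * τ j) * ((τ j)⁻¹ * ((h * x i)⁻¹ * g)) := by group
  have h4 := e1 (i * (ts.length + 1) + j) (by nlinarith)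
  have h5 : Nat.div (i * (ts.length + 1) + j) (ts.length + 1) = i := by
    show (_ : ℕ) / (_ : ℕ) = _
    rw [add_comm, Nat.add_mul_div_right _ _ (by omega), Nat.div_eq_of_lt hj, zero_add]
  have h6 : Nat.mod (i * (ts.length + 1) + j) (ts.length + 1) = j := by
    show (_ : ℕ) % (_ : ℕ) = _
    rw [add_comm, Nat.add_mul_mod_self_right, Nat.mod_eq_of_lt hj]
  simp only [ov4At, force_eq, h5, h6, Bool.or_eq_true] at h4
  have rg := M.R_mul (hx i) (hτ j)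
  rcases h4 with (h4 | h4) | h4
  · exact Or.inl (e3 ▸ mul_mem (mul_mem (hA hh) (cA.mem_of_sift _ _ rg h4)) (hA e2))
  · exact Or.inr (e3 ▸ mul_mem (mul_mem (hB hh) (cB.mem_of_sift _ _ rg h4)) (hB e2))
  refine absurd (top_le_iff.1 (top.ge.trans (Model.cl_le (le_of_wds (List.forall_mem_cons.2 ⟨⟨_, ?_, rg⟩,
    fun c hc => (in_cl_self hp c hc).mono h1⟩) h4)))) h2
  rw [e3] at hg
  exact (mul_mem_cancel_left (h1 hh)).1 ((mul_mem_cancel_right (h1 e2)).1 hg)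

end

section
variable {X Y Ω : Type*} [Group X] [Group Y] [MulAction Y Ω] {ι : X →* Y} {s : Y} {a b c d : Ω} {n1 n2 : ℕ}
  {M : Model X}

/-- The pairs that are conjugate by `s`. -/
def AlS (ι : X →* Y) (s : Y) : Subgroup (X × X) where
  carrier := {p | Al ι s p.1 p.2}
  one_mem' := Al.one
  mul_mem' := Al.mul
  inv_mem' := Al.inv

theorem Rk3.comp (h : Rk3 ι a b c n1 n2) (e : X ≃* X) : Rk3 (ι.comp e.toMonoidHom) a b c n1 n2 := by
  have h1 : ∀ ω : Ω, Nat.card (Sx (ι.comp e.toMonoidHom) ω) = Nat.card (Sx ι ω) := fun ω =>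
    Nat.card_congr ⟨fun x => ⟨e x, x.2⟩, fun y => ⟨e.symm y, by
      show ι (e (e.symm y)) • ω = ω
      rw [e.apply_symm_apply]; exact y.2⟩, fun x => Subtype.ext (e.symm_apply_apply x.1),
      fun y => Subtype.ext (e.apply_symm_apply y.1)⟩
  have h2 : ∀ ω p : Ω, (∃ x, ω = ι x • p) → ∃ x, ω = ι.comp e.toMonoidHom x • p := fun ω p ⟨x, hx⟩ =>
    ⟨e.symm x, by simpa using hx⟩
  exact ⟨h.inj.comp e.injective, fun y hy => let ⟨x, hx⟩ := h.rng y hy; ⟨e.symm x, by simpa using hx⟩,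
    fun x => h.fix _, h.tr, fun ω => (h.cov ω).imp_right (Or.imp (h2 _ _) (h2 _ _)), h1 b ▸ h.c1, h1 c ▸ h.c2⟩

noncomputable def twOK (mul : ℕ → ℕ → ℕ) (eqb : ℕ → ℕ → Bool) (one : ℕ) (l l' dl : List ℕ) (dg t p q : ℕ) : Bool :=
  force (Nat.div (Nat.log2 p) 12) fun n => force (Nat.div (Nat.log2 q) 12) fun m =>
    band (force (evW mul one l n p) fun x => eqb x dg) (band (force (evW mul one l m q) fun x => Nat.beq t x)
      (force (evW mul one l' n p) fun x => force (evW mul one dl m q) fun y => eqb x y))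

theorem twOK_spec {φ : X →* X} {l l' dl : List ℕ} (h1 : ∀ i, Pr M (AlS ι s) (lgetD M.one l i) (lgetD M.one l' i))
    (h2 : ∀ i, Pr M φ.graph (lgetD M.one l i) (lgetD M.one dl i)) {g dg t p q : ℕ} (h3 : Pr M φ.graph g dg)
    (h : twOK M.mul M.eqb M.one l l' dl dg t p q = true) : Pr M (AlS (ι.comp φ) s) g t := by
  simp only [twOK, force_eq, band_iff] at h
  obtain ⟨x, y, rx, ry, e⟩ := Pr.evW h1 (Nat.div (Nat.log2 p) 12) p
  obtain ⟨x', y', rx', ry', e'⟩ := Pr.evW h2 (Nat.div (Nat.log2 q) 12) q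
  obtain ⟨u, v, ru, rv, e''⟩ := h3
  refine ⟨u, x', ru, Nat.eq_of_beq_eq_true h.2.1 ▸ rx', ?_⟩
  show s * ι (φ u) = ι (φ x') * s
  rw [show φ u = v from e'', show φ x' = y' from e', ← M.eq_of rx rv h.1, ← M.eq_of ry ry' h.2.2]
  exact e

noncomputable def itr (mul : ℕ → ℕ → ℕ) (eqb : ℕ → ℕ → Bool) (one : ℕ) (l l' : List ℕ) (t : ℕ) (k : ℕ → Bool)
    (ws : List ℕ) : ℕ → Bool :=
  List.rec (motive := fun _ => ℕ → Bool) k (fun w _ ih g => force w fun w => force (Nat.div (Nat.log2 w) 12) fun n =>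
    force (evW mul one l n w) fun p => band (force (mul t g) fun x => force (mul p t) fun y => eqb x y)
      (force (evW mul one l' n w) ih)) ws

theorem itr_spec {l l' : List ℕ} (h : ∀ i, Pr M (AlS ι s) (lgetD M.one l i) (lgetD M.one l' i)) {ct : ℕ} {t : X}
    (rt : M.R ct t) {k : ℕ → Bool} (ws : List ℕ) : ∀ {g : ℕ} {x : X}, M.R g x →
      itr M.mul M.eqb M.one l l' ct k ws g = true → ∃ q y, M.R q y ∧ Al ι ((s * ι t) ^ ws.length) x y ∧ k q = true := by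
  induction ws with
  | nil => exact fun rx e => ⟨_, _, rx, by simp [Al], e⟩
  | cons w ws ih =>
    intro g x rx e
    obtain ⟨p, q, rp, rq, h1⟩ := Pr.evW h (Nat.div (Nat.log2 w) 12) w
    obtain ⟨e1, e2⟩ := band_iff.1 e
    obtain ⟨q', y, ry, h2, h3⟩ := ih rq e2
    have h4 : Al ι (ι t) x p := by
      rw [Al, ← map_mul, ← map_mul, M.eq_of (M.R_mul rt rx) (M.R_mul rp rt) e1]
    exact ⟨q', y, ry, by rw [List.length_cons, pow_succ]; exact (h4.comp h1).comp h2, h3⟩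

noncomputable def badW (mul : ℕ → ℕ → ℕ) (eqb : ℕ → ℕ → Bool) (one : ℕ) (l l' NL : List ℕ) (t u g : ℕ)
    (wu wg : List ℕ) : Bool :=
  itr mul eqb one l l' t (fun u' => band (anyL (eqb u') NL)
    (itr mul eqb one l l' t (fun g' => (hitL mul eqb NL u g u' g').not) wg g)) wu u

theorem badW_spec (hι : Function.Injective ι) {l l' NL : List ℕ}
    (h : ∀ i, Pr M (AlS ι s) (lgetD M.one l i) (lgetD M.one l' i)) {ct cu cg : ℕ} {t u g n : X} (rt : M.R ct t)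
    (ru : M.R cu u) (rg : M.R cg g) (vN : ∀ c ∈ NL, M.In ⊤ c)
    (hN : ∀ c ∈ NL, ∀ y, M.R c y → n * u = y * n → ∃ c ∈ NL, M.R c n) {wu wg : List ℕ} (hl : wg.length = wu.length)
    (hn : ι n = (s * ι t) ^ wu.length) : badW M.mul M.eqb M.one l l' NL ct cu cg wu wg = false := by
  refine Bool.eq_false_iff.2 fun e => ?_
  obtain ⟨q, y, ry, h1, e1⟩ := itr_spec h rt wu ru e
  obtain ⟨e1, e2⟩ := band_iff.1 e1
  obtain ⟨q', y', ry', h2, e2⟩ := itr_spec h rt wg rg e2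
  rw [← hn] at h1
  rw [hl, ← hn] at h2
  obtain ⟨c, hc, e1⟩ := anyL_iff.1 e1
  obtain ⟨z, -, rz⟩ := vN c hc
  obtain ⟨c', hc', rn⟩ := hN c hc z rz (M.eq_of ry rz e1 ▸ h1.comm hι)
  have : hitL M.mul M.eqb NL cu cg q q' = true := by
    obtain ⟨_, h3, h4⟩ := anyL_iff.1 (hitL_one rn ru rg ry ry' (h1.comm hι) (h2.comm hι))
    exact anyL_iff.2 ⟨c', hc', List.mem_singleton.1 h3 ▸ h4⟩
  rw [this] at e2
  cases e2

noncomputable def badL (mul : ℕ → ℕ → ℕ) (eqb : ℕ → ℕ → Bool) (one : ℕ) (l NL : List ℕ) (t u : ℕ)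
    (E : List (List ℕ)) (a x y : ℕ) : Bool :=
  List.rec (motive := fun _ => Bool) false (fun e _ ih => band (Nat.beq (lgetD 0 e 1) x) (band (Nat.beq (lgetD 0 e 2) y)
    (band (Nat.beq (lgetD 0 e 0) a) (force (lgetD one l (lgetD 0 e 3)) fun g =>
      badW mul eqb one l [a, x, y] NL t u g [lgetD 0 e 4, lgetD 0 e 5, lgetD 0 e 6] [lgetD 0 e 7, lgetD 0 e 8, lgetD 0 e 9] ||
      badW mul eqb one l [a, x, y] NL one u g [lgetD 0 e 4, lgetD 0 e 5] [lgetD 0 e 6, lgetD 0 e 7]))) || ih) E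

theorem badL_spec (hι : Function.Injective ι) {l NL : List ℕ} {ca cx cy : ℕ}
    (h : ∀ i, Pr M (AlS ι s) (lgetD M.one l i) (lgetD M.one [ca, cx, cy] i)) {ct cu : ℕ} {t u : X} (rt : M.R ct t)
    (ru : M.R cu u) (vN : ∀ c ∈ NL, M.In ⊤ c) {U : Subgroup X}
    (hN : ∀ n ∈ U, ∀ c ∈ NL, ∀ y, M.R c y → n * u = y * n → ∃ c ∈ NL, M.R c n)
    (h3 : ∃ n ∈ U, ι n = (s * ι t) ^ 3) (h2 : ∃ n ∈ U, ι n = (s * ι 1) ^ 2) (E : List (List ℕ)) :
    badL M.mul M.eqb M.one l NL ct cu E ca cx cy = false := by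
  obtain ⟨n, hn, h3⟩ := h3
  obtain ⟨m, hm, h2⟩ := h2
  induction E with
  | nil => rfl
  | cons e E ih =>
    obtain ⟨g, -, rg, -⟩ := h (lgetD 0 e 3)
    refine Bool.or_eq_false_iff.2 ⟨Bool.eq_false_iff.2 fun e1 => ?_, ih⟩
    simp only [band_iff, force_eq] at e1
    rw [badW_spec (wu := [_, _, _]) (wg := [_, _, _]) hι h rt ru rg vN (hN n hn) (by rfl) h3,
      badW_spec (wu := [_, _]) (wg := [_, _]) hι h M.R_one ru rg vN (hN m hm) (by rfl) h2] at e1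
    cases e1.2.2.2

noncomputable def en4At (mul : ℕ → ℕ → ℕ) (eqb : ℕ → ℕ → Bool) (one u p e : ℕ) (r0 r1 r2 : List (List ℕ × ℕ))
    (lc : List Lv) (f : ℕ → ℕ → ℕ → Bool) (x : ℕ) : Bool :=
  killed mul eqb one (let3 x x x) r0 || eqb x one || all1 (fun k => force (pw mul one u k) fun a =>
    force (pw mul one a e) fun z => eqb z one || band (force (pw mul one u e) fun z' => eqb z z')
      (killed mul eqb one (let3 a x x) r1 || allC mul (fun y => killed mul eqb one (let3 a x y) r2 || f a x y) lc one)) 0 p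

theorem en4At_spec (hι : Function.Injective ι) {J C : Subgroup X} {lc : List Lv} (cC : Chain M C lc)
    {u v w p e k x : ℕ} {r0 r1 r2 : List (List ℕ × ℕ)} {f : ℕ → ℕ → ℕ → Bool} {gu gv gw gx gy : X} (hu : M.R u gu)
    (hv : M.R v gv) (hw : M.R w gw) (hx : M.R x gx) (hk : k < p) (hp : p < 2 ^ 64) (he : e < 2 ^ 64)
    (l0 : ∀ x ∈ r0, x.2 < 2 ^ 64) (l1 : ∀ x ∈ r1, x.2 < 2 ^ 64) (l2 : ∀ x ∈ r2, x.2 < 2 ^ 64)
    (k0 : killed M.mul M.eqb M.one (let3 v v v) r0 = false) (k1 : killed M.mul M.eqb M.one (let3 u v v) r1 = false)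
    (k2 : killed M.mul M.eqb M.one (let3 u v w) r2 = false) (v1 : gv ≠ 1) (u1 : gu ^ e ≠ 1)
    (hc : gw * gu ^ e = gu ^ e * gw) (hC : ∀ g ∈ J, g * gu ^ e = gu ^ e * g → g ∈ C) (hy : gy ∈ J)
    (h1 : Al ι s gu (gu ^ k)) (h2 : Al ι s gv gx) (h3 : Al ι s gw gy)
    (h : en4At M.mul M.eqb M.one u p e r0 r1 r2 lc f x = true) :
    ∃ a y, M.R a (gu ^ k) ∧ M.R y gy ∧ f a x y = true := by
  have ra := M.R_pw hu k (by omega)
  have rz := M.R_pw ra e he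
  have x1 : M.eqb x M.one = false := Bool.eq_false_iff.2 fun e =>
    v1 (h2.uniq' hι (by rw [M.eq_of hx M.R_one e]; exact Al.one))
  have z1 : M.eqb (pw M.mul M.one (pw M.mul M.one u k) e) M.one = false := Bool.eq_false_iff.2 fun e' =>
    u1 ((h1.pow e).uniq' hι (by rw [M.eq_of rz M.R_one e']; exact Al.one))
  simp only [en4At, Al.not_killed hι hv hv hv hx hx hx h2 h2 h2 l0 k0, x1, Bool.false_or] at h
  have h4 := all1_lt h k hk
  simp only [force_eq, z1, Al.not_killed hι hu hv hv ra hx hx h1 h2 h2 l1 k1, Bool.false_or, band_iff] at h4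
  have h5 := h1.pow e
  rw [M.eq_of rz (M.R_pw hu e he) h4.1] at h5
  obtain ⟨y, ry, h6⟩ := cC.allC_spec M.R_one h4.2 gy (hC gy hy ((h3.mul h5).uniq hι (hc ▸ h5.mul h3)))
  rw [one_mul] at ry
  simp only [Al.not_killed hι hu hv hw ra hx ry h1 h2 h3 l2 k2, Bool.false_or] at h6
  exact ⟨_, y, ra, ry, h6⟩

theorem Rk3.cube' (h : Rk3 ι a b c n1 n2) (sa : s • a = b) (sb : s • b = a) {t : X} (sd : s • ι t • b = ι t • b)
    (tt : t * t ∈ Sx ι b) {U : Subgroup X} (hU : Sx ι b ⊓ Sx ι (ι t • b) = U) : ∃ w ∈ U, ι w = (s * ι t) ^ 3 := by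
  have e : ι t • ι t • b = b := by rw [← mul_smul, ← map_mul]; exact tt
  refine h.fix3 ?_ ?_ ?_ hU <;> simp only [pow_succ, pow_zero, one_mul, mul_smul, h.fix, sa, sb, sd, e]

theorem Rk3.sq (h : Rk3 ι a b c n1 n2) (sa : s • a = b) (sb : s • b = a) (sd : s • d = d) {U : Subgroup X}
    (hU : Sx ι b ⊓ Sx ι d = U) : ∃ w ∈ U, ι w = (s * ι 1) ^ 2 := by
  refine h.fix3 ?_ ?_ ?_ hU <;> simp only [pow_succ, pow_zero, one_mul, map_one, mul_one, mul_smul, sa, sb, sd]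

theorem Rk3.good3 (h : Rk3 ι a b c n1 n2) (sa : s • a = b) (sb : s • b = a) {t z : X} (sd : s • ι t • b = ι t • b)
    (tt : t * t = z) (zz : z * z = 1) {U : Subgroup X} (hU : Sx ι b ⊓ Sx ι (ι t • b) = U) (hz : z ∈ U) {S : Type*}
    [Group S] {f : X →* S} (hf : Function.Injective f) {s0 : S} (ss0 : s0 * s0 = f z) (br0 : (s0 * f t) ^ 3 = f z)
    (hα : ∀ u ∈ U, ∃ y, Al (ι.prod f) (s, s0) u y) (ht : ∀ u ∈ U, t * u * t⁻¹ ∈ U)
    (hZ : ∀ w ∈ U, (∀ u ∈ U, w * u = u * w) → w = 1) : s * s = ι z ∧ s * ι t * s = ι t * s * ι t := by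
  have h1 : ∀ u ∈ U, ∃ y ∈ U, Al (ι.prod f) (s, s0) u y := fun u hu => by
    obtain ⟨y, hy, e⟩ := h.norm sa sb sd hU hu
    obtain ⟨y', e'⟩ := hα u hu
    exact ⟨y, hy, Al.uniq h.inj (congrArg Prod.fst e') e ▸ e'⟩
  have h0 : ∀ g : Y × S, g.2 = f z → (∀ u ∈ U, ∃ y, Al (ι.prod f) g u y) → (∃ w ∈ U, ι w = g.1) → g.1 = ι z := by
    rintro g e1 e2 ⟨w, hw, e3⟩
    rw [← e3, ← mul_inv_cancel_left z w, hZ _ (mul_mem (inv_mem hz) hw) fun u hu => ?_, mul_one]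
    obtain ⟨y, e⟩ := e2 u hu
    have p : z * u = y * z := hf (by simpa [e1] using congrArg Prod.snd e)
    have q : w * u = y * w := Al.comm h.inj (e3 ▸ congrArg Prod.fst e)
    rw [mul_assoc, q, ← mul_assoc, ← mul_assoc, (eq_mul_inv_of_mul_eq p.symm : y = _)]
    group
  have ss : s * s = ι z := h0 ((s, s0) * (s, s0)) ss0 (fun u hu =>
    let ⟨_, hy, p⟩ := h1 u hu; let ⟨y', _, q⟩ := h1 _ hy; ⟨y', p.comp q⟩)
    (by simpa [pow_two] using h.sq sa sb sd hU)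
  have h2 : ∀ u ∈ U, ∃ y ∈ U, Al (ι.prod f) (s * ι t, s0 * f t) u y := fun u hu =>
    let ⟨y, hy, p⟩ := h1 _ (ht u hu); ⟨y, hy, (Al.self t u).comp p⟩
  have e2 : (s * ι t) ^ 3 = ι z := h0 ((s * ι t, s0 * f t) ^ 3) br0 (fun u hu => by
    obtain ⟨y, hy, p⟩ := h2 u hu
    obtain ⟨y', hy', q⟩ := h2 y hy
    obtain ⟨y'', -, r⟩ := h2 y' hy'
    exact ⟨y'', by rw [pow_three]; exact (p.comp q).comp r |> fun x => by simpa only [mul_assoc] using x⟩)
    (h.cube' sa sb sd (tt ▸ (hU.ge hz).1) hU)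
  have t2 : ι t * ι t = ι z := by rw [← map_mul, tt]
  have z2 : ι z * ι z = 1 := by rw [← map_mul, zz, map_one]
  refine ⟨ss, mul_right_cancel (b := ι t * s * ι t) ?_⟩
  calc s * ι t * s * (ι t * s * ι t) = (s * ι t) ^ 3 := by simp only [pow_three, mul_assoc]
    _ = ι t * (s * s * (s * s)) * ι t := by rw [e2, ss, z2, mul_one, t2]
    _ = ι t * s * (s * s) * s * ι t := by simp only [mul_assoc]
    _ = _ := by rw [ss, ← t2]; simp only [mul_assoc]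

theorem r3_closed' {z : X} (ha : ∀ x, ι x • a = a) (ss : s * s = ι z) (sa : s • a = b)
    (h1 : ∀ x, R3T ι a b c (s • ι x • b)) (h2 : ∀ x, R3T ι a b c (s • ι x • c)) :
    ∀ d ∈ closure (Set.range ι ∪ {s}), R3T ι a b c (d • a) := by
  have hs : ∀ ω, R3T ι a b c ω → R3T ι a b c (s • ω) := by
    rintro _ (rfl | ⟨x, rfl⟩ | ⟨x, rfl⟩)
    exacts [Or.inr (Or.inl ⟨1, by simp [sa]⟩), h1 x, h2 x]
  intro d hd
  induction hd using closure_induction_left with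
  | one => exact Or.inl (one_smul _ _)
  | mul_left x hx y _ h =>
    rw [mul_smul]
    rcases hx with ⟨x, rfl⟩ | rfl
    exacts [h.smul ha x, hs _ h]
  | inv_mul_cancel x hx y _ h =>
    rw [mul_smul]
    rcases hx with ⟨x, rfl⟩ | rfl
    · rw [← map_inv]; exact h.smul ha _
    · rw [show x⁻¹ = ι z⁻¹ * x by rw [map_inv, ← ss, mul_inv_rev, inv_mul_cancel_right], mul_smul]
      exact (hs _ h).smul ha _

/-- The amalgam relations. -/
structure ImD (N : Model X) (ι : X →* Y) (s : Y) (J : Subgroup X) (al : ℕ → ℕ) (ct cz : ℕ) : Prop where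
  ss : ∃ z, N.R cz z ∧ s * s = ι z
  br : ∃ t, N.R ct t ∧ s * ι t * s = ι t * s * ι t
  hal : ∀ j ∈ J, ∀ c, N.R c j → ∃ y ∈ J, N.R (al c) y ∧ Al ι s j y

variable {J : Subgroup X} {al : ℕ → ℕ} {ct cz cx cy cx2 cy2 : ℕ} {p q q2 : Ω}

theorem Im.mv' (C : ImD M ι s J al ct cz) (h : Im M ι s cx p cy q) {cj ck : ℕ} (hj : M.In J cj) (hk : M.In (Sx ι p) ck)
    (cA cB : ℕ) (e : (force cj fun j => force ck fun k => force (M.mul cx k) fun u => band (Nat.beq cA (M.mul j u))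
      (force (al j) fun v => Nat.beq cB (M.mul v cy))) = true) : Im M ι s cA p cB q := by
  obtain ⟨x, y, rx, ry, h⟩ := h
  obtain ⟨j, hj, rj⟩ := hj
  obtain ⟨k, hk, rk⟩ := hk
  obtain ⟨j', -, rj', hj'⟩ := C.hal j hj _ rj
  simp only [force_eq, band_iff] at e
  refine ⟨_, _, R_mul_of rj (M.R_mul rx rk) e.1, R_mul_of rj' ry e.2, ?_⟩
  rw [map_mul, map_mul, map_mul, mul_smul, mul_smul, mul_smul, mem_Sx.1 hk, ← h, ← mul_smul, hj', mul_smul]

theorem Im.sym' (C : ImD M ι s J al ct cz) (h : Im M ι s cx p cy q) (cB : ℕ) (e : Nat.beq cB (M.mul cz cx) = true) :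
    Im M ι s cy q cB p := by
  obtain ⟨x, y, rx, ry, h⟩ := h
  obtain ⟨z, rz, hz⟩ := C.ss
  exact ⟨y, _, ry, R_mul_of rz rx e, by rw [← h, ← mul_smul, hz, map_mul, mul_smul]⟩

theorem Im.braid' (C : ImD M ι s J al ct cz) (h : Im M ι s cx p cy q) (h2 : Im M ι s cx2 p cy2 q2) (cA cB : ℕ)
    (e : band (force (M.mul ct cx) fun u => M.eqb cx2 u)
      (band (Nat.beq cA (M.mul ct cy)) (Nat.beq cB (M.mul ct cy2))) = true) : Im M ι s cA q cB q2 := by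
  obtain ⟨x, y, rx, ry, h⟩ := h
  obtain ⟨x2, y2, rx2, ry2, h2⟩ := h2
  obtain ⟨t, rt, ht⟩ := C.br
  simp only [force_eq, band_iff] at e
  refine ⟨_, _, R_mul_of rt ry e.2.1, R_mul_of rt ry2 e.2.2, ?_⟩
  rw [M.eq_of rx2 (M.R_mul rt rx) e.1, map_mul, mul_smul] at h2
  rw [map_mul, map_mul, mul_smul, mul_smul, ← h, ← h2, ← mul_smul, ← mul_smul, ht, mul_smul, mul_smul]

theorem Im.t' (C : ImD M ι s J al ct cz) (ha : ∀ x, ι x • a = a) : Im M ι s ct (s • a) ct (s • a) := by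
  obtain ⟨t, rt, ht⟩ := C.br
  exact ⟨t, t, rt, rt, by rw [← mul_smul, ← mul_smul, ht, mul_smul, mul_smul, ha]⟩

theorem ImD.al' (C : ImD M ι s J al ct cz) {ls : List Lv} (hJ : Chain M J ls) : ∀ j ∈ J, ∃ y ∈ J, Al ι s j y :=
  fun j hj => let ⟨c, hc⟩ := hJ.exists_code j hj; let ⟨y, h, _, hy⟩ := C.hal j hj c hc; ⟨y, h, hy⟩

theorem ImD.fixb (C : ImD M ι s J al ct cz) {ls : List Lv} (hJ : Chain M J ls) (ha : ∀ x, ι x • a = a) :
    J ≤ Sx ι (s • a) := fun j hj => by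
  obtain ⟨y, -, hy⟩ := C.al' hJ j hj
  obtain ⟨z, -, hz⟩ := C.ss
  have := hy.symm'.fix (ha y)
  rwa [show s⁻¹ = s * ι z⁻¹ by rw [map_inv, ← hz, mul_inv_rev, mul_inv_cancel_left], mul_smul, ha] at this

theorem ImD.fst {S : Type*} [Group S] {f : X →* S} {s0 : S} (C : ImD M (ι.prod f) (s, s0) J al ct cz) :
    ImD M ι s J al ct cz :=
  ⟨let ⟨t, h1, h2⟩ := C.ss; ⟨t, h1, congrArg Prod.fst h2⟩, let ⟨t, h1, h2⟩ := C.br; ⟨t, h1, congrArg Prod.fst h2⟩,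
    fun j hj c hc => let ⟨y, h0, h1, h2⟩ := C.hal j hj c hc; ⟨y, h0, h1, congrArg Prod.fst h2⟩⟩

end

/-- Conjugation on codes. -/
noncomputable def alD (mul : ℕ → ℕ → ℕ) (c0 c1 c : ℕ) : ℕ := force (mul c c1) fun x => mul c0 x

theorem imD_prod {S Y : Type*} [Group S] [Group Y] {M : Model S} {H : Subgroup S} {ι : H →* Y} {s : Y} {s0 : S}
    {c0 c1 ct cz : ℕ} (h0 : M.R c0 s0) (h1 : M.R c1 s0⁻¹) {t z : H} (rz : M.R cz z) (ss : s * s = ι z)
    (ss0 : s0 * s0 = z) (rt : M.R ct t) (br : s * ι t * s = ι t * s * ι t) (br0 : s0 * t * s0 = t * s0 * t)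
    {J : Subgroup H} (hl : ∀ j ∈ J, ∃ y ∈ J, Al (ι.prod H.subtype) (s, s0) j y) :
    ImD (M.sub H) (ι.prod H.subtype) (s, s0) J (alD M.mul c0 c1) ct cz := by
  refine ⟨⟨z, rz, Prod.ext ss ss0⟩, ⟨t, rt, Prod.ext br br0⟩, fun j hj c hc => ?_⟩
  obtain ⟨y, hy, e⟩ := hl j hj
  refine ⟨y, hy, ?_, e⟩
  have e' : s0 * j = y * s0 := congrArg Prod.snd e
  have : (y : S) = s0 * (j * s0⁻¹) := by rw [← mul_assoc, e', mul_inv_cancel_right]
  show M.R _ (y : S)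
  rw [this]
  exact M.R_mul h0 (M.R_mul hc h1)

end H29
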