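import Cfsg.Agent.H29.RfID

set_option autoImplicit false
set_option maxRecDepth 100000
set_option linter.style.haveILetI false
set_option linter.unusedVariables false
set_option linter.style.longLine false
set_option linter.unusedTactic false
set_option linter.unreachableTactic false

namespace H29

theorem rfG1_ok : rfG1.ok rfG_mul rfG_eqb rfG_one = true := by decide +kernel
theorem rfG1_next : rfG1.nextOK rfG_mul rfG_one rfG2_g (nat_lit 0x2bb00003e0005c200054300003800007a) = true := by decide +kernel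
theorem rfG1_s_0 : allR (schk rfG_mul rfG_eqb rfG_one rfG1_g (rfG1.lv rfG_mul rfG_one) rfG2_ls) (nat_lit 0) (nat_lit 100) = true := by decide +kernel
theorem rfG1_s_1 : allR (schk rfG_mul rfG_eqb rfG_one rfG1_g (rfG1.lv rfG_mul rfG_one) rfG2_ls) (nat_lit 100) (nat_lit 100) = true := by decide +kernel
theorem rfG1_s_2 : allR (schk rfG_mul rfG_eqb rfG_one rfG1_g (rfG1.lv rfG_mul rfG_one) rfG2_ls) (nat_lit 200) (nat_lit 100) = true := by decide +kernel
theorem rfG1_s_3 : allR (schk rfG_mul rfG_eqb rfG_one rfG1_g (rfG1.lv rfG_mul rfG_one) rfG2_ls) (nat_lit 300) (nat_lit 100) = true := by decide +kernel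
theorem rfG1_s_4 : allR (schk rfG_mul rfG_eqb rfG_one rfG1_g (rfG1.lv rfG_mul rfG_one) rfG2_ls) (nat_lit 400) (nat_lit 100) = true := by decide +kernel
theorem rfG1_s_5 : allR (schk rfG_mul rfG_eqb rfG_one rfG1_g (rfG1.lv rfG_mul rfG_one) rfG2_ls) (nat_lit 500) (nat_lit 100) = true := by decide +kernel
theorem rfG1_s_6 : allR (schk rfG_mul rfG_eqb rfG_one rfG1_g (rfG1.lv rfG_mul rfG_one) rfG2_ls) (nat_lit 600) (nat_lit 100) = true := by decide +kernel

end H29
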