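import Cfsg.Agent.H29.RfID

set_option autoImplicit false
set_option maxRecDepth 100000
set_option linter.style.haveILetI false
set_option linter.unusedVariables false
set_option linter.style.longLine false
set_option linter.unusedTactic false
set_option linter.unreachableTactic false

namespace H29

theorem rfG1_s_7 : allR (schk rfG_mul rfG_eqb rfG_one rfG1_g (rfG1.lv rfG_mul rfG_one) rfG2_ls) (nat_lit 700) (nat_lit 100) = true := by decide +kernel
theorem rfG1_s_8 : allR (schk rfG_mul rfG_eqb rfG_one rfG1_g (rfG1.lv rfG_mul rfG_one) rfG2_ls) (nat_lit 800) (nat_lit 100) = true := by decide +kernel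
theorem rfG1_s_9 : allR (schk rfG_mul rfG_eqb rfG_one rfG1_g (rfG1.lv rfG_mul rfG_one) rfG2_ls) (nat_lit 900) (nat_lit 100) = true := by decide +kernel
theorem rfG1_s_10 : allR (schk rfG_mul rfG_eqb rfG_one rfG1_g (rfG1.lv rfG_mul rfG_one) rfG2_ls) (nat_lit 1000) (nat_lit 100) = true := by decide +kernel
theorem rfG1_s_11 : allR (schk rfG_mul rfG_eqb rfG_one rfG1_g (rfG1.lv rfG_mul rfG_one) rfG2_ls) (nat_lit 1100) (nat_lit 100) = true := by decide +kernel
theorem rfG1_s_12 : allR (schk rfG_mul rfG_eqb rfG_one rfG1_g (rfG1.lv rfG_mul rfG_one) rfG2_ls) (nat_lit 1200) (nat_lit 100) = true := by decide +kernel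
theorem rfG1_s_13 : allR (schk rfG_mul rfG_eqb rfG_one rfG1_g (rfG1.lv rfG_mul rfG_one) rfG2_ls) (nat_lit 1300) (nat_lit 100) = true := by decide +kernel
theorem rfG1_s_14 : allR (schk rfG_mul rfG_eqb rfG_one rfG1_g (rfG1.lv rfG_mul rfG_one) rfG2_ls) (nat_lit 1400) (nat_lit 100) = true := by decide +kernel

end H29
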