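import Cfsg.Agent.H29.RfID

set_option autoImplicit false
set_option maxRecDepth 100000
set_option linter.style.haveILetI false
set_option linter.unusedVariables false
set_option linter.style.longLine false
set_option linter.unusedTactic false
set_option linter.unreachableTactic false

namespace H29

theorem rfG1_s_15 : allR (schk rfG_mul rfG_eqb rfG_one rfG1_g (rfG1.lv rfG_mul rfG_one) rfG2_ls) (nat_lit 1500) (nat_lit 100) = true := by decide +kernel
theorem rfG1_s_16 : allR (schk rfG_mul rfG_eqb rfG_one rfG1_g (rfG1.lv rfG_mul rfG_one) rfG2_ls) (nat_lit 1600) (nat_lit 100) = true := by decide +kernel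
theorem rfG1_s_17 : allR (schk rfG_mul rfG_eqb rfG_one rfG1_g (rfG1.lv rfG_mul rfG_one) rfG2_ls) (nat_lit 1700) (nat_lit 55) = true := by decide +kernel
theorem rfG2_ok : rfG2.ok rfG_mul rfG_eqb rfG_one = true := by decide +kernel
theorem rfG2_next : rfG2.nextOK rfG_mul rfG_one rfG3_g (nat_lit 0x700000100026400011d000000000014) = true := by decide +kernel
theorem rfG2_s_0 : allR (schk rfG_mul rfG_eqb rfG_one rfG2_g (rfG2.lv rfG_mul rfG_one) rfG3_ls) (nat_lit 0) (nat_lit 100) = true := by decide +kernel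
theorem rfG2_s_1 : allR (schk rfG_mul rfG_eqb rfG_one rfG2_g (rfG2.lv rfG_mul rfG_one) rfG3_ls) (nat_lit 100) (nat_lit 100) = true := by decide +kernel
theorem rfG2_s_2 : allR (schk rfG_mul rfG_eqb rfG_one rfG2_g (rfG2.lv rfG_mul rfG_one) rfG3_ls) (nat_lit 200) (nat_lit 100) = true := by decide +kernel
theorem rfG2_s_3 : allR (schk rfG_mul rfG_eqb rfG_one rfG2_g (rfG2.lv rfG_mul rfG_one) rfG3_ls) (nat_lit 300) (nat_lit 100) = true := by decide +kernel

end H29
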