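import Cfsg.Agent.H29.RfID

set_option autoImplicit false
set_option maxRecDepth 100000
set_option linter.style.haveILetI false
set_option linter.unusedVariables false
set_option linter.style.longLine false
set_option linter.unusedTactic false
set_option linter.unreachableTactic false

namespace H29

theorem rfG2_s_4 : allR (schk rfG_mul rfG_eqb rfG_one rfG2_g (rfG2.lv rfG_mul rfG_one) rfG3_ls) (nat_lit 400) (nat_lit 100) = true := by decide +kernel
theorem rfG2_s_5 : allR (schk rfG_mul rfG_eqb rfG_one rfG2_g (rfG2.lv rfG_mul rfG_one) rfG3_ls) (nat_lit 500) (nat_lit 100) = true := by decide +kernel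
theorem rfG2_s_6 : allR (schk rfG_mul rfG_eqb rfG_one rfG2_g (rfG2.lv rfG_mul rfG_one) rfG3_ls) (nat_lit 600) (nat_lit 40) = true := by decide +kernel
theorem rfG3_ok : rfG3.ok rfG_mul rfG_eqb rfG_one = true := by decide +kernel
theorem rfG3_next : rfG3.nextOK rfG_mul rfG_one rfG4_g (nat_lit 0x2000005000003) = true := by decide +kernel
theorem rfG3_s_0 : allR (schk rfG_mul rfG_eqb rfG_one rfG3_g (rfG3.lv rfG_mul rfG_one) rfG4_ls) (nat_lit 0) (nat_lit 8) = true := by decide +kernel
theorem rfG4_ok : rfG4.ok rfG_mul rfG_eqb rfG_one = true := by decide +kernel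
theorem rfG4_next : rfG4.nextOK rfG_mul rfG_one rfG5_g (nat_lit 0x1000000000000) = true := by decide +kernel
theorem rfG4_s_0 : allR (schk rfG_mul rfG_eqb rfG_one rfG4_g (rfG4.lv rfG_mul rfG_one) rfG5_ls) (nat_lit 0) (nat_lit 2) = true := by decide +kernel
theorem rfG5_ok : rfG5.ok rfG_mul rfG_eqb rfG_one = true := by decide +kernel
theorem rfG5_next : rfG5.nextOK rfG_mul rfG_one rfG6_g (nat_lit 0x0) = true := by decide +kernel

end H29
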