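import Cfsg.Agent.H29.RfID

set_option autoImplicit false
set_option maxRecDepth 100000
set_option linter.style.haveILetI false
set_option linter.unusedVariables false
set_option linter.style.longLine false
set_option linter.unusedTactic false
set_option linter.unreachableTactic false

namespace H29

theorem rfG5_s_0 : allR (schk rfG_mul rfG_eqb rfG_one rfG5_g (rfG5.lv rfG_mul rfG_one) rfG6_ls) (nat_lit 0) (nat_lit 2) = true := by decide +kernel
theorem rfA1_ok : rfA1.ok a2_52.mul Nat.beq a2_52.one = true := by decide +kernel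
theorem rfA1_next : rfA1.nextOK a2_52.mul a2_52.one rfA2_g (nat_lit 0x5b80000140000e100021f0000000003a5) = true := by decide +kernel
theorem rfA1_fx : allL rfA1_fix rfA2_g = true := by decide +kernel
theorem rfA1_k_0 : allR (kchk rfA1_key (rfA1.lv a2_52.mul a2_52.one).U rfA1_kt (nat_lit 1755)) (nat_lit 0) (nat_lit 1600) = true := by decide +kernel
theorem rfA1_k_1 : allR (kchk rfA1_key (rfA1.lv a2_52.mul a2_52.one).U rfA1_kt (nat_lit 1755)) (nat_lit 1600) (nat_lit 155) = true := by decide +kernel
theorem rfA2_ok : rfA2.ok a2_52.mul Nat.beq a2_52.one = true := by decide +kernel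
theorem rfA2_next : rfA2.nextOK a2_52.mul a2_52.one rfA3_g (nat_lit 0x900000f00000400000800000000000500000100000f000007) = true := by decide +kernel
theorem rfA2_fx : allL rfA2_fix rfA3_g = true := by decide +kernel
theorem rfA2_k_0 : allR (kchk rfA2_key (rfA2.lv a2_52.mul a2_52.one).U rfA2_kt (nat_lit 10)) (nat_lit 0) (nat_lit 10) = true := by decide +kernel
theorem rfA3_ok : rfA3.ok a2_52.mul Nat.beq a2_52.one = true := by decide +kernel
theorem rfA3_next : rfA3.nextOK a2_52.mul a2_52.one rfA4_g (nat_lit 0x3300001c00002700001e00001c000030) = true := by decide +kernel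
theorem rfA3_fx : allL rfA3_fix rfA4_g = true := by decide +kernel
theorem rfA3_k_0 : allR (kchk rfA3_key (rfA3.lv a2_52.mul a2_52.one).U rfA3_kt (nat_lit 64)) (nat_lit 0) (nat_lit 64) = true := by decide +kernel

end H29
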