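import Cfsg.Agent.H29.Rr3D

set_option autoImplicit false
set_option maxRecDepth 100000
set_option linter.style.haveILetI false
set_option linter.unusedVariables false
set_option linter.style.longLine false
set_option linter.unusedTactic false
set_option linter.unreachableTactic false

namespace H29

theorem rrU2_s_0 : allR (schk a2_28.mul Nat.beq a2_28.one rrU2_g (rrU2.lv a2_28.mul a2_28.one) rrU3_ls) (nat_lit 0) (nat_lit 4) = true := by decide +kernel
theorem rrU2_k_0 : allR (kchk rrU2_key (rrU2.lv a2_28.mul a2_28.one).U rrU2_kt (nat_lit 4)) (nat_lit 0) (nat_lit 4) = true := by decide +kernel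
theorem rrU3_ok : rrU3.ok a2_28.mul Nat.beq a2_28.one = true := by decide +kernel
theorem rrU3_next : rrU3.nextOK a2_28.mul a2_28.one rrU4_g (nat_lit 0x0) = true := by decide +kernel
theorem rrU3_fx : allL rrU3_fix rrU4_g = true := by decide +kernel
theorem rrU3_s_0 : allR (schk a2_28.mul Nat.beq a2_28.one rrU3_g (rrU3.lv a2_28.mul a2_28.one) rrU4_ls) (nat_lit 0) (nat_lit 2) = true := by decide +kernel
theorem rrU3_k_0 : allR (kchk rrU3_key (rrU3.lv a2_28.mul a2_28.one).U rrU3_kt (nat_lit 2)) (nat_lit 0) (nat_lit 2) = true := by decide +kernel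
theorem rrC1_ok : rrC1.ok a2_28.mul Nat.beq a2_28.one = true := by decide +kernel
theorem rrC1_next : rrC1.nextOK a2_28.mul a2_28.one rrC2_g (nat_lit 0x1500000a000009) = true := by decide +kernel
theorem rrC1_fx : allL rrC1_fix rrC2_g = true := by decide +kernel
theorem rrC1_s_0 : allR (schk a2_28.mul Nat.beq a2_28.one rrC1_g (rrC1.lv a2_28.mul a2_28.one) rrC2_ls) (nat_lit 0) (nat_lit 24) = true := by decide +kernel
theorem rrC1_k_0 : allR (kchk rrC1_key (rrC1.lv a2_28.mul a2_28.one).U rrC1_kt (nat_lit 24)) (nat_lit 0) (nat_lit 24) = true := by decide +kernel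
theorem rrC2_ok : rrC2.ok a2_28.mul Nat.beq a2_28.one = true := by decide +kernel
theorem rrC2_next : rrC2.nextOK a2_28.mul a2_28.one rrC3_g (nat_lit 0x0) = true := by decide +kernel
theorem rrC2_fx : allL rrC2_fix rrC3_g = true := by decide +kernel
theorem rrC2_s_0 : allR (schk a2_28.mul Nat.beq a2_28.one rrC2_g (rrC2.lv a2_28.mul a2_28.one) rrC3_ls) (nat_lit 0) (nat_lit 2) = true := by decide +kernel
theorem rrC2_k_0 : allR (kchk rrC2_key (rrC2.lv a2_28.mul a2_28.one).U rrC2_kt (nat_lit 2)) (nat_lit 0) (nat_lit 2) = true := by decide +kernel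
theorem rrV1_ok : rrV1.ok a2_28.mul Nat.beq a2_28.one = true := by decide +kernel
theorem rrV1_next : rrV1.nextOK a2_28.mul a2_28.one rrV2_g (nat_lit 0x7000005000006) = true := by decide +kernel
theorem rrV1_fx : allL rrV1_fix rrV2_g = true := by decide +kernel
theorem rrV1_s_0 : allR (schk a2_28.mul Nat.beq a2_28.one rrV1_g (rrV1.lv a2_28.mul a2_28.one) rrV2_ls) (nat_lit 0) (nat_lit 13) = true := by decide +kernel
theorem rrV1_k_0 : allR (kchk rrV1_key (rrV1.lv a2_28.mul a2_28.one).U rrV1_kt (nat_lit 13)) (nat_lit 0) (nat_lit 13) = true := by decide +kernel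
theorem rrV2_ok : rrV2.ok a2_28.mul Nat.beq a2_28.one = true := by decide +kernel
theorem rrV2_next : rrV2.nextOK a2_28.mul a2_28.one rrV3_g (nat_lit 0x1000000000000) = true := by decide +kernel
theorem rrV2_fx : allL rrV2_fix rrV3_g = true := by decide +kernel
theorem rrV2_s_0 : allR (schk a2_28.mul Nat.beq a2_28.one rrV2_g (rrV2.lv a2_28.mul a2_28.one) rrV3_ls) (nat_lit 0) (nat_lit 2) = true := by decide +kernel

end H29
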