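import Cfsg.Agent.H29.Rr3D

set_option autoImplicit false
set_option maxRecDepth 100000
set_option linter.style.haveILetI false
set_option linter.unusedVariables false
set_option linter.style.longLine false
set_option linter.unusedTactic false
set_option linter.unreachableTactic false

namespace H29

theorem rrV2_k_0 : allR (kchk rrV2_key (rrV2.lv a2_28.mul a2_28.one).U rrV2_kt (nat_lit 2)) (nat_lit 0) (nat_lit 2) = true := by decide +kernel
theorem rrV3_ok : rrV3.ok a2_28.mul Nat.beq a2_28.one = true := by decide +kernel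
theorem rrV3_next : rrV3.nextOK a2_28.mul a2_28.one rrV4_g (nat_lit 0x0) = true := by decide +kernel
theorem rrV3_fx : allL rrV3_fix rrV4_g = true := by decide +kernel
theorem rrV3_s_0 : allR (schk a2_28.mul Nat.beq a2_28.one rrV3_g (rrV3.lv a2_28.mul a2_28.one) rrV4_ls) (nat_lit 0) (nat_lit 2) = true := by decide +kernel
theorem rrV3_k_0 : allR (kchk rrV3_key (rrV3.lv a2_28.mul a2_28.one).U rrV3_kt (nat_lit 2)) (nat_lit 0) (nat_lit 2) = true := by decide +kernel
theorem rrW1_ok : rrW1.ok a2_28.mul Nat.beq a2_28.one = true := by decide +kernel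
theorem rrW1_next : rrW1.nextOK a2_28.mul a2_28.one rrW2_g (nat_lit 0xa000000000001) = true := by decide +kernel
theorem rrW1_fx : allL rrW1_fix rrW2_g = true := by decide +kernel
theorem rrW1_s_0 : allR (schk a2_28.mul Nat.beq a2_28.one rrW1_g (rrW1.lv a2_28.mul a2_28.one) rrW2_ls) (nat_lit 0) (nat_lit 13) = true := by decide +kernel
theorem rrW1_k_0 : allR (kchk rrW1_key (rrW1.lv a2_28.mul a2_28.one).U rrW1_kt (nat_lit 13)) (nat_lit 0) (nat_lit 13) = true := by decide +kernel
theorem rrW2_ok : rrW2.ok a2_28.mul Nat.beq a2_28.one = true := by decide +kernel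
theorem rrW2_next : rrW2.nextOK a2_28.mul a2_28.one rrW3_g (nat_lit 0x2000001) = true := by decide +kernel
theorem rrW2_fx : allL rrW2_fix rrW3_g = true := by decide +kernel
theorem rrW2_s_0 : allR (schk a2_28.mul Nat.beq a2_28.one rrW2_g (rrW2.lv a2_28.mul a2_28.one) rrW3_ls) (nat_lit 0) (nat_lit 2) = true := by decide +kernel
theorem rrW2_k_0 : allR (kchk rrW2_key (rrW2.lv a2_28.mul a2_28.one).U rrW2_kt (nat_lit 2)) (nat_lit 0) (nat_lit 2) = true := by decide +kernel
theorem rrW3_ok : rrW3.ok a2_28.mul Nat.beq a2_28.one = true := by decide +kernel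
theorem rrW3_next : rrW3.nextOK a2_28.mul a2_28.one rrW4_g (nat_lit 0x0) = true := by decide +kernel
theorem rrW3_fx : allL rrW3_fix rrW4_g = true := by decide +kernel
theorem rrW3_s_0 : allR (schk a2_28.mul Nat.beq a2_28.one rrW3_g (rrW3.lv a2_28.mul a2_28.one) rrW4_ls) (nat_lit 0) (nat_lit 2) = true := by decide +kernel
theorem rrW3_k_0 : allR (kchk rrW3_key (rrW3.lv a2_28.mul a2_28.one).U rrW3_kt (nat_lit 2)) (nat_lit 0) (nat_lit 2) = true := by decide +kernel
theorem rrS1_ok : rrS1.ok a2_28.mul Nat.beq a2_28.one = true := by decide +kernel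
theorem rrS1_next : rrS1.nextOK a2_28.mul a2_28.one rrS2_g (nat_lit 0x1000001000007) = true := by decide +kernel
theorem rrS1_fx : allL rrS1_fix rrS2_g = true := by decide +kernel
theorem rrS1_s_0 : allR (schk a2_28.mul Nat.beq a2_28.one rrS1_g (rrS1.lv a2_28.mul a2_28.one) rrS2_ls) (nat_lit 0) (nat_lit 8) = true := by decide +kernel
theorem rrS1_k_0 : allR (kchk rrS1_key (rrS1.lv a2_28.mul a2_28.one).U rrS1_kt (nat_lit 8)) (nat_lit 0) (nat_lit 8) = true := by decide +kernel

end H29
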