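import Cfsg.Agent.H29.Rr3D

set_option autoImplicit false
set_option maxRecDepth 100000
set_option linter.style.haveILetI false
set_option linter.unusedVariables false
set_option linter.style.longLine false
set_option linter.unusedTactic false
set_option linter.unreachableTactic false

namespace H29

theorem rrS2_ok : rrS2.ok a2_28.mul Nat.beq a2_28.one = true := by decide +kernel
theorem rrS2_next : rrS2.nextOK a2_28.mul a2_28.one rrS3_g (nat_lit 0x0) = true := by decide +kernel
theorem rrS2_fx : allL rrS2_fix rrS3_g = true := by decide +kernel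
theorem rrS2_s_0 : allR (schk a2_28.mul Nat.beq a2_28.one rrS2_g (rrS2.lv a2_28.mul a2_28.one) rrS3_ls) (nat_lit 0) (nat_lit 3) = true := by decide +kernel
theorem rrS2_k_0 : allR (kchk rrS2_key (rrS2.lv a2_28.mul a2_28.one).U rrS2_kt (nat_lit 3)) (nat_lit 0) (nat_lit 3) = true := by decide +kernel
theorem rrT1_ok : rrT1.ok a2_28.mul Nat.beq a2_28.one = true := by decide +kernel
theorem rrT1_next : rrT1.nextOK a2_28.mul a2_28.one rrT2_g (nat_lit 0x2000000000003) = true := by decide +kernel
theorem rrT1_fx : allL rrT1_fix rrT2_g = true := by decide +kernel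
theorem rrT1_s_0 : allR (schk a2_28.mul Nat.beq a2_28.one rrT1_g (rrT1.lv a2_28.mul a2_28.one) rrT2_ls) (nat_lit 0) (nat_lit 4) = true := by decide +kernel
theorem rrT1_k_0 : allR (kchk rrT1_key (rrT1.lv a2_28.mul a2_28.one).U rrT1_kt (nat_lit 4)) (nat_lit 0) (nat_lit 4) = true := by decide +kernel
theorem rrT2_ok : rrT2.ok a2_28.mul Nat.beq a2_28.one = true := by decide +kernel
theorem rrT2_next : rrT2.nextOK a2_28.mul a2_28.one rrT3_g (nat_lit 0x1000000000000) = true := by decide +kernel
theorem rrT2_fx : allL rrT2_fix rrT3_g = true := by decide +kernel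
theorem rrT2_s_0 : allR (schk a2_28.mul Nat.beq a2_28.one rrT2_g (rrT2.lv a2_28.mul a2_28.one) rrT3_ls) (nat_lit 0) (nat_lit 2) = true := by decide +kernel
theorem rrT2_k_0 : allR (kchk rrT2_key (rrT2.lv a2_28.mul a2_28.one).U rrT2_kt (nat_lit 2)) (nat_lit 0) (nat_lit 2) = true := by decide +kernel
theorem rrT3_ok : rrT3.ok a2_28.mul Nat.beq a2_28.one = true := by decide +kernel
theorem rrT3_next : rrT3.nextOK a2_28.mul a2_28.one rrT4_g (nat_lit 0x0) = true := by decide +kernel
theorem rrT3_fx : allL rrT3_fix rrT4_g = true := by decide +kernel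
theorem rrT3_s_0 : allR (schk a2_28.mul Nat.beq a2_28.one rrT3_g (rrT3.lv a2_28.mul a2_28.one) rrT4_ls) (nat_lit 0) (nat_lit 2) = true := by decide +kernel
theorem rrT3_k_0 : allR (kchk rrT3_key (rrT3.lv a2_28.mul a2_28.one).U rrT3_kt (nat_lit 2)) (nat_lit 0) (nat_lit 2) = true := by decide +kernel
theorem rrK1_ok : rrK1.ok a2_28.mul Nat.beq a2_28.one = true := by decide +kernel
theorem rrK1_next : rrK1.nextOK a2_28.mul a2_28.one rrK2_g (nat_lit 0x7400001600003100004c00001a000093) = true := by decide +kernel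
theorem rrK1_fx : allL rrK1_fix rrK2_g = true := by decide +kernel
theorem rrK1_s_0 : allR (schk a2_28.mul Nat.beq a2_28.one rrK1_g (rrK1.lv a2_28.mul a2_28.one) rrK2_ls) (nat_lit 0) (nat_lit 150) = true := by decide +kernel
theorem rrK1_s_1 : allR (schk a2_28.mul Nat.beq a2_28.one rrK1_g (rrK1.lv a2_28.mul a2_28.one) rrK2_ls) (nat_lit 150) (nat_lit 150) = true := by decide +kernel
theorem rrK1_s_2 : allR (schk a2_28.mul Nat.beq a2_28.one rrK1_g (rrK1.lv a2_28.mul a2_28.one) rrK2_ls) (nat_lit 300) (nat_lit 20) = true := by decide +kernel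

end H29
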