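import Cfsg.Agent.H29.Rr3D

set_option autoImplicit false
set_option maxRecDepth 100000
set_option linter.style.haveILetI false
set_option linter.unusedVariables false
set_option linter.style.longLine false
set_option linter.unusedTactic false
set_option linter.unreachableTactic false

namespace H29

theorem rrK1_k_0 : allR (kchk rrK1_key (rrK1.lv a2_28.mul a2_28.one).U rrK1_kt (nat_lit 320)) (nat_lit 0) (nat_lit 320) = true := by decide +kernel
theorem rrK2_ok : rrK2.ok a2_28.mul Nat.beq a2_28.one = true := by decide +kernel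
theorem rrK2_next : rrK2.nextOK a2_28.mul a2_28.one rrK3_g (nat_lit 0x2000000000000) = true := by decide +kernel
theorem rrK2_fx : allL rrK2_fix rrK3_g = true := by decide +kernel
theorem rrK2_s_0 : allR (schk a2_28.mul Nat.beq a2_28.one rrK2_g (rrK2.lv a2_28.mul a2_28.one) rrK3_ls) (nat_lit 0) (nat_lit 4) = true := by decide +kernel
theorem rrK2_k_0 : allR (kchk rrK2_key (rrK2.lv a2_28.mul a2_28.one).U rrK2_kt (nat_lit 4)) (nat_lit 0) (nat_lit 4) = true := by decide +kernel
theorem rrK3_ok : rrK3.ok a2_28.mul Nat.beq a2_28.one = true := by decide +kernel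
theorem rrK3_next : rrK3.nextOK a2_28.mul a2_28.one rrK4_g (nat_lit 0x1000000000000) = true := by decide +kernel
theorem rrK3_fx : allL rrK3_fix rrK4_g = true := by decide +kernel
theorem rrK3_s_0 : allR (schk a2_28.mul Nat.beq a2_28.one rrK3_g (rrK3.lv a2_28.mul a2_28.one) rrK4_ls) (nat_lit 0) (nat_lit 2) = true := by decide +kernel
theorem rrK3_k_0 : allR (kchk rrK3_key (rrK3.lv a2_28.mul a2_28.one).U rrK3_kt (nat_lit 2)) (nat_lit 0) (nat_lit 2) = true := by decide +kernel
theorem rrK4_ok : rrK4.ok a2_28.mul Nat.beq a2_28.one = true := by decide +kernel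
theorem rrK4_next : rrK4.nextOK a2_28.mul a2_28.one rrK5_g (nat_lit 0x0) = true := by decide +kernel
theorem rrK4_fx : allL rrK4_fix rrK5_g = true := by decide +kernel
theorem rrK4_s_0 : allR (schk a2_28.mul Nat.beq a2_28.one rrK4_g (rrK4.lv a2_28.mul a2_28.one) rrK5_ls) (nat_lit 0) (nat_lit 2) = true := by decide +kernel
theorem rrK4_k_0 : allR (kchk rrK4_key (rrK4.lv a2_28.mul a2_28.one).U rrK4_kt (nat_lit 2)) (nat_lit 0) (nat_lit 2) = true := by decide +kernel
theorem rrQ1_ok : rrQ1.ok a2_28.mul Nat.beq a2_28.one = true := by decide +kernel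
theorem rrQ1_next : rrQ1.nextOK a2_28.mul a2_28.one rrQ2_g (nat_lit 0x1240000000001f600037a000001000368) = true := by decide +kernel
theorem rrQ1_fx : allL rrQ1_fix rrQ2_g = true := by decide +kernel
theorem rrQ1_s_0 : allR (schk a2_28.mul Nat.beq a2_28.one rrQ1_g (rrQ1.lv a2_28.mul a2_28.one) rrQ2_ls) (nat_lit 0) (nat_lit 150) = true := by decide +kernel
theorem rrQ1_s_1 : allR (schk a2_28.mul Nat.beq a2_28.one rrQ1_g (rrQ1.lv a2_28.mul a2_28.one) rrQ2_ls) (nat_lit 150) (nat_lit 150) = true := by decide +kernel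
theorem rrQ1_s_2 : allR (schk a2_28.mul Nat.beq a2_28.one rrQ1_g (rrQ1.lv a2_28.mul a2_28.one) rrQ2_ls) (nat_lit 300) (nat_lit 150) = true := by decide +kernel
theorem rrQ1_s_3 : allR (schk a2_28.mul Nat.beq a2_28.one rrQ1_g (rrQ1.lv a2_28.mul a2_28.one) rrQ2_ls) (nat_lit 450) (nat_lit 150) = true := by decide +kernel
theorem rrQ1_s_4 : allR (schk a2_28.mul Nat.beq a2_28.one rrQ1_g (rrQ1.lv a2_28.mul a2_28.one) rrQ2_ls) (nat_lit 600) (nat_lit 150) = true := by decide +kernel

end H29
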