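import Cfsg.Agent.H29.Rr3D

set_option autoImplicit false
set_option maxRecDepth 100000
set_option linter.style.haveILetI false
set_option linter.unusedVariables false
set_option linter.style.longLine false
set_option linter.unusedTactic false
set_option linter.unreachableTactic false

namespace H29

theorem rrQ1_s_5 : allR (schk a2_28.mul Nat.beq a2_28.one rrQ1_g (rrQ1.lv a2_28.mul a2_28.one) rrQ2_ls) (nat_lit 750) (nat_lit 150) = true := by decide +kernel
theorem rrQ1_s_6 : allR (schk a2_28.mul Nat.beq a2_28.one rrQ1_g (rrQ1.lv a2_28.mul a2_28.one) rrQ2_ls) (nat_lit 900) (nat_lit 124) = true := by decide +kernel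
theorem rrQ1_k_0 : allR (kchk rrQ1_key (rrQ1.lv a2_28.mul a2_28.one).U rrQ1_kt (nat_lit 1024)) (nat_lit 0) (nat_lit 600) = true := by decide +kernel
theorem rrQ1_k_1 : allR (kchk rrQ1_key (rrQ1.lv a2_28.mul a2_28.one).U rrQ1_kt (nat_lit 1024)) (nat_lit 600) (nat_lit 424) = true := by decide +kernel
theorem rrQ2_ok : rrQ2.ok a2_28.mul Nat.beq a2_28.one = true := by decide +kernel
theorem rrQ2_next : rrQ2.nextOK a2_28.mul a2_28.one rrQ3_g (nat_lit 0x1000000000002) = true := by decide +kernel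
theorem rrQ2_fx : allL rrQ2_fix rrQ3_g = true := by decide +kernel
theorem rrQ2_s_0 : allR (schk a2_28.mul Nat.beq a2_28.one rrQ2_g (rrQ2.lv a2_28.mul a2_28.one) rrQ3_ls) (nat_lit 0) (nat_lit 5) = true := by decide +kernel
theorem rrQ2_k_0 : allR (kchk rrQ2_key (rrQ2.lv a2_28.mul a2_28.one).U rrQ2_kt (nat_lit 5)) (nat_lit 0) (nat_lit 5) = true := by decide +kernel
theorem rrQ3_ok : rrQ3.ok a2_28.mul Nat.beq a2_28.one = true := by decide +kernel
theorem rrQ3_next : rrQ3.nextOK a2_28.mul a2_28.one rrQ4_g (nat_lit 0x2000001) = true := by decide +kernel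
theorem rrQ3_fx : allL rrQ3_fix rrQ4_g = true := by decide +kernel
theorem rrQ3_s_0 : allR (schk a2_28.mul Nat.beq a2_28.one rrQ3_g (rrQ3.lv a2_28.mul a2_28.one) rrQ4_ls) (nat_lit 0) (nat_lit 2) = true := by decide +kernel
theorem rrQ3_k_0 : allR (kchk rrQ3_key (rrQ3.lv a2_28.mul a2_28.one).U rrQ3_kt (nat_lit 2)) (nat_lit 0) (nat_lit 2) = true := by decide +kernel
theorem rrQ4_ok : rrQ4.ok a2_28.mul Nat.beq a2_28.one = true := by decide +kernel
theorem rrQ4_next : rrQ4.nextOK a2_28.mul a2_28.one rrQ5_g (nat_lit 0x0) = true := by decide +kernel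
theorem rrQ4_fx : allL rrQ4_fix rrQ5_g = true := by decide +kernel
theorem rrQ4_s_0 : allR (schk a2_28.mul Nat.beq a2_28.one rrQ4_g (rrQ4.lv a2_28.mul a2_28.one) rrQ5_ls) (nat_lit 0) (nat_lit 2) = true := by decide +kernel
theorem rrQ4_k_0 : allR (kchk rrQ4_key (rrQ4.lv a2_28.mul a2_28.one).U rrQ4_kt (nat_lit 2)) (nat_lit 0) (nat_lit 2) = true := by decide +kernel
theorem rrP1_ok : rrP1.ok a2_28.mul Nat.beq a2_28.one = true := by decide +kernel
theorem rrP1_next : rrP1.nextOK a2_28.mul a2_28.one rrP2_g (nat_lit 0x0) = true := by decide +kernel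
theorem rrP1_fx : allL rrP1_fix rrP2_g = true := by decide +kernel
theorem rrP1_s_0 : allR (schk a2_28.mul Nat.beq a2_28.one rrP1_g (rrP1.lv a2_28.mul a2_28.one) rrP2_ls) (nat_lit 0) (nat_lit 25) = true := by decide +kernel
theorem rrP1_k_0 : allR (kchk rrP1_key (rrP1.lv a2_28.mul a2_28.one).U rrP1_kt (nat_lit 25)) (nat_lit 0) (nat_lit 25) = true := by decide +kernel

end H29
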