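import Cfsg.Agent.H29.Rr3D

set_option autoImplicit false
set_option maxRecDepth 100000
set_option linter.style.haveILetI false
set_option linter.unusedVariables false
set_option linter.style.longLine false
set_option linter.unusedTactic false
set_option linter.unreachableTactic false

namespace H29

theorem rrN1_ok : rrN1.ok a2_28.mul Nat.beq a2_28.one = true := by decide +kernel
theorem rrN1_next : rrN1.nextOK a2_28.mul a2_28.one rrN2_g (nat_lit 0xec000015000054) = true := by decide +kernel
theorem rrN1_fx : allL rrN1_fix rrN2_g = true := by decide +kernel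
theorem rrN1_s_0 : allR (schk a2_28.mul Nat.beq a2_28.one rrN1_g (rrN1.lv a2_28.mul a2_28.one) rrN2_ls) (nat_lit 0) (nat_lit 150) = true := by decide +kernel
theorem rrN1_s_1 : allR (schk a2_28.mul Nat.beq a2_28.one rrN1_g (rrN1.lv a2_28.mul a2_28.one) rrN2_ls) (nat_lit 150) (nat_lit 150) = true := by decide +kernel
theorem rrN1_k_0 : allR (kchk rrN1_key (rrN1.lv a2_28.mul a2_28.one).U rrN1_kt (nat_lit 300)) (nat_lit 0) (nat_lit 300) = true := by decide +kernel
theorem rrN2_ok : rrN2.ok a2_28.mul Nat.beq a2_28.one = true := by decide +kernel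
theorem rrN2_next : rrN2.nextOK a2_28.mul a2_28.one rrN3_g (nat_lit 0x0) = true := by decide +kernel
theorem rrN2_fx : allL rrN2_fix rrN3_g = true := by decide +kernel
theorem rrN2_s_0 : allR (schk a2_28.mul Nat.beq a2_28.one rrN2_g (rrN2.lv a2_28.mul a2_28.one) rrN3_ls) (nat_lit 0) (nat_lit 8) = true := by decide +kernel
theorem rrN2_k_0 : allR (kchk rrN2_key (rrN2.lv a2_28.mul a2_28.one).U rrN2_kt (nat_lit 8)) (nat_lit 0) (nat_lit 8) = true := by decide +kernel
theorem rrM1_ok : rrM1.ok a2_28.mul Nat.beq a2_28.one = true := by decide +kernel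
theorem rrM1_next : rrM1.nextOK a2_28.mul a2_28.one rrM2_g (nat_lit 0xc00000100000600000000000c00000c) = true := by decide +kernel
theorem rrM1_fx : allL rrM1_fix rrM2_g = true := by decide +kernel
theorem rrM1_s_0 : allR (schk a2_28.mul Nat.beq a2_28.one rrM1_g (rrM1.lv a2_28.mul a2_28.one) rrM2_ls) (nat_lit 0) (nat_lit 13) = true := by decide +kernel
theorem rrM1_k_0 : allR (kchk rrM1_key (rrM1.lv a2_28.mul a2_28.one).U rrM1_kt (nat_lit 13)) (nat_lit 0) (nat_lit 13) = true := by decide +kernel
theorem rrM2_ok : rrM2.ok a2_28.mul Nat.beq a2_28.one = true := by decide +kernel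
theorem rrM2_next : rrM2.nextOK a2_28.mul a2_28.one rrM3_g (nat_lit 0x2000001000000) = true := by decide +kernel
theorem rrM2_fx : allL rrM2_fix rrM3_g = true := by decide +kernel
theorem rrM2_s_0 : allR (schk a2_28.mul Nat.beq a2_28.one rrM2_g (rrM2.lv a2_28.mul a2_28.one) rrM3_ls) (nat_lit 0) (nat_lit 3) = true := by decide +kernel
theorem rrM2_k_0 : allR (kchk rrM2_key (rrM2.lv a2_28.mul a2_28.one).U rrM2_kt (nat_lit 3)) (nat_lit 0) (nat_lit 3) = true := by decide +kernel
theorem rrM3_ok : rrM3.ok a2_28.mul Nat.beq a2_28.one = true := by decide +kernel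
theorem rrM3_next : rrM3.nextOK a2_28.mul a2_28.one rrM4_g (nat_lit 0x2000001) = true := by decide +kernel
theorem rrM3_fx : allL rrM3_fix rrM4_g = true := by decide +kernel
theorem rrM3_s_0 : allR (schk a2_28.mul Nat.beq a2_28.one rrM3_g (rrM3.lv a2_28.mul a2_28.one) rrM4_ls) (nat_lit 0) (nat_lit 2) = true := by decide +kernel
theorem rrM3_k_0 : allR (kchk rrM3_key (rrM3.lv a2_28.mul a2_28.one).U rrM3_kt (nat_lit 2)) (nat_lit 0) (nat_lit 2) = true := by decide +kernel

end H29
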