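import Cfsg.Agent.H29.Rr3D

set_option autoImplicit false
set_option maxRecDepth 100000
set_option linter.style.haveILetI false
set_option linter.unusedVariables false
set_option linter.style.longLine false
set_option linter.unusedTactic false
set_option linter.unreachableTactic false

namespace H29

theorem rrE1_s_0 : allR (schk a2_28.mul Nat.beq a2_28.one rrE1_g (rrE1.lv a2_28.mul a2_28.one) rrE2_ls) (nat_lit 0) (nat_lit 3) = true := by decide +kernel
theorem rrE1_k_0 : allR (kchk rrE1_key (rrE1.lv a2_28.mul a2_28.one).U rrE1_kt (nat_lit 3)) (nat_lit 0) (nat_lit 3) = true := by decide +kernel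
theorem rrE2_ok : rrE2.ok a2_28.mul Nat.beq a2_28.one = true := by decide +kernel
theorem rrE2_next : rrE2.nextOK a2_28.mul a2_28.one rrE3_g (nat_lit 0x0) = true := by decide +kernel
theorem rrE2_fx : allL rrE2_fix rrE3_g = true := by decide +kernel
theorem rrE2_s_0 : allR (schk a2_28.mul Nat.beq a2_28.one rrE2_g (rrE2.lv a2_28.mul a2_28.one) rrE3_ls) (nat_lit 0) (nat_lit 3) = true := by decide +kernel
theorem rrE2_k_0 : allR (kchk rrE2_key (rrE2.lv a2_28.mul a2_28.one).U rrE2_kt (nat_lit 3)) (nat_lit 0) (nat_lit 3) = true := by decide +kernel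
theorem rrD1_0 : Nat.beq (dcU2 a2_28.mul a2_28.one rrJ1_ls rrD1_x rrD1_ms 0) a2_28.one = true := by decide +kernel
theorem rrD1_dc_0 : allR (dcAt2 a2_28.mul Nat.beq a2_28.one rrJ1_ls rrJ1_ls rrD1_x ruA2_g rrD1_ms rrD1_tb (nat_lit 2304)) (nat_lit 0) (nat_lit 150) = true := by decide +kernel
theorem rrD1_dc_1 : allR (dcAt2 a2_28.mul Nat.beq a2_28.one rrJ1_ls rrJ1_ls rrD1_x ruA2_g rrD1_ms rrD1_tb (nat_lit 2304)) (nat_lit 150) (nat_lit 150) = true := by decide +kernel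
theorem rrD1_dc_2 : allR (dcAt2 a2_28.mul Nat.beq a2_28.one rrJ1_ls rrJ1_ls rrD1_x ruA2_g rrD1_ms rrD1_tb (nat_lit 2304)) (nat_lit 300) (nat_lit 150) = true := by decide +kernel
theorem rrD1_dc_3 : allR (dcAt2 a2_28.mul Nat.beq a2_28.one rrJ1_ls rrJ1_ls rrD1_x ruA2_g rrD1_ms rrD1_tb (nat_lit 2304)) (nat_lit 450) (nat_lit 150) = true := by decide +kernel
theorem rrD1_dc_4 : allR (dcAt2 a2_28.mul Nat.beq a2_28.one rrJ1_ls rrJ1_ls rrD1_x ruA2_g rrD1_ms rrD1_tb (nat_lit 2304)) (nat_lit 600) (nat_lit 150) = true := by decide +kernel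
theorem rrD1_dc_5 : allR (dcAt2 a2_28.mul Nat.beq a2_28.one rrJ1_ls rrJ1_ls rrD1_x ruA2_g rrD1_ms rrD1_tb (nat_lit 2304)) (nat_lit 750) (nat_lit 150) = true := by decide +kernel
theorem rrD1_dc_6 : allR (dcAt2 a2_28.mul Nat.beq a2_28.one rrJ1_ls rrJ1_ls rrD1_x ruA2_g rrD1_ms rrD1_tb (nat_lit 2304)) (nat_lit 900) (nat_lit 150) = true := by decide +kernel
theorem rrD1_dc_7 : allR (dcAt2 a2_28.mul Nat.beq a2_28.one rrJ1_ls rrJ1_ls rrD1_x ruA2_g rrD1_ms rrD1_tb (nat_lit 2304)) (nat_lit 1050) (nat_lit 150) = true := by decide +kernel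
theorem rrD1_dc_8 : allR (dcAt2 a2_28.mul Nat.beq a2_28.one rrJ1_ls rrJ1_ls rrD1_x ruA2_g rrD1_ms rrD1_tb (nat_lit 2304)) (nat_lit 1200) (nat_lit 150) = true := by decide +kernel
theorem rrD1_dc_9 : allR (dcAt2 a2_28.mul Nat.beq a2_28.one rrJ1_ls rrJ1_ls rrD1_x ruA2_g rrD1_ms rrD1_tb (nat_lit 2304)) (nat_lit 1350) (nat_lit 150) = true := by decide +kernel

end H29
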