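import Cfsg.Agent.H29.Rr3D
import Cfsg.Agent.H29.Rr3C1
import Cfsg.Agent.H29.Rr3C2
import Cfsg.Agent.H29.Rr3C3
import Cfsg.Agent.H29.Rr3C4
import Cfsg.Agent.H29.Rr3C5
import Cfsg.Agent.H29.Rr3C6
import Cfsg.Agent.H29.Rr3C7
import Cfsg.Agent.H29.Rr3C8
import Cfsg.Agent.H29.Rr3C9
import Cfsg.Agent.H29.Rr3C10
import Cfsg.Agent.H29.Rr3C11
import Cfsg.Agent.H29.Rr3C12
import Cfsg.Agent.H29.Rr3C13
import Cfsg.Agent.H29.Rr3C14
import Cfsg.Agent.H29.Rr3C15
import Cfsg.Agent.H29.Rr3C16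
import Cfsg.Agent.H29.Rr3C17

set_option autoImplicit false
set_option maxRecDepth 100000
set_option linter.style.haveILetI false
set_option linter.unusedVariables false
set_option linter.style.longLine false
set_option linter.unusedTactic false
set_option linter.unreachableTactic false

namespace H29

theorem rrJ1_s : ∀ j < nat_lit 78, (schk a2_28.mul Nat.beq a2_28.one rrJ1_g (rrJ1.lv a2_28.mul a2_28.one) rrJ2_ls) j = true :=
  (allR_step (c := nat_lit 78) (fun _ h => absurd h (Nat.not_lt_zero _)) rrJ1_s_0 (by decide))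

theorem rrJ1_k : ∀ j < nat_lit 78, (kchk rrJ1_key (rrJ1.lv a2_28.mul a2_28.one).U rrJ1_kt (nat_lit 78)) j = true :=
  (allR_step (c := nat_lit 78) (fun _ h => absurd h (Nat.not_lt_zero _)) rrJ1_k_0 (by decide))

theorem rrJ2_s : ∀ j < nat_lit 25, (schk a2_28.mul Nat.beq a2_28.one rrJ2_g (rrJ2.lv a2_28.mul a2_28.one) rrJ3_ls) j = true :=
  (allR_step (c := nat_lit 25) (fun _ h => absurd h (Nat.not_lt_zero _)) rrJ2_s_0 (by decide))

theorem rrJ2_k : ∀ j < nat_lit 25, (kchk rrJ2_key (rrJ2.lv a2_28.mul a2_28.one).U rrJ2_kt (nat_lit 25)) j = true :=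
  (allR_step (c := nat_lit 25) (fun _ h => absurd h (Nat.not_lt_zero _)) rrJ2_k_0 (by decide))

theorem rrJ3_s : ∀ j < nat_lit 4, (schk a2_28.mul Nat.beq a2_28.one rrJ3_g (rrJ3.lv a2_28.mul a2_28.one) rrJ4_ls) j = true :=
  (allR_step (c := nat_lit 4) (fun _ h => absurd h (Nat.not_lt_zero _)) rrJ3_s_0 (by decide))

theorem rrJ3_k : ∀ j < nat_lit 4, (kchk rrJ3_key (rrJ3.lv a2_28.mul a2_28.one).U rrJ3_kt (nat_lit 4)) j = true :=
  (allR_step (c := nat_lit 4) (fun _ h => absurd h (Nat.not_lt_zero _)) rrJ3_k_0 (by decide))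

theorem rrJ4_s : ∀ j < nat_lit 2, (schk a2_28.mul Nat.beq a2_28.one rrJ4_g (rrJ4.lv a2_28.mul a2_28.one) rrJ5_ls) j = true :=
  (allR_step (c := nat_lit 2) (fun _ h => absurd h (Nat.not_lt_zero _)) rrJ4_s_0 (by decide))

theorem rrJ4_k : ∀ j < nat_lit 2, (kchk rrJ4_key (rrJ4.lv a2_28.mul a2_28.one).U rrJ4_kt (nat_lit 2)) j = true :=
  (allR_step (c := nat_lit 2) (fun _ h => absurd h (Nat.not_lt_zero _)) rrJ4_k_0 (by decide))

theorem rrU1_s : ∀ j < nat_lit 25, (schk a2_28.mul Nat.beq a2_28.one rrU1_g (rrU1.lv a2_28.mul a2_28.one) rrU2_ls) j = true :=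
  (allR_step (c := nat_lit 25) (fun _ h => absurd h (Nat.not_lt_zero _)) rrU1_s_0 (by decide))

theorem rrU1_k : ∀ j < nat_lit 25, (kchk rrU1_key (rrU1.lv a2_28.mul a2_28.one).U rrU1_kt (nat_lit 25)) j = true :=
  (allR_step (c := nat_lit 25) (fun _ h => absurd h (Nat.not_lt_zero _)) rrU1_k_0 (by decide))

theorem rrU2_s : ∀ j < nat_lit 4, (schk a2_28.mul Nat.beq a2_28.one rrU2_g (rrU2.lv a2_28.mul a2_28.one) rrU3_ls) j = true :=
  (allR_step (c := nat_lit 4) (fun _ h => absurd h (Nat.not_lt_zero _)) rrU2_s_0 (by decide))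

theorem rrU2_k : ∀ j < nat_lit 4, (kchk rrU2_key (rrU2.lv a2_28.mul a2_28.one).U rrU2_kt (nat_lit 4)) j = true :=
  (allR_step (c := nat_lit 4) (fun _ h => absurd h (Nat.not_lt_zero _)) rrU2_k_0 (by decide))

theorem rrU3_s : ∀ j < nat_lit 2, (schk a2_28.mul Nat.beq a2_28.one rrU3_g (rrU3.lv a2_28.mul a2_28.one) rrU4_ls) j = true :=
  (allR_step (c := nat_lit 2) (fun _ h => absurd h (Nat.not_lt_zero _)) rrU3_s_0 (by decide))

theorem rrU3_k : ∀ j < nat_lit 2, (kchk rrU3_key (rrU3.lv a2_28.mul a2_28.one).U rrU3_kt (nat_lit 2)) j = true :=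
  (allR_step (c := nat_lit 2) (fun _ h => absurd h (Nat.not_lt_zero _)) rrU3_k_0 (by decide))

theorem rrC1_s : ∀ j < nat_lit 24, (schk a2_28.mul Nat.beq a2_28.one rrC1_g (rrC1.lv a2_28.mul a2_28.one) rrC2_ls) j = true :=
  (allR_step (c := nat_lit 24) (fun _ h => absurd h (Nat.not_lt_zero _)) rrC1_s_0 (by decide))

theorem rrC1_k : ∀ j < nat_lit 24, (kchk rrC1_key (rrC1.lv a2_28.mul a2_28.one).U rrC1_kt (nat_lit 24)) j = true :=
  (allR_step (c := nat_lit 24) (fun _ h => absurd h (Nat.not_lt_zero _)) rrC1_k_0 (by decide))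

theorem rrC2_s : ∀ j < nat_lit 2, (schk a2_28.mul Nat.beq a2_28.one rrC2_g (rrC2.lv a2_28.mul a2_28.one) rrC3_ls) j = true :=
  (allR_step (c := nat_lit 2) (fun _ h => absurd h (Nat.not_lt_zero _)) rrC2_s_0 (by decide))

theorem rrC2_k : ∀ j < nat_lit 2, (kchk rrC2_key (rrC2.lv a2_28.mul a2_28.one).U rrC2_kt (nat_lit 2)) j = true :=
  (allR_step (c := nat_lit 2) (fun _ h => absurd h (Nat.not_lt_zero _)) rrC2_k_0 (by decide))

theorem rrV1_s : ∀ j < nat_lit 13, (schk a2_28.mul Nat.beq a2_28.one rrV1_g (rrV1.lv a2_28.mul a2_28.one) rrV2_ls) j = true :=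
  (allR_step (c := nat_lit 13) (fun _ h => absurd h (Nat.not_lt_zero _)) rrV1_s_0 (by decide))

theorem rrV1_k : ∀ j < nat_lit 13, (kchk rrV1_key (rrV1.lv a2_28.mul a2_28.one).U rrV1_kt (nat_lit 13)) j = true :=
  (allR_step (c := nat_lit 13) (fun _ h => absurd h (Nat.not_lt_zero _)) rrV1_k_0 (by decide))

theorem rrV2_s : ∀ j < nat_lit 2, (schk a2_28.mul Nat.beq a2_28.one rrV2_g (rrV2.lv a2_28.mul a2_28.one) rrV3_ls) j = true :=
  (allR_step (c := nat_lit 2) (fun _ h => absurd h (Nat.not_lt_zero _)) rrV2_s_0 (by decide))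

theorem rrV2_k : ∀ j < nat_lit 2, (kchk rrV2_key (rrV2.lv a2_28.mul a2_28.one).U rrV2_kt (nat_lit 2)) j = true :=
  (allR_step (c := nat_lit 2) (fun _ h => absurd h (Nat.not_lt_zero _)) rrV2_k_0 (by decide))

theorem rrV3_s : ∀ j < nat_lit 2, (schk a2_28.mul Nat.beq a2_28.one rrV3_g (rrV3.lv a2_28.mul a2_28.one) rrV4_ls) j = true :=
  (allR_step (c := nat_lit 2) (fun _ h => absurd h (Nat.not_lt_zero _)) rrV3_s_0 (by decide))

theorem rrV3_k : ∀ j < nat_lit 2, (kchk rrV3_key (rrV3.lv a2_28.mul a2_28.one).U rrV3_kt (nat_lit 2)) j = true :=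
  (allR_step (c := nat_lit 2) (fun _ h => absurd h (Nat.not_lt_zero _)) rrV3_k_0 (by decide))

theorem rrW1_s : ∀ j < nat_lit 13, (schk a2_28.mul Nat.beq a2_28.one rrW1_g (rrW1.lv a2_28.mul a2_28.one) rrW2_ls) j = true :=
  (allR_step (c := nat_lit 13) (fun _ h => absurd h (Nat.not_lt_zero _)) rrW1_s_0 (by decide))

theorem rrW1_k : ∀ j < nat_lit 13, (kchk rrW1_key (rrW1.lv a2_28.mul a2_28.one).U rrW1_kt (nat_lit 13)) j = true :=
  (allR_step (c := nat_lit 13) (fun _ h => absurd h (Nat.not_lt_zero _)) rrW1_k_0 (by decide))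

theorem rrW2_s : ∀ j < nat_lit 2, (schk a2_28.mul Nat.beq a2_28.one rrW2_g (rrW2.lv a2_28.mul a2_28.one) rrW3_ls) j = true :=
  (allR_step (c := nat_lit 2) (fun _ h => absurd h (Nat.not_lt_zero _)) rrW2_s_0 (by decide))

theorem rrW2_k : ∀ j < nat_lit 2, (kchk rrW2_key (rrW2.lv a2_28.mul a2_28.one).U rrW2_kt (nat_lit 2)) j = true :=
  (allR_step (c := nat_lit 2) (fun _ h => absurd h (Nat.not_lt_zero _)) rrW2_k_0 (by decide))

theorem rrW3_s : ∀ j < nat_lit 2, (schk a2_28.mul Nat.beq a2_28.one rrW3_g (rrW3.lv a2_28.mul a2_28.one) rrW4_ls) j = true :=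
  (allR_step (c := nat_lit 2) (fun _ h => absurd h (Nat.not_lt_zero _)) rrW3_s_0 (by decide))

theorem rrW3_k : ∀ j < nat_lit 2, (kchk rrW3_key (rrW3.lv a2_28.mul a2_28.one).U rrW3_kt (nat_lit 2)) j = true :=
  (allR_step (c := nat_lit 2) (fun _ h => absurd h (Nat.not_lt_zero _)) rrW3_k_0 (by decide))

theorem rrS1_s : ∀ j < nat_lit 8, (schk a2_28.mul Nat.beq a2_28.one rrS1_g (rrS1.lv a2_28.mul a2_28.one) rrS2_ls) j = true :=
  (allR_step (c := nat_lit 8) (fun _ h => absurd h (Nat.not_lt_zero _)) rrS1_s_0 (by decide))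

theorem rrS1_k : ∀ j < nat_lit 8, (kchk rrS1_key (rrS1.lv a2_28.mul a2_28.one).U rrS1_kt (nat_lit 8)) j = true :=
  (allR_step (c := nat_lit 8) (fun _ h => absurd h (Nat.not_lt_zero _)) rrS1_k_0 (by decide))

theorem rrS2_s : ∀ j < nat_lit 3, (schk a2_28.mul Nat.beq a2_28.one rrS2_g (rrS2.lv a2_28.mul a2_28.one) rrS3_ls) j = true :=
  (allR_step (c := nat_lit 3) (fun _ h => absurd h (Nat.not_lt_zero _)) rrS2_s_0 (by decide))

theorem rrS2_k : ∀ j < nat_lit 3, (kchk rrS2_key (rrS2.lv a2_28.mul a2_28.one).U rrS2_kt (nat_lit 3)) j = true :=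
  (allR_step (c := nat_lit 3) (fun _ h => absurd h (Nat.not_lt_zero _)) rrS2_k_0 (by decide))

theorem rrT1_s : ∀ j < nat_lit 4, (schk a2_28.mul Nat.beq a2_28.one rrT1_g (rrT1.lv a2_28.mul a2_28.one) rrT2_ls) j = true :=
  (allR_step (c := nat_lit 4) (fun _ h => absurd h (Nat.not_lt_zero _)) rrT1_s_0 (by decide))

theorem rrT1_k : ∀ j < nat_lit 4, (kchk rrT1_key (rrT1.lv a2_28.mul a2_28.one).U rrT1_kt (nat_lit 4)) j = true :=
  (allR_step (c := nat_lit 4) (fun _ h => absurd h (Nat.not_lt_zero _)) rrT1_k_0 (by decide))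

theorem rrT2_s : ∀ j < nat_lit 2, (schk a2_28.mul Nat.beq a2_28.one rrT2_g (rrT2.lv a2_28.mul a2_28.one) rrT3_ls) j = true :=
  (allR_step (c := nat_lit 2) (fun _ h => absurd h (Nat.not_lt_zero _)) rrT2_s_0 (by decide))

theorem rrT2_k : ∀ j < nat_lit 2, (kchk rrT2_key (rrT2.lv a2_28.mul a2_28.one).U rrT2_kt (nat_lit 2)) j = true :=
  (allR_step (c := nat_lit 2) (fun _ h => absurd h (Nat.not_lt_zero _)) rrT2_k_0 (by decide))

theorem rrT3_s : ∀ j < nat_lit 2, (schk a2_28.mul Nat.beq a2_28.one rrT3_g (rrT3.lv a2_28.mul a2_28.one) rrT4_ls) j = true :=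
  (allR_step (c := nat_lit 2) (fun _ h => absurd h (Nat.not_lt_zero _)) rrT3_s_0 (by decide))

theorem rrT3_k : ∀ j < nat_lit 2, (kchk rrT3_key (rrT3.lv a2_28.mul a2_28.one).U rrT3_kt (nat_lit 2)) j = true :=
  (allR_step (c := nat_lit 2) (fun _ h => absurd h (Nat.not_lt_zero _)) rrT3_k_0 (by decide))

theorem rrK1_s : ∀ j < nat_lit 320, (schk a2_28.mul Nat.beq a2_28.one rrK1_g (rrK1.lv a2_28.mul a2_28.one) rrK2_ls) j = true :=
  (allR_step (c := nat_lit 320) (allR_step (c := nat_lit 300) (allR_step (c := nat_lit 150) (fun _ h => absurd h (Nat.not_lt_zero _)) rrK1_s_0 (by decide)) rrK1_s_1 (by decide)) rrK1_s_2 (by decide))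

theorem rrK1_k : ∀ j < nat_lit 320, (kchk rrK1_key (rrK1.lv a2_28.mul a2_28.one).U rrK1_kt (nat_lit 320)) j = true :=
  (allR_step (c := nat_lit 320) (fun _ h => absurd h (Nat.not_lt_zero _)) rrK1_k_0 (by decide))

theorem rrK2_s : ∀ j < nat_lit 4, (schk a2_28.mul Nat.beq a2_28.one rrK2_g (rrK2.lv a2_28.mul a2_28.one) rrK3_ls) j = true :=
  (allR_step (c := nat_lit 4) (fun _ h => absurd h (Nat.not_lt_zero _)) rrK2_s_0 (by decide))

theorem rrK2_k : ∀ j < nat_lit 4, (kchk rrK2_key (rrK2.lv a2_28.mul a2_28.one).U rrK2_kt (nat_lit 4)) j = true :=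
  (allR_step (c := nat_lit 4) (fun _ h => absurd h (Nat.not_lt_zero _)) rrK2_k_0 (by decide))

theorem rrK3_s : ∀ j < nat_lit 2, (schk a2_28.mul Nat.beq a2_28.one rrK3_g (rrK3.lv a2_28.mul a2_28.one) rrK4_ls) j = true :=
  (allR_step (c := nat_lit 2) (fun _ h => absurd h (Nat.not_lt_zero _)) rrK3_s_0 (by decide))

theorem rrK3_k : ∀ j < nat_lit 2, (kchk rrK3_key (rrK3.lv a2_28.mul a2_28.one).U rrK3_kt (nat_lit 2)) j = true :=
  (allR_step (c := nat_lit 2) (fun _ h => absurd h (Nat.not_lt_zero _)) rrK3_k_0 (by decide))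

theorem rrK4_s : ∀ j < nat_lit 2, (schk a2_28.mul Nat.beq a2_28.one rrK4_g (rrK4.lv a2_28.mul a2_28.one) rrK5_ls) j = true :=
  (allR_step (c := nat_lit 2) (fun _ h => absurd h (Nat.not_lt_zero _)) rrK4_s_0 (by decide))

theorem rrK4_k : ∀ j < nat_lit 2, (kchk rrK4_key (rrK4.lv a2_28.mul a2_28.one).U rrK4_kt (nat_lit 2)) j = true :=
  (allR_step (c := nat_lit 2) (fun _ h => absurd h (Nat.not_lt_zero _)) rrK4_k_0 (by decide))

theorem rrQ1_s : ∀ j < nat_lit 1024, (schk a2_28.mul Nat.beq a2_28.one rrQ1_g (rrQ1.lv a2_28.mul a2_28.one) rrQ2_ls) j = true :=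
  (allR_step (c := nat_lit 1024) (allR_step (c := nat_lit 900) (allR_step (c := nat_lit 750) (allR_step (c := nat_lit 600) (allR_step (c := nat_lit 450) (allR_step (c := nat_lit 300) (allR_step (c := nat_lit 150) (fun _ h => absurd h (Nat.not_lt_zero _)) rrQ1_s_0 (by decide)) rrQ1_s_1 (by decide)) rrQ1_s_2 (by decide)) rrQ1_s_3 (by decide)) rrQ1_s_4 (by decide)) rrQ1_s_5 (by decide)) rrQ1_s_6 (by decide))

theorem rrQ1_k : ∀ j < nat_lit 1024, (kchk rrQ1_key (rrQ1.lv a2_28.mul a2_28.one).U rrQ1_kt (nat_lit 1024)) j = true :=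
  (allR_step (c := nat_lit 1024) (allR_step (c := nat_lit 600) (fun _ h => absurd h (Nat.not_lt_zero _)) rrQ1_k_0 (by decide)) rrQ1_k_1 (by decide))

theorem rrQ2_s : ∀ j < nat_lit 5, (schk a2_28.mul Nat.beq a2_28.one rrQ2_g (rrQ2.lv a2_28.mul a2_28.one) rrQ3_ls) j = true :=
  (allR_step (c := nat_lit 5) (fun _ h => absurd h (Nat.not_lt_zero _)) rrQ2_s_0 (by decide))

theorem rrQ2_k : ∀ j < nat_lit 5, (kchk rrQ2_key (rrQ2.lv a2_28.mul a2_28.one).U rrQ2_kt (nat_lit 5)) j = true :=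
  (allR_step (c := nat_lit 5) (fun _ h => absurd h (Nat.not_lt_zero _)) rrQ2_k_0 (by decide))

theorem rrQ3_s : ∀ j < nat_lit 2, (schk a2_28.mul Nat.beq a2_28.one rrQ3_g (rrQ3.lv a2_28.mul a2_28.one) rrQ4_ls) j = true :=
  (allR_step (c := nat_lit 2) (fun _ h => absurd h (Nat.not_lt_zero _)) rrQ3_s_0 (by decide))

theorem rrQ3_k : ∀ j < nat_lit 2, (kchk rrQ3_key (rrQ3.lv a2_28.mul a2_28.one).U rrQ3_kt (nat_lit 2)) j = true :=
  (allR_step (c := nat_lit 2) (fun _ h => absurd h (Nat.not_lt_zero _)) rrQ3_k_0 (by decide))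

theorem rrQ4_s : ∀ j < nat_lit 2, (schk a2_28.mul Nat.beq a2_28.one rrQ4_g (rrQ4.lv a2_28.mul a2_28.one) rrQ5_ls) j = true :=
  (allR_step (c := nat_lit 2) (fun _ h => absurd h (Nat.not_lt_zero _)) rrQ4_s_0 (by decide))

theorem rrQ4_k : ∀ j < nat_lit 2, (kchk rrQ4_key (rrQ4.lv a2_28.mul a2_28.one).U rrQ4_kt (nat_lit 2)) j = true :=
  (allR_step (c := nat_lit 2) (fun _ h => absurd h (Nat.not_lt_zero _)) rrQ4_k_0 (by decide))

theorem rrP1_s : ∀ j < nat_lit 25, (schk a2_28.mul Nat.beq a2_28.one rrP1_g (rrP1.lv a2_28.mul a2_28.one) rrP2_ls) j = true :=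
  (allR_step (c := nat_lit 25) (fun _ h => absurd h (Nat.not_lt_zero _)) rrP1_s_0 (by decide))

theorem rrP1_k : ∀ j < nat_lit 25, (kchk rrP1_key (rrP1.lv a2_28.mul a2_28.one).U rrP1_kt (nat_lit 25)) j = true :=
  (allR_step (c := nat_lit 25) (fun _ h => absurd h (Nat.not_lt_zero _)) rrP1_k_0 (by decide))

theorem rrN1_s : ∀ j < nat_lit 300, (schk a2_28.mul Nat.beq a2_28.one rrN1_g (rrN1.lv a2_28.mul a2_28.one) rrN2_ls) j = true :=
  (allR_step (c := nat_lit 300) (allR_step (c := nat_lit 150) (fun _ h => absurd h (Nat.not_lt_zero _)) rrN1_s_0 (by decide)) rrN1_s_1 (by decide))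

theorem rrN1_k : ∀ j < nat_lit 300, (kchk rrN1_key (rrN1.lv a2_28.mul a2_28.one).U rrN1_kt (nat_lit 300)) j = true :=
  (allR_step (c := nat_lit 300) (fun _ h => absurd h (Nat.not_lt_zero _)) rrN1_k_0 (by decide))

theorem rrN2_s : ∀ j < nat_lit 8, (schk a2_28.mul Nat.beq a2_28.one rrN2_g (rrN2.lv a2_28.mul a2_28.one) rrN3_ls) j = true :=
  (allR_step (c := nat_lit 8) (fun _ h => absurd h (Nat.not_lt_zero _)) rrN2_s_0 (by decide))

theorem rrN2_k : ∀ j < nat_lit 8, (kchk rrN2_key (rrN2.lv a2_28.mul a2_28.one).U rrN2_kt (nat_lit 8)) j = true :=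
  (allR_step (c := nat_lit 8) (fun _ h => absurd h (Nat.not_lt_zero _)) rrN2_k_0 (by decide))

theorem rrM1_s : ∀ j < nat_lit 13, (schk a2_28.mul Nat.beq a2_28.one rrM1_g (rrM1.lv a2_28.mul a2_28.one) rrM2_ls) j = true :=
  (allR_step (c := nat_lit 13) (fun _ h => absurd h (Nat.not_lt_zero _)) rrM1_s_0 (by decide))

theorem rrM1_k : ∀ j < nat_lit 13, (kchk rrM1_key (rrM1.lv a2_28.mul a2_28.one).U rrM1_kt (nat_lit 13)) j = true :=
  (allR_step (c := nat_lit 13) (fun _ h => absurd h (Nat.not_lt_zero _)) rrM1_k_0 (by decide))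

theorem rrM2_s : ∀ j < nat_lit 3, (schk a2_28.mul Nat.beq a2_28.one rrM2_g (rrM2.lv a2_28.mul a2_28.one) rrM3_ls) j = true :=
  (allR_step (c := nat_lit 3) (fun _ h => absurd h (Nat.not_lt_zero _)) rrM2_s_0 (by decide))

theorem rrM2_k : ∀ j < nat_lit 3, (kchk rrM2_key (rrM2.lv a2_28.mul a2_28.one).U rrM2_kt (nat_lit 3)) j = true :=
  (allR_step (c := nat_lit 3) (fun _ h => absurd h (Nat.not_lt_zero _)) rrM2_k_0 (by decide))

theorem rrM3_s : ∀ j < nat_lit 2, (schk a2_28.mul Nat.beq a2_28.one rrM3_g (rrM3.lv a2_28.mul a2_28.one) rrM4_ls) j = true :=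
  (allR_step (c := nat_lit 2) (fun _ h => absurd h (Nat.not_lt_zero _)) rrM3_s_0 (by decide))

theorem rrM3_k : ∀ j < nat_lit 2, (kchk rrM3_key (rrM3.lv a2_28.mul a2_28.one).U rrM3_kt (nat_lit 2)) j = true :=
  (allR_step (c := nat_lit 2) (fun _ h => absurd h (Nat.not_lt_zero _)) rrM3_k_0 (by decide))

theorem rrM4_s : ∀ j < nat_lit 2, (schk a2_28.mul Nat.beq a2_28.one rrM4_g (rrM4.lv a2_28.mul a2_28.one) rrM5_ls) j = true :=
  (allR_step (c := nat_lit 2) (fun _ h => absurd h (Nat.not_lt_zero _)) rrM4_s_0 (by decide))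

theorem rrM4_k : ∀ j < nat_lit 2, (kchk rrM4_key (rrM4.lv a2_28.mul a2_28.one).U rrM4_kt (nat_lit 2)) j = true :=
  (allR_step (c := nat_lit 2) (fun _ h => absurd h (Nat.not_lt_zero _)) rrM4_k_0 (by decide))

theorem rrY1_s : ∀ j < nat_lit 13, (schk a2_28.mul Nat.beq a2_28.one rrY1_g (rrY1.lv a2_28.mul a2_28.one) rrY2_ls) j = true :=
  (allR_step (c := nat_lit 13) (fun _ h => absurd h (Nat.not_lt_zero _)) rrY1_s_0 (by decide))

theorem rrY1_k : ∀ j < nat_lit 13, (kchk rrY1_key (rrY1.lv a2_28.mul a2_28.one).U rrY1_kt (nat_lit 13)) j = true :=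
  (allR_step (c := nat_lit 13) (fun _ h => absurd h (Nat.not_lt_zero _)) rrY1_k_0 (by decide))

theorem rrL1_s : ∀ j < nat_lit 78, (schk a2_28.mul Nat.beq a2_28.one rrL1_g (rrL1.lv a2_28.mul a2_28.one) rrL2_ls) j = true :=
  (allR_step (c := nat_lit 78) (fun _ h => absurd h (Nat.not_lt_zero _)) rrL1_s_0 (by decide))

theorem rrL1_k : ∀ j < nat_lit 78, (kchk rrL1_key (rrL1.lv a2_28.mul a2_28.one).U rrL1_kt (nat_lit 78)) j = true :=
  (allR_step (c := nat_lit 78) (fun _ h => absurd h (Nat.not_lt_zero _)) rrL1_k_0 (by decide))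

theorem rrL2_s : ∀ j < nat_lit 25, (schk a2_28.mul Nat.beq a2_28.one rrL2_g (rrL2.lv a2_28.mul a2_28.one) rrL3_ls) j = true :=
  (allR_step (c := nat_lit 25) (fun _ h => absurd h (Nat.not_lt_zero _)) rrL2_s_0 (by decide))

theorem rrL2_k : ∀ j < nat_lit 25, (kchk rrL2_key (rrL2.lv a2_28.mul a2_28.one).U rrL2_kt (nat_lit 25)) j = true :=
  (allR_step (c := nat_lit 25) (fun _ h => absurd h (Nat.not_lt_zero _)) rrL2_k_0 (by decide))

theorem rrL3_s : ∀ j < nat_lit 4, (schk a2_28.mul Nat.beq a2_28.one rrL3_g (rrL3.lv a2_28.mul a2_28.one) rrL4_ls) j = true :=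
  (allR_step (c := nat_lit 4) (fun _ h => absurd h (Nat.not_lt_zero _)) rrL3_s_0 (by decide))

theorem rrL3_k : ∀ j < nat_lit 4, (kchk rrL3_key (rrL3.lv a2_28.mul a2_28.one).U rrL3_kt (nat_lit 4)) j = true :=
  (allR_step (c := nat_lit 4) (fun _ h => absurd h (Nat.not_lt_zero _)) rrL3_k_0 (by decide))

theorem rrE1_s : ∀ j < nat_lit 3, (schk a2_28.mul Nat.beq a2_28.one rrE1_g (rrE1.lv a2_28.mul a2_28.one) rrE2_ls) j = true :=
  (allR_step (c := nat_lit 3) (fun _ h => absurd h (Nat.not_lt_zero _)) rrE1_s_0 (by decide))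

theorem rrE1_k : ∀ j < nat_lit 3, (kchk rrE1_key (rrE1.lv a2_28.mul a2_28.one).U rrE1_kt (nat_lit 3)) j = true :=
  (allR_step (c := nat_lit 3) (fun _ h => absurd h (Nat.not_lt_zero _)) rrE1_k_0 (by decide))

theorem rrE2_s : ∀ j < nat_lit 3, (schk a2_28.mul Nat.beq a2_28.one rrE2_g (rrE2.lv a2_28.mul a2_28.one) rrE3_ls) j = true :=
  (allR_step (c := nat_lit 3) (fun _ h => absurd h (Nat.not_lt_zero _)) rrE2_s_0 (by decide))

theorem rrE2_k : ∀ j < nat_lit 3, (kchk rrE2_key (rrE2.lv a2_28.mul a2_28.one).U rrE2_kt (nat_lit 3)) j = true :=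
  (allR_step (c := nat_lit 3) (fun _ h => absurd h (Nat.not_lt_zero _)) rrE2_k_0 (by decide))

theorem rrD1_dc : ∀ j < nat_lit 2304, (dcAt2 a2_28.mul Nat.beq a2_28.one rrJ1_ls rrJ1_ls rrD1_x ruA2_g rrD1_ms rrD1_tb (nat_lit 2304)) j = true :=
  (allR_step (c := nat_lit 2304) (allR_step (c := nat_lit 2250) (allR_step (c := nat_lit 2100) (allR_step (c := nat_lit 1950) (allR_step (c := nat_lit 1800) (allR_step (c := nat_lit 1650) (allR_step (c := nat_lit 1500) (allR_step (c := nat_lit 1350) (allR_step (c := nat_lit 1200) (allR_step (c := nat_lit 1050) (allR_step (c := nat_lit 900) (allR_step (c := nat_lit 750) (allR_step (c := nat_lit 600) (allR_step (c := nat_lit 450) (allR_step (c := nat_lit 300) (allR_step (c := nat_lit 150) (fun _ h => absurd h (Nat.not_lt_zero _)) rrD1_dc_0 (by decide)) rrD1_dc_1 (by decide)) rrD1_dc_2 (by decide)) rrD1_dc_3 (by decide)) rrD1_dc_4 (by decide)) rrD1_dc_5 (by decide)) rrD1_dc_6 (by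 decide)) rrD1_dc_7 (by decide)) rrD1_dc_8 (by decide)) rrD1_dc_9 (by decide)) rrD1_dc_10 (by decide)) rrD1_dc_11 (by decide)) rrD1_dc_12 (by decide)) rrD1_dc_13 (by decide)) rrD1_dc_14 (by decide)) rrD1_dc_15 (by decide))

theorem rrD4_dc : ∀ j < nat_lit 325, (dcAt2 a2_28.mul Nat.beq a2_28.one rrC1_ls rrC1_ls rrD4_x rrJ1_g rrD4_ms rrD4_tb (nat_lit 325)) j = true :=
  (allR_step (c := nat_lit 325) (allR_step (c := nat_lit 300) (allR_step (c := nat_lit 150) (fun _ h => absurd h (Nat.not_lt_zero _)) rrD4_dc_0 (by decide)) rrD4_dc_1 (by decide)) rrD4_dc_2 (by decide))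

theorem rrD5_dc : ∀ j < nat_lit 1755, (dcAt2 a2_28.mul Nat.beq a2_28.one rrK1_ls rrQ1_ls rrD5_x ruA2_g rrD5_ms rrD5_tb (nat_lit 1755)) j = true :=
  (allR_step (c := nat_lit 1755) (allR_step (c := nat_lit 1650) (allR_step (c := nat_lit 1500) (allR_step (c := nat_lit 1350) (allR_step (c := nat_lit 1200) (allR_step (c := nat_lit 1050) (allR_step (c := nat_lit 900) (allR_step (c := nat_lit 750) (allR_step (c := nat_lit 600) (allR_step (c := nat_lit 450) (allR_step (c := nat_lit 300) (allR_step (c := nat_lit 150) (fun _ h => absurd h (Nat.not_lt_zero _)) rrD5_dc_0 (by decide)) rrD5_dc_1 (by decide)) rrD5_dc_2 (by decide)) rrD5_dc_3 (by decide)) rrD5_dc_4 (by decide)) rrD5_dc_5 (by decide)) rrD5_dc_6 (by decide)) rrD5_dc_7 (by decide)) rrD5_dc_8 (by decide)) rrD5_dc_9 (by decide)) rrD5_dc_10 (by decide)) rrD5_dc_11 (by decide))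

theorem rrD6_dc : ∀ j < nat_lit 1755, (dcAt2 a2_28.mul Nat.beq a2_28.one rrJ1_ls rrQ1_ls rrD6_x ruA2_g rrD6_ms rrD6_tb (nat_lit 1755)) j = true :=
  (allR_step (c := nat_lit 1755) (allR_step (c := nat_lit 1650) (allR_step (c := nat_lit 1500) (allR_step (c := nat_lit 1350) (allR_step (c := nat_lit 1200) (allR_step (c := nat_lit 1050) (allR_step (c := nat_lit 900) (allR_step (c := nat_lit 750) (allR_step (c := nat_lit 600) (allR_step (c := nat_lit 450) (allR_step (c := nat_lit 300) (allR_step (c := nat_lit 150) (fun _ h => absurd h (Nat.not_lt_zero _)) rrD6_dc_0 (by decide)) rrD6_dc_1 (by decide)) rrD6_dc_2 (by decide)) rrD6_dc_3 (by decide)) rrD6_dc_4 (by decide)) rrD6_dc_5 (by decide)) rrD6_dc_6 (by decide)) rrD6_dc_7 (by decide)) rrD6_dc_8 (by decide)) rrD6_dc_9 (by decide)) rrD6_dc_10 (by decide)) rrD6_dc_11 (by decide))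

theorem rrD2_dc : ∀ j < nat_lit 14976, (dcAt2 a2_28.mul Nat.beq a2_28.one rrM1_ls rrN1_ls rrD2_x ruA2_g rrD2_ms rrD2_tb (nat_lit 14976)) j = true :=
  (allR_step (c := nat_lit 14976) (allR_step (c := nat_lit 14800) (allR_step (c := nat_lit 14600) (allR_step (c := nat_lit 14400) (allR_step (c := nat_lit 14200) (allR_step (c := nat_lit 14000) (allR_step (c := nat_lit 13800) (allR_step (c := nat_lit 13600) (allR_step (c := nat_lit 13400) (allR_step (c := nat_lit 13200) (allR_step (c := nat_lit 13000) (allR_step (c := nat_lit 12800) (allR_step (c := nat_lit 12600) (allR_step (c := nat_lit 12400) (allR_step (c := nat_lit 12200) (allR_step (c := nat_lit 12000) (allR_step (c := nat_lit 11800) (allR_step (c := nat_lit 11600) (allR_step (c := nat_lit 11400) (allR_step (c := nat_lit 11200) (allR_step (c := nat_lit 11000) (allR_step (c := nat_lit 10800) (allR_step (c := nat_lit 10600) (allR_step (c := nat_lit 10400) (allR_step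 (c := nat_lit 10200) (allR_step (c := nat_lit 10000) (allR_step (c := nat_lit 9800) (allR_step (c := nat_lit 9600) (allR_step (c := nat_lit 9400) (allR_step (c := nat_lit 9200) (allR_step (c := nat_lit 9000) (allR_step (c := nat_lit 8800) (allR_step (c := nat_lit 8600) (allR_step (c := nat_lit 8400) (allR_step (c := nat_lit 8200) (allR_step (c := nat_lit 8000) (allR_step (c := nat_lit 7800) (allR_step (c := nat_lit 7600) (allR_step (c := nat_lit 7400) (allR_step (c := nat_lit 7200) (allR_step (c := nat_lit 7000) (allR_step (c := nat_lit 6800) (allR_step (c := nat_lit 6600) (allR_step (c := nat_lit 6400) (allR_step (c := nat_lit 6200) (allR_step (c := nat_lit 6000) (allR_step (c := nat_lit 5800) (allR_step (c := nat_lit 5600) (allR_step (c := nat_lit 5400) (allR_step (c := nat_lit 5200) (allR_step (c := nat_lit 5000) (allR_step (c := nat_lit 4800) (allR_step (c := nat_lit 4600) (allR_step (c := nat_lit 4400) (allR_step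 (c := nat_lit 4200) (allR_step (c := nat_lit 4000) (allR_step (c := nat_lit 3800) (allR_step (c := nat_lit 3600) (allR_step (c := nat_lit 3400) (allR_step (c := nat_lit 3200) (allR_step (c := nat_lit 3000) (allR_step (c := nat_lit 2800) (allR_step (c := nat_lit 2600) (allR_step (c := nat_lit 2400) (allR_step (c := nat_lit 2200) (allR_step (c := nat_lit 2000) (allR_step (c := nat_lit 1800) (allR_step (c := nat_lit 1600) (allR_step (c := nat_lit 1400) (allR_step (c := nat_lit 1200) (allR_step (c := nat_lit 1000) (allR_step (c := nat_lit 800) (allR_step (c := nat_lit 600) (allR_step (c := nat_lit 400) (allR_step (c := nat_lit 200) (fun _ h => absurd h (Nat.not_lt_zero _)) rrD2_dc_0 (by decide)) rrD2_dc_1 (by decide)) rrD2_dc_2 (by decide)) rrD2_dc_3 (by decide)) rrD2_dc_4 (by decide)) rrD2_dc_5 (by decide)) rrD2_dc_6 (by decide)) rrD2_dc_7 (by decide)) rrD2_dc_8 (by decide)) rrD2_dc_9 (by decide)) rrD2_dc_10 (by decide))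 rrD2_dc_11 (by decide)) rrD2_dc_12 (by decide)) rrD2_dc_13 (by decide)) rrD2_dc_14 (by decide)) rrD2_dc_15 (by decide)) rrD2_dc_16 (by decide)) rrD2_dc_17 (by decide)) rrD2_dc_18 (by decide)) rrD2_dc_19 (by decide)) rrD2_dc_20 (by decide)) rrD2_dc_21 (by decide)) rrD2_dc_22 (by decide)) rrD2_dc_23 (by decide)) rrD2_dc_24 (by decide)) rrD2_dc_25 (by decide)) rrD2_dc_26 (by decide)) rrD2_dc_27 (by decide)) rrD2_dc_28 (by decide)) rrD2_dc_29 (by decide)) rrD2_dc_30 (by decide)) rrD2_dc_31 (by decide)) rrD2_dc_32 (by decide)) rrD2_dc_33 (by decide)) rrD2_dc_34 (by decide)) rrD2_dc_35 (by decide)) rrD2_dc_36 (by decide)) rrD2_dc_37 (by decide)) rrD2_dc_38 (by decide)) rrD2_dc_39 (by decide)) rrD2_dc_40 (by decide)) rrD2_dc_41 (by decide)) rrD2_dc_42 (by decide)) rrD2_dc_43 (by decide)) rrD2_dc_44 (by decide)) rrD2_dc_45 (by decide)) rrD2_dc_46 (by decide)) rrD2_dc_47 (by decide)) rrD2_dc_48 (by decide)) rrD2_dc_49 (by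 decide)) rrD2_dc_50 (by decide)) rrD2_dc_51 (by decide)) rrD2_dc_52 (by decide)) rrD2_dc_53 (by decide)) rrD2_dc_54 (by decide)) rrD2_dc_55 (by decide)) rrD2_dc_56 (by decide)) rrD2_dc_57 (by decide)) rrD2_dc_58 (by decide)) rrD2_dc_59 (by decide)) rrD2_dc_60 (by decide)) rrD2_dc_61 (by decide)) rrD2_dc_62 (by decide)) rrD2_dc_63 (by decide)) rrD2_dc_64 (by decide)) rrD2_dc_65 (by decide)) rrD2_dc_66 (by decide)) rrD2_dc_67 (by decide)) rrD2_dc_68 (by decide)) rrD2_dc_69 (by decide)) rrD2_dc_70 (by decide)) rrD2_dc_71 (by decide)) rrD2_dc_72 (by decide)) rrD2_dc_73 (by decide)) rrD2_dc_74 (by decide))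

structure RrF {X : Type*} [Group X] (M : Model X) : Prop where
  h1 : M.mul = a2_28.mul
  h2 : M.eqb = Nat.beq
  h3 : M.one = a2_28.one
  vv : ∀ c ∈ ruA2_g, M.In ⊤ c
  va : ∀ c ∈ rr_aux, M.In ⊤ c
  top : M.cl ruA2_g = ⊤
  card : Nat.card X = 35942400
  nm : ∀ c g, M.R c g → rr_nm c = true → g ∉ M.cl rrJ1_g
  cJ : Chain M (M.cl rrJ1_g) rrJ1_ls
  nJ : Nat.card (M.cl rrJ1_g) = 15600
  cU : Chain M (M.cl rrU1_g) rrU1_ls
  nU : Nat.card (M.cl rrU1_g) = 200
  cC : Chain M (M.cl rrC1_g) rrC1_ls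
  nC : Nat.card (M.cl rrC1_g) = 48
  cV : Chain M (M.cl rrV1_g) rrV1_ls
  nV : Nat.card (M.cl rrV1_g) = 52
  cW : Chain M (M.cl rrW1_g) rrW1_ls
  nW : Nat.card (M.cl rrW1_g) = 52
  cS : Chain M (M.cl rrS1_g) rrS1_ls
  nS : Nat.card (M.cl rrS1_g) = 24
  cT : Chain M (M.cl rrT1_g) rrT1_ls
  nT : Nat.card (M.cl rrT1_g) = 16
  cK : Chain M (M.cl rrK1_g) rrK1_ls
  nK : Nat.card (M.cl rrK1_g) = 5120
  cQ : Chain M (M.cl rrQ1_g) rrQ1_ls
  nQ : Nat.card (M.cl rrQ1_g) = 20480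
  cP : Chain M (M.cl rrP1_g) rrP1_ls
  nP : Nat.card (M.cl rrP1_g) = 25
  cN : Chain M (M.cl rrN1_g) rrN1_ls
  nN : Nat.card (M.cl rrN1_g) = 2400
  cM : Chain M (M.cl rrM1_g) rrM1_ls
  nM : Nat.card (M.cl rrM1_g) = 156
  cY : Chain M (M.cl rrY1_g) rrY1_ls
  nY : Nat.card (M.cl rrY1_g) = 13
  cL : Chain M (M.cl rrL1_g) rrL1_ls
  nL : Nat.card (M.cl rrL1_g) = 7800
  cE : Chain M (M.cl rrE1_g) rrE1_ls
  nE : Nat.card (M.cl rrE1_g) = 9

theorem rr_facts {G : Type*} [Group G] (M : Model G) (h1 : M.mul = a2_28.mul) (h2 : M.eqb = Nat.beq)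
    (h3 : M.one = a2_28.one) (vv : ∀ c ∈ ruA2_g, M.In ⊤ c) {St : Subgroup G} (k1 : Key M St rr1_key rr1_fix) [Finite G] (ht : M.cl ruA2_g = ⊤) (hc : Nat.card G = 35942400) : RrF M := by
  obtain ⟨R, one, mul, eqb, a1, a2, a3⟩ := M
  dsimp only at h1 h2 h3
  subst h1 h2 h3
  set M : Model G := ⟨R, a2_28.one, a2_28.mul, Nat.beq, a1, a2, a3⟩ with hM
  have va := in_of_slpW (M := M) _ vv rr_auxok
  obtain ⟨trrJ1, hTrrJ1⟩ := exists_R va (c := (nat_lit 0xe0155e45a411c819e22ebd55b1bb27ffa4abbfdbbdfaae73d5ed9e8722473160642f65e42349c761bd53030e2694faba7493297df7168a94c8ba410b0422848fb2a8337752ea0b87efd45ce386310bcbe4d70e724a10ffe6d45dc6273627f0000001)) (by (try dsimp only [M]); decide +kernel)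
  have krrJ1 : Key M (cjS St trrJ1) rrJ1_key rrJ1_fix := k1.keyT hTrrJ1 (R_inv_of hTrrJ1 (exists_R va (c := (nat_lit 0x6c08b8d52de8a9025833528556f5666fb36bbfdbbd4a004e8bfef028080ca8d399ec916401fd8807b5e541203e2011ee016f761c853d56f6f003f7ba1f570d06e9ec856e5dee3f81ebd46a70a8c98de943b6c585536c81e29857610e1e3b10000001)) (by (try dsimp only [M]); decide +kernel)) (by (try dsimp only [M]); decide +kernel)) _
  obtain ⟨trrJ2, hTrrJ2⟩ := exists_R va (c := (nat_lit 0x4ac0f74345290356fc977586fd1fd5fb3b8690f9e2bad0f7ba8d164d419d93789ceb9d225a66285e3c9d9a0476a0be5c21b4f966750012523555cd5080ca8d7803df71bc0d398f994de3aea53c005796d0ca3826cb17d85dcd43305ab30c60000001)) (by (try dsimp only [M]); decide +kernel)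
  have krrJ2 : Key M (cjS St trrJ2) rrJ2_key rrJ2_fix := k1.keyT hTrrJ2 (R_inv_of hTrrJ2 (exists_R va (c := (nat_lit 0x325e8fa892ffe94faba74ea7cd9e73af07140df53c229a4104529c5dcb6d9794cd773fc376b4b243008d8f5c687676154857054a8d127ce925d1036db8dff719d055e0b11b89ab2f8d0b31607218ceb50ac991c038c043d347ce3ab42aa720000001)) (by (try dsimp only [M]); decide +kernel)) (by (try dsimp only [M]); decide +kernel)) _
  obtain ⟨trrJ3, hTrrJ3⟩ := exists_R va (c := (nat_lit 0x9f6062fca9d42d45387a20c7f69f2842b633043c71d1f38ac8616a751cf5c5d427fb966e72c18f561f6dfa2a77be1943ef006000c235deb1b77cf7aa81ae025d5d642d1d6e3bc06061c3c3e6aa56aaf98b9abd877bd29302f83c1a7a4913f0000001)) (by (try dsimp only [M]); decide +kernel)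
  have krrJ3 : Key M (cjS St trrJ3) rrJ3_key rrJ3_fix := k1.keyT hTrrJ3 (R_inv_of hTrrJ3 (exists_R va (c := (nat_lit 0x57010988f2afab60c9a193b6c4a527ffa4a5a0a03e6bbee975cc5e0a7803df7290d199030e269882fced127a57d9242479e32cdc0362a1a87e5e71909a40fe217e59bc15a21357056a0955672ab1f1957f0f3ad63f81ebd1580d4d3fca2e70000001)) (by (try dsimp only [M]); decide +kernel)) (by (try dsimp only [M]); decide +kernel)) _
  obtain ⟨trrJ4, hTrrJ4⟩ := exists_R va (c := (nat_lit 0x5a777c427338012627608e78c338c200384648c50a321cd7bbf21281e2d4cbfd16541461a549f2d46a470f77bbda02b86545387a2d9efccf0f62bc67f05a8e2b58e9be1cf9c15936c75bf4f44487e18ceb67bcce310c26eee5df2d1059a4c0000001)) (by (try dsimp only [M]); decide +kernel)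
  have krrJ4 : Key M (cjS St trrJ4) rrJ4_key rrJ4_fix := k1.keyT hTrrJ4 (R_inv_of hTrrJ4 (exists_R va (c := (nat_lit 0x8616a75cd176d9e9033d040c752bbbee3d6ccc747acb5923199830790ac1230adb752422f2d79e78d4b8166d1b6ecaa674b365c7bc278788837c7d17803df748461a54fff0d2a3ed23f784301dfda0481679d07d419d9372c0cdd56ab40930000001)) (by (try dsimp only [M]); decide +kernel)) (by (try dsimp only [M]); decide +kernel)) _
  have grrJ1 : ∀ c ∈ rrJ1_g, M.In ⊤ c := valid_sub va (by (try dsimp only [M]); decide +kernel)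
  have grrJ2 := LvD.valid_next (D := rrJ1) grrJ1 rrJ1_ok rrJ1_next
  have lrrJ1 := LvD.le_next (D := rrJ1) grrJ1 rrJ1_ok rrJ1_next
  have grrJ3 := LvD.valid_next (D := rrJ2) grrJ2 rrJ2_ok rrJ2_next
  have lrrJ2 := LvD.le_next (D := rrJ2) grrJ2 rrJ2_ok rrJ2_next
  have grrJ4 := LvD.valid_next (D := rrJ3) grrJ3 rrJ3_ok rrJ3_next
  have lrrJ3 := LvD.le_next (D := rrJ3) grrJ3 rrJ3_ok rrJ3_next
  have grrJ5 := LvD.valid_next (D := rrJ4) grrJ4 rrJ4_ok rrJ4_next
  have lrrJ4 := LvD.le_next (D := rrJ4) grrJ4 rrJ4_ok rrJ4_next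
  have errJ5 : Exact M (M.cl rrJ5_g) rrJ5_ls ∧ True := ⟨Exact.nil, trivial⟩
  have errJ4 := LvD.exact (D := rrJ4) grrJ4 rrJ4_ok errJ5.1 lrrJ4 rrJ4_s krrJ4 rrJ4_fx rrJ4_k
  have errJ3 := LvD.exact (D := rrJ3) grrJ3 rrJ3_ok errJ4.1 lrrJ3 rrJ3_s krrJ3 rrJ3_fx rrJ3_k
  have errJ2 := LvD.exact (D := rrJ2) grrJ2 rrJ2_ok errJ3.1 lrrJ2 rrJ2_s krrJ2 rrJ2_fx rrJ2_k
  have errJ1 := LvD.exact (D := rrJ1) grrJ1 rrJ1_ok errJ2.1 lrrJ1 rrJ1_s krrJ1 rrJ1_fx rrJ1_k
  have crrJ : Nat.card (M.cl rrJ1_g) = 15600 := errJ1.1.2.trans (by (try dsimp only [M]); decide +kernel)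
  obtain ⟨trrU1, hTrrU1⟩ := exists_R va (c := (nat_lit 0x266144cc232b1f9880b367b863967c580f3ef07e7e586dc48df410ab4d70c5272faeccf4c3901e8cdaebe8bee4e964a222e8dd820e01cc9acca189ff6f078146a70a8ab9f35a4ede0f00451428a9b39a3c14defad8d4a38e0dbc1ddb5ebba0000001)) (by (try dsimp only [M]); decide +kernel)
  have krrU1 : Key M (cjS St trrU1) rrU1_key rrU1_fix := k1.keyT hTrrU1 (R_inv_of hTrrU1 (exists_R va (c := (nat_lit 0xab2f8d02a00177c02d6bd8b305759672fdd6490e3139c3b939102b2e165178f03c1f915f70c1cb6751fe63fd4895921ecd382fba22e01b269d78c6156dfabad5e86a330440a4d88728de241a4dfd3242487c3f6a54c85a68f98ee50d81a3a0000001)) (by (try dsimp only [M]); decide +kernel)) (by (try dsimp only [M]); decide +kernel)) _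
  obtain ⟨trrU2, hTrrU2⟩ := exists_R va (c := (nat_lit 0x82bbdfdc46fcfa56fcb736f014474a00dfefe086425cb83815eef0c843bf344819635a690f9e2b365c7b48d53e3322ca962ea0fd34a274bd5a777c4df6ff3479953a06f82129c11088b86d561cb6ab5fe784301d984ece92dd84f14894cce0000001)) (by (try dsimp only [M]); decide +kernel)
  have krrU2 : Key M (cjS St trrU2) rrU2_key rrU2_fix := k1.keyT hTrrU2 (R_inv_of hTrrU2 (exists_R va (c := (nat_lit 0xeef255131ba78a10cf31eb60bf205187bf53e769d9c2063a64ba745be848bc82255782064e468509b41bd4edfba1c24db7bb24069473e053d88ccc9bd2b13c7683c0ff9c38cb0f70a425f9b0f2eea7aab79953a0832d985e20edcd90a5d140000001)) (by (try dsimp only [M]); decide +kernel)) (by (try dsimp only [M]); decide +kernel)) _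
  obtain ⟨trrU3, hTrrU3⟩ := exists_R va (c := (nat_lit 0xd31a6e3b0893a0fa7dd50bd728750a799f720d9326000000f6e0c02b9e59f863c838e5fcde2daaa2f90079d316f188a8db8a0dc775943a3ccafe28239add8f93b2c81ba37f57db8dff7dd5dcc2c82a5594135dee600ecef26860cc0f698d30000001)) (by (try dsimp only [M]); decide +kernel)
  have krrU3 : Key M (cjS St trrU3) rrU3_key rrU3_fix := k1.keyT hTrrU3 (R_inv_of hTrrU3 (exists_R va (c := (nat_lit 0x20978cf9df1e2a2ea0fd3e96f8ac1b01fb1e45546ce8e6ebb0ab5bd455f1323a640cfe6c60163e688646328b3aeb7a556aed77ff653a44c488f81249062b2208223ad22a5ba7015f6fb7893136b85e50811c09dcce6fc219a9375356fcb730000001)) (by (try dsimp only [M]); decide +kernel)) (by (try dsimp only [M]); decide +kernel)) _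
  have grrU1 : ∀ c ∈ rrU1_g, M.In ⊤ c := valid_sub va (by (try dsimp only [M]); decide +kernel)
  have grrU2 := LvD.valid_next (D := rrU1) grrU1 rrU1_ok rrU1_next
  have lrrU1 := LvD.le_next (D := rrU1) grrU1 rrU1_ok rrU1_next
  have grrU3 := LvD.valid_next (D := rrU2) grrU2 rrU2_ok rrU2_next
  have lrrU2 := LvD.le_next (D := rrU2) grrU2 rrU2_ok rrU2_next
  have grrU4 := LvD.valid_next (D := rrU3) grrU3 rrU3_ok rrU3_next
  have lrrU3 := LvD.le_next (D := rrU3) grrU3 rrU3_ok rrU3_next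
  have errU4 : Exact M (M.cl rrU4_g) rrU4_ls ∧ True := ⟨Exact.nil, trivial⟩
  have errU3 := LvD.exact (D := rrU3) grrU3 rrU3_ok errU4.1 lrrU3 rrU3_s krrU3 rrU3_fx rrU3_k
  have errU2 := LvD.exact (D := rrU2) grrU2 rrU2_ok errU3.1 lrrU2 rrU2_s krrU2 rrU2_fx rrU2_k
  have errU1 := LvD.exact (D := rrU1) grrU1 rrU1_ok errU2.1 lrrU1 rrU1_s krrU1 rrU1_fx rrU1_k
  have crrU : Nat.card (M.cl rrU1_g) = 200 := errU1.1.2.trans (by (try dsimp only [M]); decide +kernel)
  obtain ⟨trrC1, hTrrC1⟩ := exists_R va (c := (nat_lit 0x4d42adb7a6e85566c42bc77372341128e816fc58440258335249a108882fced4bca04d78751a3df573151b8be4fe9c4f2645ebe979e9cc3c0f698d3b49a631c81bdbd0d4585fb17fece3d05dc4005796dc82a559ac8805419ee78c41c04eb0000001)) (by (try dsimp only [M]); decide +kernel)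
  have krrC1 : Key M (cjS St trrC1) rrC1_key rrC1_fix := k1.keyT hTrrC1 (R_inv_of hTrrC1 (exists_R va (c := (nat_lit 0xa6497b16584ce256a3c6bde85b044af89d6d262160591273521777549e2dac52426728ba2a77a48ec9e966c9a82f1ea8d9ed41a25e80783dcab2e6006e9ec8bd65f1e00deda95a2fe1f48eed1534d0ff62e18814d856329f66262206567450000001)) (by (try dsimp only [M]); decide +kernel)) (by (try dsimp only [M]); decide +kernel)) _
  obtain ⟨trrC2, hTrrC2⟩ := exists_R va (c := (nat_lit 0x8b199943139665e52c4194369e66fa6d6266706983558a21bca1254cc9d7c810a3942d848398e39afd87ca4dc38e7847388616a752b31430620486f2627608ac88054769fb2329cbc9f3ecb314c11088b5b4e9b3d995c2ac0149389eff8430000001)) (by (try dsimp only [M]); decide +kernel)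
  have krrC2 : Key M (cjS St trrC2) rrC2_key rrC2_fix := k1.keyT hTrrC2 (R_inv_of hTrrC2 (exists_R va (c := (nat_lit 0x812d19a07d848f620ddd99f1ce694abaf8c89d0c2578ef3908c6df259bdd52489ceb9d7f814ee7e6ec4117e0c6b9672fddf37cb67127a57dc7c3a5f6bf44cd56dfabaab9361ff79c810f35a701561b295f24e56aa6ecd32ad636cee24592d0000001)) (by (try dsimp only [M]); decide +kernel)) (by (try dsimp only [M]); decide +kernel)) _
  have grrC1 : ∀ c ∈ rrC1_g, M.In ⊤ c := valid_sub va (by (try dsimp only [M]); decide +kernel)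
  have grrC2 := LvD.valid_next (D := rrC1) grrC1 rrC1_ok rrC1_next
  have lrrC1 := LvD.le_next (D := rrC1) grrC1 rrC1_ok rrC1_next
  have grrC3 := LvD.valid_next (D := rrC2) grrC2 rrC2_ok rrC2_next
  have lrrC2 := LvD.le_next (D := rrC2) grrC2 rrC2_ok rrC2_next
  have errC3 : Exact M (M.cl rrC3_g) rrC3_ls ∧ True := ⟨Exact.nil, trivial⟩
  have errC2 := LvD.exact (D := rrC2) grrC2 rrC2_ok errC3.1 lrrC2 rrC2_s krrC2 rrC2_fx rrC2_k
  have errC1 := LvD.exact (D := rrC1) grrC1 rrC1_ok errC2.1 lrrC1 rrC1_s krrC1 rrC1_fx rrC1_k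
  have crrC : Nat.card (M.cl rrC1_g) = 48 := errC1.1.2.trans (by (try dsimp only [M]); decide +kernel)
  obtain ⟨trrV1, hTrrV1⟩ := exists_R va (c := (nat_lit 0xc4169ccf97d026571a3d32ccde45b842280c19275e7995eaac6ad03306dc25ec16d2247735605994e237995a44c498c5000e6cfbf26917a75bec9e5e73d3fdb740fd0d37c18f734661cf7dbc8a6e8ddadab1057527e4e0b0b3f2183b6c5850000001)) (by (try dsimp only [M]); decide +kernel)
  have krrV1 : Key M (cjS St trrV1) rrV1_key rrV1_fix := k1.keyT hTrrV1 (R_inv_of hTrrV1 (exists_R va (c := (nat_lit 0x400ce6244b351862a4c80611f9b847c9c5ffb2aa28a234559feb6f075452fbd286224f1219f118000280b8d17446e8ddad266f0be05f90b97a05f9c908f2bf1e7f40aef491ab1c0c1fe023a21a9af511ec9f7005ab10575971d6679a4dfed0000001)) (by (try dsimp only [M]); decide +kernel)) (by (try dsimp only [M]); decide +kernel)) _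
  obtain ⟨trrV2, hTrrV2⟩ := exists_R va (c := (nat_lit 0x7989557b06afa8973b8b12e1e0f621ac169db05ff7734661c4ede0f00b25eab37e936f8ccc61a88f9bfcdff8ac557cbf59f9168e128556f5f85d1cf0b6ab75050012429de0489c6a6ae1e1292e20e7fb08264e1f46f2ba09102b67e36e1120000001)) (by (try dsimp only [M]); decide +kernel)
  have krrV2 : Key M (cjS St trrV2) rrV2_key rrV2_fix := k1.keyT hTrrV2 (R_inv_of hTrrV2 (exists_R va (c := (nat_lit 0x7f98ee907992dcfc89b11801c8d413f5626604f3c25560bf857f33a1bbf3ef20b25eabd22a77b233c36ea5feec896581cf3356be37cd0e240ff1d557d81828061883a9a04ab49b596541a9e4fb4894cce7a0a572310bcbee52c419bfead8d0000001)) (by (try dsimp only [M]); decide +kernel)) (by (try dsimp only [M]); decide +kernel)) _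
  obtain ⟨trrV3, hTrrV3⟩ := exists_R va (c := (nat_lit 0x1b270661f5ecba6483e70c8a7482266f0bef9737109e4dec9e4260529e58a18fcfa8af13bb3e28a0dc776900a6f20978cf4bca04d278927ac9f700528e7c261a9e4fb53d363a3ca263f6352e9b5f7939588f6f09fde297a2b0e31e06ecfbf0000001)) (by (try dsimp only [M]); decide +kernel)
  have krrV3 : Key M (cjS St trrV3) rrV3_key rrV3_fix := k1.keyT hTrrV3 (R_inv_of hTrrV3 (exists_R va (c := (nat_lit 0x7bf766c3450d3290d3953fde197af4cce2c92aa1ad04f749f796cee7dd263b7e8d92370e6f78dce71346da504d8f662622563d618690f9e2c45a1d63b6f31a7ebae3bfb489ea30cd4f15a63d1d2d8ce1a025d671a04283dfeb6f07bad0f7b0000001)) (by (try dsimp only [M]); decide +kernel)) (by (try dsimp only [M]); decide +kernel)) _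
  have grrV1 : ∀ c ∈ rrV1_g, M.In ⊤ c := valid_sub va (by (try dsimp only [M]); decide +kernel)
  have grrV2 := LvD.valid_next (D := rrV1) grrV1 rrV1_ok rrV1_next
  have lrrV1 := LvD.le_next (D := rrV1) grrV1 rrV1_ok rrV1_next
  have grrV3 := LvD.valid_next (D := rrV2) grrV2 rrV2_ok rrV2_next
  have lrrV2 := LvD.le_next (D := rrV2) grrV2 rrV2_ok rrV2_next
  have grrV4 := LvD.valid_next (D := rrV3) grrV3 rrV3_ok rrV3_next
  have lrrV3 := LvD.le_next (D := rrV3) grrV3 rrV3_ok rrV3_next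
  have errV4 : Exact M (M.cl rrV4_g) rrV4_ls ∧ True := ⟨Exact.nil, trivial⟩
  have errV3 := LvD.exact (D := rrV3) grrV3 rrV3_ok errV4.1 lrrV3 rrV3_s krrV3 rrV3_fx rrV3_k
  have errV2 := LvD.exact (D := rrV2) grrV2 rrV2_ok errV3.1 lrrV2 rrV2_s krrV2 rrV2_fx rrV2_k
  have errV1 := LvD.exact (D := rrV1) grrV1 rrV1_ok errV2.1 lrrV1 rrV1_s krrV1 rrV1_fx rrV1_k
  have crrV : Nat.card (M.cl rrV1_g) = 52 := errV1.1.2.trans (by (try dsimp only [M]); decide +kernel)
  obtain ⟨trrW1, hTrrW1⟩ := exists_R va (c := (nat_lit 0xb25eab19a47e51e1c1fed36c14b70a3b44f845edec36f8d235ee61c999a2e89e56e0813cc7d7c82a5598111273ac3711ad6610fb3f32ff27a2e65b3d7aad0a015f495243fe2aa80da1b38cca99780473ed7e4b9697fa0c57f33a165c201f0000001)) (by (try dsimp only [M]); decide +kernel)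
  have krrW1 : Key M (cjS St trrW1) rrW1_key rrW1_fix := k1.keyT hTrrW1 (R_inv_of hTrrW1 (exists_R va (c := (nat_lit 0xaed5632199e2bb0e5a55f2f0e1e4b06d28e800038475589454c32a90784301dd3cdadaa8f2f496ad97f81477a8fc0d9e193f81191531e3840ce343663f8e9bf8221ff1224bcd73ef6fbc957df71329fa12962c9115db661a3568b2d0167e70000001)) (by (try dsimp only [M]); decide +kernel)) (by (try dsimp only [M]); decide +kernel)) _
  obtain ⟨trrW2, hTrrW2⟩ := exists_R va (c := (nat_lit 0xaaed75bc224f9d6eab308333b11d48bff9543b5d0f3ae80431161ed2e4837d161b12180c692bc271fa46595d640c82a559d6d1178c278788fa6d62637da2bdec84be949428db123b30fc663aa3decbf37a1f570d3f5a1d23de36d0bade1850000001)) (by (try dsimp only [M]); decide +kernel)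
  have krrW2 : Key M (cjS St trrW2) rrW2_key rrW2_fix := k1.keyT hTrrW2 (R_inv_of hTrrW2 (exists_R va (c := (nat_lit 0x561b2958b201a071e887407a60949e2dac53e26b6574ba822f343f0d6f3b11c7424484aa3546e0f70a429ae2f2df803f7f21477b5848398ee0e32dd816921136d288e6962686973b8b1cb6d979d3041a4da052d3abe1a3a6352e9b7e7cda40000001)) (by (try dsimp only [M]); decide +kernel)) (by (try dsimp only [M]); decide +kernel)) _
  obtain ⟨trrW3, hTrrW3⟩ := exists_R va (c := (nat_lit 0xde171e63a3d9573587ccaca9cc3c71b75de24e0c652246ac1e0975b9266f0be8c6df253fc66c763f8e9b56ccb29d7350b8e05da780598a0f3adc97bc9d7c21e848bc85a0a03e446674f7989557351816d7bf766c069d8cbee5df2deda642d0000001)) (by (try dsimp only [M]); decide +kernel)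
  have krrW3 : Key M (cjS St trrW3) rrW3_key rrW3_fix := k1.keyT hTrrW3 (R_inv_of hTrrW3 (exists_R va (c := (nat_lit 0x2db40daea7cd9e3af93fd63374467c488170ad6a10a627f32e4491a16428817eeb7005f491555016e2735d80199bcc35d59a7ceef1adca073834d8dfd324243f9fdede7854b079953a028e84312d5d20668762a0831d6738a92b35d87cd6b0000001)) (by (try dsimp only [M]); decide +kernel)) (by (try dsimp only [M]); decide +kernel)) _
  have grrW1 : ∀ c ∈ rrW1_g, M.In ⊤ c := valid_sub va (by (try dsimp only [M]); decide +kernel)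
  have grrW2 := LvD.valid_next (D := rrW1) grrW1 rrW1_ok rrW1_next
  have lrrW1 := LvD.le_next (D := rrW1) grrW1 rrW1_ok rrW1_next
  have grrW3 := LvD.valid_next (D := rrW2) grrW2 rrW2_ok rrW2_next
  have lrrW2 := LvD.le_next (D := rrW2) grrW2 rrW2_ok rrW2_next
  have grrW4 := LvD.valid_next (D := rrW3) grrW3 rrW3_ok rrW3_next
  have lrrW3 := LvD.le_next (D := rrW3) grrW3 rrW3_ok rrW3_next
  have errW4 : Exact M (M.cl rrW4_g) rrW4_ls ∧ True := ⟨Exact.nil, trivial⟩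
  have errW3 := LvD.exact (D := rrW3) grrW3 rrW3_ok errW4.1 lrrW3 rrW3_s krrW3 rrW3_fx rrW3_k
  have errW2 := LvD.exact (D := rrW2) grrW2 rrW2_ok errW3.1 lrrW2 rrW2_s krrW2 rrW2_fx rrW2_k
  have errW1 := LvD.exact (D := rrW1) grrW1 rrW1_ok errW2.1 lrrW1 rrW1_s krrW1 rrW1_fx rrW1_k
  have crrW : Nat.card (M.cl rrW1_g) = 52 := errW1.1.2.trans (by (try dsimp only [M]); decide +kernel)
  obtain ⟨trrS1, hTrrS1⟩ := exists_R va (c := (nat_lit 0x49faefd329a010ae563b865c00d9c298d69761ad43fba72cc4fea857e6617c87281f5279d316f5b05c7778df1ce90a5d14f8221ff81109aa19c1126a640cfefe7b27c6fc58447d939cdd4f73456f617a6b8aba0be0c9889742448494dcd0a0000001)) (by (try dsimp only [M]); decide +kernel)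
  have krrS1 : Key M (cjS St trrS1) rrS1_key rrS1_fix := k1.keyT hTrrS1 (R_inv_of hTrrS1 (exists_R va (c := (nat_lit 0x63e250a067761c9c7aa2865cf8cefc14ea2e3e417af561f6d65d925ec9d7c2123e03a5f27990d7a155320de5b2602818d3831d673e16030ed945e946c356334a10ffe6edfe1af4cce2cb1f19579e59f8671ee9cdd2d4e237427c4573f4d610000001)) (by (try dsimp only [M]); decide +kernel)) (by (try dsimp only [M]); decide +kernel)) _
  obtain ⟨trrS2, hTrrS2⟩ := exists_R va (c := (nat_lit 0x50eb7184014afceeb70059227bd92f8381e9606c56df573151f1da6c59a91e8e9775d33dc908b31ec5f48ccc61a6ca9ef9da405cd24e0c65a6ecd32948eac371b75dec87b9ef86d96360e6cfbfc562f2e3c8d09521dfc36c46db00f7095ee0000001)) (by (try dsimp only [M]); decide +kernel)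
  have krrS2 : Key M (cjS St trrS2) rrS2_key rrS2_fix := k1.keyT hTrrS2 (R_inv_of hTrrS2 (exists_R va (c := (nat_lit 0x93a608b68b48b8322ca96c7c66875b4e9b36f582553ae99533bcbe5994372c6321a076ca80da1266f0be573234c6bacc033f5a1d22ece9e9e8e6ebbc9973fe73e0ca0e586308b450a875e69b5cabe1a3a16ea2f14c624fee521bf0ddf4fc30000001)) (by (try dsimp only [M]); decide +kernel)) (by (try dsimp only [M]); decide +kernel)) _
  have grrS1 : ∀ c ∈ rrS1_g, M.In ⊤ c := valid_sub va (by (try dsimp only [M]); decide +kernel)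
  have grrS2 := LvD.valid_next (D := rrS1) grrS1 rrS1_ok rrS1_next
  have lrrS1 := LvD.le_next (D := rrS1) grrS1 rrS1_ok rrS1_next
  have grrS3 := LvD.valid_next (D := rrS2) grrS2 rrS2_ok rrS2_next
  have lrrS2 := LvD.le_next (D := rrS2) grrS2 rrS2_ok rrS2_next
  have errS3 : Exact M (M.cl rrS3_g) rrS3_ls ∧ True := ⟨Exact.nil, trivial⟩
  have errS2 := LvD.exact (D := rrS2) grrS2 rrS2_ok errS3.1 lrrS2 rrS2_s krrS2 rrS2_fx rrS2_k
  have errS1 := LvD.exact (D := rrS1) grrS1 rrS1_ok errS2.1 lrrS1 rrS1_s krrS1 rrS1_fx rrS1_k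
  have crrS : Nat.card (M.cl rrS1_g) = 24 := errS1.1.2.trans (by (try dsimp only [M]); decide +kernel)
  obtain ⟨trrT1, hTrrT1⟩ := exists_R va (c := (nat_lit 0xa0055043b2b2848f98ee5d1d6e3bc841cb41adca0744bd4a9d4b36f539ad12988c0cf4d853397b03288510a9726217a3a3f60de3c6900a6fc2063480e403dd705eb7e010010466f0b84e20edcd7cba9ffc0d9e19750390477baa9833556690000001)) (by (try dsimp only [M]); decide +kernel)
  have krrT1 : Key M (cjS St trrT1) rrT1_key rrT1_fix := k1.keyT hTrrT1 (R_inv_of hTrrT1 (exists_R va (c := (nat_lit 0x27affd286328413a79b6b709826ca6424fe9f4b1d97ebae3b423a902b6751fe50512e2d7dac69ad126529de21b2c1aa2f029f7c26305ea5f4a317ee2e18414b7e264548d53e37ebfcc608593e02b61aab54c85a6c0149380aefbe14c224ee0000001)) (by (try dsimp only [M]); decide +kernel)) (by (try dsimp only [M]); decide +kernel)) _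
  obtain ⟨trrT2, hTrrT2⟩ := exists_R va (c := (nat_lit 0xbb727cfe08642a6a7e44a1aaf366428817c2e73f46f9ee45c00e774be152251567d03437730f9062b223c05ccf3d7aad02ae6c9ddf4d78f85c74cc0000010b78d7e0bf1c1ec271fa463ade38537a2276070a2dad093e1943c04e45a0470b0000001)) (by (try dsimp only [M]); decide +kernel)
  have krrT2 : Key M (cjS St trrT2) rrT2_key rrT2_fix := k1.keyT hTrrT2 (R_inv_of hTrrT2 (exists_R va (c := (nat_lit 0x9a40fe8f2afab3903e15d7480012162e91bbd0ad8dc6e2401952e7dc9d7c812db40dab405c4d055ea6d0cf1ee7a90221d5d387bf211477ff61d15dd41a6fb2a4431b8b831f770f7d350c270f1dd3e4d80000400e9209ccdb8102e9091cbe0000001)) (by (try dsimp only [M]); decide +kernel)) (by (try dsimp only [M]); decide +kernel)) _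
  obtain ⟨trrT3, hTrrT3⟩ := exists_R va (c := (nat_lit 0x1f1da6c2429c39679d07d99b9a475bec9e5f86a256f50cec1ba20aed217e59b5f9b0f2750600a5a2fe1fab9f35ae36e11292424799606c563b39a9b779e5f2399ec91ca80da12c36d2906dc25e1e1c1fe8620bdd586dc4872f0ca00c09f5e0000001)) (by (try dsimp only [M]); decide +kernel)
  have krrT3 : Key M (cjS St trrT3) rrT3_key rrT3_fix := k1.keyT hTrrT3 (R_inv_of hTrrT3 (exists_R va (c := (nat_lit 0xd262460b339747e6936a437252ea831d673bc4e8db88c8efa2613f123d7aad072f0ca06785dc2f9168e1d8ad22b87ae00e57c65b35e04753d88728dd0ced51a40fd2a6caaedbb0385596bcd52b832f421006000c70f7d353a213a5586dc480000001)) (by (try dsimp only [M]); decide +kernel)) (by (try dsimp only [M]); decide +kernel)) _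
  have grrT1 : ∀ c ∈ rrT1_g, M.In ⊤ c := valid_sub va (by (try dsimp only [M]); decide +kernel)
  have grrT2 := LvD.valid_next (D := rrT1) grrT1 rrT1_ok rrT1_next
  have lrrT1 := LvD.le_next (D := rrT1) grrT1 rrT1_ok rrT1_next
  have grrT3 := LvD.valid_next (D := rrT2) grrT2 rrT2_ok rrT2_next
  have lrrT2 := LvD.le_next (D := rrT2) grrT2 rrT2_ok rrT2_next
  have grrT4 := LvD.valid_next (D := rrT3) grrT3 rrT3_ok rrT3_next
  have lrrT3 := LvD.le_next (D := rrT3) grrT3 rrT3_ok rrT3_next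
  have errT4 : Exact M (M.cl rrT4_g) rrT4_ls ∧ True := ⟨Exact.nil, trivial⟩
  have errT3 := LvD.exact (D := rrT3) grrT3 rrT3_ok errT4.1 lrrT3 rrT3_s krrT3 rrT3_fx rrT3_k
  have errT2 := LvD.exact (D := rrT2) grrT2 rrT2_ok errT3.1 lrrT2 rrT2_s krrT2 rrT2_fx rrT2_k
  have errT1 := LvD.exact (D := rrT1) grrT1 rrT1_ok errT2.1 lrrT1 rrT1_s krrT1 rrT1_fx rrT1_k
  have crrT : Nat.card (M.cl rrT1_g) = 16 := errT1.1.2.trans (by (try dsimp only [M]); decide +kernel)
  obtain ⟨trrK1, hTrrK1⟩ := exists_R va (c := (nat_lit 0x75039043692ee28bf4d178fd85d8f50cec1da3c314a2c4a9858bbd1b9091cbe1778491fe08642c04bfdbe0b2f001469fbbeffc57a3bc64dc7aafff132f3fd9130c5a513571d36d5cac33c82dc875592bf27affd268762a0446674ff3227060000001)) (by (try dsimp only [M]); decide +kernel)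
  have krrK1 : Key M (cjS St trrK1) rrK1_key rrK1_fix := k1.keyT hTrrK1 (R_inv_of hTrrK1 (exists_R va (c := (nat_lit 0xd6ca1a7ebaa3c70cd886b627a139936f0d7e0a00c2bcacd73fda0481776a8ce13f5626ce44fd26c7e93a46664705452fbd3af3fd1b60bf209880b362c1c7c2ba5d805d0d2f0d6ad95b830ee5f47bf766c72faecc6e8ddaddca2a1c7c488170000001)) (by (try dsimp only [M]); decide +kernel)) (by (try dsimp only [M]); decide +kernel)) _
  obtain ⟨trrK2, hTrrK2⟩ := exists_R va (c := (nat_lit 0x2776c36300bd3a9b130462858202154957868e56655e98412f84700232ded3656a3c6b345315d06ecfbfc66e2724fbe661960e84ecfc949e7e8e53ca6497b148e31feb541fd06f91dc896b4c495dfd98e2bdff62c46db002db40dafcef29f0000001)) (by (try dsimp only [M]); decide +kernel)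
  have krrK2 : Key M (cjS St trrK2) rrK2_key rrK2_fix := k1.keyT hTrrK2 (R_inv_of hTrrK2 (exists_R va (c := (nat_lit 0x1d4585bc577f55b8daed79d83dea854adc42a554f56bbee979a45599f003f7b2e18814de85b042613f12b20bd0a8000280b49a631cec039cf55c6d7044f8543af3fd1319e5f343bf3448277187a9589bf53626e03adc97ba72ae8dad636ce0000001)) (by (try dsimp only [M]); decide +kernel)) (by (try dsimp only [M]); decide +kernel)) _
  obtain ⟨trrK3, hTrrK3⟩ := exists_R va (c := (nat_lit 0x71ecef2b0893a08fb2a832b3c789b71d1219a04ab49d03f6c1c61f186f36697b4ad33a463456c05663ca0bfa6ea25f6a484d2ae47a943fe673ef74579a44ba5b9010d27f7a48234436939f152413993e276645f0837c7d12d5d2067bc93750000001)) (by (try dsimp only [M]); decide +kernel)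
  have krrK3 : Key M (cjS St trrK3) rrK3_key rrK3_fix := k1.keyT hTrrK3 (R_inv_of hTrrK3 (exists_R va (c := (nat_lit 0x5ba27c72733801ce2dd2d12f01574fad13a622d8442b61aabed0b4bdd51d9497e2a07ac4c86694d70e72678974fb4ad33a01231c92b65bab8ac7eb7d3b9cd97812e49e38846ab895c1bd91b67e7d8182890d3953fdc048f3a213a5878ecd00000001)) (by (try dsimp only [M]); decide +kernel)) (by (try dsimp only [M]); decide +kernel)) _
  obtain ⟨trrK4, hTrrK4⟩ := exists_R va (c := (nat_lit 0xe78473872abb44592ce3e7ba92791c903878f5c68758e13b17450fdbe8cdaeb6d6b4e6f2bdfb01eaabbd864d4203af93fdacd0d1d44b351865d93f5999a2e8522acff35c928b4a00dfe60dddd5244464e06567451663d00bad0f7bfeaff2d0000001)) (by (try dsimp only [M]); decide +kernel)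
  have krrK4 : Key M (cjS St trrK4) rrK4_key rrK4_fix := k1.keyT hTrrK4 (R_inv_of hTrrK4 (exists_R va (c := (nat_lit 0x8ac893e733ac11540db88b1eccb373e0f523525f3b4313213bcc35d58ceea21614559d66c815db450a87a2c7fc0b85e5083c3e6aae5ce08a266144c05fbe68753d8233a3d95716d58d14bb89c5671f5a1e351d9e1d0fe502600758b8422800000001)) (by (try dsimp only [M]); decide +kernel)) (by (try dsimp only [M]); decide +kernel)) _
  have grrK1 : ∀ c ∈ rrK1_g, M.In ⊤ c := valid_sub va (by (try dsimp only [M]); decide +kernel)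
  have grrK2 := LvD.valid_next (D := rrK1) grrK1 rrK1_ok rrK1_next
  have lrrK1 := LvD.le_next (D := rrK1) grrK1 rrK1_ok rrK1_next
  have grrK3 := LvD.valid_next (D := rrK2) grrK2 rrK2_ok rrK2_next
  have lrrK2 := LvD.le_next (D := rrK2) grrK2 rrK2_ok rrK2_next
  have grrK4 := LvD.valid_next (D := rrK3) grrK3 rrK3_ok rrK3_next
  have lrrK3 := LvD.le_next (D := rrK3) grrK3 rrK3_ok rrK3_next
  have grrK5 := LvD.valid_next (D := rrK4) grrK4 rrK4_ok rrK4_next
  have lrrK4 := LvD.le_next (D := rrK4) grrK4 rrK4_ok rrK4_next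
  have errK5 : Exact M (M.cl rrK5_g) rrK5_ls ∧ True := ⟨Exact.nil, trivial⟩
  have errK4 := LvD.exact (D := rrK4) grrK4 rrK4_ok errK5.1 lrrK4 rrK4_s krrK4 rrK4_fx rrK4_k
  have errK3 := LvD.exact (D := rrK3) grrK3 rrK3_ok errK4.1 lrrK3 rrK3_s krrK3 rrK3_fx rrK3_k
  have errK2 := LvD.exact (D := rrK2) grrK2 rrK2_ok errK3.1 lrrK2 rrK2_s krrK2 rrK2_fx rrK2_k
  have errK1 := LvD.exact (D := rrK1) grrK1 rrK1_ok errK2.1 lrrK1 rrK1_s krrK1 rrK1_fx rrK1_k
  have crrK : Nat.card (M.cl rrK1_g) = 5120 := errK1.1.2.trans (by (try dsimp only [M]); decide +kernel)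
  obtain ⟨trrQ1, hTrrQ1⟩ := exists_R va (c := (nat_lit 0xb4f96677cd0e2480000000008000ee9fc095c71ada6bf44cd6969e8e0ab940d61b12182a4009d8f742025b7a217dc227bfc81bdbddb99a5d9e58e38ab20f59eea7aab0c2567850eb718d0c39b337e936fab7721109f020944d4cbdcae71df0000001)) (by (try dsimp only [M]); decide +kernel)
  have krrQ1 : Key M (cjS St trrQ1) rrQ1_key rrQ1_fix := k1.keyT hTrrQ1 (R_inv_of hTrrQ1 (exists_R va (c := (nat_lit 0x20000004c24c0c3903e1527bb8e0977c1a334ba82de5c60009d03f6c406fbfb9102b6709a0378aa48ce81000000158f010895052cadbdb6fd124637522acff2b969d473cb7457a15532a98185f4fa1658dea43bb536c81e2d46a47f7e0bd10000001)) (by (try dsimp only [M]); decide +kernel)) (by (try dsimp only [M]); decide +kernel)) _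
  obtain ⟨trrQ2, hTrrQ2⟩ := exists_R va (c := (nat_lit 0x9b25fda6eaf7ee3a213a5127b5ec26ecfb00a3e90b61583b3bef672e349e1d43af11f350b2f4f82bfdf92429c3933ee4a93e6baf71e8e663a02b865bfb51216312f7b5a411c89196e3be0836d1a67285770e11d413d57261827b8248461a50000001)) (by (try dsimp only [M]); decide +kernel)
  have krrQ2 : Key M (cjS St trrQ2) rrQ2_key rrQ2_fix := k1.keyT hTrrQ2 (R_inv_of hTrrQ2 (exists_R va (c := (nat_lit 0xce67fa73d65c9e947f8ec98f1f0ad1f302c3bcbe4fc88815c9a3c2c4679b2077803f77cfc3eb8f1accb3b9e07481f47f23d77d39c319844a613f44694372c6970131cdc6a6a6b89607493b2c81d124c78ce1136a023a28ae9775d3eda18e70000001)) (by (try dsimp only [M]); decide +kernel)) (by (try dsimp only [M]); decide +kernel)) _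
  obtain ⟨trrQ3, hTrrQ3⟩ := exists_R va (c := (nat_lit 0x9e4dec925ff68c163f4bfb12f0da87cecd3d5c7292006304605c67a621f5d8dd1246378a5c6eed856329587ff1f17784916bacc03627a13966ab3196310f7973f4d61e38846ae4491a10000080885ffeeae6c0417e8e53ced7e4b998cf39c0000001)) (by (try dsimp only [M]); decide +kernel)
  have krrQ3 : Key M (cjS St trrQ3) rrQ3_key rrQ3_fix := k1.keyT hTrrQ3 (R_inv_of hTrrQ3 (exists_R va (c := (nat_lit 0x84954fa511db9245ce38613abf35eeba0f604f1eef6ab40930391cc8d31a6e36d8c8e10250bec6353d5801bf93d2422ff62fc78bf678974f4bb89c54abaf8c48d302f696268600000400be5c21f66f2d539f1524fa6d62648ec9e9669b9350000001)) (by (try dsimp only [M]); decide +kernel)) (by (try dsimp only [M]); decide +kernel)) _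
  obtain ⟨trrQ4, hTrrQ4⟩ := exists_R va (c := (nat_lit 0x4fbe6610e0067ef7add160518fbc41c04eb1d88937dea43bbd285c6848192ef3ba6fa882260e3894f2372429c39ee9fc09ec1cab5160ae650b83ef9d41a6fb7876a8604f1eef5560bf8f662622c3174a7e7f9de2e42605246a70a8c98de940000001)) (by (try dsimp only [M]); decide +kernel)
  have krrQ4 : Key M (cjS St trrQ4) rrQ4_key rrQ4_fix := k1.keyT hTrrQ4 (R_inv_of hTrrQ4 (exists_R va (c := (nat_lit 0x620ddd98ba9fa70e1e3b155ac32ff41057a53d3019baee206b0422849e2dac57f55832ba37f5738962f63d1e8537c450f916ea2f1b78516a66d48fd2c6f6ca2f83c1a1567b9dbddfe6e3ecb314d0dcebc01a9ed2f6a7b9e1c4b4165b931470000001)) (by (try dsimp only [M]); decide +kernel)) (by (try dsimp only [M]); decide +kernel)) _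
  have grrQ1 : ∀ c ∈ rrQ1_g, M.In ⊤ c := valid_sub va (by (try dsimp only [M]); decide +kernel)
  have grrQ2 := LvD.valid_next (D := rrQ1) grrQ1 rrQ1_ok rrQ1_next
  have lrrQ1 := LvD.le_next (D := rrQ1) grrQ1 rrQ1_ok rrQ1_next
  have grrQ3 := LvD.valid_next (D := rrQ2) grrQ2 rrQ2_ok rrQ2_next
  have lrrQ2 := LvD.le_next (D := rrQ2) grrQ2 rrQ2_ok rrQ2_next
  have grrQ4 := LvD.valid_next (D := rrQ3) grrQ3 rrQ3_ok rrQ3_next
  have lrrQ3 := LvD.le_next (D := rrQ3) grrQ3 rrQ3_ok rrQ3_next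
  have grrQ5 := LvD.valid_next (D := rrQ4) grrQ4 rrQ4_ok rrQ4_next
  have lrrQ4 := LvD.le_next (D := rrQ4) grrQ4 rrQ4_ok rrQ4_next
  have errQ5 : Exact M (M.cl rrQ5_g) rrQ5_ls ∧ True := ⟨Exact.nil, trivial⟩
  have errQ4 := LvD.exact (D := rrQ4) grrQ4 rrQ4_ok errQ5.1 lrrQ4 rrQ4_s krrQ4 rrQ4_fx rrQ4_k
  have errQ3 := LvD.exact (D := rrQ3) grrQ3 rrQ3_ok errQ4.1 lrrQ3 rrQ3_s krrQ3 rrQ3_fx rrQ3_k
  have errQ2 := LvD.exact (D := rrQ2) grrQ2 rrQ2_ok errQ3.1 lrrQ2 rrQ2_s krrQ2 rrQ2_fx rrQ2_k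
  have errQ1 := LvD.exact (D := rrQ1) grrQ1 rrQ1_ok errQ2.1 lrrQ1 rrQ1_s krrQ1 rrQ1_fx rrQ1_k
  have crrQ : Nat.card (M.cl rrQ1_g) = 20480 := errQ1.1.2.trans (by (try dsimp only [M]); decide +kernel)
  obtain ⟨trrP1, hTrrP1⟩ := exists_R va (c := (nat_lit 0x9e09d429298b37abc60d523c6a6e310bcbee3e417a7803df7626782db645d2e016e273143d618338f96077fd9130d56c1c1bf2697c7c4334bd268ee287264fd36607aeb0fe6dbe1365fe241a4dcae71df2cc54a3a8d164d334213a7b862920000001)) (by (try dsimp only [M]); decide +kernel)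
  have krrP1 : Key M (cjS St trrP1) rrP1_key rrP1_fix := k1.keyT hTrrP1 (R_inv_of hTrrP1 (exists_R va (c := (nat_lit 0xbf4f44414e6651ce2dd2d3f32ff266c42bc95e25d49d2473ed41a6fb3e6baf79df03e41224bcd17ff82d90de16d2fc78bff3544f4378100148eed158e7cc54fda04813820edcb2605bf6047092ed1f79130ee5f46481d34e359f9057d55830000001)) (by (try dsimp only [M]); decide +kernel)) (by (try dsimp only [M]); decide +kernel)) _
  have grrP1 : ∀ c ∈ rrP1_g, M.In ⊤ c := valid_sub va (by (try dsimp only [M]); decide +kernel)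
  have grrP2 := LvD.valid_next (D := rrP1) grrP1 rrP1_ok rrP1_next
  have lrrP1 := LvD.le_next (D := rrP1) grrP1 rrP1_ok rrP1_next
  have errP2 : Exact M (M.cl rrP2_g) rrP2_ls ∧ True := ⟨Exact.nil, trivial⟩
  have errP1 := LvD.exact (D := rrP1) grrP1 rrP1_ok errP2.1 lrrP1 rrP1_s krrP1 rrP1_fx rrP1_k
  have crrP : Nat.card (M.cl rrP1_g) = 25 := errP1.1.2.trans (by (try dsimp only [M]); decide +kernel)
  obtain ⟨trrN1, hTrrN1⟩ := exists_R va (c := (nat_lit 0x81692112bc74d0419d937164d89a1e46c7313efd18f6f07819e56e08fc91da78c63436058788bc46db00abed2c857cbf59d18681cb9e5874d1f302cabe1a3a64e041c53d363a334213a4e6fca1fd1d949895052ce521bf0614d5614ede0f00000001)) (by (try dsimp only [M]); decide +kernel)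
  have krrN1 : Key M (cjS St trrN1) rrN1_key rrN1_fix := k1.keyT hTrrN1 (R_inv_of hTrrN1 (exists_R va (c := (nat_lit 0x34c650e2b3c7891d8b96a4a8dd1f40b3ef535b501d7989557b2a3f20188a8db9c7aa28b30b3ee43b4d0070b7bc93355669d3b5faddb69b8d9e58e38b51d27c34bf253374211ac46fe91ae6c041acd6ee4b6751fe53103556481d34ad126520000001)) (by (try dsimp only [M]); decide +kernel)) (by (try dsimp only [M]); decide +kernel)) _
  obtain ⟨trrN2, hTrrN2⟩ := exists_R va (c := (nat_lit 0x5d468557fb5605695bd8b5c72a9019c11261b80ab2562c6477450fdbff1314e284dbeaa872e096d45dc6374211a056f885ded2d73998d1c85c3d941d0c39b319d055e3ea0bd33fe672a00000100dacb640a5f85b4d70c520575436d18681c0000001)) (by (try dsimp only [M]); decide +kernel)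
  have krrN2 : Key M (cjS St trrN2) rrN2_key rrN2_fix := k1.keyT hTrrN2 (R_inv_of hTrrN2 (exists_R va (c := (nat_lit 0x1160cbb2cfce3ece1114ae6feedc9c6a6ae6248df35a0470ba7230e2a3eb24007d9cbf45c678677fa7e852de8a9a4ce80d026c5107fb56051c9038712aa69d15be112376f97b1a870aba446f8dd995c2a00000406f366970aae6b4ea6438f0000001)) (by (try dsimp only [M]); decide +kernel)) (by (try dsimp only [M]); decide +kernel)) _
  have grrN1 : ∀ c ∈ rrN1_g, M.In ⊤ c := valid_sub va (by (try dsimp only [M]); decide +kernel)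
  have grrN2 := LvD.valid_next (D := rrN1) grrN1 rrN1_ok rrN1_next
  have lrrN1 := LvD.le_next (D := rrN1) grrN1 rrN1_ok rrN1_next
  have grrN3 := LvD.valid_next (D := rrN2) grrN2 rrN2_ok rrN2_next
  have lrrN2 := LvD.le_next (D := rrN2) grrN2 rrN2_ok rrN2_next
  have errN3 : Exact M (M.cl rrN3_g) rrN3_ls ∧ True := ⟨Exact.nil, trivial⟩
  have errN2 := LvD.exact (D := rrN2) grrN2 rrN2_ok errN3.1 lrrN2 rrN2_s krrN2 rrN2_fx rrN2_k
  have errN1 := LvD.exact (D := rrN1) grrN1 rrN1_ok errN2.1 lrrN1 rrN1_s krrN1 rrN1_fx rrN1_k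
  have crrN : Nat.card (M.cl rrN1_g) = 2400 := errN1.1.2.trans (by (try dsimp only [M]); decide +kernel)
  obtain ⟨trrM1, hTrrM1⟩ := exists_R va (c := (nat_lit 0xdd97f95dbec14d812d19a506a15d8b6d6ec88720da0f9da8d5112be9dd9863cc298d69fa2a77b7b86292019dce300000101663d00bbda6f44f96f65ea2ba604c8f431463456c88c8efad690c1ba6a7e4442fb0498e7cc543aea53c0cf1fef0000001)) (by (try dsimp only [M]); decide +kernel)
  have krrM1 : Key M (cjS St trrM1) rrM1_key rrM1_fix := k1.keyT hTrrM1 (R_inv_of hTrrM1 (exists_R va (c := (nat_lit 0x638dc677a6e8552100278223deec1e1298ecf8438131f1955ea6438fc4169cc6bacc0350b2f4f9f01f6d3b61e4f8169211b3714ee570bfc0669b9358e1f6a8d0b641debaa3c789ca9899103dd8bf8784f0004000658ec45e47ed0f13b25320000001)) (by (try dsimp only [M]); decide +kernel)) (by (try dsimp only [M]); decide +kernel)) _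
  obtain ⟨trrM2, hTrrM2⟩ := exists_R va (c := (nat_lit 0x4cd773f02eb827f521f7d0bbfb53db27801129c9e6b032885361b866ac5efff26ecfb0fa50024a2aa036984e69f89ff18d8de3de681109aadc227bfa47a94767c38cc0de5b26761bd532776c3654166acf08f57ad3dae1b2e18414eb7de910000001)) (by (try dsimp only [M]); decide +kernel)
  have krrM2 : Key M (cjS St trrM2) rrM2_key rrM2_fix := k1.keyT hTrrM2 (R_inv_of hTrrM2 (exists_R va (c := (nat_lit 0x88f6f091b8be4f8ac7eb76a6a2a002d0bf96401fd822db716bd9ada142fb049b4691739e577a8e1f40e92d2b4e6600ecef50eb718f3e0f2031d41d63aea53cb62556a127b5ec784301d4c9d5b50ae22a9347ce3a361b8660c8428db38cca90000001)) (by (try dsimp only [M]); decide +kernel)) (by (try dsimp only [M]); decide +kernel)) _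
  obtain ⟨trrM3, hTrrM3⟩ := exists_R va (c := (nat_lit 0xe0c9889319e5f3e7e643aebe7a55d5fb3b885677c8867b5993ba03b05e6c549400ce62f97355023e03a548cf9064d2ae47229a410e971ab95a48fcf71de63b3a6e20661f91b14ba51e81524bae6bcd52be351d9e47c3f59e337d01c4d55f50000001)) (by (try dsimp only [M]); decide +kernel)
  have krrM3 : Key M (cjS St trrM3) rrM3_key rrM3_fix := k1.keyT hTrrM3 (R_inv_of hTrrM3 (exists_R va (c := (nat_lit 0x19807e2ded349a13993e23ea019c79a44ba06dd671536c81eaa89577b9abd87563d618130b883deafd2d9580ecdc46db00aaed75bdc1ca28fc0a2de8e90a8e0ab5773208d67b94f6ffbec1cab52e18814960e84e9a3c2c48627b713555cd50000001)) (by (try dsimp only [M]); decide +kernel)) (by (try dsimp only [M]); decide +kernel)) _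
  obtain ⟨trrM4, hTrrM4⟩ := exists_R va (c := (nat_lit 0x5e98412328d1abe9033d05943a3cb3a727ba1aaf36aa80da1714ea961567d033fe672aed4021592bd453edc8bfa0797367545893da690d809b35ee3bdbcd9d01b0c43a4df5fa4c017f0eb4d091364c08aa2d14fb4c65d0d7e7cda4309887b0000001)) (by (try dsimp only [M]); decide +kernel)
  have krrM4 : Key M (cjS St trrM4) rrM4_key rrM4_fix := k1.keyT hTrrM4 (R_inv_of hTrrM4 (exists_R va (c := (nat_lit 0x796cee7ad709c8a5a63d80ee9e7baaed75b2427708b8d895ad4589bd9d2473e948eac383a007f1fa0d356785dc29e58e38b5dabfc2e1e0f69a7ceef2a045917989557d0f8745a23055de9209cc936bd6756aaf9874f7ccf90a5d148c2437a0000001)) (by (try dsimp only [M]); decide +kernel)) (by (try dsimp only [M]); decide +kernel)) _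
  have grrM1 : ∀ c ∈ rrM1_g, M.In ⊤ c := valid_sub va (by (try dsimp only [M]); decide +kernel)
  have grrM2 := LvD.valid_next (D := rrM1) grrM1 rrM1_ok rrM1_next
  have lrrM1 := LvD.le_next (D := rrM1) grrM1 rrM1_ok rrM1_next
  have grrM3 := LvD.valid_next (D := rrM2) grrM2 rrM2_ok rrM2_next
  have lrrM2 := LvD.le_next (D := rrM2) grrM2 rrM2_ok rrM2_next
  have grrM4 := LvD.valid_next (D := rrM3) grrM3 rrM3_ok rrM3_next
  have lrrM3 := LvD.le_next (D := rrM3) grrM3 rrM3_ok rrM3_next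
  have grrM5 := LvD.valid_next (D := rrM4) grrM4 rrM4_ok rrM4_next
  have lrrM4 := LvD.le_next (D := rrM4) grrM4 rrM4_ok rrM4_next
  have errM5 : Exact M (M.cl rrM5_g) rrM5_ls ∧ True := ⟨Exact.nil, trivial⟩
  have errM4 := LvD.exact (D := rrM4) grrM4 rrM4_ok errM5.1 lrrM4 rrM4_s krrM4 rrM4_fx rrM4_k
  have errM3 := LvD.exact (D := rrM3) grrM3 rrM3_ok errM4.1 lrrM3 rrM3_s krrM3 rrM3_fx rrM3_k
  have errM2 := LvD.exact (D := rrM2) grrM2 rrM2_ok errM3.1 lrrM2 rrM2_s krrM2 rrM2_fx rrM2_k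
  have errM1 := LvD.exact (D := rrM1) grrM1 rrM1_ok errM2.1 lrrM1 rrM1_s krrM1 rrM1_fx rrM1_k
  have crrM : Nat.card (M.cl rrM1_g) = 156 := errM1.1.2.trans (by (try dsimp only [M]); decide +kernel)
  obtain ⟨trrY1, hTrrY1⟩ := exists_R va (c := (nat_lit 0xee5df2d42e3bfbbc5734a9ba792f47c9c5f0bbfb530a799f76bbee975a2fe1f4dc013ea1073d9f305f54784391b8808602e06d0dca7cd7e058987d44e07cc92b1f766e689dc6f859ae9cce61f2feabf0d2938b03e8cdaeba1acbd48b296ec0000001)) (by (try dsimp only [M]); decide +kernel)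
  have krrY1 : Key M (cjS St trrY1) rrY1_key rrY1_fix := k1.keyT hTrrY1 (R_inv_of hTrrY1 (exists_R va (c := (nat_lit 0xeb0ce6dc59deace069bd222f2d79586228c0067c760d013ac7a70ef8f20530b0ceb96de5c231b6ad97f80f637b79880b362f8e8ed17e0c6b3ca263fe521bf07b86292278927a001b041dfa354f6409007642019a364c08a2a0459122ae2340000001)) (by (try dsimp only [M]); decide +kernel)) (by (try dsimp only [M]); decide +kernel)) _
  have grrY1 : ∀ c ∈ rrY1_g, M.In ⊤ c := valid_sub va (by (try dsimp only [M]); decide +kernel)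
  have grrY2 := LvD.valid_next (D := rrY1) grrY1 rrY1_ok rrY1_next
  have lrrY1 := LvD.le_next (D := rrY1) grrY1 rrY1_ok rrY1_next
  have errY2 : Exact M (M.cl rrY2_g) rrY2_ls ∧ True := ⟨Exact.nil, trivial⟩
  have errY1 := LvD.exact (D := rrY1) grrY1 rrY1_ok errY2.1 lrrY1 rrY1_s krrY1 rrY1_fx rrY1_k
  have crrY : Nat.card (M.cl rrY1_g) = 13 := errY1.1.2.trans (by (try dsimp only [M]); decide +kernel)
  obtain ⟨trrL1, hTrrL1⟩ := exists_R va (c := (nat_lit 0x57c65b3ffc5bc03587cca1b8be4f0002000bf1c1ec38749f28000280c81bdbd27710fcedf0affbd65f1ea60ffad20fa79d7ebae3ba209d69e351d9e0fc0fa263e250afe5f9f24a317ee89e216f91a78586b9773ecfad3aa063b87c5dfd98e0000001)) (by (try dsimp only [M]); decide +kernel)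
  have krrL1 : Key M (cjS St trrL1) rrL1_key rrL1_fix := k1.keyT hTrrL1 (R_inv_of hTrrL1 (exists_R va (c := (nat_lit 0x43bd189b78516a01b0c43e46cb003eb7426ad068546310f79217a3a3056f885bcc058b5872d1f5ab30c64fdb29ae324d310800000278794bf9f14a938749f260dddd56dbaedb2260c5c2bc558794cd8a09f56e005a777c42f5316b123b30f0000001)) (by (try dsimp only [M]); decide +kernel)) (by (try dsimp only [M]); decide +kernel)) _
  obtain ⟨trrL2, hTrrL2⟩ := exists_R va (c := (nat_lit 0x1d1e2bbf8c391b9d486a38768ae8400fbf904d0256da052d32162e915c20803b78d7e0622d844fc450f62bc2d6e63133f8d59bddf847ead6c6ad033dd531bb83c5f8ee45c1daee5df2da7854f05f793955c3d941494cdf807d9cbf2ed82d20000001)) (by (try dsimp only [M]); decide +kernel)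
  have krrL2 : Key M (cjS St trrL2) rrL2_key rrL2_fix := k1.keyT hTrrL2 (R_inv_of hTrrL2 (exists_R va (c := (nat_lit 0xf72042ee46cb00ae563b804e91ab6312f7b058788b3ca9cab4ad6bf69161eda8c551e5199c2bf946b2595872d1f37a2276e5c600058fb7ba2b969d42b958403b39a9b130b883da5cef6045142855c7f6474e9eecc20634877c3383b49a6310000001)) (by (try dsimp only [M]); decide +kernel)) (by (try dsimp only [M]); decide +kernel)) _
  obtain ⟨trrL3, hTrrL3⟩ := exists_R va (c := (nat_lit 0x11286912b31430e848bc8f1d01904d4a740ab15d8bf60de3c10a1c30cb59231bfead8d2641af4495c58a5885882c841c3c298576143168e26b50c98eea7aab74e9eec4d06ff26eab3080000010cf9b94a74244843fe672ae78d4b8f3144fb0000001)) (by (try dsimp only [M]); decide +kernel)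
  have krrL3 : Key M (cjS St trrL3) rrL3_key rrL3_fix := k1.keyT hTrrL3 (R_inv_of hTrrL3 (exists_R va (c := (nat_lit 0x3548fed5b9e42ec3edff7fa70d7eda05212ab2583e8712c30079ad3b73f4d61ee9fc09575751770a3b440134716666fb362ed82d2e0d54af21477b51128e81446f4bcd3d76257ece83862c76ec0f698d3000004012636c197f8611d1246370000001)) (by (try dsimp only [M]); decide +kernel)) (by (try dsimp only [M]); decide +kernel)) _
  have grrL1 : ∀ c ∈ rrL1_g, M.In ⊤ c := valid_sub va (by (try dsimp only [M]); decide +kernel)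
  have grrL2 := LvD.valid_next (D := rrL1) grrL1 rrL1_ok rrL1_next
  have lrrL1 := LvD.le_next (D := rrL1) grrL1 rrL1_ok rrL1_next
  have grrL3 := LvD.valid_next (D := rrL2) grrL2 rrL2_ok rrL2_next
  have lrrL2 := LvD.le_next (D := rrL2) grrL2 rrL2_ok rrL2_next
  have grrL4 := LvD.valid_next (D := rrL3) grrL3 rrL3_ok rrL3_next
  have lrrL3 := LvD.le_next (D := rrL3) grrL3 rrL3_ok rrL3_next
  have errL4 : Exact M (M.cl rrL4_g) rrL4_ls ∧ True := ⟨Exact.nil, trivial⟩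
  have errL3 := LvD.exact (D := rrL3) grrL3 rrL3_ok errL4.1 lrrL3 rrL3_s krrL3 rrL3_fx rrL3_k
  have errL2 := LvD.exact (D := rrL2) grrL2 rrL2_ok errL3.1 lrrL2 rrL2_s krrL2 rrL2_fx rrL2_k
  have errL1 := LvD.exact (D := rrL1) grrL1 rrL1_ok errL2.1 lrrL1 rrL1_s krrL1 rrL1_fx rrL1_k
  have crrL : Nat.card (M.cl rrL1_g) = 7800 := errL1.1.2.trans (by (try dsimp only [M]); decide +kernel)
  obtain ⟨trrE1, hTrrE1⟩ := exists_R va (c := (nat_lit 0x592b5e04369e66c4607388ba5b606a7f1906ee185a32c3007562c647decbf370fff664984e69f3c0bd74b58ecd29c8d1ec6f3b11c476e2797683c0f396273d1e7f40abafa7f09bf6bf65876e86115067901a9ed255aa0e3de171e684dfaa30000001)) (by (try dsimp only [M]); decide +kernel)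
  have krrE1 : Key M (cjS St trrE1) rrE1_key rrE1_fix := k1.keyT hTrrE1 (R_inv_of hTrrE1 (exists_R va (c := (nat_lit 0x5f9b0f240a55c47d80655d5e08f867668d97a3e4b0e1ff85b4d4a7402b5b1b99a9375335c928bf454941ef317962bdff62d1f302cfdc2ab7f847002da052e5bfead8d511db9218cf39e4d2ae47175d98d49bf5e9804acc016bf49fc0d9e190000001)) (by (try dsimp only [M]); decide +kernel)) (by (try dsimp only [M]); decide +kernel)) _
  obtain ⟨trrE2, hTrrE2⟩ := exists_R va (c := (nat_lit 0x1621abe3ac33b01a0d03aa05d0ff4fbe6616401fd8dcd4330fe0dc3c74ba822a640cfe61599bb6b49211d5c72923476d3c9d03f6c6ee185a03c1f919dbd05e9102b67b4e6f63ce6fc21540db881e59d025cb8381284dbeae9b811000000040000001)) (by (try dsimp only [M]); decide +kernel)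
  have krrE2 : Key M (cjS St trrE2) rrE2_key rrE2_fix := k1.keyT hTrrE2 (R_inv_of hTrrE2 (exists_R va (c := (nat_lit 0xbf8784f6f31716d3b5fad53e44cb9d6475a864d4200a799f7d2b183143136b04ba51e85a7fd1fa3ed23fd5c72929880b36fa2a65b12ffc0a2d21b884d001cf9fbf230c98a7ff1e8fe7b6e0c02b158f010ea1a36680bb22f0000002c46fe910000001)) (by (try dsimp only [M]); decide +kernel)) (by (try dsimp only [M]); decide +kernel)) _
  have grrE1 : ∀ c ∈ rrE1_g, M.In ⊤ c := valid_sub va (by (try dsimp only [M]); decide +kernel)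
  have grrE2 := LvD.valid_next (D := rrE1) grrE1 rrE1_ok rrE1_next
  have lrrE1 := LvD.le_next (D := rrE1) grrE1 rrE1_ok rrE1_next
  have grrE3 := LvD.valid_next (D := rrE2) grrE2 rrE2_ok rrE2_next
  have lrrE2 := LvD.le_next (D := rrE2) grrE2 rrE2_ok rrE2_next
  have errE3 : Exact M (M.cl rrE3_g) rrE3_ls ∧ True := ⟨Exact.nil, trivial⟩
  have errE2 := LvD.exact (D := rrE2) grrE2 rrE2_ok errE3.1 lrrE2 rrE2_s krrE2 rrE2_fx rrE2_k
  have errE1 := LvD.exact (D := rrE1) grrE1 rrE1_ok errE2.1 lrrE1 rrE1_s krrE1 rrE1_fx rrE1_k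
  have crrE : Nat.card (M.cl rrE1_g) = 9 := errE1.1.2.trans (by (try dsimp only [M]); decide +kernel)
  exact ⟨rfl, rfl, rfl, vv, va, ht, hc, k1.not_mem (by (try dsimp only [M]); decide +kernel), errJ1.1.1, crrJ, errU1.1.1, crrU, errC1.1.1, crrC, errV1.1.1, crrV, errW1.1.1, crrW, errS1.1.1, crrS, errT1.1.1, crrT, errK1.1.1, crrK, errQ1.1.1, crrQ, errP1.1.1, crrP, errN1.1.1, crrN, errM1.1.1, crrM, errY1.1.1, crrY, errL1.1.1, crrL, errE1.1.1, crrE⟩

end H29
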