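import Cfsg.Agent.H29.Rr4D

set_option autoImplicit false
set_option maxRecDepth 100000
set_option linter.style.haveILetI false
set_option linter.unusedVariables false
set_option linter.style.longLine false
set_option linter.unusedTactic false
set_option linter.unreachableTactic false

namespace H29

theorem rr_KQ : allL (sift a2_28.mul Nat.beq a2_28.one rrQ1_ls) rrK1_g = true := by decide +kernel
theorem rr_LJ : allL (sift a2_28.mul Nat.beq a2_28.one rrJ1_ls) rrL1_g = true := by decide +kernel
theorem rr_nP : cjAll a2_28.mul Nat.beq a2_28.one rrP1_ls rrP1_g [16, 24] rrN1_g [[3, 6], [17, 22]] = true := by decide +kernel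
theorem rr_nY : cjAll a2_28.mul Nat.beq a2_28.one rrY1_ls rrY1_g [11] rrM1_g [[11], [7]] = true := by decide +kernel
theorem rr_nL : cjAll a2_28.mul Nat.beq a2_28.one rrL1_ls rrL1_g [45, 59] rrJ1_g [[2837, 7522], [6386, 6372], [2, 4543]] = true := by decide +kernel
theorem rr_ov_0 : allR (ov3At a2_28.mul Nat.beq a2_28.one rrD2_x rrP1_g rrE1_g rrL1_g rr_y13 3119 rr_W) (nat_lit 0) (nat_lit 40) = true := by decide +kernel
theorem rr_ov_1 : allR (ov3At a2_28.mul Nat.beq a2_28.one rrD2_x rrP1_g rrE1_g rrL1_g rr_y13 3119 rr_W) (nat_lit 40) (nat_lit 40) = true := by decide +kernel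
theorem rr_ov_2 : allR (ov3At a2_28.mul Nat.beq a2_28.one rrD2_x rrP1_g rrE1_g rrL1_g rr_y13 3119 rr_W) (nat_lit 80) (nat_lit 22) = true := by decide +kernel
theorem rr_cU : cjIn a2_28.mul Nat.beq a2_28.one rrJ1_ls (lgetD a2_28.one rrD1_x 0) rrU1_g [36, 10] [2872, 10] = true := by decide +kernel

end H29
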