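import Cfsg.Agent.H29.Rr4D

set_option autoImplicit false
set_option maxRecDepth 100000
set_option linter.style.haveILetI false
set_option linter.unusedVariables false
set_option linter.style.longLine false
set_option linter.unusedTactic false
set_option linter.unreachableTactic false

namespace H29

theorem rr_cV : cjIn a2_28.mul Nat.beq a2_28.one rrJ1_ls (lgetD a2_28.one rrD1_x 1) rrV1_g [1852, 5581] [11293, 9653] = true := by decide +kernel
theorem rr_cW : cjIn a2_28.mul Nat.beq a2_28.one rrJ1_ls (lgetD a2_28.one rrD1_x 2) rrW1_g [14353, 14553] [12826, 14704] = true := by decide +kernel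
theorem rr_cS : cjIn a2_28.mul Nat.beq a2_28.one rrJ1_ls (lgetD a2_28.one rrD1_x 3) rrS1_g [14565, 1752] [8930, 37] = true := by decide +kernel
theorem rr_cT : cjIn a2_28.mul Nat.beq a2_28.one rrJ1_ls (lgetD a2_28.one rrD1_x 4) rrT1_g [12209, 1053] [12749, 7944] = true := by decide +kernel
theorem rr_tU : cjIn a2_28.mul Nat.beq a2_28.one rrU1_ls rr_t rrU1_g [12, 3] [172, 3] = true := by decide +kernel
theorem rr_NU : allL (sift a2_28.mul Nat.beq a2_28.one rrU1_ls) rr_NL = true := by decide +kernel
theorem rr_aU_0 : allR (fun j => force ((rrU1.lv a2_28.mul a2_28.one).U j) (allC a2_28.mul rr_fU rrU2_ls)) (nat_lit 0) (nat_lit 2) = true := by decide +kernel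
theorem rr_aU_1 : allR (fun j => force ((rrU1.lv a2_28.mul a2_28.one).U j) (allC a2_28.mul rr_fU rrU2_ls)) (nat_lit 2) (nat_lit 2) = true := by decide +kernel
theorem rr_aU_2 : allR (fun j => force ((rrU1.lv a2_28.mul a2_28.one).U j) (allC a2_28.mul rr_fU rrU2_ls)) (nat_lit 4) (nat_lit 2) = true := by decide +kernel

end H29
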