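import Cfsg.Agent.H29.Rr4D

set_option autoImplicit false
set_option maxRecDepth 100000
set_option linter.style.haveILetI false
set_option linter.unusedVariables false
set_option linter.style.longLine false
set_option linter.unusedTactic false
set_option linter.unreachableTactic false

namespace H29

theorem rr_aU_3 : allR (fun j => force ((rrU1.lv a2_28.mul a2_28.one).U j) (allC a2_28.mul rr_fU rrU2_ls)) (nat_lit 6) (nat_lit 2) = true := by decide +kernel
theorem rr_aU_4 : allR (fun j => force ((rrU1.lv a2_28.mul a2_28.one).U j) (allC a2_28.mul rr_fU rrU2_ls)) (nat_lit 8) (nat_lit 2) = true := by decide +kernel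
theorem rr_aU_5 : allR (fun j => force ((rrU1.lv a2_28.mul a2_28.one).U j) (allC a2_28.mul rr_fU rrU2_ls)) (nat_lit 10) (nat_lit 2) = true := by decide +kernel
theorem rr_aU_6 : allR (fun j => force ((rrU1.lv a2_28.mul a2_28.one).U j) (allC a2_28.mul rr_fU rrU2_ls)) (nat_lit 12) (nat_lit 2) = true := by decide +kernel
theorem rr_aU_7 : allR (fun j => force ((rrU1.lv a2_28.mul a2_28.one).U j) (allC a2_28.mul rr_fU rrU2_ls)) (nat_lit 14) (nat_lit 2) = true := by decide +kernel
theorem rr_aU_8 : allR (fun j => force ((rrU1.lv a2_28.mul a2_28.one).U j) (allC a2_28.mul rr_fU rrU2_ls)) (nat_lit 16) (nat_lit 2) = true := by decide +kernel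
theorem rr_aU_9 : allR (fun j => force ((rrU1.lv a2_28.mul a2_28.one).U j) (allC a2_28.mul rr_fU rrU2_ls)) (nat_lit 18) (nat_lit 2) = true := by decide +kernel
theorem rr_aU_10 : allR (fun j => force ((rrU1.lv a2_28.mul a2_28.one).U j) (allC a2_28.mul rr_fU rrU2_ls)) (nat_lit 20) (nat_lit 2) = true := by decide +kernel
theorem rr_aU_11 : allR (fun j => force ((rrU1.lv a2_28.mul a2_28.one).U j) (allC a2_28.mul rr_fU rrU2_ls)) (nat_lit 22) (nat_lit 2) = true := by decide +kernel

end H29
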