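import Cfsg.Agent.H29.Rr4D
import Cfsg.Agent.H29.Rr4C1
import Cfsg.Agent.H29.Rr4C2
import Cfsg.Agent.H29.Rr4C3
import Cfsg.Agent.H29.Rr4C4

set_option autoImplicit false
set_option maxRecDepth 100000
set_option linter.style.haveILetI false
set_option linter.unusedVariables false
set_option linter.style.longLine false
set_option linter.unusedTactic false
set_option linter.unreachableTactic false

namespace H29

theorem rr_ov : ∀ j < nat_lit 102, (ov3At a2_28.mul Nat.beq a2_28.one rrD2_x rrP1_g rrE1_g rrL1_g rr_y13 3119 rr_W) j = true :=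
  (allR_step (c := nat_lit 102) (allR_step (c := nat_lit 80) (allR_step (c := nat_lit 40) (fun _ h => absurd h (Nat.not_lt_zero _)) rr_ov_0 (by decide)) rr_ov_1 (by decide)) rr_ov_2 (by decide))

theorem rr_aU : ∀ j < nat_lit 25, (fun j => force ((rrU1.lv a2_28.mul a2_28.one).U j) (allC a2_28.mul rr_fU rrU2_ls)) j = true :=
  (allR_step (c := nat_lit 25) (allR_step (c := nat_lit 24) (allR_step (c := nat_lit 22) (allR_step (c := nat_lit 20) (allR_step (c := nat_lit 18) (allR_step (c := nat_lit 16) (allR_step (c := nat_lit 14) (allR_step (c := nat_lit 12) (allR_step (c := nat_lit 10) (allR_step (c := nat_lit 8) (allR_step (c := nat_lit 6) (allR_step (c := nat_lit 4) (allR_step (c := nat_lit 2) (fun _ h => absurd h (Nat.not_lt_zero _)) rr_aU_0 (by decide)) rr_aU_1 (by decide)) rr_aU_2 (by decide)) rr_aU_3 (by decide)) rr_aU_4 (by decide)) rr_aU_5 (by decide)) rr_aU_6 (by decide)) rr_aU_7 (by decide)) rr_aU_8 (by decide)) rr_aU_9 (by decide)) rr_aU_10 (by decide)) rr_aU_11 (by decide)) rr_aU_12 (by decide))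

end H29
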