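import Cfsg.Agent.H29.Rr4

set_option autoImplicit false
set_option maxRecDepth 100000
set_option linter.style.haveILetI false
set_option linter.unusedVariables false
set_option linter.style.longLine false
set_option linter.unusedTactic false
set_option linter.unreachableTactic false

namespace H29

open Subgroup MulAction

variable {X Y Ω : Type*} [Group X] [Finite X] [Group Y] [MulAction Y Ω] {M : Model X} {ι : X →* Y} {s : Y} {a b c : Ω}

theorem rr_A (F : RrF M) {K : Subgroup X} (hK : 2304 * Nat.card K = Nat.card X) :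
    ∃ g, ∀ x, g⁻¹ * x * g ∈ K ↔ x ∈ M.cl rrJ1_g := by
  obtain ⟨h1, h2, h3, vv, va, top, card, nm, cJ, nJ, cU, nU, cC, nC, cV, nV, cW, nW, cS, nS, cT, nT, cK, nK, cQ, nQ, cP, nP, cN, nN, cM, nM, cY, nY, cL, nL, cE, nE⟩ := F
  obtain ⟨R, one, mul, eqb, a1, a2, a3⟩ := M
  dsimp only at h1 h2 h3
  subst h1 h2 h3
  set M : Model X := ⟨R, a2_28.one, a2_28.mul, Nat.beq, a1, a2, a3⟩ with hM
  have vb := in_of_slpW (M := M) _ vv rr_buxok
  haveI : Fact (Nat.Prime 5) := ⟨by norm_num⟩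
  haveI : Fact (Nat.Prime 13) := ⟨by norm_num⟩
  let L := fun g : X => K.comap (MulAut.conj g⁻¹).toMonoidHom
  have mL : ∀ g x, x ∈ L g ↔ g⁻¹ * x * g ∈ K := fun g x => by simp [L]
  have nL' : ∀ g, Nat.card (L g) = 15600 := fun g => by rw [card_conj_of g (mL g)]; omega
  have iL : ∀ g, (L g).index = 2304 := fun g => by have := (L g).index_mul_card; rw [nL', card] at this; omega
  obtain ⟨g, hg⟩ := exists_conj_le (p := 5) (P := M.cl rrP1_g) (K := L 1) (IsPGroup.of_card (n := 2) nP)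
    (by rw [iL]; norm_num)
  obtain ⟨x, hx⟩ := exists_fun_R (valid_sub (l := rrD2_x) va (by (try dsimp only [M]); decide +kernel))
  obtain ⟨r, hr⟩ := exists_fun_R (valid_sub (l := rrD1_x) va (by (try dsimp only [M]); decide +kernel))
  obtain ⟨n, hn⟩ := over_two (K := L g) hx (valid_sub (l := rrP1_g) va (by (try dsimp only [M]); decide +kernel)) (y := rr_y13) (valid_of_mem va (by (try dsimp only [M]); decide +kernel)) (o := 3119)
    (by norm_num) (fun x => dc2_cover cM cN hx (ms := rrD2_ms) (by decide) (by dsimp only [M]; exact rrD2_0) rrD2_dc x (top ▸ mem_top x)) (cjAll_spec cY rr_nY) (cjAll_spec cP rr_nP) rr_ov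
    (fun x hx => (mL g x).2 (by simpa using (mL 1 _).1 (hg x hx)))
    (exists_conj_le (p := 13) (P := M.cl rrY1_g) (IsPGroup.of_card (n := 1) nY) (by rw [iL]; norm_num))
  have e : ∀ x, n⁻¹ * x * n ∈ L g → x ∈ L (n * g) := fun x h => (mL _ _).2 (by simpa [mul_assoc] using (mL _ _).1 h)
  rcases hn with hn | hn
  · have := card_dvd_of_le (fun x hx => e x (hn x hx) : M.cl rrE1_g ≤ L (n * g))
    rw [nE, nL'] at this
    norm_num at this
  have h5 := eq_of_le_of_card_ge (le_of_small2 cL (fun x hx => e x (hn x hx) : M.cl rrL1_g ≤ L (n * g))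
    (cJ.cl_le_of_sift rr_LJ) (cjAll_spec cL rr_nL) (m := 3) (by rw [nL', nL]; norm_num) nm (by norm_num) hr
    (valid_sub va (by (try dsimp only [M]); decide +kernel)) (fun x => dc2_cover cJ cJ hr (ms := rrD1_ms) (by decide) (by dsimp only [M]; exact rrD1_0) rrD1_dc x (top ▸ mem_top x)) rrD1_mv) (by rw [nL', nJ])
  exact ⟨n * g, fun x => by rw [← h5, mL]⟩

theorem rr_inf (F : RrF M) (hJ : Sx ι b = M.cl rrJ1_g) : ∃ r : ℕ → X, (∀ i, M.R (lgetD M.one rrD1_x i) (r i)) ∧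
    (∀ x, x ∈ Sx ι b ∨ ∃ i < 5, ∃ j ∈ Sx ι b, (j * r i)⁻¹ * x ∈ Sx ι b) ∧ ∀ i < 5, Sx ι b ⊓ Sx ι (ι (r i) • b) =
      M.cl ([rrU1_g, rrV1_g, rrW1_g, rrS1_g, rrT1_g].getD i []) := by
  obtain ⟨h1, h2, h3, vv, va, top, card, nm, cJ, nJ, cU, nU, cC, nC, cV, nV, cW, nW, cS, nS, cT, nT, cK, nK, cQ, nQ, cP, nP, cN, nN, cM, nM, cY, nY, cL, nL, cE, nE⟩ := F
  obtain ⟨R, one, mul, eqb, a1, a2, a3⟩ := M
  dsimp only at h1 h2 h3
  subst h1 h2 h3
  set M : Model X := ⟨R, a2_28.one, a2_28.mul, Nat.beq, a1, a2, a3⟩ with hM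
  have vb := in_of_slpW (M := M) _ vv rr_buxok
  obtain ⟨r, hr⟩ := exists_fun_R (valid_sub (l := rrD1_x) va (by (try dsimp only [M]); decide +kernel))
  have cov := cov_conv (fun x => dc2_cover cJ cJ hr (ms := rrD1_ms) (by decide) (by dsimp only [M]; exact rrD1_0) rrD1_dc x (top ▸ mem_top x))
  refine ⟨r, hr, hJ ▸ cov, inf_eq_of_sum hJ (n := fun i => [78, 300, 300, 650, 975].getD i 0) cov (fun i hi u hu => ?_)
    (fun i hi => ?_) (by rw [card, nJ]; rfl)⟩
  · interval_cases i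
    exacts [⟨(cjIn_spec cJ (hr 0) rr_cU).1 hu, (cjIn_spec cJ (hr 0) rr_cU).2 u hu⟩, ⟨(cjIn_spec cJ (hr 1) rr_cV).1 hu, (cjIn_spec cJ (hr 1) rr_cV).2 u hu⟩, ⟨(cjIn_spec cJ (hr 2) rr_cW).1 hu, (cjIn_spec cJ (hr 2) rr_cW).2 u hu⟩, ⟨(cjIn_spec cJ (hr 3) rr_cS).1 hu, (cjIn_spec cJ (hr 3) rr_cS).2 u hu⟩, ⟨(cjIn_spec cJ (hr 4) rr_cT).1 hu, (cjIn_spec cJ (hr 4) rr_cT).2 u hu⟩]
  · interval_cases i
    exacts [nJ.trans (congrArg (78 * ·) nU).symm, nJ.trans (congrArg (300 * ·) nV).symm, nJ.trans (congrArg (300 * ·) nW).symm, nJ.trans (congrArg (650 * ·) nS).symm, nJ.trans (congrArg (975 * ·) nT).symm]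

theorem rr_B (F : RrF M) (h : Rk3 ι a b c 2304 1755) (hJ : Sx ι b = M.cl rrJ1_g) {S : Type*} [Group S] {f : X →* S}
    (hf : Function.Injective f) {s0 : S} (ss0 : s0 * s0 = 1) {t : X} (rt : M.R rr_t t)
    (br0 : s0 * f t * (s0 * f t * (s0 * f t)) = 1)
    (h0 : ∀ c j y, M.R c j → M.R (alC a2_28.mul rr_s c) y → s0 * f j = f y * s0) : ∃ s, s * s = 1 ∧
    s * ι t * s = ι t * s * ι t ∧ s • a = b ∧ ∀ c ∈ rrJ1_g, ∀ j, M.R c j → ∃ y, Al ι s j y ∧ M.R (alC a2_28.mul rr_s c) y := by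
  obtain ⟨r, hr, cov, eI⟩ := rr_inf F hJ
  obtain ⟨h1, h2, h3, vv, va, top, card, nm, cJ, nJ, cU, nU, cC, nC, cV, nV, cW, nW, cS, nS, cT, nT, cK, nK, cQ, nQ, cP, nP, cN, nN, cM, nM, cY, nY, cL, nL, cE, nE⟩ := F
  obtain ⟨R, one, mul, eqb, a1, a2, a3⟩ := M
  dsimp only at h1 h2 h3
  subst h1 h2 h3
  set M : Model X := ⟨R, a2_28.one, a2_28.mul, Nat.beq, a1, a2, a3⟩ with hM
  have vb := in_of_slpW (M := M) _ vv rr_buxok
  haveI : Fact (Nat.Prime 2) := ⟨by norm_num⟩
  obtain rfl := M.unique rt (hr 0)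
  have eU : Sx ι b ⊓ Sx ι (ι (r 0) • b) = M.cl rrU1_g := eI 0 (by norm_num)
  obtain ⟨u, ru⟩ := exists_R va (c := rr_w) (by (try dsimp only [M]); decide +kernel)
  obtain ⟨z, rz⟩ := exists_R va (c := rr_x) (by (try dsimp only [M]); decide +kernel)
  obtain ⟨j, rj⟩ := exists_R va (c := rr_y) (by (try dsimp only [M]); decide +kernel)
  obtain ⟨u', ru'⟩ := exists_R vb (c := rr_aw) (by (try dsimp only [M]); decide +kernel)
  obtain ⟨z', rz'⟩ := exists_R vb (c := rr_ax) (by (try dsimp only [M]); decide +kernel)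
  obtain ⟨j', rj'⟩ := exists_R vb (c := rr_ay) (by (try dsimp only [M]); decide +kernel)
  obtain ⟨u2, ru2⟩ := exists_R vb (c := rr_tw) (by (try dsimp only [M]); decide +kernel)
  obtain ⟨z2, rz2⟩ := exists_R vb (c := rr_tx) (by (try dsimp only [M]); decide +kernel)
  have gU : M.cl rrU1_g = closure {u, z} := Model.cl_pair ru rz
  have mu : u ∈ M.cl rrU1_g := gU ▸ subset_closure (by simp)
  have mz : z ∈ M.cl rrU1_g := gU ▸ subset_closure (by simp)
  have tt : r 0 * r 0 = 1 := M.eq_of (M.R_mul rt rt) M.R_one (by (try dsimp only [M]); decide +kernel)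
  have tu : r 0 * u * (r 0)⁻¹ = u2 := mul_inv_eq_of_eq_mul (M.eq_of (M.R_mul rt ru) (M.R_mul ru2 rt) (by (try dsimp only [M]); decide +kernel))
  have tz : r 0 * z * (r 0)⁻¹ = z2 := mul_inv_eq_of_eq_mul (M.eq_of (M.R_mul rt rz) (M.R_mul rz2 rt) (by (try dsimp only [M]); decide +kernel))
  have ht : ∀ x ∈ M.cl rrU1_g, r 0 * x * (r 0)⁻¹ ∈ M.cl rrU1_g := fun x hx => by
    simpa [inv_eq_of_mul_eq_one_right tt] using (cjIn_spec cU rt rr_tU).2 x hx
  have nc : Nat.card (Sx ι c) = 20480 := by have := h.c2; omega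
  obtain ⟨s1, sa, sb⟩ := h.swap (by norm_num) (by norm_num)
  obtain ⟨k, hk, e1⟩ := h.img (by norm_num) sa sb (m := fun i => [200, 52, 52, 24, 16].getD i 0) (i := 0) cov
    (fun i hi => by rw [eI i hi]; interval_cases i; exacts [nU, nV, nW, nS, nT]) (by norm_num) (by rw [hJ, nJ]; decide)
    (by rw [nc]; decide) (by decide)
  have st : ∀ {s} {w}, s • a = b → s • b = a → w ∈ Sx ι b → (ι w * s) • a = b ∧ (ι w * s) • b = a :=
    fun p q r => ⟨by rw [mul_smul, p, mem_Sx.1 r], by rw [mul_smul, q, h.fix]⟩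
  have sd : ∀ {s} {w}, s • ι (r 0) • b = ι (r 0) • b → w ∈ M.cl rrU1_g → (ι w * s) • ι (r 0) • b = ι (r 0) • b :=
    fun p r => by rw [mul_smul, p, mem_Sx.1 (eU.ge r).2]
  obtain ⟨a2, b2⟩ := st sa sb (inv_mem hk)
  have d2 : (ι k⁻¹ * s1) • ι (r 0) • b = ι (r 0) • b := by rw [mul_smul, map_inv, inv_smul_eq_iff]; exact e1
  obtain ⟨y, my, hy⟩ := h.norm a2 b2 d2 eU mu
  have ou : orderOf u = 2 ^ 3 := orderOf_of_ordOK (n := 8) (ps := [2]) ru (by (try dsimp only [M]); decide +kernel) (by norm_num) (by norm_num)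
    (mem_of_primeFactorsList (by norm_num) (by simp [Nat.primeFactorsList_ofNat]))
  obtain ⟨w, mw, n, hn, e2⟩ := exists_conj_pow (m := 25) mu my ou ((hy.order h.inj).trans ou) nU (by norm_num)
  obtain ⟨a3, b3⟩ := st a2 b2 (eU.ge mw).1
  have d3 := sd d2 mw
  obtain ⟨x, mx, hx⟩ := h.norm a3 b3 d3 eU mz
  obtain ⟨y3, hy3⟩ := exists_al h.rng b3 (hJ.ge (Model.mem_cl (l := rrJ1_g) (c := rr_y) (subL_spec (l := [rr_y]) (by (try dsimp only [M]); decide +kernel) _ (by simp)) rj))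
  have aU := cU.allC_top rr_aU
  obtain ⟨cx, rx, e3⟩ := aU x mx
  obtain ⟨q, hq⟩ := exists_fun_R (valid_sub (l := rrD4_x) va (by (try dsimp only [M]); decide +kernel))
  have r4 : M.R rr_z (u ^ 4) := R_pw_of ru (by (try dsimp only [M]); decide +kernel) (by norm_num)
  obtain ⟨v, mv, e4⟩ := en3At_spec h.inj (U := M.cl rrU1_g) (NL := rr_NL)
    (fun c hc => cU.in_of_sift (valid_sub vb (by (try dsimp only [M]); decide +kernel) c hc) (allL_spec rr_NU c hc)) cC ru rz rj rx ru rz rj ru' rz' rj'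
    (show n < 8 from hn) (by norm_num) (by norm_num) (rels_lt (by decide)) (rels_lt (by decide)) (rels_lt (by decide))
    (by (try dsimp only [M]); decide +kernel) (by (try dsimp only [M]); decide +kernel) (by (try dsimp only [M]); decide +kernel) (M.ne_of rz M.R_one (by (try dsimp only [M]); decide +kernel)) (M.ne_of r4 M.R_one (by (try dsimp only [M]); decide +kernel)) ((commB_iff rj r4).1 (by (try dsimp only [M]); decide +kernel))
    (cent_of_cov (cl_comm (l := rrC1_g) r4 (by (try dsimp only [M]); decide +kernel)) hq r4 (dc2_cover cC cC hq (ms := rrD4_ms) (by decide) (by dsimp only [M]; exact rrD4_0) rrD4_dc) (by (try dsimp only [M]); decide +kernel))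
    (hJ ▸ a3 ▸ hy3.fix (h.fix j)) (e2 ▸ hy.adj w) hx hy3 (band_iff.1 e3).1
  obtain ⟨a4, b4⟩ := st a3 b3 (eU.ge mv).1
  have d4 := sd d3 mv
  generalize ι v * (ι w * (ι k⁻¹ * s1)) = s at e4 a4 b4 d4
  rcases e4 with ⟨p, q, -⟩ | ⟨p, q, o⟩
  · obtain ⟨w, mw, e⟩ := h.bad a4 b4 d4 tt eU (fun x hx => al_cl (MonoidHom.id X) (by simp [p, q]) x (gU ▸ hx)) ht
    obtain ⟨cw, rw', e5⟩ := aU w mw
    have := (band_iff.1 (band_iff.1 e5).2).2
    rw [hitL_one rw' ru rz ru2 rz2 (tu ▸ e u mu) (tz ▸ e z mz)] at this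
    cases this
  have al1 := (show rr_aw = alC a2_28.mul rr_s rr_w by decide +kernel) ▸ ru'
  have al2 := (show rr_ax = alC a2_28.mul rr_s rr_x by decide +kernel) ▸ rz'
  have al3 := (show rr_ay = alC a2_28.mul rr_s rr_y by decide +kernel) ▸ rj'
  obtain ⟨ss, br⟩ := h.good2 a4 b4 d4 tt eU hf ss0 br0 (fun x hx => (Al.cl (P := fun _ => True) trivial
    (fun _ _ _ _ => trivial) (fun _ _ => trivial) (by
      rintro _ (rfl | rfl)
      exacts [⟨u', Prod.ext p (h0 _ _ _ ru al1), trivial⟩, ⟨z', Prod.ext q (h0 _ _ _ rz al2), trivial⟩]) x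
        (gU ▸ hx)).imp fun _ h => h.1) ht fun w mw e => by
      obtain ⟨cw, rw', e5⟩ := aU w mw
      have := (band_iff.1 (band_iff.1 e5).2).1
      rw [hitL_one rw' ru rz ru rz (e u mu) (e z mz)] at this
      exact M.eq_of rw' M.R_one this
  refine ⟨s, ss, br, a4, fun c hc g rg => ?_⟩
  have hc' : c = rr_w ∨ c = rr_x ∨ c = rr_y := by simpa using (show c ∈ [rr_w, rr_x, rr_y] from hc)
  rcases hc' with rfl | rfl | rfl
  exacts [⟨u', M.unique ru rg ▸ p, al1⟩, ⟨z', M.unique rz rg ▸ q, al2⟩, ⟨j', M.unique rj rg ▸ o, al3⟩]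

theorem rr_C1 (F : RrF M) (C : ImC M ι s (M.cl rrJ1_g) (alC a2_28.mul rr_s) rr_t) (ha : ∀ x, ι x • a = a) {t' : X}
    (rt : M.R rr_tp t') : M.cl rrK1_g ≤ Sx ι (s • ι t' • s • a) := by
  obtain ⟨h1, h2, h3, vv, va, top, card, nm, cJ, nJ, cU, nU, cC, nC, cV, nV, cW, nW, cS, nS, cT, nT, cK, nK, cQ, nQ, cP, nP, cN, nN, cM, nM, cY, nY, cL, nL, cE, nE⟩ := F
  obtain ⟨R, one, mul, eqb, a1, a2, a3⟩ := M
  dsimp only at h1 h2 h3
  subst h1 h2 h3
  set M : Model X := ⟨R, a2_28.one, a2_28.mul, Nat.beq, a1, a2, a3⟩ with hM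
  have vb := in_of_slpW (M := M) _ vv rr_buxok
  have hJ := C.fixb cJ ha
  have f3 : Im M ι s rr_tp (s • a) M.one _ := Im.dfn rt
  have f2 := Im.t C ha
  have n0 := f2
  have n1 := f3
  have n2 := n1.mv C (cJ.in_elt 6997) ((cJ.in_elt 14842).mono hJ) (nat_lit 0x58e13b1799debad690c1b4c3af435f246ba05ffdacd74bdd34a004e87a0a57209f02090020000fdc048f769fb236f87ff56a7f190328d1abed41a2557172342ea0fd375fa53f8952d2c309a297de2104e05a748ea4ce80dac3711a528eed20000001) (nat_lit 0x19e22eb35c928b98cf39c96edb1aa90221d696e95f58987d407c2870e0b3c75600ecef714f2c617ff82db662444158f010957f08ac3258bbc663aa37a0a572c7dc77239abe43f83e2c1e4cb1fced1f791ed41a25a4ce80d3cc1ecb4e588730000001) (by (try dsimp only [M]); decide +kernel)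
  have k0 := n1.fix n2 (valid_of_mem va (c := (nat_lit 0x19e22eb35c928b98cf39c96edb1aa90221d696e95f58987d407c2870e0b3c75600ecef714f2c617ff82db662444158f010957f08ac3258bbc663aa37a0a572c7dc77239abe43f83e2c1e4cb1fced1f791ed41a25a4ce80d3cc1ecb4e588730000001)) (by (try dsimp only [M]); decide +kernel)) (by (try dsimp only [M]); decide +kernel)
  have n3 := n1.mv C (cJ.in_elt 7137) ((cJ.in_elt 7041).mono hJ) (nat_lit 0x58e13b1799debad690c1b4c3af435f246ba05ffdacd74bdd34a004e87a0a57209f02090020000fdc048f769fb236f87ff56a7f190328d1abed41a2557172342ea0fd375fa53f8952d2c309a297de2104e05a748ea4ce80dac3711a528eed20000001) (nat_lit 0x19e22eb4cd4709290d9197a6e8551c0c1fe2e32390de151e4cc464956b333ca1f1da6c998d1c853c1cda6524b54498c5003f81191653894938962f6cf6404ce069bd242e3bfb4365b3f9df03e42cd3da8217e59bd017cb7ea2ba603a3e6d60000001) (by (try dsimp only [M]); decide +kernel)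
  have k1 := n1.fix n3 (valid_of_mem va (c := (nat_lit 0x19e22eb4cd4709290d9197a6e8551c0c1fe2e32390de151e4cc464956b333ca1f1da6c998d1c853c1cda6524b54498c5003f81191653894938962f6cf6404ce069bd242e3bfb4365b3f9df03e42cd3da8217e59bd017cb7ea2ba603a3e6d60000001)) (by (try dsimp only [M]); decide +kernel)) (by (try dsimp only [M]); decide +kernel)
  have n5 := n1.mv C (cJ.in_elt 12558) ((cJ.in_elt 0).mono hJ) (nat_lit 0x65c221b4a8dd1f3a409ee786430ed98fcdb907e1d0e521bf0a90221d999a2e8948eac382c74afc3b620e68057e6eeb70051e1292e223301285c74cc4faba7496e5ec9ebeaeb7f189ae66ca9ef947fc918e4837d1006304662c7974f41057a0000001) (nat_lit 0xe9033d010000001c5302a3f30e6745ce38628c5665b8d895a642019aad676ee2db40da2f6039739ad12967f9ad2decbf370000010c49267e8952d2cc6a3f3ae521bf0f42be5c285a287d1654148a0dc77b6751fea3f6f04dca2a1cc7356500000001) (by (try dsimp only [M]); decide +kernel)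
  have n6 := n1.mv C (cJ.in_elt 11754) ((cJ.in_elt 4874).mono hJ) (nat_lit 0x495c58a1149d785a2fe1f3525f3b7f9ee25fb2aa28a015f494dc0937aba9c2198228936f31716217e59b8b201a0f5f20aa614d561eeb66741961c3c03db56a8e1f6a84b813c3c0d9e1982906ba1e6a06211a22bbbad0f7be21febff66f2d50000001) (nat_lit 0x3bcbb4f2de05d35eef0c8129c9e6796cee703415d2e4cb1fcb042284695bd8bd3f1ac24f619edc73565021786c0d1f38ac55fc9c92f60397b1c873d4529c5d7a59b918f2afab7bd29302c0cdd59c5bfa87fc87a47c9464ee317c6ac4607380000001) (by (try dsimp only [M]); decide +kernel)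
  have n7 := n5.braid C n6 (nat_lit 0xd5e38e7cb9d8d3f7f22aaf34444b4d4a7400794a0e946b0796b1e5b638749f2f08f57a96edb1a7bd29309d177dee960b3da5834920da24699f56e0025f6a48a015f49f2d0ea9ee886445b6be04f18bae4b39d8098f994de7c48817bddfe6e0000001) (nat_lit 0x7f4f3a36e72c18bfb51219234d1820fa79d2e32390386d6bb6f87ff530cd4f18c6df07ad28106bddfe6e33d5c056196a4a446f4bc96edb1aab105751c92b951ccdc95c461f2039ad1290ab5bd421a3c345ba27c760468b941036b0213fef40000001) (by (try dsimp only [M]); decide +kernel)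
  have n9 := n0.mv C (cJ.in_elt 14727) ((cJ.in_elt 0).mono hJ) (nat_lit 0xf7e0bd14cd4709640900726917a731c3e649d177deeda642d834db89050012480e7570669b343753d823bf7d04e3ade3850000040a209f49158f0105a58ce7b39d80925110afe007a9fe42484063a04063d1b0ad98228934ac0f74b3a727b0000001) (nat_lit 0x957f08a082b3e7834d6577f2100173e0f524244111613f4466409007aa89577f93333c1b6f066de171e659174cae52c4194263ee12ea7817aba9c215d46855d00d726723661b545893de0975b9804acc0e351d9e1c0c1feff4eca59f01f6d0000001) (by (try dsimp only [M]); decide +kernel)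
  have n10 := n1.mv C (cJ.in_elt 37) ((cJ.in_elt 666).mono hJ) (nat_lit 0xc04bfdbec924ce55a88b326917a75d5d64267f9ad201908f40d9ab457683c0fc298d69b503028374203a06dd6718c6df2589b129f5f70c1c4ba398067f97cfb6751feb5ea645e73c50bdd80b4c5a0470b382fba2948eac355807ff8c2437a0000001) (nat_lit 0x2f71877e48f7dc9d7c21cbab69ca90221d09fc827d3cdada5a0470b0080000d18681cb7bd1217f70236517b8f4e436725cdb2b40a05d0ff7cf875b832d98545387a22a00177b9649289078a1277c33832e1881450bb51bc60f95c96b4c490000001) (by (try dsimp only [M]); decide +kernel)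
  have n11 := n9.braid C n10 (nat_lit 0x7995eaa278b3c61451dd190045daa8d164d82c14eb9c1ba9555a88b371952db3c82dc8249c25374f7ccfaabd261f328735e07743a4df6857999a2e87e67497122b78abbda6f45d6c1aec56073c3af93fd350c9b1936bd677cd8fea74511a60000001) (nat_lit 0xb1f195716a3c4bcfad3aa7168a944dc093709fc82726ecfb063a0406bb5f190e42288c52637929d6475a3b6e31287e681b056f8856401fd8b4f96676b333ca82771870eebe6b6483e70f61d15dc834484c14defa40b5a89db4054daea03100000001) (by (try dsimp only [M]); decide +kernel)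
  have n12 := n1.mv C (cJ.in_elt 37) ((cJ.in_elt 5379).mono hJ) (nat_lit 0x7995eaa278b3c61451dd190045daa8d164d82c14eb9c1ba9555a88b371952db3c82dc8249c25374f7ccfaabd261f328735e07743a4df6857999a2e87e67497122b78abbda6f45d6c1aec56073c3af93fd350c9b1936bd677cd8fea74511a60000001) (nat_lit 0x2f71877e48f7dc9d7c21cbab69ca90221d09fc827d3cdada5a0470b0080000d18681cb7bd1217f70236517b8f4e436725cdb2b40a05d0ff7cf875b832d98545387a22a00177b9649289078a1277c33832e1881450bb51bc60f95c96b4c490000001) (by (try dsimp only [M]); decide +kernel)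
  have k2 := n12.fix n11 (valid_of_mem va (c := (nat_lit 0x5b3a6fb62ea360903523279c3b9b0a2c2ff0400000b0422845afd33ceb68af995b32a9802739c25d1036ebe7a555912735eef2551d96cdba908f2bfb25d8858277187b245328a04283dcc464950500124ee08640227177be9b81104e0e2a60000001)) (by (try dsimp only [M]); decide +kernel)) (by (try dsimp only [M]); decide +kernel)
  have n90 := n7.mv C (cJ.in_elt 13370) (k2.mul (k1.mul (k0.mul k1))) (nat_lit 0xf62bc65f70c1c6f91dc885e0c9dd7350b85e0475385c74cc6be7b5506e9ec878f524315b4eed74fa82da25e181b6cf904b78ebb8dc6ef0d8d24e841e2d0e813893e0b6180b8679b2074ad850806831b40938c96ac991c0df573155d3ff4c0000001) (nat_lit 0x2bfacc44a9e52a057543622c59abf18bae4734761489ff18d17b524aac991c0396db0dcfc5d7df803f7fd585f8b40b3ef5d88ccc93820edcab7721157c65b36692c83fe08642b365c7b4bb89c5605410582bfdf98ec031c34bf253396273d0000001) (by (try dsimp only [M]); decide +kernel)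
  have n91 := n7.mv C (cJ.in_elt 982) (k1.mul (k0.mul (k1.mul k2))) (nat_lit 0x46a70a8a209f493f9fdedf38b8415452fbd473e0531961c3c35e6c775352a9d6ad97f86c60163cf0870e10986307ece838d9eeb4f02b7fe4b4ad33ae7218ade7e96944f64bc8ddf4fc34c8f43119ee78c68e7732cf6404c1e1298e29da0740000001) (nat_lit 0x8c6df07a361cf82920f59165b87047c9c5f9156c4974f7111862b5993c3e6aa3f2e256524356a759482d5d98d787365c57671f5a1a6c73a6ae2410a977c1a348eed153cea7862b7f76875592bf448ec88f93333c5d387bf8f74202454d6a00000001) (by (try dsimp only [M]); decide +kernel)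
  have n92 := n90.braid C n91 (nat_lit 0xf2c4140207a2876310f79c4a47d68a0dc774a4f4d599dc0ac08f5ac0cf6404c6963b295458a1915a814026de56b3ca263f6353d58f4886080c270f1f44fd8ea10185f6edee1b05fbe686c40fdb3d1b2a29a45599276eab1b7d8d57455e1440000001) (nat_lit 0xd3f1ac24105aa0fc33ff24764b7e06d5e717737234c7dc772e241a4d1a870abd285c6862222be60f31363a3d957b42aa7200e7c08eb86f934b566741778491fde297a9bca6522a926bb77fa7e8d74bdd33c82dc821f5d8d23b3d2649e14f10000001) (by (try dsimp only [M]); decide +kernel)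
  have n106 := n7.mv C (cJ.in_elt 3829) (k1.mul k0) (nat_lit 0xc11088b5ee2c391e1298ed7dac690000080ca80da1807b5e5f7095ee011ee013834d8d064e468796cee7e5c231b77c3383276eab1aa39becd5bfa583ea00944d42adbc19235a73e0f52eeb700520a5376361b866ce6fc21ded2d73b6cf9040000001) (nat_lit 0x8e1f6a8ebeaeb725e661c68057e630cd4f14765b7f62a4c80d0ced5156fc97760dddd556ccb29c0dbe1d62dea5821ac169eef25512c9b88538f0b78d124c787b862923a72ad22e18414bcc058bb534c4f654d74b2d8ce1a2686a4448192ef0000001) (by (try dsimp only [M]); decide +kernel)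
  have n107 := n7.mv C (cJ.in_elt 15506) k2 (nat_lit 0xbe4f4c407d848fdf57315bf1c1ec2260c5c5874fd198ac337a302deff7add1631f1955fde197a20fa79d2624cd6c8344848ec031c0134716ed777f93e0c15817b799700a7af4a8d164df5f20aa4a317ee0cf1fefb67bccec2003847ece8380000001) (nat_lit 0xeb59bef4c24c0c001000095fd0a79d2473e3cea786273627f0ba1b270187c4d7558945b887c6788c65cbad8f7a5c655c1354c85a63e769d911740b160f31364f96f6586d0c62891707b1716da1a27255d271fa46c87161048ec9e9c45a1d60000001) (by (try dsimp only [M]); decide +kernel)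
  have n108 := n106.braid C n107 (nat_lit 0x96e5ec94b813c3d77d39c8b201a0695bd8b677a00d6d6b4e6175d98d77d212e7a05f9c56ccb298d1bd57ff49183c5434f10ac12302c9b885f76641d6428817000040004c08f8c36f8d26e695ca84954fa92bf443e0155e4ac880544c9d5b50000001) (nat_lit 0x9f6062f17e0c6b7cdda332131ba94ba51e89bca652f620af0ed41a256481d34d6d1178bfcc0c77a70ef896a5f4c9c8d1ec6969e8eecafaacbdb3f95759482d80000001cd09e16c94b4eda8f65f55806556cd55b21567d036bcd52bdeafd2d0000001) (by (try dsimp only [M]); decide +kernel)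
  have n109 := n92.mv C (cJ.in_elt 3783) (k0.mul (k2.mul (k0.mul k2))) (nat_lit 0x96e5ec94b813c3d77d39c8b201a0695bd8b677a00d6d6b4e6175d98d77d212e7a05f9c56ccb298d1bd57ff49183c5434f10ac12302c9b885f76641d6428817000040004c08f8c36f8d26e695ca84954fa92bf443e0155e4ac880544c9d5b50000001) (nat_lit 0x2920f59ad8f7a5e7e643a4666470260075813abf3510cc8d71a4e9cf158f010a1acbd417c4764feb6f07608afc08de3de6454d6a0903862574fa82da3ed27b7e67497e78c338c6d15f5a6424fe1161ed24bca04d35e6c770000040bf212810000001) (by (try dsimp only [M]); decide +kernel)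
  have k3 := n109.fix n108 (valid_of_mem va (c := (nat_lit 0x2cd3da8abed2c83ac300f9606c56b67bcce4dc5c5f7d81828ce6657ff3544f4a47c23f672bd18116a81bf5b8a4bb645d2e8c2437a067ee4406dc25ed3041a4f4a6332a2c7fc0c9d7c2136eade3b740fd026860cc1d0fe50cf0870e86d561c0000001)) (by (try dsimp only [M]); decide +kernel)) (by (try dsimp only [M]); decide +kernel)
  refine Model.cl_le fun c hc => ?_
  simp only [rrK1_g, List.mem_cons, List.not_mem_nil, or_false] at hc
  rcases hc with rfl | rfl | rfl | rfl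
  exacts [k0, k1, k2, k3]

theorem rr_C2 (F : RrF M) (C : ImC M ι s (M.cl rrJ1_g) (alC a2_28.mul rr_s) rr_t) (ha : ∀ x, ι x • a = a) {t' : X}
    (rt : M.R rr_tp t') (hQ : M.cl rrQ1_g ≤ Sx ι (s • ι t' • s • a)) :
    ∀ d ∈ closure (Set.range ι ∪ {s}), R3T ι a (s • a) (s • ι t' • s • a) (d • a) := by
  obtain ⟨h1, h2, h3, vv, va, top, card, nm, cJ, nJ, cU, nU, cC, nC, cV, nV, cW, nW, cS, nS, cT, nT, cK, nK, cQ, nQ, cP, nP, cN, nN, cM, nM, cY, nY, cL, nL, cE, nE⟩ := F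
  obtain ⟨R, one, mul, eqb, a1, a2, a3⟩ := M
  dsimp only at h1 h2 h3
  subst h1 h2 h3
  set M : Model X := ⟨R, a2_28.one, a2_28.mul, Nat.beq, a1, a2, a3⟩ with hM
  have vb := in_of_slpW (M := M) _ vv rr_buxok
  have hJ := C.fixb cJ ha
  have f3 : Im M ι s rr_tp (s • a) M.one _ := Im.dfn rt
  have f2 := Im.t C ha
  have f4 := f3.sym C
  have a0 := f3.mv C (cJ.in_elt 621) ((cJ.in_elt 0).mono hJ) (nat_lit 0x3580ca65a0a03ec3174a7bf7d04e4529c5d653894927affd200000204fb6c5a7d3034282c74af6312f7beb86f93946aa72c8716105d03f133f8119121477b58ac893e2f0e1e45d46855083df8b9b2559521f5d8dd3dae1bcf01436784301d0000001) (nat_lit 0x9f1ada5a4df5fa33ee4a90fd30f2c60f95cdbec14d1243fedd2b18316baf7ca4aa74db2f603975f246ba1dec3fd20e7fb00fe9369ecc86db7450fdbc0dbe1d984ece90bbfb53f847002804acc03d1b8ed3bcbb4ff32873593297df775c9660000001) (by (try dsimp only [M]); decide +kernel)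
  have b0 := f4.mv C (cJ.in_elt 6794) ((cQ.in_elt 16088).mono hQ) (nat_lit 0x2d0bf9f31b6003c21ccf9700313db4054d761ad4340b3718e688a46666fb3637da2bd96edb1af859ae9f9735508808602c0a3ef5672bd1871644d48d1bd573bc74d404000001059a4c3af93fdc83ad877f4f3a3e52c4194d804037862d4a0000001) (nat_lit 0xe0836d15e04753f7095eec66647fd657eb495fd0a77995eaa6a1f662e5749c1dea43bbfe08642aa01095be659809880b366f36697b7dcd79f93333c44d4cbd1f723cd65389499096074f521f7d023a21a3be9e4f322ca968c8922dbdbcd9d0000001) (by (try dsimp only [M]); decide +kernel)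
  have g0 := (a0.sym C).braid C b0 (nat_lit 0xc9e526b49cb457692bb7606dd6711c92b9516cb7561d4585b9c7aa28e8e6ebbb3160726f317164fa1658a6c73a6ab3598b1567d033cac78287e18cea2d14fb50642c6139e9e67e67497eb68af90b83ef95d387bf1c90387f3e1f00174fe470000001) (nat_lit 0x3af3fd1473e053a302defab15d8b8de3de62131ba9957f08a973b8b14365b3fd543d4b6edee1b524c8cfbe65980891364316bf49f45c67863c82dc80de0b98fe05c9716cb75657054a8726e6eecae71df322ca963be9e4f338f96068afd370000001) (by (try dsimp only [M]); decide +kernel)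
  have a1 := f3.mv C (cJ.in_elt 72) ((cJ.in_elt 0).mono hJ) (nat_lit 0x524c8cf19e4931a72ae8d70bd38191163bbe6feedccf6404c0f4e5ac3ade385b68cef4848398efe0dc3ca8588bfe317c6af72042e81108ab325cd6b499d0e9eb68af925301a99a937535876e86a234559b7e2645a583492e2d90874abaf8c0000001) (nat_lit 0x78451f90250bec60217ac62310e002d0bf9043a5af40813b1b5e0fa578ef3900cb4d7b01bf93d8d1bd5734fdda2a1086b401231c9764541cd124c78298576143bf344eca8161c81bdbd290d199f41057aa978093d2d4e234fea857f9a6c440000001) (by (try dsimp only [M]); decide +kernel)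
  have b1 := f4.mv C (cJ.in_elt 776) ((cQ.in_elt 5097).mono hQ) (nat_lit 0xa4ce80dc2d5e16089791c1477a8f9f1ada5305ea5fbe1a5acf561f6df37cb6754bf6e65be6bbdc0dbe1d379e794b8422806dbd9ef92f7c03642881784dfaa341c04eb77356052a0f8d03903e0af66f2d5be10d12c20634894f6ffbaecee730000001) (nat_lit 0xa9b39a36a68d79946b25911ae07997f8611fa95c1b286224fec84be98740064ce1136a086952de42484092f54537e331ca94dcd0a9bca652062283d09d0b15f6a7b9e473e0537ac520b5d5d6421c5302a6ab409347fc918089791c35a605c0000001) (by (try dsimp only [M]); decide +kernel)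
  have g1 := (a1.sym C).braid C b1 (nat_lit 0xaa010958c87518797211afa326eebda5a98881f154ac991c03aea53c8c6df25f60de3cffa9ed0563e777b0ffd5941036b0f18695d0008000e8dd820f64795c083df8bfbe9140705eb7ecf9b94a9349f143bcbe59000001009a40fe4d70c520000001) (nat_lit 0xc841cb4d136396498c5000e6f78d2cfb578b12f0da920df8b32006876d8dc4857f33a1b138f59dd80b4c1c527aaac9a18a27f7b683cea786822352a785c2a40aefbe15e047532ae6c9d31c3e64f7f22aa4ede0f01e6a06260217ace1f40e90000001) (by (try dsimp only [M]); decide +kernel)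
  have a2 := f3.mv C (cJ.in_elt 0) ((cJ.in_elt 0).mono hJ) (nat_lit 0x58e13b1799debad690c1b4c3af435f246ba05ffdacd74bdd34a004e87a0a57209f02090020000fdc048f769fb236f87ff56a7f190328d1abed41a2557172342ea0fd375fa53f8952d2c309a297de2104e05a748ea4ce80dac3711a528eed20000001) (nat_lit 0x8000000400000020000001000000080000004000000200000010000000800000040000002000000100000008000000400000020000001000000080000004000000200000010000000800000040000002000000100000008000000400000020000001) (by (try dsimp only [M]); decide +kernel)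
  have b2 := f4.mv C (cJ.in_elt 9664) ((cQ.in_elt 12817).mono hQ) (nat_lit 0x4f96f65223deecba5d805cb9d8d38d9cff10bbfb539fca65d82bbdfdbb5f190620ddd9298ac9f7cdda3381108abd8563293f81101712187c79a44ba7b862926d2e67220ee6392260c5c89b129f9c7aa28a583492031390b43136b0755536f0000001) (nat_lit 0x5a58ce719f9914a10185f362a1a8e2d4cbf43e9fb0006f9a5d4184e30c6ef9a6352e9bc62a851822352a37752ea39f152494dcd0a463456cb0c9dc3a5cdb2634c650ee46cb00aed56327427c455363b930a5f85b17330716963b29d973bbb0000001) (by (try dsimp only [M]); decide +kernel)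
  have g2 := (a2.sym C).braid C b2 (nat_lit 0xb39c3c8b1eccb32426728fcde2daf859ae9ce3176a448ec887f55832614f5dded1f791298ac9fad12652caa77dfb0422840d878389580ecd0ba1b2702818d305848a9bfa9d1f9f56e00d4589bd5b9010de1943ef78451f943627f5bff92150000001) (nat_lit 0x67f97cf075404c6692c83ef491ab190b2996bde1c8f8221ff693c5861524bae3ae99533b53b04062283dd5e08f807c287027f7b6835ea5c0eb7de9113a257f2ac7d9bfaecceabade1852fbe1a43724af538b046b76ecbd5396db0d895052c0000001) (by (try dsimp only [M]); decide +kernel)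
  have a3 := f3.mv C (cJ.in_elt 3) ((cJ.in_elt 0).mono hJ) (nat_lit 0x758072e4764b7e69a1e9a3b61e4f3af93fd2d5f5251f4ad0d98228937d0313940526c1c3258bb40c14d8d9ddd33cafe282feabf0d12ffc0aad12652a40fd2a9743e057b23fd99a80936a72ae8d960e84e4690a7e8bf4d172920f59528eed20000001) (nat_lit 0x3f5a1d2075a83c6c08b8d44b54a1ec09c97bc05e4d112ae913a6e206804acc05e98412c3258bbbf212813043c718d6fa34adc2b0c47f5963374203ae8dd820895052c69ed0ee613f4464263ee11469fbb158f010bdb3f95206e330f0f3ad60000001) (by (try dsimp only [M]); decide +kernel)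
  have b3 := f3.mv C (cJ.in_elt 15527) ((cJ.in_elt 9772).mono hJ) (nat_lit 0xfecfd21165b870ea1a36608633ad804acc033f2c7dee9fc09948eac303c1f91be15225e45c1dafc89b114a99317af2410257056a0bbd0ad8fdc048f2162e91927750ae699ab17bf766c797211ab3f9acae05da783a213a5fc33ff2bff92150000001) (nat_lit 0xdb4054d7918e4bb71d9a1f75cefc779e5f21b2786074fa82d00040000d8822ca5a63d8c8ec0ae70a3b44278794b62c76ec4d70c52ad281067c4323719153443ade385ae986be5b4e9b3b77cf7a7170578aa48ce827203f41150679563d6180000001) (by (try dsimp only [M]); decide +kernel)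
  have g3 := a3.braid C b3 (nat_lit 0x113ae93b6d2b08c957df7ab61d3112636c1b7bfd3b36d288e15be1123af93fd1d8b2a7e45c1dab2e1e7def07e7e790ff4163e483d28556f5753d823325cd6bd973bbb4d06ff29c1ba95e07743a59a9cf14ba398011740b1e324d31f250f810000001) (nat_lit 0xc60f95c31ec60e9b7227bf01725c58638548863644cf0870ed8563298f83385494cdf8c2e6f8c714ea96278794b290d9194abaf8c4f619ed9be232a9672fdd8c6df2592d4c454a0163fcf68f950e2f937321a07619e22ebf20530bb0dd71a0000001) (by (try dsimp only [M]); decide +kernel)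
  obtain ⟨r, hr⟩ := exists_fun_R (valid_sub (l := rrD1_x) va (by (try dsimp only [M]); decide +kernel))
  obtain ⟨q, hq⟩ := exists_fun_R (valid_sub (l := rrD6_x) va (by (try dsimp only [M]); decide +kernel))
  refine r3_closed ha C.ss rfl (r3_step2 ha (C.al' cJ) hJ (k := 5) (fun x => dc2_cover cJ cJ hr (ms := rrD1_ms) (by decide) (by dsimp only [M]; exact rrD1_0) rrD1_dc x (top ▸ mem_top x))
    (Or.inl (by rw [← mul_smul, C.ss, one_smul])) fun i hi => ?_) (r3_step2 ha (C.al' cJ) hQ (k := 1)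
    (fun x => dc2_cover cJ cQ hq (ms := rrD6_ms) (by decide) (by dsimp only [M]; exact rrD6_0) rrD6_dc x (top ▸ mem_top x)) (Or.inr (Or.inl ⟨t', by rw [← mul_smul, C.ss, one_smul]⟩)) fun i hi => ?_)
  · interval_cases i
    exacts [f2.rb (hr 0) (by (try dsimp only [M]); decide +kernel), g0.rb (hr 1) (by (try dsimp only [M]); decide +kernel), g1.rb (hr 2) (by (try dsimp only [M]); decide +kernel), g2.rb (hr 3) (by (try dsimp only [M]); decide +kernel), f3.rc (hr 4) (by (try dsimp only [M]); decide +kernel)]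
  · interval_cases i
    exact g3.rc (hq 0) (by (try dsimp only [M]); decide +kernel)

theorem rr_D (F : RrF M) (h : Rk3 ι a (s • a) c 2304 1755) (hJ : Sx ι (s • a) = M.cl rrJ1_g)
    (C : ImC M ι s (M.cl rrJ1_g) (alC a2_28.mul rr_s) rr_t) {t' : X} (rt : M.R rr_tp t') :
    M.cl rrQ1_g ≤ Sx ι (s • ι t' • s • a) ∧ ∀ x, ι x • s • ι t' • s • a ≠ a := by
  obtain ⟨q, hq, -, eI⟩ := rr_inf F hJ
  have hK := rr_C1 F C h.fix rt
  obtain ⟨h1, h2, h3, vv, va, top, card, nm, cJ, nJ, cU, nU, cC, nC, cV, nV, cW, nW, cS, nS, cT, nT, cK, nK, cQ, nQ, cP, nP, cN, nN, cM, nM, cY, nY, cL, nL, cE, nE⟩ := F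
  obtain ⟨R, one, mul, eqb, a1, a2, a3⟩ := M
  dsimp only at h1 h2 h3
  subst h1 h2 h3
  set M : Model X := ⟨R, a2_28.one, a2_28.mul, Nat.beq, a1, a2, a3⟩ with hM
  have vb := in_of_slpW (M := M) _ vv rr_buxok
  have eC : Sx ι (s • a) ⊓ Sx ι (ι t' • s • a) = M.cl rrT1_g := M.unique rt (hq 4) ▸ eI 4 (by norm_num)
  have h4 : s • ι t' • s • a ≠ a := fun e => by
    have e2 : ι t' • s • a = s • a := by simpa [← mul_smul, ← mul_assoc, C.ss] using congrArg (s • ·) e
    rw [e2, inf_idem, hJ] at eC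
    rw [eC, nT] at nJ
    cases nJ
  refine ⟨?_, fun x e => h4 (smul_left_cancel (ι x) (e.trans (h.fix x).symm))⟩
  rcases h.cov (s • ι t' • s • a) with e | ⟨x, e⟩ | ⟨x, e⟩
  · exact absurd e h4
  · have := card_dvd_of_le hK
    rw [e, card_Sx_smul, hJ, nJ, nK] at this
    norm_num at this
  have nc : Nat.card (Sx ι (s • ι t' • s • a)) = 20480 := by rw [e, card_Sx_smul]; have := h.c2; omega
  obtain ⟨r, hr⟩ := exists_fun_R (valid_sub (l := rrD5_x) va (by (try dsimp only [M]); decide +kernel))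
  exact (eq_of_le_of_card_ge (le_of_small cK cQ hK (cQ.cl_le_of_sift rr_KQ) (m := 5) (by rw [nc, nK]; norm_num) nQ
    (by norm_num) (by norm_num) hr (valid_sub va (by (try dsimp only [M]); decide +kernel)) (fun x => dc2_cover cK cQ hr (ms := rrD5_ms) (by decide) (by dsimp only [M]; exact rrD5_0) rrD5_dc x (top ▸ mem_top x)) rrD5_mv) (by rw [nc, nQ])).ge

end H29
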