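import Cfsg.Agent.H29.Rr5
import Cfsg.Agent.H29.RfI
import Cfsg.Agent.H29.Tits
import Cfsg.Agent.H29.Ru6

set_option autoImplicit false
set_option maxRecDepth 100000
set_option linter.style.haveILetI false
set_option linter.unusedVariables false
set_option linter.style.longLine false
set_option linter.unusedTactic false
set_option linter.unreachableTactic false

namespace H29

open Cfsg.Lie Subgroup MulAction

set_option maxHeartbeats 1000000 in
theorem f42_ex : ∃ (ρ : twistedF4 (ZMod 2) 1 →* Matrix (Fin 52) (Fin 52) (ZMod 2)) (hρ : Function.Injective ρ),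
    ∀ c ∈ tt_T, (a2_52.model ρ hρ).In ⊤ c := by
  obtain ⟨fm⟩ := exists_fm1 (F := ZMod 2) (p := 2) (ZMod.card 2)
  have e1 : fm.el 1 = 1 := FM.el_one (by decide +kernel)
  have e0 : fm.el 0 = 0 := FM.el_zero (by decide +kernel)
  have hT : ∀ c ∈ tt_T, (fm.model (n := 52) (ι := chevF4.Idx) (finSumFinEquiv (m := 4) (n := 48)).symm a2_52
      (glM (twistedF4 (ZMod 2) 1)) glM_inj).In ⊤ c :=
    List.forall_mem_cons.2 ⟨FM.in_word (D := chevF4) (tt_cs 0) (Or.inl ⟨1, Or.inl (by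
      show [(33, fm.el 1), (24, fm.el 1)] = _; rw [e1]; decide)⟩) (by decide +kernel) (by norm_num),
    List.forall_mem_cons.2 ⟨FM.in_word (D := chevF4) (tt_cs 1) (Or.inl ⟨1, Or.inr (by
      show [(14, fm.el 1), (23, fm.el 1)] = _; rw [e1]; decide)⟩) (by decide +kernel) (by norm_num),
    List.forall_mem_cons.2 ⟨FM.in_word (D := chevF4) (tt_cs 2) (Or.inr ⟨1, 0, Or.inl (by
      show [(27, fm.el 1), (25, fm.el 1), (28, fm.el 1), (30, fm.el 0)] = _; rw [e1, e0]; decide)⟩)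
      (by decide +kernel) (by norm_num),
    List.forall_mem_cons.2 ⟨FM.in_word (D := chevF4) (tt_cs 3) (Or.inr ⟨1, 0, Or.inr (by
      show [(20, fm.el 1), (22, fm.el 1), (19, fm.el 1), (17, fm.el 0)] = _; rw [e1, e0]; decide)⟩)
      (by decide +kernel) (by norm_num), List.forall_mem_nil _⟩⟩⟩⟩
  exact ⟨_, _, hT⟩

theorem ruA2_facts : (∀ c ∈ ruA2_g, ruKM.In ⊤ c) ∧ Nat.card (ruKM.cl ruA2_g) = 35942400 := by
  obtain ⟨St, k, -, e, hi, -⟩ := ruK_all
  have h0 := LvInfo.card e.1 hi k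
  rw [card_top, ruK_card, show (ru1.lv a2_28.mul a2_28.one).n = 4060 by decide +kernel] at h0
  exact ⟨LvD.valid_next (D := ru1) ruK_valid ru1_ok ru1_next, by omega⟩

theorem f42_iso : Nonempty (ruKM.cl ruA2_g ≃* twistedF4 (ZMod 2) 1) := by
  obtain ⟨ρ, hρ, hv⟩ := f42_ex
  obtain ⟨St, k⟩ : ∃ St, Key (a2_52.model ρ hρ) St tt1_key tt1_fix := a2_52.keyP' ρ hρ _ _ (by decide +kernel)
  haveI := Nat.finite_of_card_ne_zero (card_2F42.trans_ne (by norm_num))
  obtain ⟨h1, h2⟩ := rfA_card _ rfl rfl rfl hv k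
  obtain ⟨φ, h3, -⟩ := rfG_hom ruKM (a2_52.model ρ hρ) rfl rfl rfl rfl rfl rfl
    (fun c g hg => a2_28.model_lt (Units.coeHom _) Units.val_injective (by decide +kernel) c g.1 hg) ruA2_facts.1 h1
    (K := ruKM.cl ruA2_g) rfl ruA2_facts.2.ge
  exact ⟨MulEquiv.ofBijective φ ((MonoidHom.range_eq_top.1 (h3.trans (eq_top_of_le_card _
    (card_2F42.trans_le h2)))).bijective_of_nat_card_le (ruA2_facts.2.trans card_2F42.symm).le)⟩

theorem alC_rel {S : Type*} [Group S] {M : Model S} {c0 c : ℕ} {s0 j y : S} (h0 : M.R c0 s0) (ss0 : s0 * s0 = 1)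
    (rj : M.R c j) (ry : M.R (alC M.mul c0 c) y) : s0 * j = y * s0 := by
  rw [M.unique ry (M.R_mul h0 (M.R_mul rj h0)), mul_assoc, mul_assoc, ss0, mul_one]

theorem rr_fin {S Y Ω : Type*} [Group S] [Finite S] [IsSimpleGroup S] [Group Y] [Finite Y] [MulAction Y Ω] (M : Model S)
    (h1 : M.mul = a2_28.mul) (h2 : M.eqb = Nat.beq) (h3 : M.one = a2_28.one) (vv : ∀ c ∈ ru1_g, M.In ⊤ c)
    (top : M.cl ru1_g = ⊤) {H : Subgroup S} (hH : H ≠ ⊤) (F : RrF (M.sub H)) {ι : H →* Y} {a b c : Ω}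
    (h : Rk3 ι a b c 2304 1755) (hG : Nat.card Y ≤ Nat.card S) : Nonempty (Y ≃* S) := by
  obtain ⟨R, one, mul, eqb, a1, a2, a3⟩ := M
  dsimp only at h1 h2 h3
  subst h1 h2 h3
  set M : Model S := ⟨R, a2_28.one, a2_28.mul, Nat.beq, a1, a2, a3⟩ with hM
  obtain ⟨g, hg⟩ := rr_A F h.c1
  have h' := h.move g
  have hJ : Sx ι (ι g • b) = _ := Subgroup.ext fun x => mem_Sx_smul.trans (hg x)
  have vb : ∀ c ∈ rr_bux, M.In H c := fun c hc =>
    let ⟨x, _, r⟩ := in_of_slpW (M := M.sub H) _ F.vv rr_buxok c hc; ⟨x, x.2, r⟩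
  have vx : ∀ c ∈ rr_xl, M.In H c := fun c hc => vb c (subL_spec (by decide +kernel) c hc)
  obtain ⟨s0, -, rs⟩ := le_of_wds (M := M) (K := ⊤)
    (List.forall_mem_append.2 ⟨vv, fun c hc => (vx c hc).mono le_top⟩) rr_sw rr_s (by simp)
  have ss0 : s0 * s0 = 1 := M.eq_of (M.R_mul rs rs) M.R_one (by dsimp only [M]; decide +kernel)
  obtain ⟨t, rt⟩ := exists_R F.va (c := rr_t) (by decide +kernel)
  have rst := M.R_mul rs rt
  obtain ⟨s, ss, br, sa, hal⟩ := rr_B F h' hJ H.subtype_injective ss0 rt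
    (M.eq_of (M.R_mul rst (M.R_mul rst rst)) M.R_one (by dsimp only [M]; decide +kernel)) fun c j y => alC_rel rs ss0
  rw [← sa] at h' hJ
  have C := imC_prod' (M := M) (ι := ι) (l := rrJ1_g) rs ss ss0 rt br
    (M.eq_of (M.R_mul rst rs) (M.R_mul (M.R_mul rt rs) rt) (by dsimp only [M]; decide +kernel)) hal
  obtain ⟨t', rt'⟩ := exists_R F.va (c := rr_tp) (by decide +kernel)
  obtain ⟨hQ, hne⟩ := rr_D F h' hJ C.fst rt'
  have rw2 := M.R_mul rs (M.R_mul rt' rs)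
  have := rr_C2 F C (pp_fix h.fix) rt' (Model.cl_le' fun c hc x rx => by
    rw [← mul_smul, ← mul_smul, mul_assoc, mem_Sx_pp]
    refine ⟨by simpa [mul_smul] using hQ (Model.mem_cl hc rx), ?_⟩
    obtain ⟨i, hi, rfl⟩ := exists_lgetD a2_28.one hc
    obtain ⟨d, hd, rd⟩ := Model.in_lgetD (l := rr_d) (fun c hc => vb c (subL_spec (by decide +kernel) c hc)) i
    have hi' : i < 2 := hi
    have e : (x : S) * (s0 * (t' * s0)) = s0 * (t' * s0) * d :=
      M.eq_of (M.R_mul rx rw2) (M.R_mul rw2 rd) (by interval_cases i <;> exact (by dsimp only [M]; decide +kernel))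
    show ((x : S) * (s0 * (t' * s0)))⁻¹ * (s0 * (t' * s0)) ∈ H
    simpa [e, mul_assoc] using hd)
  exact r3_final (u := (s, s0)) (v := (s, s0) * (ι.prod H.subtype t' * (s, s0))) hH hG
    (fun T h1 h2 => top_le_iff.1 (top.ge.trans (Model.cl_le (le_of_wds (List.forall_mem_cons.2 ⟨⟨_, h2, rs⟩,
      List.forall_mem_cons.2 ⟨⟨_, h1 t'.2, rt'⟩, fun c hc => (vx c hc).mono h1⟩⟩) rr_gw))))
    (h'.ne (by norm_num)) (fun x => by simpa [mul_smul] using hne x) (by simpa only [mul_smul] using this)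

end H29
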