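import Cfsg.Agent.H29.Sz3D

set_option autoImplicit false
set_option maxRecDepth 100000
set_option linter.style.haveILetI false
set_option linter.unusedVariables false
set_option linter.style.longLine false
set_option linter.unusedTactic false
set_option linter.unreachableTactic false

namespace H29

theorem szJ4_k_0 : allR (kchk szJ4_key (szJ4.lv a2_24.mul a2_24.one).U szJ4_kt (nat_lit 3)) (nat_lit 0) (nat_lit 3) = true := by decide +kernel
theorem szU1_ok : szU1.ok a2_24.mul (eqbQ a2_24.mul Nat.beq a2_24.one suz_zs) a2_24.one = true := by decide +kernel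
theorem szU1_next : szU1.nextOK a2_24.mul a2_24.one szU2_g (nat_lit 0x2000000200002100002800000000003b) = true := by decide +kernel
theorem szU1_fx : allL szU1_fix szU2_g = true := by decide +kernel
theorem szU1_s_0 : allR (schk a2_24.mul (eqbQ a2_24.mul Nat.beq a2_24.one suz_zs) a2_24.one szU1_g (szU1.lv a2_24.mul a2_24.one) szU2_ls) (nat_lit 0) (nat_lit 63) = true := by decide +kernel
theorem szU1_k_0 : allR (kchk szU1_key (szU1.lv a2_24.mul a2_24.one).U szU1_kt (nat_lit 63)) (nat_lit 0) (nat_lit 63) = true := by decide +kernel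
theorem szU2_ok : szU2.ok a2_24.mul (eqbQ a2_24.mul Nat.beq a2_24.one suz_zs) a2_24.one = true := by decide +kernel
theorem szU2_next : szU2.nextOK a2_24.mul a2_24.one szU3_g (nat_lit 0x6000007000003000006000000000003) = true := by decide +kernel
theorem szU2_fx : allL szU2_fix szU3_g = true := by decide +kernel
theorem szU2_s_0 : allR (schk a2_24.mul (eqbQ a2_24.mul Nat.beq a2_24.one suz_zs) a2_24.one szU2_g (szU2.lv a2_24.mul a2_24.one) szU3_ls) (nat_lit 0) (nat_lit 8) = true := by decide +kernel
theorem szU2_k_0 : allR (kchk szU2_key (szU2.lv a2_24.mul a2_24.one).U szU2_kt (nat_lit 8)) (nat_lit 0) (nat_lit 8) = true := by decide +kernel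
theorem szU3_ok : szU3.ok a2_24.mul (eqbQ a2_24.mul Nat.beq a2_24.one suz_zs) a2_24.one = true := by decide +kernel
theorem szU3_next : szU3.nextOK a2_24.mul a2_24.one szU4_g (nat_lit 0x1000001000002) = true := by decide +kernel
theorem szU3_fx : allL szU3_fix szU4_g = true := by decide +kernel
theorem szU3_s_0 : allR (schk a2_24.mul (eqbQ a2_24.mul Nat.beq a2_24.one suz_zs) a2_24.one szU3_g (szU3.lv a2_24.mul a2_24.one) szU4_ls) (nat_lit 0) (nat_lit 4) = true := by decide +kernel
theorem szU3_k_0 : allR (kchk szU3_key (szU3.lv a2_24.mul a2_24.one).U szU3_kt (nat_lit 4)) (nat_lit 0) (nat_lit 4) = true := by decide +kernel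
theorem szU4_ok : szU4.ok a2_24.mul (eqbQ a2_24.mul Nat.beq a2_24.one suz_zs) a2_24.one = true := by decide +kernel
theorem szU4_next : szU4.nextOK a2_24.mul a2_24.one szU5_g (nat_lit 0x0) = true := by decide +kernel
theorem szU4_fx : allL szU4_fix szU5_g = true := by decide +kernel
theorem szU4_s_0 : allR (schk a2_24.mul (eqbQ a2_24.mul Nat.beq a2_24.one suz_zs) a2_24.one szU4_g (szU4.lv a2_24.mul a2_24.one) szU5_ls) (nat_lit 0) (nat_lit 3) = true := by decide +kernel
theorem szU4_k_0 : allR (kchk szU4_key (szU4.lv a2_24.mul a2_24.one).U szU4_kt (nat_lit 3)) (nat_lit 0) (nat_lit 3) = true := by decide +kernel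
theorem szC1_ok : szC1.ok a2_24.mul (eqbQ a2_24.mul Nat.beq a2_24.one suz_zs) a2_24.one = true := by decide +kernel
theorem szC1_next : szC1.nextOK a2_24.mul a2_24.one szC2_g (nat_lit 0x1a00000a00001100000500000000000d) = true := by decide +kernel
theorem szC1_fx : allL szC1_fix szC2_g = true := by decide +kernel

end H29
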