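import Cfsg.Agent.H29.Sz3D

set_option autoImplicit false
set_option maxRecDepth 100000
set_option linter.style.haveILetI false
set_option linter.unusedVariables false
set_option linter.style.longLine false
set_option linter.unusedTactic false
set_option linter.unreachableTactic false

namespace H29

theorem szC1_s_0 : allR (schk a2_24.mul (eqbQ a2_24.mul Nat.beq a2_24.one suz_zs) a2_24.one szC1_g (szC1.lv a2_24.mul a2_24.one) szC2_ls) (nat_lit 0) (nat_lit 40) = true := by decide +kernel
theorem szC1_k_0 : allR (kchk szC1_key (szC1.lv a2_24.mul a2_24.one).U szC1_kt (nat_lit 40)) (nat_lit 0) (nat_lit 40) = true := by decide +kernel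
theorem szC2_ok : szC2.ok a2_24.mul (eqbQ a2_24.mul Nat.beq a2_24.one suz_zs) a2_24.one = true := by decide +kernel
theorem szC2_next : szC2.nextOK a2_24.mul a2_24.one szC3_g (nat_lit 0x1000001000002000002000001000000) = true := by decide +kernel
theorem szC2_fx : allL szC2_fix szC3_g = true := by decide +kernel
theorem szC2_s_0 : allR (schk a2_24.mul (eqbQ a2_24.mul Nat.beq a2_24.one suz_zs) a2_24.one szC2_g (szC2.lv a2_24.mul a2_24.one) szC3_ls) (nat_lit 0) (nat_lit 4) = true := by decide +kernel
theorem szC2_k_0 : allR (kchk szC2_key (szC2.lv a2_24.mul a2_24.one).U szC2_kt (nat_lit 4)) (nat_lit 0) (nat_lit 4) = true := by decide +kernel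
theorem szC3_ok : szC3.ok a2_24.mul (eqbQ a2_24.mul Nat.beq a2_24.one suz_zs) a2_24.one = true := by decide +kernel
theorem szC3_next : szC3.nextOK a2_24.mul a2_24.one szC4_g (nat_lit 0x2000001000001000001000001000000) = true := by decide +kernel
theorem szC3_fx : allL szC3_fix szC4_g = true := by decide +kernel
theorem szC3_s_0 : allR (schk a2_24.mul (eqbQ a2_24.mul Nat.beq a2_24.one suz_zs) a2_24.one szC3_g (szC3.lv a2_24.mul a2_24.one) szC4_ls) (nat_lit 0) (nat_lit 3) = true := by decide +kernel
theorem szC3_k_0 : allR (kchk szC3_key (szC3.lv a2_24.mul a2_24.one).U szC3_kt (nat_lit 3)) (nat_lit 0) (nat_lit 3) = true := by decide +kernel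
theorem szC4_ok : szC4.ok a2_24.mul (eqbQ a2_24.mul Nat.beq a2_24.one suz_zs) a2_24.one = true := by decide +kernel
theorem szC4_next : szC4.nextOK a2_24.mul a2_24.one szC5_g (nat_lit 0x1000000000001) = true := by decide +kernel
theorem szC4_fx : allL szC4_fix szC5_g = true := by decide +kernel
theorem szC4_s_0 : allR (schk a2_24.mul (eqbQ a2_24.mul Nat.beq a2_24.one suz_zs) a2_24.one szC4_g (szC4.lv a2_24.mul a2_24.one) szC5_ls) (nat_lit 0) (nat_lit 2) = true := by decide +kernel
theorem szC4_k_0 : allR (kchk szC4_key (szC4.lv a2_24.mul a2_24.one).U szC4_kt (nat_lit 2)) (nat_lit 0) (nat_lit 2) = true := by decide +kernel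
theorem szC5_ok : szC5.ok a2_24.mul (eqbQ a2_24.mul Nat.beq a2_24.one suz_zs) a2_24.one = true := by decide +kernel
theorem szC5_next : szC5.nextOK a2_24.mul a2_24.one szC6_g (nat_lit 0x0) = true := by decide +kernel
theorem szC5_fx : allL szC5_fix szC6_g = true := by decide +kernel
theorem szC5_s_0 : allR (schk a2_24.mul (eqbQ a2_24.mul Nat.beq a2_24.one suz_zs) a2_24.one szC5_g (szC5.lv a2_24.mul a2_24.one) szC6_ls) (nat_lit 0) (nat_lit 2) = true := by decide +kernel
theorem szC5_k_0 : allR (kchk szC5_key (szC5.lv a2_24.mul a2_24.one).U szC5_kt (nat_lit 2)) (nat_lit 0) (nat_lit 2) = true := by decide +kernel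

end H29
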