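import Cfsg.Agent.H29.Sz3D

set_option autoImplicit false
set_option maxRecDepth 100000
set_option linter.style.haveILetI false
set_option linter.unusedVariables false
set_option linter.style.longLine false
set_option linter.unusedTactic false
set_option linter.unreachableTactic false

namespace H29

theorem szP1_ok : szP1.ok a2_24.mul (eqbQ a2_24.mul Nat.beq a2_24.one suz_zs) a2_24.one = true := by decide +kernel
theorem szP1_next : szP1.nextOK a2_24.mul a2_24.one szP2_g (nat_lit 0x4000003000004) = true := by decide +kernel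
theorem szP1_fx : allL szP1_fix szP2_g = true := by decide +kernel
theorem szP1_s_0 : allR (schk a2_24.mul (eqbQ a2_24.mul Nat.beq a2_24.one suz_zs) a2_24.one szP1_g (szP1.lv a2_24.mul a2_24.one) szP2_ls) (nat_lit 0) (nat_lit 5) = true := by decide +kernel
theorem szP1_k_0 : allR (kchk szP1_key (szP1.lv a2_24.mul a2_24.one).U szP1_kt (nat_lit 5)) (nat_lit 0) (nat_lit 5) = true := by decide +kernel
theorem szP2_ok : szP2.ok a2_24.mul (eqbQ a2_24.mul Nat.beq a2_24.one suz_zs) a2_24.one = true := by decide +kernel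
theorem szP2_next : szP2.nextOK a2_24.mul a2_24.one szP3_g (nat_lit 0x0) = true := by decide +kernel
theorem szP2_fx : allL szP2_fix szP3_g = true := by decide +kernel
theorem szP2_s_0 : allR (schk a2_24.mul (eqbQ a2_24.mul Nat.beq a2_24.one suz_zs) a2_24.one szP2_g (szP2.lv a2_24.mul a2_24.one) szP3_ls) (nat_lit 0) (nat_lit 5) = true := by decide +kernel
theorem szP2_k_0 : allR (kchk szP2_key (szP2.lv a2_24.mul a2_24.one).U szP2_kt (nat_lit 5)) (nat_lit 0) (nat_lit 5) = true := by decide +kernel
theorem szN1_ok : szN1.ok a2_24.mul (eqbQ a2_24.mul Nat.beq a2_24.one suz_zs) a2_24.one = true := by decide +kernel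
theorem szN1_next : szN1.nextOK a2_24.mul a2_24.one szN2_g (nat_lit 0xd000001000009000006000008000008) = true := by decide +kernel
theorem szN1_fx : allL szN1_fix szN2_g = true := by decide +kernel
theorem szN1_s_0 : allR (schk a2_24.mul (eqbQ a2_24.mul Nat.beq a2_24.one suz_zs) a2_24.one szN1_g (szN1.lv a2_24.mul a2_24.one) szN2_ls) (nat_lit 0) (nat_lit 25) = true := by decide +kernel
theorem szN1_k_0 : allR (kchk szN1_key (szN1.lv a2_24.mul a2_24.one).U szN1_kt (nat_lit 25)) (nat_lit 0) (nat_lit 25) = true := by decide +kernel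
theorem szN2_ok : szN2.ok a2_24.mul (eqbQ a2_24.mul Nat.beq a2_24.one suz_zs) a2_24.one = true := by decide +kernel
theorem szN2_next : szN2.nextOK a2_24.mul a2_24.one szN3_g (nat_lit 0x3000002000000) = true := by decide +kernel
theorem szN2_fx : allL szN2_fix szN3_g = true := by decide +kernel
theorem szN2_s_0 : allR (schk a2_24.mul (eqbQ a2_24.mul Nat.beq a2_24.one suz_zs) a2_24.one szN2_g (szN2.lv a2_24.mul a2_24.one) szN3_ls) (nat_lit 0) (nat_lit 6) = true := by decide +kernel
theorem szN2_k_0 : allR (kchk szN2_key (szN2.lv a2_24.mul a2_24.one).U szN2_kt (nat_lit 6)) (nat_lit 0) (nat_lit 6) = true := by decide +kernel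
theorem szN3_ok : szN3.ok a2_24.mul (eqbQ a2_24.mul Nat.beq a2_24.one suz_zs) a2_24.one = true := by decide +kernel
theorem szN3_next : szN3.nextOK a2_24.mul a2_24.one szN4_g (nat_lit 0x0) = true := by decide +kernel
theorem szN3_fx : allL szN3_fix szN4_g = true := by decide +kernel
theorem szN3_s_0 : allR (schk a2_24.mul (eqbQ a2_24.mul Nat.beq a2_24.one suz_zs) a2_24.one szN3_g (szN3.lv a2_24.mul a2_24.one) szN4_ls) (nat_lit 0) (nat_lit 2) = true := by decide +kernel

end H29
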