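import Cfsg.Agent.H29.Sz3D

set_option autoImplicit false
set_option maxRecDepth 100000
set_option linter.style.haveILetI false
set_option linter.unusedVariables false
set_option linter.style.longLine false
set_option linter.unusedTactic false
set_option linter.unreachableTactic false

namespace H29

theorem szN3_k_0 : allR (kchk szN3_key (szN3.lv a2_24.mul a2_24.one).U szN3_kt (nat_lit 2)) (nat_lit 0) (nat_lit 2) = true := by decide +kernel
theorem szM1_ok : szM1.ok a2_24.mul (eqbQ a2_24.mul Nat.beq a2_24.one suz_zs) a2_24.one = true := by decide +kernel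
theorem szM1_next : szM1.nextOK a2_24.mul a2_24.one szM2_g (nat_lit 0xd00000100000500000c00000000000b) = true := by decide +kernel
theorem szM1_fx : allL szM1_fix szM2_g = true := by decide +kernel
theorem szM1_s_0 : allR (schk a2_24.mul (eqbQ a2_24.mul Nat.beq a2_24.one suz_zs) a2_24.one szM1_g (szM1.lv a2_24.mul a2_24.one) szM2_ls) (nat_lit 0) (nat_lit 25) = true := by decide +kernel
theorem szM1_k_0 : allR (kchk szM1_key (szM1.lv a2_24.mul a2_24.one).U szM1_kt (nat_lit 25)) (nat_lit 0) (nat_lit 25) = true := by decide +kernel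
theorem szM2_ok : szM2.ok a2_24.mul (eqbQ a2_24.mul Nat.beq a2_24.one suz_zs) a2_24.one = true := by decide +kernel
theorem szM2_next : szM2.nextOK a2_24.mul a2_24.one szM3_g (nat_lit 0x5000001) = true := by decide +kernel
theorem szM2_fx : allL szM2_fix szM3_g = true := by decide +kernel
theorem szM2_s_0 : allR (schk a2_24.mul (eqbQ a2_24.mul Nat.beq a2_24.one suz_zs) a2_24.one szM2_g (szM2.lv a2_24.mul a2_24.one) szM3_ls) (nat_lit 0) (nat_lit 4) = true := by decide +kernel
theorem szM2_k_0 : allR (kchk szM2_key (szM2.lv a2_24.mul a2_24.one).U szM2_kt (nat_lit 4)) (nat_lit 0) (nat_lit 4) = true := by decide +kernel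
theorem szM3_ok : szM3.ok a2_24.mul (eqbQ a2_24.mul Nat.beq a2_24.one suz_zs) a2_24.one = true := by decide +kernel
theorem szM3_next : szM3.nextOK a2_24.mul a2_24.one szM4_g (nat_lit 0x1000000000000) = true := by decide +kernel
theorem szM3_fx : allL szM3_fix szM4_g = true := by decide +kernel
theorem szM3_s_0 : allR (schk a2_24.mul (eqbQ a2_24.mul Nat.beq a2_24.one suz_zs) a2_24.one szM3_g (szM3.lv a2_24.mul a2_24.one) szM4_ls) (nat_lit 0) (nat_lit 2) = true := by decide +kernel
theorem szM3_k_0 : allR (kchk szM3_key (szM3.lv a2_24.mul a2_24.one).U szM3_kt (nat_lit 2)) (nat_lit 0) (nat_lit 2) = true := by decide +kernel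
theorem szM4_ok : szM4.ok a2_24.mul (eqbQ a2_24.mul Nat.beq a2_24.one suz_zs) a2_24.one = true := by decide +kernel
theorem szM4_next : szM4.nextOK a2_24.mul a2_24.one szM5_g (nat_lit 0x0) = true := by decide +kernel
theorem szM4_fx : allL szM4_fix szM5_g = true := by decide +kernel
theorem szM4_s_0 : allR (schk a2_24.mul (eqbQ a2_24.mul Nat.beq a2_24.one suz_zs) a2_24.one szM4_g (szM4.lv a2_24.mul a2_24.one) szM5_ls) (nat_lit 0) (nat_lit 3) = true := by decide +kernel
theorem szM4_k_0 : allR (kchk szM4_key (szM4.lv a2_24.mul a2_24.one).U szM4_kt (nat_lit 3)) (nat_lit 0) (nat_lit 3) = true := by decide +kernel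
theorem szK1_ok : szK1.ok a2_24.mul (eqbQ a2_24.mul Nat.beq a2_24.one suz_zs) a2_24.one = true := by decide +kernel
theorem szK1_next : szK1.nextOK a2_24.mul a2_24.one szK2_g (nat_lit 0x1000001000004000002000001000000000004000002000004) = true := by decide +kernel
theorem szK1_fx : allL szK1_fix szK2_g = true := by decide +kernel

end H29
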