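import Cfsg.Agent.H29.Sz3D

set_option autoImplicit false
set_option maxRecDepth 100000
set_option linter.style.haveILetI false
set_option linter.unusedVariables false
set_option linter.style.longLine false
set_option linter.unusedTactic false
set_option linter.unreachableTactic false

namespace H29

theorem szK1_s_0 : allR (schk a2_24.mul (eqbQ a2_24.mul Nat.beq a2_24.one suz_zs) a2_24.one szK1_g (szK1.lv a2_24.mul a2_24.one) szK2_ls) (nat_lit 0) (nat_lit 5) = true := by decide +kernel
theorem szK1_k_0 : allR (kchk szK1_key (szK1.lv a2_24.mul a2_24.one).U szK1_kt (nat_lit 5)) (nat_lit 0) (nat_lit 5) = true := by decide +kernel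
theorem szK2_ok : szK2.ok a2_24.mul (eqbQ a2_24.mul Nat.beq a2_24.one suz_zs) a2_24.one = true := by decide +kernel
theorem szK2_next : szK2.nextOK a2_24.mul a2_24.one szK3_g (nat_lit 0x700000000000800000200000900000200000600000a00000a) = true := by decide +kernel
theorem szK2_fx : allL szK2_fix szK3_g = true := by decide +kernel
theorem szK2_s_0 : allR (schk a2_24.mul (eqbQ a2_24.mul Nat.beq a2_24.one suz_zs) a2_24.one szK2_g (szK2.lv a2_24.mul a2_24.one) szK3_ls) (nat_lit 0) (nat_lit 16) = true := by decide +kernel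
theorem szK2_k_0 : allR (kchk szK2_key (szK2.lv a2_24.mul a2_24.one).U szK2_kt (nat_lit 16)) (nat_lit 0) (nat_lit 16) = true := by decide +kernel
theorem szK3_ok : szK3.ok a2_24.mul (eqbQ a2_24.mul Nat.beq a2_24.one suz_zs) a2_24.one = true := by decide +kernel
theorem szK3_next : szK3.nextOK a2_24.mul a2_24.one szK4_g (nat_lit 0xd00000200000100000500000a00000c) = true := by decide +kernel
theorem szK3_fx : allL szK3_fix szK4_g = true := by decide +kernel
theorem szK3_s_0 : allR (schk a2_24.mul (eqbQ a2_24.mul Nat.beq a2_24.one suz_zs) a2_24.one szK3_g (szK3.lv a2_24.mul a2_24.one) szK4_ls) (nat_lit 0) (nat_lit 16) = true := by decide +kernel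
theorem szK3_k_0 : allR (kchk szK3_key (szK3.lv a2_24.mul a2_24.one).U szK3_kt (nat_lit 16)) (nat_lit 0) (nat_lit 16) = true := by decide +kernel
theorem szK4_ok : szK4.ok a2_24.mul (eqbQ a2_24.mul Nat.beq a2_24.one suz_zs) a2_24.one = true := by decide +kernel
theorem szK4_next : szK4.nextOK a2_24.mul a2_24.one szK5_g (nat_lit 0xc00000400000d) = true := by decide +kernel
theorem szK4_fx : allL szK4_fix szK5_g = true := by decide +kernel
theorem szK4_s_0 : allR (schk a2_24.mul (eqbQ a2_24.mul Nat.beq a2_24.one suz_zs) a2_24.one szK4_g (szK4.lv a2_24.mul a2_24.one) szK5_ls) (nat_lit 0) (nat_lit 16) = true := by decide +kernel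
theorem szK4_k_0 : allR (kchk szK4_key (szK4.lv a2_24.mul a2_24.one).U szK4_kt (nat_lit 16)) (nat_lit 0) (nat_lit 16) = true := by decide +kernel
theorem szK5_ok : szK5.ok a2_24.mul (eqbQ a2_24.mul Nat.beq a2_24.one suz_zs) a2_24.one = true := by decide +kernel
theorem szK5_next : szK5.nextOK a2_24.mul a2_24.one szK6_g (nat_lit 0x0) = true := by decide +kernel
theorem szK5_fx : allL szK5_fix szK6_g = true := by decide +kernel
theorem szK5_s_0 : allR (schk a2_24.mul (eqbQ a2_24.mul Nat.beq a2_24.one suz_zs) a2_24.one szK5_g (szK5.lv a2_24.mul a2_24.one) szK6_ls) (nat_lit 0) (nat_lit 3) = true := by decide +kernel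
theorem szK5_k_0 : allR (kchk szK5_key (szK5.lv a2_24.mul a2_24.one).U szK5_kt (nat_lit 3)) (nat_lit 0) (nat_lit 3) = true := by decide +kernel

end H29
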