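import Cfsg.Agent.H29.Sz3D

set_option autoImplicit false
set_option maxRecDepth 100000
set_option linter.style.haveILetI false
set_option linter.unusedVariables false
set_option linter.style.longLine false
set_option linter.unusedTactic false
set_option linter.unreachableTactic false

namespace H29

theorem szD2_dc_7 : allR (dcAt2 a2_24.mul (eqbQ a2_24.mul Nat.beq a2_24.one suz_zs) a2_24.one szN1_ls szN1_ls szD2_x szJ1_g szD2_ms szD2_tb (nat_lit 2016)) (nat_lit 1050) (nat_lit 150) = true := by decide +kernel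
theorem szD2_dc_8 : allR (dcAt2 a2_24.mul (eqbQ a2_24.mul Nat.beq a2_24.one suz_zs) a2_24.one szN1_ls szN1_ls szD2_x szJ1_g szD2_ms szD2_tb (nat_lit 2016)) (nat_lit 1200) (nat_lit 150) = true := by decide +kernel
theorem szD2_dc_9 : allR (dcAt2 a2_24.mul (eqbQ a2_24.mul Nat.beq a2_24.one suz_zs) a2_24.one szN1_ls szN1_ls szD2_x szJ1_g szD2_ms szD2_tb (nat_lit 2016)) (nat_lit 1350) (nat_lit 150) = true := by decide +kernel
theorem szD2_dc_10 : allR (dcAt2 a2_24.mul (eqbQ a2_24.mul Nat.beq a2_24.one suz_zs) a2_24.one szN1_ls szN1_ls szD2_x szJ1_g szD2_ms szD2_tb (nat_lit 2016)) (nat_lit 1500) (nat_lit 150) = true := by decide +kernel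
theorem szD2_dc_11 : allR (dcAt2 a2_24.mul (eqbQ a2_24.mul Nat.beq a2_24.one suz_zs) a2_24.one szN1_ls szN1_ls szD2_x szJ1_g szD2_ms szD2_tb (nat_lit 2016)) (nat_lit 1650) (nat_lit 150) = true := by decide +kernel
theorem szD2_dc_12 : allR (dcAt2 a2_24.mul (eqbQ a2_24.mul Nat.beq a2_24.one suz_zs) a2_24.one szN1_ls szN1_ls szD2_x szJ1_g szD2_ms szD2_tb (nat_lit 2016)) (nat_lit 1800) (nat_lit 150) = true := by decide +kernel
theorem szD2_dc_13 : allR (dcAt2 a2_24.mul (eqbQ a2_24.mul Nat.beq a2_24.one suz_zs) a2_24.one szN1_ls szN1_ls szD2_x szJ1_g szD2_ms szD2_tb (nat_lit 2016)) (nat_lit 1950) (nat_lit 66) = true := by decide +kernel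
theorem szD3_0 : (eqbQ a2_24.mul Nat.beq a2_24.one suz_zs) (dcU2 a2_24.mul a2_24.one [] szD3_x szD3_ms 0) a2_24.one = true := by decide +kernel
theorem szD3_dc_0 : allR (dcAt2 a2_24.mul (eqbQ a2_24.mul Nat.beq a2_24.one suz_zs) a2_24.one [] szP1_ls szD3_x szN1_g szD3_ms szD3_tb (nat_lit 12)) (nat_lit 0) (nat_lit 12) = true := by decide +kernel
theorem szD4_0 : (eqbQ a2_24.mul Nat.beq a2_24.one suz_zs) (dcU2 a2_24.mul a2_24.one szC1_ls szD4_x szD4_ms 0) a2_24.one = true := by decide +kernel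
theorem szD4_dc_0 : allR (dcAt2 a2_24.mul (eqbQ a2_24.mul Nat.beq a2_24.one suz_zs) a2_24.one szC1_ls szC1_ls szD4_x szJ1_g szD4_ms szD4_tb (nat_lit 315)) (nat_lit 0) (nat_lit 150) = true := by decide +kernel
theorem szD4_dc_1 : allR (dcAt2 a2_24.mul (eqbQ a2_24.mul Nat.beq a2_24.one suz_zs) a2_24.one szC1_ls szC1_ls szD4_x szJ1_g szD4_ms szD4_tb (nat_lit 315)) (nat_lit 150) (nat_lit 150) = true := by decide +kernel
theorem szD4_dc_2 : allR (dcAt2 a2_24.mul (eqbQ a2_24.mul Nat.beq a2_24.one suz_zs) a2_24.one szC1_ls szC1_ls szD4_x szJ1_g szD4_ms szD4_tb (nat_lit 315)) (nat_lit 300) (nat_lit 15) = true := by decide +kernel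
theorem szD5_0 : (eqbQ a2_24.mul Nat.beq a2_24.one suz_zs) (dcU2 a2_24.mul a2_24.one szK1_ls szD5_x szD5_ms 0) a2_24.one = true := by decide +kernel

end H29
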