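import Cfsg.Agent.H29.Sz3D
import Cfsg.Agent.H29.Sz3C1
import Cfsg.Agent.H29.Sz3C2
import Cfsg.Agent.H29.Sz3C3
import Cfsg.Agent.H29.Sz3C4
import Cfsg.Agent.H29.Sz3C5
import Cfsg.Agent.H29.Sz3C6
import Cfsg.Agent.H29.Sz3C7
import Cfsg.Agent.H29.Sz3C8
import Cfsg.Agent.H29.Sz3C9
import Cfsg.Agent.H29.Sz3C10
import Cfsg.Agent.H29.Sz3C11

set_option autoImplicit false
set_option maxRecDepth 100000
set_option linter.style.haveILetI false
set_option linter.unusedVariables false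
set_option linter.style.longLine false
set_option linter.unusedTactic false
set_option linter.unreachableTactic false

namespace H29

theorem szJ1_s : ∀ j < nat_lit 525, (schk a2_24.mul (eqbQ a2_24.mul Nat.beq a2_24.one suz_zs) a2_24.one szJ1_g (szJ1.lv a2_24.mul a2_24.one) szJ2_ls) j = true :=
  (allR_step (c := nat_lit 525) (allR_step (c := nat_lit 450) (allR_step (c := nat_lit 300) (allR_step (c := nat_lit 150) (fun _ h => absurd h (Nat.not_lt_zero _)) szJ1_s_0 (by decide)) szJ1_s_1 (by decide)) szJ1_s_2 (by decide)) szJ1_s_3 (by decide))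

theorem szJ1_k : ∀ j < nat_lit 525, (kchk szJ1_key (szJ1.lv a2_24.mul a2_24.one).U szJ1_kt (nat_lit 525)) j = true :=
  (allR_step (c := nat_lit 525) (fun _ h => absurd h (Nat.not_lt_zero _)) szJ1_k_0 (by decide))

theorem szJ2_s : ∀ j < nat_lit 32, (schk a2_24.mul (eqbQ a2_24.mul Nat.beq a2_24.one suz_zs) a2_24.one szJ2_g (szJ2.lv a2_24.mul a2_24.one) szJ3_ls) j = true :=
  (allR_step (c := nat_lit 32) (fun _ h => absurd h (Nat.not_lt_zero _)) szJ2_s_0 (by decide))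

theorem szJ2_k : ∀ j < nat_lit 32, (kchk szJ2_key (szJ2.lv a2_24.mul a2_24.one).U szJ2_kt (nat_lit 32)) j = true :=
  (allR_step (c := nat_lit 32) (fun _ h => absurd h (Nat.not_lt_zero _)) szJ2_k_0 (by decide))

theorem szJ3_s : ∀ j < nat_lit 12, (schk a2_24.mul (eqbQ a2_24.mul Nat.beq a2_24.one suz_zs) a2_24.one szJ3_g (szJ3.lv a2_24.mul a2_24.one) szJ4_ls) j = true :=
  (allR_step (c := nat_lit 12) (fun _ h => absurd h (Nat.not_lt_zero _)) szJ3_s_0 (by decide))

theorem szJ3_k : ∀ j < nat_lit 12, (kchk szJ3_key (szJ3.lv a2_24.mul a2_24.one).U szJ3_kt (nat_lit 12)) j = true :=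
  (allR_step (c := nat_lit 12) (fun _ h => absurd h (Nat.not_lt_zero _)) szJ3_k_0 (by decide))

theorem szJ4_s : ∀ j < nat_lit 3, (schk a2_24.mul (eqbQ a2_24.mul Nat.beq a2_24.one suz_zs) a2_24.one szJ4_g (szJ4.lv a2_24.mul a2_24.one) szJ5_ls) j = true :=
  (allR_step (c := nat_lit 3) (fun _ h => absurd h (Nat.not_lt_zero _)) szJ4_s_0 (by decide))

theorem szJ4_k : ∀ j < nat_lit 3, (kchk szJ4_key (szJ4.lv a2_24.mul a2_24.one).U szJ4_kt (nat_lit 3)) j = true :=
  (allR_step (c := nat_lit 3) (fun _ h => absurd h (Nat.not_lt_zero _)) szJ4_k_0 (by decide))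

theorem szU1_s : ∀ j < nat_lit 63, (schk a2_24.mul (eqbQ a2_24.mul Nat.beq a2_24.one suz_zs) a2_24.one szU1_g (szU1.lv a2_24.mul a2_24.one) szU2_ls) j = true :=
  (allR_step (c := nat_lit 63) (fun _ h => absurd h (Nat.not_lt_zero _)) szU1_s_0 (by decide))

theorem szU1_k : ∀ j < nat_lit 63, (kchk szU1_key (szU1.lv a2_24.mul a2_24.one).U szU1_kt (nat_lit 63)) j = true :=
  (allR_step (c := nat_lit 63) (fun _ h => absurd h (Nat.not_lt_zero _)) szU1_k_0 (by decide))

theorem szU2_s : ∀ j < nat_lit 8, (schk a2_24.mul (eqbQ a2_24.mul Nat.beq a2_24.one suz_zs) a2_24.one szU2_g (szU2.lv a2_24.mul a2_24.one) szU3_ls) j = true :=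
  (allR_step (c := nat_lit 8) (fun _ h => absurd h (Nat.not_lt_zero _)) szU2_s_0 (by decide))

theorem szU2_k : ∀ j < nat_lit 8, (kchk szU2_key (szU2.lv a2_24.mul a2_24.one).U szU2_kt (nat_lit 8)) j = true :=
  (allR_step (c := nat_lit 8) (fun _ h => absurd h (Nat.not_lt_zero _)) szU2_k_0 (by decide))

theorem szU3_s : ∀ j < nat_lit 4, (schk a2_24.mul (eqbQ a2_24.mul Nat.beq a2_24.one suz_zs) a2_24.one szU3_g (szU3.lv a2_24.mul a2_24.one) szU4_ls) j = true :=
  (allR_step (c := nat_lit 4) (fun _ h => absurd h (Nat.not_lt_zero _)) szU3_s_0 (by decide))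

theorem szU3_k : ∀ j < nat_lit 4, (kchk szU3_key (szU3.lv a2_24.mul a2_24.one).U szU3_kt (nat_lit 4)) j = true :=
  (allR_step (c := nat_lit 4) (fun _ h => absurd h (Nat.not_lt_zero _)) szU3_k_0 (by decide))

theorem szU4_s : ∀ j < nat_lit 3, (schk a2_24.mul (eqbQ a2_24.mul Nat.beq a2_24.one suz_zs) a2_24.one szU4_g (szU4.lv a2_24.mul a2_24.one) szU5_ls) j = true :=
  (allR_step (c := nat_lit 3) (fun _ h => absurd h (Nat.not_lt_zero _)) szU4_s_0 (by decide))

theorem szU4_k : ∀ j < nat_lit 3, (kchk szU4_key (szU4.lv a2_24.mul a2_24.one).U szU4_kt (nat_lit 3)) j = true :=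
  (allR_step (c := nat_lit 3) (fun _ h => absurd h (Nat.not_lt_zero _)) szU4_k_0 (by decide))

theorem szC1_s : ∀ j < nat_lit 40, (schk a2_24.mul (eqbQ a2_24.mul Nat.beq a2_24.one suz_zs) a2_24.one szC1_g (szC1.lv a2_24.mul a2_24.one) szC2_ls) j = true :=
  (allR_step (c := nat_lit 40) (fun _ h => absurd h (Nat.not_lt_zero _)) szC1_s_0 (by decide))

theorem szC1_k : ∀ j < nat_lit 40, (kchk szC1_key (szC1.lv a2_24.mul a2_24.one).U szC1_kt (nat_lit 40)) j = true :=
  (allR_step (c := nat_lit 40) (fun _ h => absurd h (Nat.not_lt_zero _)) szC1_k_0 (by decide))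

theorem szC2_s : ∀ j < nat_lit 4, (schk a2_24.mul (eqbQ a2_24.mul Nat.beq a2_24.one suz_zs) a2_24.one szC2_g (szC2.lv a2_24.mul a2_24.one) szC3_ls) j = true :=
  (allR_step (c := nat_lit 4) (fun _ h => absurd h (Nat.not_lt_zero _)) szC2_s_0 (by decide))

theorem szC2_k : ∀ j < nat_lit 4, (kchk szC2_key (szC2.lv a2_24.mul a2_24.one).U szC2_kt (nat_lit 4)) j = true :=
  (allR_step (c := nat_lit 4) (fun _ h => absurd h (Nat.not_lt_zero _)) szC2_k_0 (by decide))

theorem szC3_s : ∀ j < nat_lit 3, (schk a2_24.mul (eqbQ a2_24.mul Nat.beq a2_24.one suz_zs) a2_24.one szC3_g (szC3.lv a2_24.mul a2_24.one) szC4_ls) j = true :=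
  (allR_step (c := nat_lit 3) (fun _ h => absurd h (Nat.not_lt_zero _)) szC3_s_0 (by decide))

theorem szC3_k : ∀ j < nat_lit 3, (kchk szC3_key (szC3.lv a2_24.mul a2_24.one).U szC3_kt (nat_lit 3)) j = true :=
  (allR_step (c := nat_lit 3) (fun _ h => absurd h (Nat.not_lt_zero _)) szC3_k_0 (by decide))

theorem szC4_s : ∀ j < nat_lit 2, (schk a2_24.mul (eqbQ a2_24.mul Nat.beq a2_24.one suz_zs) a2_24.one szC4_g (szC4.lv a2_24.mul a2_24.one) szC5_ls) j = true :=
  (allR_step (c := nat_lit 2) (fun _ h => absurd h (Nat.not_lt_zero _)) szC4_s_0 (by decide))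

theorem szC4_k : ∀ j < nat_lit 2, (kchk szC4_key (szC4.lv a2_24.mul a2_24.one).U szC4_kt (nat_lit 2)) j = true :=
  (allR_step (c := nat_lit 2) (fun _ h => absurd h (Nat.not_lt_zero _)) szC4_k_0 (by decide))

theorem szC5_s : ∀ j < nat_lit 2, (schk a2_24.mul (eqbQ a2_24.mul Nat.beq a2_24.one suz_zs) a2_24.one szC5_g (szC5.lv a2_24.mul a2_24.one) szC6_ls) j = true :=
  (allR_step (c := nat_lit 2) (fun _ h => absurd h (Nat.not_lt_zero _)) szC5_s_0 (by decide))

theorem szC5_k : ∀ j < nat_lit 2, (kchk szC5_key (szC5.lv a2_24.mul a2_24.one).U szC5_kt (nat_lit 2)) j = true :=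
  (allR_step (c := nat_lit 2) (fun _ h => absurd h (Nat.not_lt_zero _)) szC5_k_0 (by decide))

theorem szP1_s : ∀ j < nat_lit 5, (schk a2_24.mul (eqbQ a2_24.mul Nat.beq a2_24.one suz_zs) a2_24.one szP1_g (szP1.lv a2_24.mul a2_24.one) szP2_ls) j = true :=
  (allR_step (c := nat_lit 5) (fun _ h => absurd h (Nat.not_lt_zero _)) szP1_s_0 (by decide))

theorem szP1_k : ∀ j < nat_lit 5, (kchk szP1_key (szP1.lv a2_24.mul a2_24.one).U szP1_kt (nat_lit 5)) j = true :=
  (allR_step (c := nat_lit 5) (fun _ h => absurd h (Nat.not_lt_zero _)) szP1_k_0 (by decide))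

theorem szP2_s : ∀ j < nat_lit 5, (schk a2_24.mul (eqbQ a2_24.mul Nat.beq a2_24.one suz_zs) a2_24.one szP2_g (szP2.lv a2_24.mul a2_24.one) szP3_ls) j = true :=
  (allR_step (c := nat_lit 5) (fun _ h => absurd h (Nat.not_lt_zero _)) szP2_s_0 (by decide))

theorem szP2_k : ∀ j < nat_lit 5, (kchk szP2_key (szP2.lv a2_24.mul a2_24.one).U szP2_kt (nat_lit 5)) j = true :=
  (allR_step (c := nat_lit 5) (fun _ h => absurd h (Nat.not_lt_zero _)) szP2_k_0 (by decide))

theorem szN1_s : ∀ j < nat_lit 25, (schk a2_24.mul (eqbQ a2_24.mul Nat.beq a2_24.one suz_zs) a2_24.one szN1_g (szN1.lv a2_24.mul a2_24.one) szN2_ls) j = true :=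
  (allR_step (c := nat_lit 25) (fun _ h => absurd h (Nat.not_lt_zero _)) szN1_s_0 (by decide))

theorem szN1_k : ∀ j < nat_lit 25, (kchk szN1_key (szN1.lv a2_24.mul a2_24.one).U szN1_kt (nat_lit 25)) j = true :=
  (allR_step (c := nat_lit 25) (fun _ h => absurd h (Nat.not_lt_zero _)) szN1_k_0 (by decide))

theorem szN2_s : ∀ j < nat_lit 6, (schk a2_24.mul (eqbQ a2_24.mul Nat.beq a2_24.one suz_zs) a2_24.one szN2_g (szN2.lv a2_24.mul a2_24.one) szN3_ls) j = true :=
  (allR_step (c := nat_lit 6) (fun _ h => absurd h (Nat.not_lt_zero _)) szN2_s_0 (by decide))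

theorem szN2_k : ∀ j < nat_lit 6, (kchk szN2_key (szN2.lv a2_24.mul a2_24.one).U szN2_kt (nat_lit 6)) j = true :=
  (allR_step (c := nat_lit 6) (fun _ h => absurd h (Nat.not_lt_zero _)) szN2_k_0 (by decide))

theorem szN3_s : ∀ j < nat_lit 2, (schk a2_24.mul (eqbQ a2_24.mul Nat.beq a2_24.one suz_zs) a2_24.one szN3_g (szN3.lv a2_24.mul a2_24.one) szN4_ls) j = true :=
  (allR_step (c := nat_lit 2) (fun _ h => absurd h (Nat.not_lt_zero _)) szN3_s_0 (by decide))

theorem szN3_k : ∀ j < nat_lit 2, (kchk szN3_key (szN3.lv a2_24.mul a2_24.one).U szN3_kt (nat_lit 2)) j = true :=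
  (allR_step (c := nat_lit 2) (fun _ h => absurd h (Nat.not_lt_zero _)) szN3_k_0 (by decide))

theorem szM1_s : ∀ j < nat_lit 25, (schk a2_24.mul (eqbQ a2_24.mul Nat.beq a2_24.one suz_zs) a2_24.one szM1_g (szM1.lv a2_24.mul a2_24.one) szM2_ls) j = true :=
  (allR_step (c := nat_lit 25) (fun _ h => absurd h (Nat.not_lt_zero _)) szM1_s_0 (by decide))

theorem szM1_k : ∀ j < nat_lit 25, (kchk szM1_key (szM1.lv a2_24.mul a2_24.one).U szM1_kt (nat_lit 25)) j = true :=
  (allR_step (c := nat_lit 25) (fun _ h => absurd h (Nat.not_lt_zero _)) szM1_k_0 (by decide))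

theorem szM2_s : ∀ j < nat_lit 4, (schk a2_24.mul (eqbQ a2_24.mul Nat.beq a2_24.one suz_zs) a2_24.one szM2_g (szM2.lv a2_24.mul a2_24.one) szM3_ls) j = true :=
  (allR_step (c := nat_lit 4) (fun _ h => absurd h (Nat.not_lt_zero _)) szM2_s_0 (by decide))

theorem szM2_k : ∀ j < nat_lit 4, (kchk szM2_key (szM2.lv a2_24.mul a2_24.one).U szM2_kt (nat_lit 4)) j = true :=
  (allR_step (c := nat_lit 4) (fun _ h => absurd h (Nat.not_lt_zero _)) szM2_k_0 (by decide))

theorem szM3_s : ∀ j < nat_lit 2, (schk a2_24.mul (eqbQ a2_24.mul Nat.beq a2_24.one suz_zs) a2_24.one szM3_g (szM3.lv a2_24.mul a2_24.one) szM4_ls) j = true :=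
  (allR_step (c := nat_lit 2) (fun _ h => absurd h (Nat.not_lt_zero _)) szM3_s_0 (by decide))

theorem szM3_k : ∀ j < nat_lit 2, (kchk szM3_key (szM3.lv a2_24.mul a2_24.one).U szM3_kt (nat_lit 2)) j = true :=
  (allR_step (c := nat_lit 2) (fun _ h => absurd h (Nat.not_lt_zero _)) szM3_k_0 (by decide))

theorem szM4_s : ∀ j < nat_lit 3, (schk a2_24.mul (eqbQ a2_24.mul Nat.beq a2_24.one suz_zs) a2_24.one szM4_g (szM4.lv a2_24.mul a2_24.one) szM5_ls) j = true :=
  (allR_step (c := nat_lit 3) (fun _ h => absurd h (Nat.not_lt_zero _)) szM4_s_0 (by decide))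

theorem szM4_k : ∀ j < nat_lit 3, (kchk szM4_key (szM4.lv a2_24.mul a2_24.one).U szM4_kt (nat_lit 3)) j = true :=
  (allR_step (c := nat_lit 3) (fun _ h => absurd h (Nat.not_lt_zero _)) szM4_k_0 (by decide))

theorem szK1_s : ∀ j < nat_lit 5, (schk a2_24.mul (eqbQ a2_24.mul Nat.beq a2_24.one suz_zs) a2_24.one szK1_g (szK1.lv a2_24.mul a2_24.one) szK2_ls) j = true :=
  (allR_step (c := nat_lit 5) (fun _ h => absurd h (Nat.not_lt_zero _)) szK1_s_0 (by decide))

theorem szK1_k : ∀ j < nat_lit 5, (kchk szK1_key (szK1.lv a2_24.mul a2_24.one).U szK1_kt (nat_lit 5)) j = true :=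
  (allR_step (c := nat_lit 5) (fun _ h => absurd h (Nat.not_lt_zero _)) szK1_k_0 (by decide))

theorem szK2_s : ∀ j < nat_lit 16, (schk a2_24.mul (eqbQ a2_24.mul Nat.beq a2_24.one suz_zs) a2_24.one szK2_g (szK2.lv a2_24.mul a2_24.one) szK3_ls) j = true :=
  (allR_step (c := nat_lit 16) (fun _ h => absurd h (Nat.not_lt_zero _)) szK2_s_0 (by decide))

theorem szK2_k : ∀ j < nat_lit 16, (kchk szK2_key (szK2.lv a2_24.mul a2_24.one).U szK2_kt (nat_lit 16)) j = true :=
  (allR_step (c := nat_lit 16) (fun _ h => absurd h (Nat.not_lt_zero _)) szK2_k_0 (by decide))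

theorem szK3_s : ∀ j < nat_lit 16, (schk a2_24.mul (eqbQ a2_24.mul Nat.beq a2_24.one suz_zs) a2_24.one szK3_g (szK3.lv a2_24.mul a2_24.one) szK4_ls) j = true :=
  (allR_step (c := nat_lit 16) (fun _ h => absurd h (Nat.not_lt_zero _)) szK3_s_0 (by decide))

theorem szK3_k : ∀ j < nat_lit 16, (kchk szK3_key (szK3.lv a2_24.mul a2_24.one).U szK3_kt (nat_lit 16)) j = true :=
  (allR_step (c := nat_lit 16) (fun _ h => absurd h (Nat.not_lt_zero _)) szK3_k_0 (by decide))

theorem szK4_s : ∀ j < nat_lit 16, (schk a2_24.mul (eqbQ a2_24.mul Nat.beq a2_24.one suz_zs) a2_24.one szK4_g (szK4.lv a2_24.mul a2_24.one) szK5_ls) j = true :=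
  (allR_step (c := nat_lit 16) (fun _ h => absurd h (Nat.not_lt_zero _)) szK4_s_0 (by decide))

theorem szK4_k : ∀ j < nat_lit 16, (kchk szK4_key (szK4.lv a2_24.mul a2_24.one).U szK4_kt (nat_lit 16)) j = true :=
  (allR_step (c := nat_lit 16) (fun _ h => absurd h (Nat.not_lt_zero _)) szK4_k_0 (by decide))

theorem szK5_s : ∀ j < nat_lit 3, (schk a2_24.mul (eqbQ a2_24.mul Nat.beq a2_24.one suz_zs) a2_24.one szK5_g (szK5.lv a2_24.mul a2_24.one) szK6_ls) j = true :=
  (allR_step (c := nat_lit 3) (fun _ h => absurd h (Nat.not_lt_zero _)) szK5_s_0 (by decide))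

theorem szK5_k : ∀ j < nat_lit 3, (kchk szK5_key (szK5.lv a2_24.mul a2_24.one).U szK5_kt (nat_lit 3)) j = true :=
  (allR_step (c := nat_lit 3) (fun _ h => absurd h (Nat.not_lt_zero _)) szK5_k_0 (by decide))

theorem szQ1_s : ∀ j < nat_lit 5, (schk a2_24.mul (eqbQ a2_24.mul Nat.beq a2_24.one suz_zs) a2_24.one szQ1_g (szQ1.lv a2_24.mul a2_24.one) szQ2_ls) j = true :=
  (allR_step (c := nat_lit 5) (fun _ h => absurd h (Nat.not_lt_zero _)) szQ1_s_0 (by decide))

theorem szQ1_k : ∀ j < nat_lit 5, (kchk szQ1_key (szQ1.lv a2_24.mul a2_24.one).U szQ1_kt (nat_lit 5)) j = true :=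
  (allR_step (c := nat_lit 5) (fun _ h => absurd h (Nat.not_lt_zero _)) szQ1_k_0 (by decide))

theorem szQ2_s : ∀ j < nat_lit 64, (schk a2_24.mul (eqbQ a2_24.mul Nat.beq a2_24.one suz_zs) a2_24.one szQ2_g (szQ2.lv a2_24.mul a2_24.one) szQ3_ls) j = true :=
  (allR_step (c := nat_lit 64) (fun _ h => absurd h (Nat.not_lt_zero _)) szQ2_s_0 (by decide))

theorem szQ2_k : ∀ j < nat_lit 64, (kchk szQ2_key (szQ2.lv a2_24.mul a2_24.one).U szQ2_kt (nat_lit 64)) j = true :=
  (allR_step (c := nat_lit 64) (fun _ h => absurd h (Nat.not_lt_zero _)) szQ2_k_0 (by decide))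

theorem szQ3_s : ∀ j < nat_lit 48, (schk a2_24.mul (eqbQ a2_24.mul Nat.beq a2_24.one suz_zs) a2_24.one szQ3_g (szQ3.lv a2_24.mul a2_24.one) szQ4_ls) j = true :=
  (allR_step (c := nat_lit 48) (fun _ h => absurd h (Nat.not_lt_zero _)) szQ3_s_0 (by decide))

theorem szQ3_k : ∀ j < nat_lit 48, (kchk szQ3_key (szQ3.lv a2_24.mul a2_24.one).U szQ3_kt (nat_lit 48)) j = true :=
  (allR_step (c := nat_lit 48) (fun _ h => absurd h (Nat.not_lt_zero _)) szQ3_k_0 (by decide))

theorem szQ4_s : ∀ j < nat_lit 3, (schk a2_24.mul (eqbQ a2_24.mul Nat.beq a2_24.one suz_zs) a2_24.one szQ4_g (szQ4.lv a2_24.mul a2_24.one) szQ5_ls) j = true :=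
  (allR_step (c := nat_lit 3) (fun _ h => absurd h (Nat.not_lt_zero _)) szQ4_s_0 (by decide))

theorem szQ4_k : ∀ j < nat_lit 3, (kchk szQ4_key (szQ4.lv a2_24.mul a2_24.one).U szQ4_kt (nat_lit 3)) j = true :=
  (allR_step (c := nat_lit 3) (fun _ h => absurd h (Nat.not_lt_zero _)) szQ4_k_0 (by decide))

theorem szQ5_s : ∀ j < nat_lit 4, (schk a2_24.mul (eqbQ a2_24.mul Nat.beq a2_24.one suz_zs) a2_24.one szQ5_g (szQ5.lv a2_24.mul a2_24.one) szQ6_ls) j = true :=
  (allR_step (c := nat_lit 4) (fun _ h => absurd h (Nat.not_lt_zero _)) szQ5_s_0 (by decide))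

theorem szQ5_k : ∀ j < nat_lit 4, (kchk szQ5_key (szQ5.lv a2_24.mul a2_24.one).U szQ5_kt (nat_lit 4)) j = true :=
  (allR_step (c := nat_lit 4) (fun _ h => absurd h (Nat.not_lt_zero _)) szQ5_k_0 (by decide))

theorem szD1_dc : ∀ j < nat_lit 416, (dcAt2 a2_24.mul (eqbQ a2_24.mul Nat.beq a2_24.one suz_zs) a2_24.one szJ1_ls szJ1_ls szD1_x szX2 szD1_ms szD1_tb (nat_lit 416)) j = true :=
  (allR_step (c := nat_lit 416) (allR_step (c := nat_lit 300) (allR_step (c := nat_lit 150) (fun _ h => absurd h (Nat.not_lt_zero _)) szD1_dc_0 (by decide)) szD1_dc_1 (by decide)) szD1_dc_2 (by decide))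

theorem szD2_dc : ∀ j < nat_lit 2016, (dcAt2 a2_24.mul (eqbQ a2_24.mul Nat.beq a2_24.one suz_zs) a2_24.one szN1_ls szN1_ls szD2_x szJ1_g szD2_ms szD2_tb (nat_lit 2016)) j = true :=
  (allR_step (c := nat_lit 2016) (allR_step (c := nat_lit 1950) (allR_step (c := nat_lit 1800) (allR_step (c := nat_lit 1650) (allR_step (c := nat_lit 1500) (allR_step (c := nat_lit 1350) (allR_step (c := nat_lit 1200) (allR_step (c := nat_lit 1050) (allR_step (c := nat_lit 900) (allR_step (c := nat_lit 750) (allR_step (c := nat_lit 600) (allR_step (c := nat_lit 450) (allR_step (c := nat_lit 300) (allR_step (c := nat_lit 150) (fun _ h => absurd h (Nat.not_lt_zero _)) szD2_dc_0 (by decide)) szD2_dc_1 (by decide)) szD2_dc_2 (by decide)) szD2_dc_3 (by decide)) szD2_dc_4 (by decide)) szD2_dc_5 (by decide)) szD2_dc_6 (by decide)) szD2_dc_7 (by decide)) szD2_dc_8 (by decide)) szD2_dc_9 (by decide)) szD2_dc_10 (by decide)) szD2_dc_11 (by decide)) szD2_dc_12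 (by decide)) szD2_dc_13 (by decide))

theorem szD3_dc : ∀ j < nat_lit 12, (dcAt2 a2_24.mul (eqbQ a2_24.mul Nat.beq a2_24.one suz_zs) a2_24.one [] szP1_ls szD3_x szN1_g szD3_ms szD3_tb (nat_lit 12)) j = true :=
  (allR_step (c := nat_lit 12) (fun _ h => absurd h (Nat.not_lt_zero _)) szD3_dc_0 (by decide))

theorem szD4_dc : ∀ j < nat_lit 315, (dcAt2 a2_24.mul (eqbQ a2_24.mul Nat.beq a2_24.one suz_zs) a2_24.one szC1_ls szC1_ls szD4_x szJ1_g szD4_ms szD4_tb (nat_lit 315)) j = true :=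
  (allR_step (c := nat_lit 315) (allR_step (c := nat_lit 300) (allR_step (c := nat_lit 150) (fun _ h => absurd h (Nat.not_lt_zero _)) szD4_dc_0 (by decide)) szD4_dc_1 (by decide)) szD4_dc_2 (by decide))

theorem szD5_dc : ∀ j < nat_lit 1365, (dcAt2 a2_24.mul (eqbQ a2_24.mul Nat.beq a2_24.one suz_zs) a2_24.one szK1_ls szQ1_ls szD5_x szX2 szD5_ms szD5_tb (nat_lit 1365)) j = true :=
  (allR_step (c := nat_lit 1365) (allR_step (c := nat_lit 1350) (allR_step (c := nat_lit 1200) (allR_step (c := nat_lit 1050) (allR_step (c := nat_lit 900) (allR_step (c := nat_lit 750) (allR_step (c := nat_lit 600) (allR_step (c := nat_lit 450) (allR_step (c := nat_lit 300) (allR_step (c := nat_lit 150) (fun _ h => absurd h (Nat.not_lt_zero _)) szD5_dc_0 (by decide)) szD5_dc_1 (by decide)) szD5_dc_2 (by decide)) szD5_dc_3 (by decide)) szD5_dc_4 (by decide)) szD5_dc_5 (by decide)) szD5_dc_6 (by decide)) szD5_dc_7 (by decide)) szD5_dc_8 (by decide)) szD5_dc_9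 (by decide))

theorem szD6_dc : ∀ j < nat_lit 1365, (dcAt2 a2_24.mul (eqbQ a2_24.mul Nat.beq a2_24.one suz_zs) a2_24.one szJ1_ls szQ1_ls szD6_x szX2 szD6_ms szD6_tb (nat_lit 1365)) j = true :=
  (allR_step (c := nat_lit 1365) (allR_step (c := nat_lit 1350) (allR_step (c := nat_lit 1200) (allR_step (c := nat_lit 1050) (allR_step (c := nat_lit 900) (allR_step (c := nat_lit 750) (allR_step (c := nat_lit 600) (allR_step (c := nat_lit 450) (allR_step (c := nat_lit 300) (allR_step (c := nat_lit 150) (fun _ h => absurd h (Nat.not_lt_zero _)) szD6_dc_0 (by decide)) szD6_dc_1 (by decide)) szD6_dc_2 (by decide)) szD6_dc_3 (by decide)) szD6_dc_4 (by decide)) szD6_dc_5 (by decide)) szD6_dc_6 (by decide)) szD6_dc_7 (by decide)) szD6_dc_8 (by decide)) szD6_dc_9 (by decide))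

structure SzF {X : Type*} [Group X] (M : Model X) : Prop where
  h1 : M.mul = a2_24.mul
  h2 : M.eqb = (eqbQ a2_24.mul Nat.beq a2_24.one suz_zs)
  h3 : M.one = a2_24.one
  vv : ∀ c ∈ szX, M.In ⊤ c
  va : ∀ c ∈ sz_aux, M.In ⊤ c
  top : M.cl szX2 = ⊤
  card : Nat.card X = 251596800
  cJ : Chain M (M.cl szJ1_g) szJ1_ls
  nJ : Nat.card (M.cl szJ1_g) = 604800
  cU : Chain M (M.cl szU1_g) szU1_ls
  nU : Nat.card (M.cl szU1_g) = 6048
  cC : Chain M (M.cl szC1_g) szC1_ls
  nC : Nat.card (M.cl szC1_g) = 1920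
  cP : Chain M (M.cl szP1_g) szP1_ls
  nP : Nat.card (M.cl szP1_g) = 25
  cN : Chain M (M.cl szN1_g) szN1_ls
  nN : Nat.card (M.cl szN1_g) = 300
  cM : Chain M (M.cl szM1_g) szM1_ls
  nM : Nat.card (M.cl szM1_g) = 600
  cK : Chain M (M.cl szK1_g) szK1_ls
  nK : Nat.card (M.cl szK1_g) = 61440
  cQ : Chain M (M.cl szQ1_g) szQ1_ls
  nQ : Nat.card (M.cl szQ1_g) = 184320

theorem sz_facts {G : Type*} [Group G] (M : Model G) (h1 : M.mul = a2_24.mul) (h2 : M.eqb = (eqbQ a2_24.mul Nat.beq a2_24.one suz_zs))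
    (h3 : M.one = a2_24.one) (vv : ∀ c ∈ szX, M.In ⊤ c) {St : Subgroup G} (k1 : Key M St sz1_key sz1_fix) [Finite G] (ht : M.cl szX = ⊤) (hc : Nat.card G = 251596800) : SzF M := by
  obtain ⟨R, one, mul, eqb, a1, a2, a3⟩ := M
  dsimp only at h1 h2 h3
  subst h1 h2 h3
  set M : Model G := ⟨R, a2_24.one, a2_24.mul, (eqbQ a2_24.mul Nat.beq a2_24.one suz_zs), a1, a2, a3⟩ with hM
  have va := in_of_slpW (M := M) _ vv sz_auxok
  obtain ⟨tszJ1, hTszJ1⟩ := exists_R va (c := (nat_lit 0x2007ca664a53bffa4722435317f58c4016ccacc19c1bfbb2b7f59d606486738dc6b102f34137a994650415db150e0ebb279135486c847d91d74bce1c9030151223732b6604ca6340)) (by (try dsimp only [M]); decide +kernel)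
  have kszJ1 : Key M (cjS St tszJ1) szJ1_key szJ1_fix := k1.keyT hTszJ1 (R_inv_of hTszJ1 (exists_R va (c := (nat_lit 0xc56bcae21a1a81dbcd153ac8ff69c0c557764930137ee068988fddc13097721ffb4a6f00091e6d7c6fef2233017e53017f3c827e676e37ce6dd72c605763eea411f677ec209b1c67)) (by (try dsimp only [M]); decide +kernel)) (by (try dsimp only [M]); decide +kernel)) _
  obtain ⟨tszJ2, hTszJ2⟩ := exists_R va (c := (nat_lit 0x7780d025004646dbbd9b70b7a681140313639b428461c0740fb191d3a0748d180c24ca9b7aab011b5bae70da33ebb85131c500fd983923282432da5344524b41b803ba9a97506c84)) (by (try dsimp only [M]); decide +kernel)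
  have kszJ2 : Key M (cjS St tszJ2) szJ2_key szJ2_fix := k1.keyT hTszJ2 (R_inv_of hTszJ2 (exists_R va (c := (nat_lit 0x8580682c7d911e818169e40a2dab936cb06261f0524872fd0fd82a94c12606949778514ed49781988f3be558e93c81c1946504a73e5eeab18da2a9a72fbe3e0fb195d2ccd51349cf)) (by (try dsimp only [M]); decide +kernel)) (by (try dsimp only [M]); decide +kernel)) _
  obtain ⟨tszJ3, hTszJ3⟩ := exists_R va (c := (nat_lit 0xe81e519743385bcd5e400eb362e960260ef9f220329befda475f8e23a820b1f42048de39a7d7ceb384458a2abf092f547598984aaaff3b9fbfc42cbb922ebd1f3eaba068bf28699f)) (by (try dsimp only [M]); decide +kernel)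
  have kszJ3 : Key M (cjS St tszJ3) szJ3_key szJ3_fix := k1.keyT hTszJ3 (R_inv_of hTszJ3 (exists_R va (c := (nat_lit 0xa9d14dfe3f6cfeb2a32d5030e6ca90090eae5647cecd3ea3e5ceae4f39fef73ca3173e37fe38e3749999010401c65afeb2f597b222cf8941201137ce46e751322314bf0131f0185f)) (by (try dsimp only [M]); decide +kernel)) (by (try dsimp only [M]); decide +kernel)) _
  obtain ⟨tszJ4, hTszJ4⟩ := exists_R va (c := (nat_lit 0xf75750c683739bc7f40fefde814f8d31846bd08831bb02a75de163fad83152482a4ea0ace3bc887fe8a32a8590da9f9986050f32164a0ff0bfd6cf6fb44f03b45068ce630dd8f78b)) (by (try dsimp only [M]); decide +kernel)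
  have kszJ4 : Key M (cjS St tszJ4) szJ4_key szJ4_fix := k1.keyT hTszJ4 (R_inv_of hTszJ4 (exists_R va (c := (nat_lit 0xf0690810a73f0c8e37dce89104f473ab0473b0675709867df7b4227bdf6cb0527fc1827f58dc60e6702b4487baf78d500048231374734f0bd95e1e696d29606aacaf7d294c805b54)) (by (try dsimp only [M]); decide +kernel)) (by (try dsimp only [M]); decide +kernel)) _
  have gszJ1 : ∀ c ∈ szJ1_g, M.In ⊤ c := valid_sub va (by (try dsimp only [M]); decide +kernel)
  have gszJ2 := LvD.valid_next (D := szJ1) gszJ1 szJ1_ok szJ1_next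
  have lszJ1 := LvD.le_next (D := szJ1) gszJ1 szJ1_ok szJ1_next
  have gszJ3 := LvD.valid_next (D := szJ2) gszJ2 szJ2_ok szJ2_next
  have lszJ2 := LvD.le_next (D := szJ2) gszJ2 szJ2_ok szJ2_next
  have gszJ4 := LvD.valid_next (D := szJ3) gszJ3 szJ3_ok szJ3_next
  have lszJ3 := LvD.le_next (D := szJ3) gszJ3 szJ3_ok szJ3_next
  have gszJ5 := LvD.valid_next (D := szJ4) gszJ4 szJ4_ok szJ4_next
  have lszJ4 := LvD.le_next (D := szJ4) gszJ4 szJ4_ok szJ4_next
  have eszJ5 : Exact M (M.cl szJ5_g) szJ5_ls ∧ True := ⟨Exact.nil, trivial⟩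
  have eszJ4 := LvD.exact (D := szJ4) gszJ4 szJ4_ok eszJ5.1 lszJ4 szJ4_s kszJ4 szJ4_fx szJ4_k
  have eszJ3 := LvD.exact (D := szJ3) gszJ3 szJ3_ok eszJ4.1 lszJ3 szJ3_s kszJ3 szJ3_fx szJ3_k
  have eszJ2 := LvD.exact (D := szJ2) gszJ2 szJ2_ok eszJ3.1 lszJ2 szJ2_s kszJ2 szJ2_fx szJ2_k
  have eszJ1 := LvD.exact (D := szJ1) gszJ1 szJ1_ok eszJ2.1 lszJ1 szJ1_s kszJ1 szJ1_fx szJ1_k
  have cszJ : Nat.card (M.cl szJ1_g) = 604800 := eszJ1.1.2.trans (by (try dsimp only [M]); decide +kernel)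
  obtain ⟨tszU1, hTszU1⟩ := exists_R va (c := (nat_lit 0x7991abedd10a85e65d90940c6a88409e9e2b8713ed002bbeefe143f380fbfd3f6c446422929bc76fcc730b26106aea03d097c0132082901aeb7fe9febe5a06461a49360255b45a57)) (by (try dsimp only [M]); decide +kernel)
  have kszU1 : Key M (cjS St tszU1) szU1_key szU1_fix := k1.keyT hTszU1 (R_inv_of hTszU1 (exists_R va (c := (nat_lit 0x8136d88bdf8d7ce478026ddfd8366f7a85648300b189dbcd5d9af7e500b27d686962d293d48dbfbd822250bf7f5b50d624b300a51a6484d9d54298258d14278c85695169cebcb40)) (by (try dsimp only [M]); decide +kernel)) (by (try dsimp only [M]); decide +kernel)) _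
  obtain ⟨tszU2, hTszU2⟩ := exists_R va (c := (nat_lit 0x27f228ffe302ffe34033532cb5a000936ccd345b30c92be1b66120b7488f130340b6a120e642182640644f424c12840c5927d2ef7ca5fc15fac9f3a9ef3cfd7d7cc5261008a96af6)) (by (try dsimp only [M]); decide +kernel)
  have kszU2 : Key M (cjS St tszU2) szU2_key szU2_fix := k1.keyT hTszU2 (R_inv_of hTszU2 (exists_R va (c := (nat_lit 0x70f7e287b66b102402222f21f3418f40fd9ff0674201b1427fd9877f498774699b3092a27e793740f00688a0e4842e3f3f4c0bdf57fa7de83f30324a902c7f7d4c9dbf57fa9fdcfd)) (by (try dsimp only [M]); decide +kernel)) (by (try dsimp only [M]); decide +kernel)) _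
  obtain ⟨tszU3, hTszU3⟩ := exists_R va (c := (nat_lit 0x344a278b0906bd4b20a933148b0982d6b72faa1c9df906ba08bf042191a4f4e203f63319c5e4fe5f030ad9af7f57e3080b2a8816b885495d6b50ac5e6baf5fe1032c6961b81ff1a3)) (by (try dsimp only [M]); decide +kernel)
  have kszU3 : Key M (cjS St tszU3) szU3_key szU3_fix := k1.keyT hTszU3 (R_inv_of hTszU3 (exists_R va (c := (nat_lit 0xe61a8139e648632809ccf2cb7d434c463722c6377b3fc88f729aadefd88bd9811889de1c79c55c50a0ec1485426011074af710c717c08ff530f1851a7a8a2e02f7103985725ff227)) (by (try dsimp only [M]); decide +kernel)) (by (try dsimp only [M]); decide +kernel)) _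
  obtain ⟨tszU4, hTszU4⟩ := exists_R va (c := (nat_lit 0xe993e0292ca17753e008bb43a37000b88357c93349a8b000d8e753f543e0e590009eecbf187aa0f553e30a4520e6e393da12f29a82d78e31c3a7d301988f00b86e8a995c6d7d7c88)) (by (try dsimp only [M]); decide +kernel)
  have kszU4 : Key M (cjS St tszU4) szU4_key szU4_fix := k1.keyT hTszU4 (R_inv_of hTszU4 (exists_R va (c := (nat_lit 0x779ff6528a842afc16e8f9646211d0039ce0740c9b35fa721a7c9b309ba207ddc623d36d45a5b3b7882a102c00050a485ffa853f777694068b3c09407dbaa0fc38dc208c88031be5)) (by (try dsimp only [M]); decide +kernel)) (by (try dsimp only [M]); decide +kernel)) _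
  have gszU1 : ∀ c ∈ szU1_g, M.In ⊤ c := valid_sub va (by (try dsimp only [M]); decide +kernel)
  have gszU2 := LvD.valid_next (D := szU1) gszU1 szU1_ok szU1_next
  have lszU1 := LvD.le_next (D := szU1) gszU1 szU1_ok szU1_next
  have gszU3 := LvD.valid_next (D := szU2) gszU2 szU2_ok szU2_next
  have lszU2 := LvD.le_next (D := szU2) gszU2 szU2_ok szU2_next
  have gszU4 := LvD.valid_next (D := szU3) gszU3 szU3_ok szU3_next
  have lszU3 := LvD.le_next (D := szU3) gszU3 szU3_ok szU3_next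
  have gszU5 := LvD.valid_next (D := szU4) gszU4 szU4_ok szU4_next
  have lszU4 := LvD.le_next (D := szU4) gszU4 szU4_ok szU4_next
  have eszU5 : Exact M (M.cl szU5_g) szU5_ls ∧ True := ⟨Exact.nil, trivial⟩
  have eszU4 := LvD.exact (D := szU4) gszU4 szU4_ok eszU5.1 lszU4 szU4_s kszU4 szU4_fx szU4_k
  have eszU3 := LvD.exact (D := szU3) gszU3 szU3_ok eszU4.1 lszU3 szU3_s kszU3 szU3_fx szU3_k
  have eszU2 := LvD.exact (D := szU2) gszU2 szU2_ok eszU3.1 lszU2 szU2_s kszU2 szU2_fx szU2_k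
  have eszU1 := LvD.exact (D := szU1) gszU1 szU1_ok eszU2.1 lszU1 szU1_s kszU1 szU1_fx szU1_k
  have cszU : Nat.card (M.cl szU1_g) = 6048 := eszU1.1.2.trans (by (try dsimp only [M]); decide +kernel)
  obtain ⟨tszC1, hTszC1⟩ := exists_R va (c := (nat_lit 0x9eaf2a6ef8893d55816d6993d23f87889f0ee95ce1364060c95ca3d67fa993a0b0868f8ec4533b7cdd07a5e29f1572513163e6bf7d8159fdd51e98184b8de5c4789780a80014e06c)) (by (try dsimp only [M]); decide +kernel)
  have kszC1 : Key M (cjS St tszC1) szC1_key szC1_fix := k1.keyT hTszC1 (R_inv_of hTszC1 (exists_R va (c := (nat_lit 0x9eaf2a6ef8893d55816d6993d23f87889f0ee95ce1364060c95ca3d67fa993a0b0868f8ec4533b7cdd07a5e29f1572513163e6bf7d8159fdd51e98184b8de5c4789780a80014e06c)) (by (try dsimp only [M]); decide +kernel)) (by (try dsimp only [M]); decide +kernel)) _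
  obtain ⟨tszC2, hTszC2⟩ := exists_R va (c := (nat_lit 0xa6e0114f5efaa9cb6fa90ced200fcdb08fcd2d001eb24efd793fe73f25ae36cf6c95c5420930169781db6ff5b53dd1335aa38a1f6b5426c52367d3333a7ecaf7523bbe10397d2e07)) (by (try dsimp only [M]); decide +kernel)
  have kszC2 : Key M (cjS St tszC2) szC2_key szC2_fix := k1.keyT hTszC2 (R_inv_of hTszC2 (exists_R va (c := (nat_lit 0xb09bb53fd7e81f37723b4c0fdd524d3c3fc20bcd49448e5f87d7ba498914898cedce8e43209f6d440384d205f36a020a3fddc82eae1c89405e23d1b366021ec080143d871b7c5dbc)) (by (try dsimp only [M]); decide +kernel)) (by (try dsimp only [M]); decide +kernel)) _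
  obtain ⟨tszC3, hTszC3⟩ := exists_R va (c := (nat_lit 0x82dfc9bfd875352ddc63d1f5221f346d1bacfeb8d748005183593581778b452465ee62773f5e086f89357e5a48f96718404d0a1b41657a8da57fe40a77ec5ac4329b3e4c887666a6)) (by (try dsimp only [M]); decide +kernel)
  have kszC3 : Key M (cjS St tszC3) szC3_key szC3_fix := k1.keyT hTszC3 (R_inv_of hTszC3 (exists_R va (c := (nat_lit 0x4122a17e10bc98e0f640e0cc85503d45ecacfe701e00f8dc18e32f7e4b60406a3b014235af91742f117d506146112c9951d3ad51f31d8b39297b324c49d4735e146ed823bfd081d0)) (by (try dsimp only [M]); decide +kernel)) (by (try dsimp only [M]); decide +kernel)) _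
  obtain ⟨tszC4, hTszC4⟩ := exists_R va (c := (nat_lit 0xd67e66ee5168318e3ea36761332b41ced1c434aeae6730581861c43da336678b6517d0d014a1448c04c0443f91fd64c75d70c70569f0ccdf7909b2526f24e7772e3cc205ebb0afee)) (by (try dsimp only [M]); decide +kernel)
  have kszC4 : Key M (cjS St tszC4) szC4_key szC4_fix := k1.keyT hTszC4 (R_inv_of hTszC4 (exists_R va (c := (nat_lit 0xce8d502ac7181f1a4848ff118dac2822bd5059054864f0cb7c244813a9182c7d9183d498134640524200601d4d1dfe01c01428f3ce00ccdf19882422ffd6a8d423992126ddd30647)) (by (try dsimp only [M]); decide +kernel)) (by (try dsimp only [M]); decide +kernel)) _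
  obtain ⟨tszC5, hTszC5⟩ := exists_R va (c := (nat_lit 0x8b1eb6a7da2139dc941478249e9090fe6665888ddb4b83459bd497a892b28d8f914fd32dcca79fb581a4f65c2784a24423a800d87c940c0f9bc8222088ea05096879a8f56d83ea10)) (by (try dsimp only [M]); decide +kernel)
  have kszC5 : Key M (cjS St tszC5) szC5_key szC5_fix := k1.keyT hTszC5 (R_inv_of hTszC5 (exists_R va (c := (nat_lit 0x5291902b0713c47f51819b5faaa177b37992f2c0527fb2a2d0c9929961903292a2e9fefcab56118241a01a8fd6dcef3e1c251029ae66fb2a90150006107208309382edb88802400a)) (by (try dsimp only [M]); decide +kernel)) (by (try dsimp only [M]); decide +kernel)) _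
  have gszC1 : ∀ c ∈ szC1_g, M.In ⊤ c := valid_sub va (by (try dsimp only [M]); decide +kernel)
  have gszC2 := LvD.valid_next (D := szC1) gszC1 szC1_ok szC1_next
  have lszC1 := LvD.le_next (D := szC1) gszC1 szC1_ok szC1_next
  have gszC3 := LvD.valid_next (D := szC2) gszC2 szC2_ok szC2_next
  have lszC2 := LvD.le_next (D := szC2) gszC2 szC2_ok szC2_next
  have gszC4 := LvD.valid_next (D := szC3) gszC3 szC3_ok szC3_next
  have lszC3 := LvD.le_next (D := szC3) gszC3 szC3_ok szC3_next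
  have gszC5 := LvD.valid_next (D := szC4) gszC4 szC4_ok szC4_next
  have lszC4 := LvD.le_next (D := szC4) gszC4 szC4_ok szC4_next
  have gszC6 := LvD.valid_next (D := szC5) gszC5 szC5_ok szC5_next
  have lszC5 := LvD.le_next (D := szC5) gszC5 szC5_ok szC5_next
  have eszC6 : Exact M (M.cl szC6_g) szC6_ls ∧ True := ⟨Exact.nil, trivial⟩
  have eszC5 := LvD.exact (D := szC5) gszC5 szC5_ok eszC6.1 lszC5 szC5_s kszC5 szC5_fx szC5_k
  have eszC4 := LvD.exact (D := szC4) gszC4 szC4_ok eszC5.1 lszC4 szC4_s kszC4 szC4_fx szC4_k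
  have eszC3 := LvD.exact (D := szC3) gszC3 szC3_ok eszC4.1 lszC3 szC3_s kszC3 szC3_fx szC3_k
  have eszC2 := LvD.exact (D := szC2) gszC2 szC2_ok eszC3.1 lszC2 szC2_s kszC2 szC2_fx szC2_k
  have eszC1 := LvD.exact (D := szC1) gszC1 szC1_ok eszC2.1 lszC1 szC1_s kszC1 szC1_fx szC1_k
  have cszC : Nat.card (M.cl szC1_g) = 1920 := eszC1.1.2.trans (by (try dsimp only [M]); decide +kernel)
  obtain ⟨tszP1, hTszP1⟩ := exists_R va (c := (nat_lit 0xb868d352a8040cf8c0774f00ee84ebf21a02b3f1f1746553ca8e2d35f6fe9a435fe571c36cdebeec7dbedab4491b8c6fa5edce5364eb6af06d83596bf54178fcf04b48e195f959f0)) (by (try dsimp only [M]); decide +kernel)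
  have kszP1 : Key M (cjS St tszP1) szP1_key szP1_fix := k1.keyT hTszP1 (R_inv_of hTszP1 (exists_R va (c := (nat_lit 0x73aa638301efb2ce08632a80e19ac8e6f77652f1c1b2204f011388feb0abe0a07905e7170349dd2b2f7ba245643050f66ef06250304c67f399e388a26f331f102082d3556bd090cb)) (by (try dsimp only [M]); decide +kernel)) (by (try dsimp only [M]); decide +kernel)) _
  obtain ⟨tszP2, hTszP2⟩ := exists_R va (c := (nat_lit 0xf08861a83de5662c20413842bf34e3279d0abe7c79be84e1593ed070a9fcf8c3fa404b8f30ddc9737262ed415d8ca0e0c44252a975c5d847ccb0f0f9fc1890473842307d3e0c4bdd)) (by (try dsimp only [M]); decide +kernel)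
  have kszP2 : Key M (cjS St tszP2) szP2_key szP2_fix := k1.keyT hTszP2 (R_inv_of hTszP2 (exists_R va (c := (nat_lit 0x6b3b2ba0145834db2b07e4430d71dd5b56084b560c623ea72314482c09f4410698cafc0e1ca350ebfefc4a53837cacf9cb382d86a340129443b350b5e32ce29e0530c3d079d39000)) (by (try dsimp only [M]); decide +kernel)) (by (try dsimp only [M]); decide +kernel)) _
  have gszP1 : ∀ c ∈ szP1_g, M.In ⊤ c := valid_sub va (by (try dsimp only [M]); decide +kernel)
  have gszP2 := LvD.valid_next (D := szP1) gszP1 szP1_ok szP1_next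
  have lszP1 := LvD.le_next (D := szP1) gszP1 szP1_ok szP1_next
  have gszP3 := LvD.valid_next (D := szP2) gszP2 szP2_ok szP2_next
  have lszP2 := LvD.le_next (D := szP2) gszP2 szP2_ok szP2_next
  have eszP3 : Exact M (M.cl szP3_g) szP3_ls ∧ True := ⟨Exact.nil, trivial⟩
  have eszP2 := LvD.exact (D := szP2) gszP2 szP2_ok eszP3.1 lszP2 szP2_s kszP2 szP2_fx szP2_k
  have eszP1 := LvD.exact (D := szP1) gszP1 szP1_ok eszP2.1 lszP1 szP1_s kszP1 szP1_fx szP1_k
  have cszP : Nat.card (M.cl szP1_g) = 25 := eszP1.1.2.trans (by (try dsimp only [M]); decide +kernel)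
  obtain ⟨tszN1, hTszN1⟩ := exists_R va (c := (nat_lit 0x50b72f64430a4fa9498f1e27e73eadffb623d4d027ed366ffafcfec54d9b9146d6af0623b102f7eef2242b3419513d5e095b2d5ed280954820e46fc23003b7051ddc9131e59e8580)) (by (try dsimp only [M]); decide +kernel)
  have kszN1 : Key M (cjS St tszN1) szN1_key szN1_fix := k1.keyT hTszN1 (R_inv_of hTszN1 (exists_R va (c := (nat_lit 0x8b114994e53074ca1feb556d14efcef44c2018fd6904c470fe34949c79be6137e9e4a32024e82fdbb258f871d744ed29f97147cb3018285dc55e71fd673d98a4911013bbd71b743c)) (by (try dsimp only [M]); decide +kernel)) (by (try dsimp only [M]); decide +kernel)) _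
  obtain ⟨tszN2, hTszN2⟩ := exists_R va (c := (nat_lit 0xd775be4b8c99aa9826f37d30228ef9ee61573327b97c389af5fb0f8a891279f66af9a3876dd9b1d6770bef533524c418b1301cda803ae85a2167cf6e6483b3b251b85ee0d54fcc4c)) (by (try dsimp only [M]); decide +kernel)
  have kszN2 : Key M (cjS St tszN2) szN2_key szN2_fix := k1.keyT hTszN2 (R_inv_of hTszN2 (exists_R va (c := (nat_lit 0xb1b9895489fceb258a41710a73d4345808d231388208280a900ff3143085c71b8a83a1ac2a0ff82ef7f98e000779a34ffaa3fcede1cc27b18d7c141465e1c24e82f448e26f69ec9)) (by (try dsimp only [M]); decide +kernel)) (by (try dsimp only [M]); decide +kernel)) _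
  obtain ⟨tszN3, hTszN3⟩ := exists_R va (c := (nat_lit 0x92b02b076850aff84b02b02b886846416140485142feb0e3444f9997b64b5f3c6311b5443e611a5041433666c13c610acb382d4129bd2b9f4394614ec3b03d9b515801a9358d6708)) (by (try dsimp only [M]); decide +kernel)
  have kszN3 : Key M (cjS St tszN3) szN3_key szN3_fix := k1.keyT hTszN3 (R_inv_of hTszN3 (exists_R va (c := (nat_lit 0x5ff65f868312804036cff65fa00efc40ba023e37e4800eddd8fe19288f9cd7f659c0001246ce893ba7cc9a1e4cc4fe99fb0fe8390a93d847cc3e3ee4a572a146b31631f66aadfcb1)) (by (try dsimp only [M]); decide +kernel)) (by (try dsimp only [M]); decide +kernel)) _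
  have gszN1 : ∀ c ∈ szN1_g, M.In ⊤ c := valid_sub va (by (try dsimp only [M]); decide +kernel)
  have gszN2 := LvD.valid_next (D := szN1) gszN1 szN1_ok szN1_next
  have lszN1 := LvD.le_next (D := szN1) gszN1 szN1_ok szN1_next
  have gszN3 := LvD.valid_next (D := szN2) gszN2 szN2_ok szN2_next
  have lszN2 := LvD.le_next (D := szN2) gszN2 szN2_ok szN2_next
  have gszN4 := LvD.valid_next (D := szN3) gszN3 szN3_ok szN3_next
  have lszN3 := LvD.le_next (D := szN3) gszN3 szN3_ok szN3_next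
  have eszN4 : Exact M (M.cl szN4_g) szN4_ls ∧ True := ⟨Exact.nil, trivial⟩
  have eszN3 := LvD.exact (D := szN3) gszN3 szN3_ok eszN4.1 lszN3 szN3_s kszN3 szN3_fx szN3_k
  have eszN2 := LvD.exact (D := szN2) gszN2 szN2_ok eszN3.1 lszN2 szN2_s kszN2 szN2_fx szN2_k
  have eszN1 := LvD.exact (D := szN1) gszN1 szN1_ok eszN2.1 lszN1 szN1_s kszN1 szN1_fx szN1_k
  have cszN : Nat.card (M.cl szN1_g) = 300 := eszN1.1.2.trans (by (try dsimp only [M]); decide +kernel)
  obtain ⟨tszM1, hTszM1⟩ := exists_R va (c := (nat_lit 0xf4f02aa6d2e87ed2847e92ae0822a2be7e8a03638275f2982e2cd9a5e09dee6f374a73a86a435085cce2c03114df79837b671d17e65d09ab06ce5c2313e940687f6823735bff4b90)) (by (try dsimp only [M]); decide +kernel)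
  have kszM1 : Key M (cjS St tszM1) szM1_key szM1_fix := k1.keyT hTszM1 (R_inv_of hTszM1 (exists_R va (c := (nat_lit 0x60ede475e819bbb891f5a58455faa9e79d8beb9aa90998a04708c470ea9320fd246b70833b87582b7776ae9f7c4159e93aa4557a66478c4bda9572c9a9d6378aa17a65777eaeaefc)) (by (try dsimp only [M]); decide +kernel)) (by (try dsimp only [M]); decide +kernel)) _
  obtain ⟨tszM2, hTszM2⟩ := exists_R va (c := (nat_lit 0xb912a60a2861b3f4318ca0e093ed25b11879229d717792c28a31c7c4c4c245d0e2774250e75c350ab684b3eb764f1c75b1fc00b3fc11c2deb5c55d253167f676d82df47c4596c04c)) (by (try dsimp only [M]); decide +kernel)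
  have kszM2 : Key M (cjS St tszM2) szM2_key szM2_fix := k1.keyT hTszM2 (R_inv_of hTszM2 (exists_R va (c := (nat_lit 0xa9ef905237e50600145c07fc00da7d79e16563b2f53dcfb6c2d375adefd6155b8bcbeb6742a8003d0301f7d28b12e8a877271902d32f62a84077525940adf3c2f982a5b28414e06c)) (by (try dsimp only [M]); decide +kernel)) (by (try dsimp only [M]); decide +kernel)) _
  obtain ⟨tszM3, hTszM3⟩ := exists_R va (c := (nat_lit 0x5f0411ce6d3640bdbeb6116d6176d743dcaba1c43e0bed2a7f2b1ff3973adfb9bde69a2db51f15e14246581fb44910022a1802b3fc1154d8c252892f97ec73d7d28276a857f38fb4)) (by (try dsimp only [M]); decide +kernel)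
  have kszM3 : Key M (cjS St tszM3) szM3_key szM3_fix := k1.keyT hTszM3 (R_inv_of hTszM3 (exists_R va (c := (nat_lit 0xe0766fea7e1f6e29c8c5fe2588b818f0f9cd0d8c5a9b019b7c2448538a0c4d59c8ec4c3712db9605594b77c13b354ff8082bbe13e12774f7f6bfa2db3e722ddd0498158aabfbb7be)) (by (try dsimp only [M]); decide +kernel)) (by (try dsimp only [M]); decide +kernel)) _
  obtain ⟨tszM4, hTszM4⟩ := exists_R va (c := (nat_lit 0xc03f2fe47bd1dfc92317dff46092802e1f27e0000019d4519cd0c0840e97a2176757ec20988fddfdd8b3209f6d3ed48aaca118f371c8f9fff4e400408a6b95f5f427c75ef657e308)) (by (try dsimp only [M]); decide +kernel)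
  have kszM4 : Key M (cjS St tszM4) szM4_key szM4_fix := k1.keyT hTszM4 (R_inv_of hTszM4 (exists_R va (c := (nat_lit 0x36678f3c67de0800518d13bc8c4863962035f070f9881bf643d57ca5df4ff8188f3e6051bc0ffc6359f4ac0480792945edd6229420259e6bec72eb9e940020343f5cadefd6d5b804)) (by (try dsimp only [M]); decide +kernel)) (by (try dsimp only [M]); decide +kernel)) _
  have gszM1 : ∀ c ∈ szM1_g, M.In ⊤ c := valid_sub va (by (try dsimp only [M]); decide +kernel)
  have gszM2 := LvD.valid_next (D := szM1) gszM1 szM1_ok szM1_next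
  have lszM1 := LvD.le_next (D := szM1) gszM1 szM1_ok szM1_next
  have gszM3 := LvD.valid_next (D := szM2) gszM2 szM2_ok szM2_next
  have lszM2 := LvD.le_next (D := szM2) gszM2 szM2_ok szM2_next
  have gszM4 := LvD.valid_next (D := szM3) gszM3 szM3_ok szM3_next
  have lszM3 := LvD.le_next (D := szM3) gszM3 szM3_ok szM3_next
  have gszM5 := LvD.valid_next (D := szM4) gszM4 szM4_ok szM4_next
  have lszM4 := LvD.le_next (D := szM4) gszM4 szM4_ok szM4_next
  have eszM5 : Exact M (M.cl szM5_g) szM5_ls ∧ True := ⟨Exact.nil, trivial⟩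
  have eszM4 := LvD.exact (D := szM4) gszM4 szM4_ok eszM5.1 lszM4 szM4_s kszM4 szM4_fx szM4_k
  have eszM3 := LvD.exact (D := szM3) gszM3 szM3_ok eszM4.1 lszM3 szM3_s kszM3 szM3_fx szM3_k
  have eszM2 := LvD.exact (D := szM2) gszM2 szM2_ok eszM3.1 lszM2 szM2_s kszM2 szM2_fx szM2_k
  have eszM1 := LvD.exact (D := szM1) gszM1 szM1_ok eszM2.1 lszM1 szM1_s kszM1 szM1_fx szM1_k
  have cszM : Nat.card (M.cl szM1_g) = 600 := eszM1.1.2.trans (by (try dsimp only [M]); decide +kernel)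
  obtain ⟨tszK1, hTszK1⟩ := exists_R va (c := (nat_lit 0xa448c53e63fbb609bf93bb4eee4e6d76f38b73dd5ed2f3b3f3a425b0ca9b1c5bda080b5a937f737a97ce849c38d75d531af3fa174d5b954820cd0fc2cc7d43a98f9a6afc5796f68f)) (by (try dsimp only [M]); decide +kernel)
  have kszK1 : Key M (cjS St tszK1) szK1_key szK1_fix := k1.keyT hTszK1 (R_inv_of hTszK1 (exists_R va (c := (nat_lit 0x75c0ad540cbb1bbad8a9d40e6bfd0a3084eb1a63fac00cbb21ee2632fc621549065233f83b6eca560bcc54c62d7e7178f9af7f202c5f250e7b0d0e4b73feae160c7b24e82f18e36d)) (by (try dsimp only [M]); decide +kernel)) (by (try dsimp only [M]); decide +kernel)) _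
  obtain ⟨tszK2, hTszK2⟩ := exists_R va (c := (nat_lit 0xe9d86c0ef710afff3ff20fb97bdcdfb9dbdb34cfe741d3b7d8e7532bffe73d3cdf460bec2b75842db4b0c5ee267d7c8862cd40443ed036a5fdf77c049b5c4c6089d9ff7454e6e393)) (by (try dsimp only [M]); decide +kernel)
  have kszK2 : Key M (cjS St tszK2) szK2_key szK2_fix := k1.keyT hTszK2 (R_inv_of hTszK2 (exists_R va (c := (nat_lit 0xe27d5a29243e525cfa71dcd4a6443e0dce5e7a5e25db37653c227fded7b4b4618ecd1e7a4bf70db4077d4fc9fc5aefb4001f7946cc6e78df3fab7f4f225f5c1c26749ff6dd99b102)) (by (try dsimp only [M]); decide +kernel)) (by (try dsimp only [M]); decide +kernel)) _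
  obtain ⟨tszK3, hTszK3⟩ := exists_R va (c := (nat_lit 0x99ee8eb01a441ae1e1b7264fc359d52ea17ad36a1aaf862fddec0efbf60814123fbfa981f496ff805508e6e3c4eca540bd1907eda9be1f5710f9273b6e2c8e907f04da55e00cbeb1)) (by (try dsimp only [M]); decide +kernel)
  have kszK3 : Key M (cjS St tszK3) szK3_key szK3_fix := k1.keyT hTszK3 (R_inv_of hTszK3 (exists_R va (c := (nat_lit 0xc549b4acadbe3ae1e127368fe351d780f1f64b4d65ac91417ae64a30a365fb69c5be7afc979350a41f9fd95b91ed673d7587d9f853e7acbb30bdb00002ec8f907f0091504fd20ee4)) (by (try dsimp only [M]); decide +kernel)) (by (try dsimp only [M]); decide +kernel)) _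
  obtain ⟨tszK4, hTszK4⟩ := exists_R va (c := (nat_lit 0x7f0bf36dda340778cb2176706dc63d047d6befc8c14998a3ed09e16d6993cda9414a37ad15fad86f7d30b5b50417fa595075bf16302487ea49d0b1bff4f3c40dc0f61cb5fb8db382)) (by (try dsimp only [M]); decide +kernel)
  have kszK4 : Key M (cjS St tszK4) szK4_key szK4_fix := k1.keyT hTszK4 (R_inv_of hTszK4 (exists_R va (c := (nat_lit 0xe822051029a9202faec00d2a5edd0b00b371a4acee0a08d028a5ae366f8eafde3e57c7ce3f5987f6e8b5b1d600dbb8b5c4aa45afd80f635e7b7fe9c1b67957ff557ec23c00600fab)) (by (try dsimp only [M]); decide +kernel)) (by (try dsimp only [M]); decide +kernel)) _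
  obtain ⟨tszK5, hTszK5⟩ := exists_R va (c := (nat_lit 0xf55bf35d4f51ba9b6541236ebb2f796233695de7e16b6f67a83692bfeee9242d619c6fc5301d65ae517adc8491dfedef96dd742339a626191cb6443e8a1cbc698d4fe8194f77dbfd)) (by (try dsimp only [M]); decide +kernel)
  have kszK5 : Key M (cjS St tszK5) szK5_key szK5_fix := k1.keyT hTszK5 (R_inv_of hTszK5 (exists_R va (c := (nat_lit 0x7a0a7302774d390f801b02001670b1ff38fb6b82883b130220a5fa8db97e37fc5eb10686754b40d0ba0bd7efbb0c0e3e008101022c317678a556eb4051f54862e82382306b2c40c4)) (by (try dsimp only [M]); decide +kernel)) (by (try dsimp only [M]); decide +kernel)) _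
  have gszK1 : ∀ c ∈ szK1_g, M.In ⊤ c := valid_sub va (by (try dsimp only [M]); decide +kernel)
  have gszK2 := LvD.valid_next (D := szK1) gszK1 szK1_ok szK1_next
  have lszK1 := LvD.le_next (D := szK1) gszK1 szK1_ok szK1_next
  have gszK3 := LvD.valid_next (D := szK2) gszK2 szK2_ok szK2_next
  have lszK2 := LvD.le_next (D := szK2) gszK2 szK2_ok szK2_next
  have gszK4 := LvD.valid_next (D := szK3) gszK3 szK3_ok szK3_next
  have lszK3 := LvD.le_next (D := szK3) gszK3 szK3_ok szK3_next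
  have gszK5 := LvD.valid_next (D := szK4) gszK4 szK4_ok szK4_next
  have lszK4 := LvD.le_next (D := szK4) gszK4 szK4_ok szK4_next
  have gszK6 := LvD.valid_next (D := szK5) gszK5 szK5_ok szK5_next
  have lszK5 := LvD.le_next (D := szK5) gszK5 szK5_ok szK5_next
  have eszK6 : Exact M (M.cl szK6_g) szK6_ls ∧ True := ⟨Exact.nil, trivial⟩
  have eszK5 := LvD.exact (D := szK5) gszK5 szK5_ok eszK6.1 lszK5 szK5_s kszK5 szK5_fx szK5_k
  have eszK4 := LvD.exact (D := szK4) gszK4 szK4_ok eszK5.1 lszK4 szK4_s kszK4 szK4_fx szK4_k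
  have eszK3 := LvD.exact (D := szK3) gszK3 szK3_ok eszK4.1 lszK3 szK3_s kszK3 szK3_fx szK3_k
  have eszK2 := LvD.exact (D := szK2) gszK2 szK2_ok eszK3.1 lszK2 szK2_s kszK2 szK2_fx szK2_k
  have eszK1 := LvD.exact (D := szK1) gszK1 szK1_ok eszK2.1 lszK1 szK1_s kszK1 szK1_fx szK1_k
  have cszK : Nat.card (M.cl szK1_g) = 61440 := eszK1.1.2.trans (by (try dsimp only [M]); decide +kernel)
  obtain ⟨tszQ1, hTszQ1⟩ := exists_R va (c := (nat_lit 0x5bb87539aeae842ed309c05e2c2118342178924178202f26c3d22d1bcb3d485952a4011a39c7018bba96379b3051ba02039a333c5b30774dac20263abde83f303312468541fb6baf)) (by (try dsimp only [M]); decide +kernel)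
  have kszQ1 : Key M (cjS St tszQ1) szQ1_key szQ1_fix := k1.keyT hTszQ1 (R_inv_of hTszQ1 (exists_R va (c := (nat_lit 0x97d839e927cfa5ade5048f8f7dfa88688fc3ec4f8f775ff4988fdd7e676eced2fea411f63d6540d117ad793f6e2df84712697ec13097b44590b3c600e834174a6f002ce04fc8b721)) (by (try dsimp only [M]); decide +kernel)) (by (try dsimp only [M]); decide +kernel)) _
  obtain ⟨tszQ2, hTszQ2⟩ := exists_R va (c := (nat_lit 0x3811df3bfc800d0edb21be083c4b2187e5573a891031ac0002adcf999dbdee4c940704a17bea8079f40af97545cc09003fd6815bf882fad8320d03eec785eef1fc042d8141724220)) (by (try dsimp only [M]); decide +kernel)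
  have kszQ2 : Key M (cjS St tszQ2) szQ2_key szQ2_fix := k1.keyT hTszQ2 (R_inv_of hTszQ2 (exists_R va (c := (nat_lit 0x400e910016084fa22d836c507f2710bea56ff5af91445b93e1979d7db46780dbd56b1995b55ed75d87717680ec34c531dd2573a2896e32436e244a878ff52957b56f523314bda001)) (by (try dsimp only [M]); decide +kernel)) (by (try dsimp only [M]); decide +kernel)) _
  obtain ⟨tszQ3, hTszQ3⟩ := exists_R va (c := (nat_lit 0x2007ca664a53bffa4722435317f58c4016ccacc19c1bfbb2b7f59d606486738dc6b102f34137a994650415db150e0ebb279135486c847d91d74bce1c9030151223732b6604ca6340)) (by (try dsimp only [M]); decide +kernel)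
  have kszQ3 : Key M (cjS St tszQ3) szQ3_key szQ3_fix := k1.keyT hTszQ3 (R_inv_of hTszQ3 (exists_R va (c := (nat_lit 0xc56bcae21a1a81dbcd153ac8ff69c0c557764930137ee068988fddc13097721ffb4a6f00091e6d7c6fef2233017e53017f3c827e676e37ce6dd72c605763eea411f677ec209b1c67)) (by (try dsimp only [M]); decide +kernel)) (by (try dsimp only [M]); decide +kernel)) _
  obtain ⟨tszQ4, hTszQ4⟩ := exists_R va (c := (nat_lit 0xccda534e5253c47f51c57bd1a71eee7a70adbb23903eb1089bb113777152f37ddc88c12044c71b4165d9ae37ed6de699901c10e645437bd670d1479d191e30e267b3635d9f145c80)) (by (try dsimp only [M]); decide +kernel)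
  have kszQ4 : Key M (cjS St tszQ4) szQ4_key szQ4_fix := k1.keyT hTszQ4 (R_inv_of hTszQ4 (exists_R va (c := (nat_lit 0x1d9d336055080bb81363c4121eabfe4fb6a5e4db33ecc0c09bb113e34177441b73b10412a2f71377e8a0e7f65573d679ab28605531770800d01a4200c1c262888160653f470a6c60)) (by (try dsimp only [M]); decide +kernel)) (by (try dsimp only [M]); decide +kernel)) _
  obtain ⟨tszQ5, hTszQ5⟩ := exists_R va (c := (nat_lit 0xd7162c1adc0246d9c599bae94e46c1541c5046411b862ca1fdaae125fecb070a6db8eee515754b7dbaa303ddcd17195dff0e9d5345bd39a5111646a8a8adf2756a209d7c4d6e88cb)) (by (try dsimp only [M]); decide +kernel)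
  have kszQ5 : Key M (cjS St tszQ5) szQ5_key szQ5_fix := k1.keyT hTszQ5 (R_inv_of hTszQ5 (exists_R va (c := (nat_lit 0xb8b8288a0884d2a7d5fb41b1e1d6052ea02c7a280c111ceb2a2fa39bd40cf4d0442b3904b74c8fd8003a9c9711cdeb73e5b12a46348ad88df559a8224db679f6f075d531a64b9026)) (by (try dsimp only [M]); decide +kernel)) (by (try dsimp only [M]); decide +kernel)) _
  have gszQ1 : ∀ c ∈ szQ1_g, M.In ⊤ c := valid_sub va (by (try dsimp only [M]); decide +kernel)
  have gszQ2 := LvD.valid_next (D := szQ1) gszQ1 szQ1_ok szQ1_next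
  have lszQ1 := LvD.le_next (D := szQ1) gszQ1 szQ1_ok szQ1_next
  have gszQ3 := LvD.valid_next (D := szQ2) gszQ2 szQ2_ok szQ2_next
  have lszQ2 := LvD.le_next (D := szQ2) gszQ2 szQ2_ok szQ2_next
  have gszQ4 := LvD.valid_next (D := szQ3) gszQ3 szQ3_ok szQ3_next
  have lszQ3 := LvD.le_next (D := szQ3) gszQ3 szQ3_ok szQ3_next
  have gszQ5 := LvD.valid_next (D := szQ4) gszQ4 szQ4_ok szQ4_next
  have lszQ4 := LvD.le_next (D := szQ4) gszQ4 szQ4_ok szQ4_next
  have gszQ6 := LvD.valid_next (D := szQ5) gszQ5 szQ5_ok szQ5_next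
  have lszQ5 := LvD.le_next (D := szQ5) gszQ5 szQ5_ok szQ5_next
  have eszQ6 : Exact M (M.cl szQ6_g) szQ6_ls ∧ True := ⟨Exact.nil, trivial⟩
  have eszQ5 := LvD.exact (D := szQ5) gszQ5 szQ5_ok eszQ6.1 lszQ5 szQ5_s kszQ5 szQ5_fx szQ5_k
  have eszQ4 := LvD.exact (D := szQ4) gszQ4 szQ4_ok eszQ5.1 lszQ4 szQ4_s kszQ4 szQ4_fx szQ4_k
  have eszQ3 := LvD.exact (D := szQ3) gszQ3 szQ3_ok eszQ4.1 lszQ3 szQ3_s kszQ3 szQ3_fx szQ3_k
  have eszQ2 := LvD.exact (D := szQ2) gszQ2 szQ2_ok eszQ3.1 lszQ2 szQ2_s kszQ2 szQ2_fx szQ2_k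
  have eszQ1 := LvD.exact (D := szQ1) gszQ1 szQ1_ok eszQ2.1 lszQ1 szQ1_s kszQ1 szQ1_fx szQ1_k
  have cszQ : Nat.card (M.cl szQ1_g) = 184320 := eszQ1.1.2.trans (by (try dsimp only [M]); decide +kernel)
  exact ⟨rfl, rfl, rfl, vv, va, top_le_iff.1 (ht ▸ Model.cl_le (le_of_wds (in_cl_self (valid_sub va (by (try dsimp only [M]); decide +kernel))) szX2_w)), hc, eszJ1.1.1, cszJ, eszU1.1.1, cszU, eszC1.1.1, cszC, eszP1.1.1, cszP, eszN1.1.1, cszN, eszM1.1.1, cszM, eszK1.1.1, cszK, eszQ1.1.1, cszQ⟩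

end H29
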