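import Cfsg.Agent.H29.Sz4D

set_option autoImplicit false
set_option maxRecDepth 100000
set_option linter.style.haveILetI false
set_option linter.unusedVariables false
set_option linter.style.longLine false
set_option linter.unusedTactic false
set_option linter.unreachableTactic false

namespace H29

theorem sz_NJ : allL (sift a2_24.mul (eqbQ a2_24.mul Nat.beq a2_24.one suz_zs) a2_24.one szJ1_ls) szN1_g = true := by decide +kernel
theorem sz_PJ : allL (sift a2_24.mul (eqbQ a2_24.mul Nat.beq a2_24.one suz_zs) a2_24.one szJ1_ls) szP1_g = true := by decide +kernel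
theorem sz_tN : allL (sift a2_24.mul (eqbQ a2_24.mul Nat.beq a2_24.one suz_zs) a2_24.one szN1_ls) szD3_x = true := by decide +kernel
theorem sz_PM : allL (sift a2_24.mul (eqbQ a2_24.mul Nat.beq a2_24.one suz_zs) a2_24.one szM1_ls) szP1_g = true := by decide +kernel
theorem sz_KQ : allL (sift a2_24.mul (eqbQ a2_24.mul Nat.beq a2_24.one suz_zs) a2_24.one szQ1_ls) szK1_g = true := by decide +kernel
theorem sz_nP : cjAll a2_24.mul (eqbQ a2_24.mul Nat.beq a2_24.one suz_zs) a2_24.one szP1_ls szP1_g [10, 1] szN1_g [[12, 3], [17, 13]] = true := by decide +kernel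
theorem sz_ov_0 : allR (ovAt a2_24.mul (eqbQ a2_24.mul Nat.beq a2_24.one suz_zs) a2_24.one szM1_ls szD2_x szD3_x szP1_g szJ1_g sz_c (nat_lit 12) sz_W) (nat_lit 0) (nat_lit 40) = true := by decide +kernel
theorem sz_ov_1 : allR (ovAt a2_24.mul (eqbQ a2_24.mul Nat.beq a2_24.one suz_zs) a2_24.one szM1_ls szD2_x szD3_x szP1_g szJ1_g sz_c (nat_lit 12) sz_W) (nat_lit 40) (nat_lit 40) = true := by decide +kernel
theorem sz_ov_2 : allR (ovAt a2_24.mul (eqbQ a2_24.mul Nat.beq a2_24.one suz_zs) a2_24.one szM1_ls szD2_x szD3_x szP1_g szJ1_g sz_c (nat_lit 12) sz_W) (nat_lit 80) (nat_lit 40) = true := by decide +kernel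

end H29
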