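import Cfsg.Agent.H29.Sz4D

set_option autoImplicit false
set_option maxRecDepth 100000
set_option linter.style.haveILetI false
set_option linter.unusedVariables false
set_option linter.style.longLine false
set_option linter.unusedTactic false
set_option linter.unreachableTactic false

namespace H29

theorem sz_ov_3 : allR (ovAt a2_24.mul (eqbQ a2_24.mul Nat.beq a2_24.one suz_zs) a2_24.one szM1_ls szD2_x szD3_x szP1_g szJ1_g sz_c (nat_lit 12) sz_W) (nat_lit 120) (nat_lit 40) = true := by decide +kernel
theorem sz_ov_4 : allR (ovAt a2_24.mul (eqbQ a2_24.mul Nat.beq a2_24.one suz_zs) a2_24.one szM1_ls szD2_x szD3_x szP1_g szJ1_g sz_c (nat_lit 12) sz_W) (nat_lit 160) (nat_lit 40) = true := by decide +kernel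
theorem sz_ov_5 : allR (ovAt a2_24.mul (eqbQ a2_24.mul Nat.beq a2_24.one suz_zs) a2_24.one szM1_ls szD2_x szD3_x szP1_g szJ1_g sz_c (nat_lit 12) sz_W) (nat_lit 200) (nat_lit 4) = true := by decide +kernel
theorem sz_ov2 : all1 (ov2At a2_24.mul (eqbQ a2_24.mul Nat.beq a2_24.one suz_zs) a2_24.one szM1_ls szD3_x szP1_g szJ1_g sz_c 299 [[nat_lit 0x1000001002001003001002003000003001001000001, nat_lit 0x1000003000000001003000000001003001000001002, nat_lit 0x1000001000000003000001001002002], [nat_lit 0x1000002002001002001000003001001000003001, nat_lit 0x1001000000003000000001003001000003003001, nat_lit 0x1000001001000003000000001002002], [nat_lit 0x1000002001000002003000000001002002001002001002000, nat_lit 0x1001000002002001003000003003000003003000001000, nat_lit 0x1000000001000000003001000000001002001001], [], [nat_lit 0x1000001000003000000001001003003001002001000, nat_lit 0x1001002002003000001002001003000003000000001001002, nat_lit 0x1003003000000001001000003000000001001], [nat_lit 0x1000002001000000003000001003001003003001000, nat_lit 0x1001000000003003001000003000000003001002002000, nat_lit 0x1003003000000001000003000000001],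 [], [nat_lit 0x1000002001001000003000000001003001003003001000, nat_lit 0x1000000003000001000001003003001000001002002001, nat_lit 0x1000001000000002002003000003003001003], [], [nat_lit 0x1000001003003001003000001003000001001003, nat_lit 0x1001003000000001003000001002003002000000001002, nat_lit 0x1000002002001001000000003000001], [nat_lit 0x1000001001003001000000001003000000003001, nat_lit 0x1000000001000000002003000000001003002000001000000, nat_lit 0x1000002001001000000003000001002], []]) 0 12 = true := by decide +kernel
theorem sz_cU : cjIn a2_24.mul (eqbQ a2_24.mul Nat.beq a2_24.one suz_zs) a2_24.one szJ1_ls sz_t szU1_g [408, 314475] [352, 314475] = true := by decide +kernel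
theorem sz_cC : cjIn a2_24.mul (eqbQ a2_24.mul Nat.beq a2_24.one suz_zs) a2_24.one szJ1_ls sz_tp szC1_g [7044, 354458] [139065, 526767] = true := by decide +kernel
theorem sz_tU : cjIn a2_24.mul (eqbQ a2_24.mul Nat.beq a2_24.one suz_zs) a2_24.one szU1_ls sz_t szU1_g [11, 53] [16, 53] = true := by decide +kernel
theorem sz_NU : allL (sift a2_24.mul (eqbQ a2_24.mul Nat.beq a2_24.one suz_zs) a2_24.one szU1_ls) sz_NL = true := by decide +kernel
theorem sz_aU_0 : allR (fun j => force ((szU1.lv a2_24.mul a2_24.one).U j) (allC a2_24.mul sz_fU szU2_ls)) (nat_lit 0) (nat_lit 4) = true := by decide +kernel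

end H29
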