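import Cfsg.Agent.H29.Sz4D

set_option autoImplicit false
set_option maxRecDepth 100000
set_option linter.style.haveILetI false
set_option linter.unusedVariables false
set_option linter.style.longLine false
set_option linter.unusedTactic false
set_option linter.unreachableTactic false

namespace H29

theorem sz_aU_1 : allR (fun j => force ((szU1.lv a2_24.mul a2_24.one).U j) (allC a2_24.mul sz_fU szU2_ls)) (nat_lit 4) (nat_lit 4) = true := by decide +kernel
theorem sz_aU_2 : allR (fun j => force ((szU1.lv a2_24.mul a2_24.one).U j) (allC a2_24.mul sz_fU szU2_ls)) (nat_lit 8) (nat_lit 4) = true := by decide +kernel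
theorem sz_aU_3 : allR (fun j => force ((szU1.lv a2_24.mul a2_24.one).U j) (allC a2_24.mul sz_fU szU2_ls)) (nat_lit 12) (nat_lit 4) = true := by decide +kernel
theorem sz_aU_4 : allR (fun j => force ((szU1.lv a2_24.mul a2_24.one).U j) (allC a2_24.mul sz_fU szU2_ls)) (nat_lit 16) (nat_lit 4) = true := by decide +kernel
theorem sz_aU_5 : allR (fun j => force ((szU1.lv a2_24.mul a2_24.one).U j) (allC a2_24.mul sz_fU szU2_ls)) (nat_lit 20) (nat_lit 4) = true := by decide +kernel
theorem sz_aU_6 : allR (fun j => force ((szU1.lv a2_24.mul a2_24.one).U j) (allC a2_24.mul sz_fU szU2_ls)) (nat_lit 24) (nat_lit 4) = true := by decide +kernel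
theorem sz_aU_7 : allR (fun j => force ((szU1.lv a2_24.mul a2_24.one).U j) (allC a2_24.mul sz_fU szU2_ls)) (nat_lit 28) (nat_lit 4) = true := by decide +kernel
theorem sz_aU_8 : allR (fun j => force ((szU1.lv a2_24.mul a2_24.one).U j) (allC a2_24.mul sz_fU szU2_ls)) (nat_lit 32) (nat_lit 4) = true := by decide +kernel
theorem sz_aU_9 : allR (fun j => force ((szU1.lv a2_24.mul a2_24.one).U j) (allC a2_24.mul sz_fU szU2_ls)) (nat_lit 36) (nat_lit 4) = true := by decide +kernel

end H29
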