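import Cfsg.Agent.H29.Sz4D

set_option autoImplicit false
set_option maxRecDepth 100000
set_option linter.style.haveILetI false
set_option linter.unusedVariables false
set_option linter.style.longLine false
set_option linter.unusedTactic false
set_option linter.unreachableTactic false

namespace H29

theorem sz_aU_10 : allR (fun j => force ((szU1.lv a2_24.mul a2_24.one).U j) (allC a2_24.mul sz_fU szU2_ls)) (nat_lit 40) (nat_lit 4) = true := by decide +kernel
theorem sz_aU_11 : allR (fun j => force ((szU1.lv a2_24.mul a2_24.one).U j) (allC a2_24.mul sz_fU szU2_ls)) (nat_lit 44) (nat_lit 4) = true := by decide +kernel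
theorem sz_aU_12 : allR (fun j => force ((szU1.lv a2_24.mul a2_24.one).U j) (allC a2_24.mul sz_fU szU2_ls)) (nat_lit 48) (nat_lit 4) = true := by decide +kernel
theorem sz_aU_13 : allR (fun j => force ((szU1.lv a2_24.mul a2_24.one).U j) (allC a2_24.mul sz_fU szU2_ls)) (nat_lit 52) (nat_lit 4) = true := by decide +kernel
theorem sz_aU_14 : allR (fun j => force ((szU1.lv a2_24.mul a2_24.one).U j) (allC a2_24.mul sz_fU szU2_ls)) (nat_lit 56) (nat_lit 4) = true := by decide +kernel
theorem sz_aU_15 : allR (fun j => force ((szU1.lv a2_24.mul a2_24.one).U j) (allC a2_24.mul sz_fU szU2_ls)) (nat_lit 60) (nat_lit 3) = true := by decide +kernel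
theorem sz_aC_0 : allR (fun j => force ((szC1.lv a2_24.mul a2_24.one).U j) (allC a2_24.mul (fun x => killed a2_24.mul (eqbQ a2_24.mul Nat.beq a2_24.one suz_zs) a2_24.one (let3 sz_ui sz_z x) sz_r2 || (eqbQ a2_24.mul Nat.beq a2_24.one suz_zs) x sz_aj) szC2_ls)) (nat_lit 0) (nat_lit 10) = true := by decide +kernel
theorem sz_aC_1 : allR (fun j => force ((szC1.lv a2_24.mul a2_24.one).U j) (allC a2_24.mul (fun x => killed a2_24.mul (eqbQ a2_24.mul Nat.beq a2_24.one suz_zs) a2_24.one (let3 sz_ui sz_z x) sz_r2 || (eqbQ a2_24.mul Nat.beq a2_24.one suz_zs) x sz_aj) szC2_ls)) (nat_lit 10) (nat_lit 10) = true := by decide +kernel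
theorem sz_aC_2 : allR (fun j => force ((szC1.lv a2_24.mul a2_24.one).U j) (allC a2_24.mul (fun x => killed a2_24.mul (eqbQ a2_24.mul Nat.beq a2_24.one suz_zs) a2_24.one (let3 sz_ui sz_z x) sz_r2 || (eqbQ a2_24.mul Nat.beq a2_24.one suz_zs) x sz_aj) szC2_ls)) (nat_lit 20) (nat_lit 10) = true := by decide +kernel

end H29
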