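import Cfsg.Agent.H29.Sz4D
import Cfsg.Agent.H29.Sz4C1
import Cfsg.Agent.H29.Sz4C2
import Cfsg.Agent.H29.Sz4C3
import Cfsg.Agent.H29.Sz4C4
import Cfsg.Agent.H29.Sz4C5

set_option autoImplicit false
set_option maxRecDepth 100000
set_option linter.style.haveILetI false
set_option linter.unusedVariables false
set_option linter.style.longLine false
set_option linter.unusedTactic false
set_option linter.unreachableTactic false

namespace H29

theorem sz_ov : ∀ j < nat_lit 204, (ovAt a2_24.mul (eqbQ a2_24.mul Nat.beq a2_24.one suz_zs) a2_24.one szM1_ls szD2_x szD3_x szP1_g szJ1_g sz_c (nat_lit 12) sz_W) j = true :=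
  (allR_step (c := nat_lit 204) (allR_step (c := nat_lit 200) (allR_step (c := nat_lit 160) (allR_step (c := nat_lit 120) (allR_step (c := nat_lit 80) (allR_step (c := nat_lit 40) (fun _ h => absurd h (Nat.not_lt_zero _)) sz_ov_0 (by decide)) sz_ov_1 (by decide)) sz_ov_2 (by decide)) sz_ov_3 (by decide)) sz_ov_4 (by decide)) sz_ov_5 (by decide))

theorem sz_aU : ∀ j < nat_lit 63, (fun j => force ((szU1.lv a2_24.mul a2_24.one).U j) (allC a2_24.mul sz_fU szU2_ls)) j = true :=
  (allR_step (c := nat_lit 63) (allR_step (c := nat_lit 60) (allR_step (c := nat_lit 56) (allR_step (c := nat_lit 52) (allR_step (c := nat_lit 48) (allR_step (c := nat_lit 44) (allR_step (c := nat_lit 40) (allR_step (c := nat_lit 36) (allR_step (c := nat_lit 32) (allR_step (c := nat_lit 28) (allR_step (c := nat_lit 24) (allR_step (c := nat_lit 20) (allR_step (c := nat_lit 16) (allR_step (c := nat_lit 12) (allR_step (c := nat_lit 8) (allR_step (c := nat_lit 4) (fun _ h => absurd h (Nat.not_lt_zero _)) sz_aU_0 (by decide))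 sz_aU_1 (by decide)) sz_aU_2 (by decide)) sz_aU_3 (by decide)) sz_aU_4 (by decide)) sz_aU_5 (by decide)) sz_aU_6 (by decide)) sz_aU_7 (by decide)) sz_aU_8 (by decide)) sz_aU_9 (by decide)) sz_aU_10 (by decide)) sz_aU_11 (by decide)) sz_aU_12 (by decide)) sz_aU_13 (by decide)) sz_aU_14 (by decide)) sz_aU_15 (by decide))

theorem sz_aC : ∀ j < nat_lit 40, (fun j => force ((szC1.lv a2_24.mul a2_24.one).U j) (allC a2_24.mul (fun x => killed a2_24.mul (eqbQ a2_24.mul Nat.beq a2_24.one suz_zs) a2_24.one (let3 sz_ui sz_z x) sz_r2 || (eqbQ a2_24.mul Nat.beq a2_24.one suz_zs) x sz_aj) szC2_ls)) j = true :=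
  (allR_step (c := nat_lit 40) (allR_step (c := nat_lit 30) (allR_step (c := nat_lit 20) (allR_step (c := nat_lit 10) (fun _ h => absurd h (Nat.not_lt_zero _)) sz_aC_0 (by decide)) sz_aC_1 (by decide)) sz_aC_2 (by decide)) sz_aC_3 (by decide))

end H29
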