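import Cfsg.Agent.H29.Sz4

set_option autoImplicit false
set_option maxRecDepth 100000
set_option linter.style.haveILetI false
set_option linter.unusedVariables false
set_option linter.style.longLine false
set_option linter.unusedTactic false
set_option linter.unreachableTactic false

namespace H29

open Subgroup MulAction

variable {X Y Ω : Type*} [Group X] [Finite X] [Group Y] [MulAction Y Ω] {M : Model X} {ι : X →* Y} {s : Y} {a b c : Ω}

theorem sz_A (F : SzF M) {K : Subgroup X} (hK : 416 * Nat.card K = Nat.card X) :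
    ∃ g, ∀ x, g⁻¹ * x * g ∈ K ↔ x ∈ M.cl szJ1_g := by
  obtain ⟨h1, h2, h3, vv, va, top, card, cJ, nJ, cU, nU, cC, nC, cP, nP, cN, nN, cM, nM, cK, nK, cQ, nQ⟩ := F
  obtain ⟨R, one, mul, eqb, a1, a2, a3⟩ := M
  dsimp only at h1 h2 h3
  subst h1 h2 h3
  set M : Model X := ⟨R, a2_24.one, a2_24.mul, (eqbQ a2_24.mul Nat.beq a2_24.one suz_zs), a1, a2, a3⟩ with hM
  have vb := in_of_slpW (M := M) _ vv sz_buxok
  haveI : Fact (Nat.Prime 5) := ⟨by norm_num⟩
  obtain ⟨g, hg⟩ := exists_conj_le (p := 5) (P := M.cl szP1_g) (K := K) (IsPGroup.of_card (n := 2) nP) (by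
    rw [show K.index = 416 from Nat.eq_of_mul_eq_mul_right Nat.card_pos (K.index_mul_card.trans hK.symm)]; norm_num)
  let L := K.comap (MulAut.conj g⁻¹).toMonoidHom
  have mL : ∀ x, x ∈ L ↔ g⁻¹ * x * g ∈ K := fun x => by simp [L]
  have nL : Nat.card L = Nat.card K := card_conj_of g mL
  obtain ⟨x, hx⟩ := exists_fun_R (valid_sub (l := szD2_x) va (by (try dsimp only [M]); decide +kernel))
  obtain ⟨τ, hτ⟩ := exists_fun_R (valid_sub (l := szD3_x) va (by (try dsimp only [M]); decide +kernel))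
  have h4 : M.cl szJ1_g ≤ L ⊓ M.cl szJ1_g := over_J_of cM hx hτ (valid_sub va (by (try dsimp only [M]); decide +kernel)) (cx := sz_c) (o := 299) (valid_of_mem va (by (try dsimp only [M]); decide +kernel))
    (by norm_num) (cJ.cl_le_of_sift sz_NJ) (dc2_cover cN cN hx (ms := szD2_ms) (by decide) (by dsimp only [M]; exact szD2_0) szD2_dc)
    (dc2_cover Chain.nil cP hτ (ms := szD3_ms) (by decide) (by dsimp only [M]; exact szD3_0) szD3_dc)
    (fun c hc => cN.in_of_sift (valid_sub va (by (try dsimp only [M]); decide +kernel) c hc) (allL_spec sz_tN c hc)) (cjAll_spec cP sz_nP)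
    (cM.cl_le_of_sift sz_PM) sz_ov sz_ov2 (le_inf (fun x hx => (mL x).2 (hg x hx)) (cJ.cl_le_of_sift sz_PJ)) inf_le_right
    (by rw [nN, nM]; exact card_inf_lt (n := 416) (n' := 416) (nL ▸ hK) (by rw [nJ, card]) (by rw [card]; norm_num))
  have h5 := eq_of_le_of_card_ge (h4.trans inf_le_left) (by rw [nL, nJ]; omega)
  exact ⟨g, fun x => by rw [h5, mL]⟩

theorem sz_inf (F : SzF M) (hJ : Sx ι b = M.cl szJ1_g) : ∃ t t', M.R sz_t t ∧ M.R sz_tp t' ∧
    (∀ x, x ∈ Sx ι b ∨ ∃ i < 2, ∃ j ∈ Sx ι b, (j * let3 t t' 1 i)⁻¹ * x ∈ Sx ι b) ∧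
    Sx ι b ⊓ Sx ι (ι t • b) = M.cl szU1_g ∧ Sx ι b ⊓ Sx ι (ι t' • b) = M.cl szC1_g := by
  obtain ⟨h1, h2, h3, vv, va, top, card, cJ, nJ, cU, nU, cC, nC, cP, nP, cN, nN, cM, nM, cK, nK, cQ, nQ⟩ := F
  obtain ⟨R, one, mul, eqb, a1, a2, a3⟩ := M
  dsimp only at h1 h2 h3
  subst h1 h2 h3
  set M : Model X := ⟨R, a2_24.one, a2_24.mul, (eqbQ a2_24.mul Nat.beq a2_24.one suz_zs), a1, a2, a3⟩ with hM
  have vb := in_of_slpW (M := M) _ vv sz_buxok
  obtain ⟨r, hr⟩ := exists_fun_R (valid_sub (l := szD1_x) va (by (try dsimp only [M]); decide +kernel))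
  have cov := cov_conv fun x => dc2_cover cJ cJ hr (ms := szD1_ms) (by decide) (by dsimp only [M]; exact szD1_0) szD1_dc x (top ▸ mem_top x)
  have h4 := inf_eq_of_sum hJ (U := let3 (M.cl szU1_g) (M.cl szC1_g) ⊥) (n := let3 100 315 0) (k := 2) cov
    (fun i hi u hu => by
      interval_cases i
      exacts [⟨(cjIn_spec cJ (hr 0) sz_cU).1 hu, (cjIn_spec cJ (hr 0) sz_cU).2 u hu⟩,
        ⟨(cjIn_spec cJ (hr 1) sz_cC).1 hu, (cjIn_spec cJ (hr 1) sz_cC).2 u hu⟩])
    (fun i hi => by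
      interval_cases i
      exacts [nJ.trans (congrArg (100 * ·) nU).symm, nJ.trans (congrArg (315 * ·) nC).symm])
    (by rw [card, nJ]; rfl)
  refine ⟨r 0, r 1, hr 0, hr 1, fun x => ?_, h4 0 (by norm_num), h4 1 (by norm_num)⟩
  rw [hJ]
  refine (cov x).imp_right fun ⟨i, hi, e⟩ => ⟨i, hi, ?_⟩
  have hi' : i < 2 := hi
  interval_cases i <;> exact e

theorem sz_B (F : SzF M) (h : Rk3 ι a b c 416 1365) (hJ : Sx ι b = M.cl szJ1_g) : ∃ s t, M.R sz_t t ∧ s * s = 1 ∧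
    s * ι t * s = ι t * s * ι t ∧ s • a = b ∧ ∀ c ∈ szJ1_g, ∀ j, M.R c j → ∃ y, Al ι s j y ∧ M.R (alC a2_24.mul sz_s c) y := by
  obtain ⟨t, t', rt, rt', cov, eU, eC⟩ := sz_inf F hJ
  obtain ⟨h1, h2, h3, vv, va, top, card, cJ, nJ, cU, nU, cC, nC, cP, nP, cN, nN, cM, nM, cK, nK, cQ, nQ⟩ := F
  obtain ⟨R, one, mul, eqb, a1, a2, a3⟩ := M
  dsimp only at h1 h2 h3
  subst h1 h2 h3
  set M : Model X := ⟨R, a2_24.one, a2_24.mul, (eqbQ a2_24.mul Nat.beq a2_24.one suz_zs), a1, a2, a3⟩ with hM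
  have vb := in_of_slpW (M := M) _ vv sz_buxok
  haveI : Fact (Nat.Prime 7) := ⟨by norm_num⟩
  obtain ⟨u, ru⟩ := exists_R va (c := sz_u) (by (try dsimp only [M]); decide +kernel)
  obtain ⟨z, rz⟩ := exists_R va (c := sz_z) (by (try dsimp only [M]); decide +kernel)
  obtain ⟨j, rj⟩ := exists_R va (c := sz_j) (by (try dsimp only [M]); decide +kernel)
  obtain ⟨u', ru'⟩ := exists_R vb (c := sz_ui) (by (try dsimp only [M]); decide +kernel)
  obtain ⟨j', rj'⟩ := exists_R vb (c := sz_aj) (by (try dsimp only [M]); decide +kernel)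
  have gU : M.cl szU1_g = closure {u, z} := Model.cl_pair ru rz
  have mu : u ∈ M.cl szU1_g := gU ▸ subset_closure (by simp)
  have mz : z ∈ M.cl szU1_g := gU ▸ subset_closure (by simp)
  have tt : t * t = 1 := M.eq_of (M.R_mul rt rt) M.R_one (by (try dsimp only [M]); decide +kernel)
  have tu : t * u * t⁻¹ = u' := mul_inv_eq_of_eq_mul (M.eq_of (M.R_mul rt ru) (M.R_mul ru' rt) (by (try dsimp only [M]); decide +kernel))
  have tz : t * z * t⁻¹ = z := mul_inv_eq_of_eq_mul (M.eq_of (M.R_mul rt rz) (M.R_mul rz rt) (by (try dsimp only [M]); decide +kernel))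
  have nc : Nat.card (Sx ι c) = 184320 := by have := h.c2; omega
  obtain ⟨s1, sa, sb⟩ := h.swap (by norm_num) (by norm_num)
  obtain ⟨k, hk, e1⟩ := h.img (by norm_num) sa sb (m := let3 6048 1920 0) (i := 0) cov
    (fun i hi => by interval_cases i; exacts [eU ▸ nU, eC ▸ nC]) (by norm_num) (by rw [hJ, nJ]; decide)
    (by rw [nc]; decide) (fun i hi e => by interval_cases i; exacts [rfl, absurd e (by decide)])
  have st : ∀ {s} {w}, s • a = b → s • b = a → w ∈ Sx ι b → (ι w * s) • a = b ∧ (ι w * s) • b = a :=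
    fun p q r => ⟨by rw [mul_smul, p, mem_Sx.1 r], by rw [mul_smul, q, h.fix]⟩
  have sd : ∀ {s} {w}, s • ι t • b = ι t • b → w ∈ M.cl szU1_g → (ι w * s) • ι t • b = ι t • b :=
    fun p r => by rw [mul_smul, p, mem_Sx.1 (eU.ge r).2]
  obtain ⟨a2, b2⟩ := st sa sb (inv_mem hk)
  have d2 : (ι k⁻¹ * s1) • ι t • b = ι t • b := by rw [mul_smul, map_inv, inv_smul_eq_iff]; exact e1
  obtain ⟨y, my, hy⟩ := h.norm a2 b2 d2 eU mu
  have ou : orderOf u = 7 ^ 1 := orderOf_of_ordOK (n := 7) (ps := [7]) ru (by (try dsimp only [M]); decide +kernel) (by norm_num) (by norm_num)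
    (mem_of_primeFactorsList (by norm_num) (by simp [Nat.primeFactorsList_prime (show Nat.Prime 7 by norm_num)]))
  obtain ⟨w, mw, n, hn, e2⟩ := exists_conj_pow (m := 864) mu my ou ((hy.order h.inj).trans ou) nU (by norm_num)
  obtain ⟨a3, b3⟩ := st a2 b2 (eU.ge mw).1
  have d3 := sd d2 mw
  obtain ⟨x, mx, hx⟩ := h.norm a3 b3 d3 eU mz
  have aU := cU.allC_top sz_aU
  obtain ⟨cx, rx, e3⟩ := aU x mx
  obtain ⟨v, mv, e4⟩ := enAt_spec h.inj (U := M.cl szU1_g) (NL := sz_NL)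
    (fun c hc => cU.in_of_sift (valid_sub vb (by (try dsimp only [M]); decide +kernel) c hc) (allL_spec sz_NU c hc)) ru rz rx ru rz ru' rz hn (by norm_num)
    (rels_lt (by decide)) (rels_lt (by decide)) (by (try dsimp only [M]); decide +kernel) (by (try dsimp only [M]); decide +kernel) (M.ne_of rz M.R_one (by (try dsimp only [M]); decide +kernel)) (e2 ▸ hy.adj w) hx (band_iff.1 e3).1
  obtain ⟨a4, b4⟩ := st a3 b3 (eU.ge mv).1
  have d4 := sd d3 mv
  generalize ι v * (ι w * (ι k⁻¹ * s1)) = s at e4 a4 b4 d4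
  rcases e4 with ⟨p, q⟩ | ⟨p, q⟩
  · obtain ⟨w, mw, e⟩ := h.bad a4 b4 d4 tt eU (fun x hx => al_cl (MonoidHom.id X) (by simp [p, q]) x (gU ▸ hx))
      fun x hx => by simpa [inv_eq_of_mul_eq_one_right tt] using (cjIn_spec cU rt sz_tU).2 x hx
    obtain ⟨cw, rw', e5⟩ := aU w mw
    have := (band_iff.1 (band_iff.1 e5).2).2
    rw [hitL_one rw' rz ru rz ru' ((e z mz).trans (by rw [tz])) (tu ▸ e u mu)] at this
    cases this
  obtain ⟨ss, br⟩ := h.good a4 b4 d4 tt eU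
    (fun x hx => al_cl (MulAut.conj t).toMonoidHom (by simp [p, q, tu, tz]) x (gU ▸ hx)) fun w mw e => by
      obtain ⟨cw, rw', e5⟩ := aU w mw
      have := (band_iff.1 (band_iff.1 e5).2).1
      rw [hitL_one rw' rz ru rz ru (e z mz) (e u mu)] at this
      exact M.eq_of rw' M.R_one this
  obtain ⟨y, hy⟩ := exists_al h.rng b4 (hJ.ge (Model.mem_cl (l := szJ1_g) (c := sz_j) (subL_spec (l := [sz_j]) (by (try dsimp only [M]); decide +kernel) _ (by simp)) rj))
  obtain ⟨r, hr⟩ := exists_fun_R (valid_sub (l := szD4_x) va (by (try dsimp only [M]); decide +kernel))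
  have jz : j * z = z * j := (commB_iff rj rz).1 (by (try dsimp only [M]); decide +kernel)
  have my := cent_of_cov (cl_comm (l := szC1_g) rz (by (try dsimp only [M]); decide +kernel)) hr rz (dc2_cover cC cC hr (ms := szD4_ms) (by decide) (by dsimp only [M]; exact szD4_0) szD4_dc) (by (try dsimp only [M]); decide +kernel) y
    (hJ ▸ a4 ▸ hy.fix (h.fix j)) ((hy.mul q).uniq h.inj (jz ▸ q.mul hy))
  obtain ⟨cy, ry, e6⟩ := cC.allC_top sz_aC y my
  rw [Al.not_killed h.inj ru rz rj ru' rz ry p q hy (rels_lt (by decide)) (by (try dsimp only [M]); decide +kernel), Bool.false_or] at e6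
  obtain rfl := M.eq_of ry rj' e6
  refine ⟨s, t, rt, ss, br, a4, fun c hc g rg => ?_⟩
  have hc' : c = sz_u ∨ c = sz_z ∨ c = sz_j := by simpa using (show c ∈ [sz_u, sz_z, sz_j] from hc)
  rcases hc' with rfl | rfl | rfl
  · exact ⟨u', M.unique ru rg ▸ p, (show sz_ui = alC a2_24.mul sz_s sz_u by decide +kernel) ▸ ru'⟩
  · exact ⟨z, M.unique rz rg ▸ q, (show sz_z = alC a2_24.mul sz_s sz_z by decide +kernel) ▸ rz⟩
  · exact ⟨y, M.unique rj rg ▸ hy, (show sz_aj = alC a2_24.mul sz_s sz_j by decide +kernel) ▸ rj'⟩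

theorem sz_C1 (F : SzF M) (C : ImC M ι s (M.cl szJ1_g) (alC a2_24.mul sz_s) sz_t) (ha : ∀ x, ι x • a = a) {t' : X}
    (rt : M.R sz_tp t') : M.cl szK1_g ≤ Sx ι (s • ι t' • s • a) := by
  obtain ⟨h1, h2, h3, vv, va, top, card, cJ, nJ, cU, nU, cC, nC, cP, nP, cN, nN, cM, nM, cK, nK, cQ, nQ⟩ := F
  obtain ⟨R, one, mul, eqb, a1, a2, a3⟩ := M
  dsimp only at h1 h2 h3
  subst h1 h2 h3
  set M : Model X := ⟨R, a2_24.one, a2_24.mul, (eqbQ a2_24.mul Nat.beq a2_24.one suz_zs), a1, a2, a3⟩ with hM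
  have vb := in_of_slpW (M := M) _ vv sz_buxok
  have hJ := C.fixb cJ ha
  have f3 : Im M ι s sz_tp (s • a) M.one _ := Im.dfn rt
  have f2 := Im.t C ha
  have d0 := f3.mv C (cJ.in_elt 223297) ((cJ.in_elt 139065).mono hJ) (nat_lit 0xc92424a96000eeabe626bb96c86357c465f1034fb2e86b56835eb3f4ac31b74fd00132f2ccef264cba2ebb132be9e3c3031327283c95973dac68ab1fa0af6fe8a4b1d54e3c2052e8) (nat_lit 0x3ec71477d19bde8a6d67a3a3d3b29399f5c3cac7cca65b9690c48195efb4e7330378effec35e77cf46dfa93a7a3fe9a5207f4ac42dbab9eea8e859ea57def2be61ad2233f85bd969) (by (try dsimp only [M]); decide +kernel)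
  have d1 := f3.mv C (cJ.in_elt 144355) ((cJ.in_elt 458657).mono hJ) (nat_lit 0xc92424a96000eeabe626bb96c86357c465f1034fb2e86b56835eb3f4ac31b74fd00132f2ccef264cba2ebb132be9e3c3031327283c95973dac68ab1fa0af6fe8a4b1d54e3c2052e8) (nat_lit 0xecbed5931a5f54112aa4b931f01fd050ad966359f4789ef03c21212f89313cc46124a527c33de1b5a3df3fe9a4db323d886a60502d9384aa205d6d6114d6a04b0670b04424c1d37c) (by (try dsimp only [M]); decide +kernel)
  have g1 := f3.mv C (cJ.in_elt 69113) ((cJ.in_elt 0).mono hJ) (nat_lit 0xf3cb6310cf9de94cbd14548591afbea00110c3419fcd64972d7bfeeaf2ad8bd6919c87fece6069eb26a7d7f419129145054cdd77ea20365d4bce284a5cf44d91e608ee9a5d014cd4) (nat_lit 0xd126b8dff60d1fe60f12e8a8f822385bd8334fd649700e472314482526a07305f5902020a23eb6ffe41f0916d64e2f696838b0c5e69dffc920a1e528f0ad80061f63f5489fe11390) (by (try dsimp only [M]); decide +kernel)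
  have g2 := f2.mv C (cJ.in_elt 260556) ((cJ.in_elt 330499).mono hJ) (nat_lit 0x819a9dab71fdbf27318e2471f81c8f77bbae5a0b603bbfef37b141bdb1519fa9733e2571d98199890cac19c28be1c2433e346e64735f76f40c4c1bf2c62beb7376483b454bb4303a) (nat_lit 0x3bed653de7a5589756601e2531e5e508d33ac4e6690e0889335f1a08ff570ff61d7a565cbbdc522da09f6a906d9b207b40502b5adfd36898234e592058d4df4878274c446dc0d4d) (by (try dsimp only [M]); decide +kernel)
  have g3 := (g1.braid C g2 (nat_lit 0x71e19fb5a7b647dfce4ede35418e234095ae2bea2edadc33ea8c053521cd333c71089a2e6f4eb7b3a97702cce5fff389ee4c166257e4100eb7ce0837508db74e15158f8e8aeb3219) (nat_lit 0xe3d0b6aaacf57fa908a49b1db0daf620ceb6b6f30afe25e7911350ca960cd8342524f663a75e0bc7acd4c1ae12069419cfd4f6a8111c8cc713f2333861b12a9d4360ad132477f749) (by (try dsimp only [M]); decide +kernel)).sym C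
  have g5 := f3.mv C (cJ.in_elt 69113) ((cJ.in_elt 422574).mono hJ) (nat_lit 0xe3d0b6aaacf57fa908a49b1db0daf620ceb6b6f30afe25e7911350ca960cd8342524f663a75e0bc7acd4c1ae12069419cfd4f6a8111c8cc713f2333861b12a9d4360ad132477f749) (nat_lit 0xd126b8dff60d1fe60f12e8a8f822385bd8334fd649700e472314482526a07305f5902020a23eb6ffe41f0916d64e2f696838b0c5e69dffc920a1e528f0ad80061f63f5489fe11390) (by (try dsimp only [M]); decide +kernel)
  refine Model.cl_le fun c hc => ?_
  have hv := valid_sub (l := szK1_g) va (by (try dsimp only [M]); decide +kernel) c hc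
  simp only [szK1_g, List.mem_cons, List.not_mem_nil, or_false] at hc
  rcases hc with rfl | rfl | rfl
  exacts [f3.fix d0 hv (by (try dsimp only [M]); decide +kernel), f3.fix d1 hv (by (try dsimp only [M]); decide +kernel), g5.fix g3 hv (by (try dsimp only [M]); decide +kernel)]

theorem sz_C2 (F : SzF M) (C : ImC M ι s (M.cl szJ1_g) (alC a2_24.mul sz_s) sz_t) (ha : ∀ x, ι x • a = a) {t' : X}
    (rt : M.R sz_tp t') (hQ : M.cl szQ1_g ≤ Sx ι (s • ι t' • s • a)) :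
    ∀ d ∈ closure (Set.range ι ∪ {s}), R3T ι a (s • a) (s • ι t' • s • a) (d • a) := by
  obtain ⟨h1, h2, h3, vv, va, top, card, cJ, nJ, cU, nU, cC, nC, cP, nP, cN, nN, cM, nM, cK, nK, cQ, nQ⟩ := F
  obtain ⟨R, one, mul, eqb, a1, a2, a3⟩ := M
  dsimp only at h1 h2 h3
  subst h1 h2 h3
  set M : Model X := ⟨R, a2_24.one, a2_24.mul, (eqbQ a2_24.mul Nat.beq a2_24.one suz_zs), a1, a2, a3⟩ with hM
  have vb := in_of_slpW (M := M) _ vv sz_buxok
  have hJ := C.fixb cJ ha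
  have f3 : Im M ι s sz_tp (s • a) M.one _ := Im.dfn rt
  have f2 := Im.t C ha
  have g1 := f3.mv C (cJ.in_elt 336931) ((cJ.in_elt 0).mono hJ) (nat_lit 0xea0f68fe453714a3203a0f68837470910acf0ddd80f20b18853acba5e521ee260c5089649db350552fcf265eeebef29fbe78c79120b0438704595d140b101cd11acfc5809466f4a5) (nat_lit 0x1c085d41b15bc0d024e3902e439af92e607ddac96916af9a4194247897204119f932bcaccf10ebd1a4340d13efcd3369955418659c203ae1a9af1be1f38af62e352c0d17efb3739f) (by (try dsimp only [M]); decide +kernel)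
  have g2 := f3.mv C (cJ.in_elt 354311) ((cJ.in_elt 511400).mono hJ) (nat_lit 0xf7f080040db32bdf842b6837442eb3df55dc70c9d2f9adb3451656440c63585433a5cc0ec40db38d401e49b3f1d8040265c1464e4eec28b68d14380ca89ae339ab061c2025c485e0) (nat_lit 0xbb9c525a60497ac0e0a5795d3c4870d511d5e2f0f5d3e131c1b2d1859c2095bb9eba0e059338a3db69e16e6daca64da7bc7d7ecb74c38799e7ae834007e2d0e519c9b270545dbdd3) (by (try dsimp only [M]); decide +kernel)
  have g3 := g1.braid C g2 (nat_lit 0xd4cfb37b7a1017fa599bd48300adacab2ed0d335fb2e35a3e9b8704ab718810af54806217ef8d16d2448ea7c0258e1211c2d50088454fe66716afc0b51b3f1fcebb71d58c02ae1e1) (nat_lit 0x246f9360308af4f0674434062ce04f01d92219d3082677917200d2c051428cef33e4f2629f4c4f9b18270167a3ccf047eefebe68fe3c5ee1d72a4acf01bcfe6cf042d38c0fff5c55) (by (try dsimp only [M]); decide +kernel)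
  obtain ⟨r, hr⟩ := exists_fun_R (valid_sub (l := szD1_x) va (by (try dsimp only [M]); decide +kernel))
  obtain ⟨q, hq⟩ := exists_fun_R (valid_sub (l := szD6_x) va (by (try dsimp only [M]); decide +kernel))
  refine r3_closed ha C.ss rfl (r3_step2 ha (C.al' cJ) hJ (k := 2)
    (fun x => dc2_cover cJ cJ hr (ms := szD1_ms) (by decide) (by dsimp only [M]; exact szD1_0) szD1_dc x (top ▸ mem_top x))
    (Or.inl (by rw [← mul_smul, C.ss, one_smul])) fun i hi => ?_) (r3_step2 ha (C.al' cJ) hQ (k := 1)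
    (fun x => dc2_cover cJ cQ hq (ms := szD6_ms) (by decide) (by dsimp only [M]; exact szD6_0) szD6_dc x (top ▸ mem_top x))
    (Or.inr (Or.inl ⟨t', by rw [← mul_smul, C.ss, one_smul]⟩)) fun i hi => ?_)
  · interval_cases i
    exacts [f2.rb (hr 0) (by (try dsimp only [M]); decide +kernel), f3.rc (hr 1) (by (try dsimp only [M]); decide +kernel)]
  · interval_cases i
    exact g3.rc (hq 0) (by (try dsimp only [M]); decide +kernel)

theorem sz_D (F : SzF M) (h : Rk3 ι a (s • a) c 416 1365) (hJ : Sx ι (s • a) = M.cl szJ1_g)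
    (C : ImC M ι s (M.cl szJ1_g) (alC a2_24.mul sz_s) sz_t) {t' : X} (rt : M.R sz_tp t') :
    M.cl szQ1_g ≤ Sx ι (s • ι t' • s • a) ∧ ∀ x, ι x • s • ι t' • s • a ≠ a := by
  obtain ⟨t, t'', -, rt', -, -, eC⟩ := sz_inf F hJ
  obtain rfl := M.unique rt rt'
  have hK := sz_C1 F C h.fix rt
  obtain ⟨h1, h2, h3, vv, va, top, card, cJ, nJ, cU, nU, cC, nC, cP, nP, cN, nN, cM, nM, cK, nK, cQ, nQ⟩ := F
  obtain ⟨R, one, mul, eqb, a1, a2, a3⟩ := M
  dsimp only at h1 h2 h3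
  subst h1 h2 h3
  set M : Model X := ⟨R, a2_24.one, a2_24.mul, (eqbQ a2_24.mul Nat.beq a2_24.one suz_zs), a1, a2, a3⟩ with hM
  have vb := in_of_slpW (M := M) _ vv sz_buxok
  have h4 : s • ι t' • s • a ≠ a := fun e => by
    have e2 : ι t' • s • a = s • a := by simpa [← mul_smul, ← mul_assoc, C.ss] using congrArg (s • ·) e
    rw [e2, inf_idem, hJ] at eC
    rw [eC, nC] at nJ
    cases nJ
  refine ⟨?_, fun x e => h4 (smul_left_cancel (ι x) (e.trans (h.fix x).symm))⟩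
  rcases h.cov (s • ι t' • s • a) with e | ⟨x, e⟩ | ⟨x, e⟩
  · exact absurd e h4
  · have := card_dvd_of_le hK
    rw [e, card_Sx_smul, hJ, nJ, nK] at this
    norm_num at this
  have nc : Nat.card (Sx ι (s • ι t' • s • a)) = 184320 := by rw [e, card_Sx_smul]; have := h.c2; omega
  obtain ⟨r, hr⟩ := exists_fun_R (valid_sub (l := szD5_x) va (by (try dsimp only [M]); decide +kernel))
  exact (eq_of_le_of_card_ge (le_of_small cK cQ hK (cQ.cl_le_of_sift sz_KQ) (m := 4) (by rw [nc, nK]; norm_num) nQ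
    (by norm_num) (by norm_num) hr (valid_sub va (by (try dsimp only [M]); decide +kernel))
    (fun x => dc2_cover cK cQ hr (ms := szD5_ms) (by decide) (by dsimp only [M]; exact szD5_0) szD5_dc x (top ▸ mem_top x)) szD5_mv) (by rw [nc, nQ])).ge

end H29
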