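import Cfsg.Agent.H29.Sz5

set_option autoImplicit false
set_option maxRecDepth 100000
set_option linter.style.haveILetI false
set_option linter.unusedVariables false
set_option linter.style.longLine false
set_option linter.unusedTactic false
set_option linter.unreachableTactic false

namespace H29

open Subgroup MulAction

theorem sz_fin {S Y Ω : Type*} [Group S] [Finite S] [IsSimpleGroup S] [Group Y] [Finite Y] [MulAction Y Ω] (M : Model S)
    (h1 : M.mul = a2_24.mul) (h2 : M.eqb = eqbQ a2_24.mul Nat.beq a2_24.one suz_zs) (h3 : M.one = a2_24.one)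
    (top : M.cl suz_g = ⊤) {g7 : S} (r7 : M.R (lgetD a2_24.one suz_g 6) g7) {H : Subgroup S} (hH : H ≠ ⊤)
    (F : SzF (M.sub H)) {ι : H →* Y} {a b c : Ω} (h : Rk3 ι a b c 416 1365) (hG : Nat.card Y ≤ Nat.card S) :
    Nonempty (Y ≃* S) := by
  obtain ⟨R, one, mul, eqb, a1, a2, a3⟩ := M
  dsimp only at h1 h2 h3
  subst h1 h2 h3
  set M : Model S := ⟨R, a2_24.one, a2_24.mul, (eqbQ a2_24.mul Nat.beq a2_24.one suz_zs), a1, a2, a3⟩ with hM
  obtain ⟨g, hg⟩ := sz_A F h.c1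
  have h' := h.move g
  have hJ : Sx ι (ι g • b) = _ := Subgroup.ext fun x => mem_Sx_smul.trans (hg x)
  obtain ⟨s, t, rt, ss, br, sa, hal⟩ := sz_B F h' hJ
  rw [← sa] at h' hJ
  have vb : ∀ c ∈ sz_bux, M.In H c := fun c hc =>
    let ⟨x, _, r⟩ := in_of_slpW (M := M.sub H) _ F.vv sz_buxok c hc; ⟨x, x.2, r⟩
  have vx : ∀ c ∈ sz_x, M.In H c := fun c hc => vb c (subL_spec (by decide +kernel) c hc)
  obtain ⟨s0, -, rs⟩ := le_of_wds (M := M) (K := ⊤) (t := [sz_s]) (ws := [0x1004000005000003])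
    (l := lgetD a2_24.one suz_g 6 :: sz_x) (List.forall_mem_cons.2 ⟨⟨_, trivial, r7⟩, fun c hc => (vx c hc).mono le_top⟩)
    (show wdsOK a2_24.mul a2_24.one _ _ _ = true by decide +kernel) sz_s (by simp)
  have ss0 : s0 * s0 = 1 := M.eq_of (M.R_mul rs rs) M.R_one (by dsimp only [M]; decide +kernel)
  have C := imC_prod' (M := M) (ι := ι) (l := szJ1_g) rs ss ss0 rt br
    (M.eq_of (M.R_mul (M.R_mul rs rt) rs) (M.R_mul (M.R_mul rt rs) rt) (by dsimp only [M]; decide +kernel)) hal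
  obtain ⟨t', rt'⟩ := exists_R F.va (c := sz_tp) (by decide +kernel)
  obtain ⟨hQ, hne⟩ := sz_D F h' hJ C.fst rt'
  have rw2 := M.R_mul rs (M.R_mul rt' rs)
  have := sz_C2 F C (pp_fix h.fix) rt' (Model.cl_le' fun c hc x rx => by
    rw [← mul_smul, ← mul_smul, mul_assoc, mem_Sx_pp]
    refine ⟨by simpa [mul_smul] using hQ (Model.mem_cl hc rx), ?_⟩
    obtain ⟨i, hi, rfl⟩ := exists_lgetD a2_24.one hc
    obtain ⟨d, hd, rd⟩ := Model.in_lgetD (l := sz_d) (fun c hc => vb c (subL_spec (by decide +kernel) c hc)) i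
    have hi' : i < 2 := hi
    have e : (x : S) * (s0 * (t' * s0)) = s0 * (t' * s0) * d :=
      M.eq_of (M.R_mul rx rw2) (M.R_mul rw2 rd) (by interval_cases i <;> exact (by dsimp only [M]; decide +kernel))
    show ((x : S) * (s0 * (t' * s0)))⁻¹ * (s0 * (t' * s0)) ∈ H
    simpa [e, mul_assoc] using hd)
  refine r3_final (u := (s, s0)) (v := (s, s0) * (ι.prod H.subtype t' * (s, s0))) (fun e => ?_)
    hG (fun T h1 h2 => ?_) (h'.ne (by norm_num)) (fun x => by simpa [mul_smul] using hne x)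
    (by simpa only [mul_smul] using this)
  · exact hH e
  refine top_le_iff.1 (top.ge.trans (Model.cl_le fun c hc => ?_))
  obtain ⟨x, hx, rx⟩ := Model.in_lgetD vx 0
  obtain ⟨y, hy, ry⟩ := Model.in_lgetD vx 1
  rcases (show c ∈ szX ++ [lgetD a2_24.one suz_g 6] from hc) |> List.mem_append.1 with hc | hc
  · obtain ⟨w, -, r⟩ := F.vv c hc
    exact ⟨w, h1 w.2, r⟩
  · rw [List.mem_singleton.1 hc]
    exact ⟨_, M.eq_of (M.R_mul rx (M.R_mul rw2 ry)) r7 (by dsimp only [M]; decide +kernel) ▸ mul_mem (h1 hx)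
      (mul_mem (mul_mem h2 (mul_mem (h1 t'.2) h2)) (h1 hy)), r7⟩

end H29
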