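import Cfsg.Agent.H29.U2a

/-! The action of `t` on `2^11 : M24`. -/

set_option autoImplicit false
set_option maxRecDepth 100000
set_option maxHeartbeats 400000
set_option linter.style.longLine false

namespace H29.U
open Cfsg H7.J4 H29.J4m Subgroup

variable {G : Type*} [Group G] {M : Model G} {x y e t : G}

theorem allE2 {z : G} {R : Subgroup G} {cz : ℕ} (hz : M.R cz z) (z2 : z * z = 1) (zR : z ∈ R)
    (cm : ∀ a ∈ R, ∀ b ∈ R, a * b * a⁻¹ * b⁻¹ ∈ zpowers z) (sq : ∀ a ∈ R, a * a ∈ zpowers z)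
    {f : ℕ → Bool} (P : List ℕ) (hP : ∀ c ∈ P, M.In R c) {c : ℕ} {g : G} (hg : M.R c g)
    (hn : allE M.mul f (P ++ [cz]) c = true) : ∀ v ∈ M.cl (P ++ [cz]), ∃ c', M.R c' (v * g) ∧ f c' = true := by
  induction P generalizing c g with
  | nil =>
    exact EA.allE' (L := [cz]) (fun d hd => by
      rw [List.mem_singleton.1 hd]
      exact ⟨z, hz, z2, fun d' hd' β hβ => by rw [List.mem_singleton.1 hd'] at hβ; rw [M.unique hβ hz]⟩) hg hn
  | cons a P ih =>
    obtain ⟨α, aR, ha⟩ := hP a List.mem_cons_self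
    have hP' := fun c hc => hP c (List.mem_cons_of_mem _ hc)
    obtain ⟨n1, n2⟩ := band_iff.1 hn
    set H := M.cl (P ++ [cz])
    have zH : zpowers z ≤ H := zpowers_le.2 (Model.mem_cl (by simp) hz)
    have HR : H ≤ R := Model.cl_le fun c hc => (List.mem_append.1 hc).elim (hP' c) fun k =>
      ⟨z, zR, List.mem_singleton.1 k ▸ hz⟩
    have nm : ∀ h ∈ H, α * h * α⁻¹ ∈ H := fun h hh => by
      simpa using mul_mem (zH (cm α aR h (HR hh))) hh
    have a2 : α * α ∈ H := zH (sq α aR)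
    let E : Subgroup G :=
      { carrier := {g | g ∈ H ∨ g * α⁻¹ ∈ H}
        one_mem' := Or.inl (one_mem _)
        mul_mem' := by
          rintro u v (hu | hu) (hv | hv)
          · exact Or.inl (mul_mem hu hv)
          · exact Or.inr (by simpa [mul_assoc] using mul_mem hu hv)
          · exact Or.inr (by simpa [mul_assoc] using mul_mem hu (nm _ hv))
          · exact Or.inl (by simpa [mul_assoc] using mul_mem (mul_mem hu (nm _ hv)) a2)
        inv_mem' := by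
          rintro u (hu | hu)
          · exact Or.inl (inv_mem hu)
          · exact Or.inr (by simpa [mul_assoc] using mul_mem (inv_mem a2) (nm _ (mul_mem (inv_mem hu) a2)) |> fun k => mul_mem k (inv_mem a2)) }
    intro v hv
    have : v ∈ E := Model.cl_le' (K := E) (fun d hd β hβ => (List.mem_cons.1 hd).elim
      (fun k => Or.inr (by rw [M.unique hβ (k ▸ ha), mul_inv_cancel]; exact one_mem _)) fun k => Or.inl (Model.mem_cl k hβ)) hv
    rcases this with k | k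
    · exact ih hP' hg n1 _ k
    · obtain ⟨c', k1, k2⟩ := ih hP' (M.R_mul ha hg) n2 _ k
      exact ⟨c', M.R_congr k1 (by group), k2⟩

theorem Tt.cm (ht : Tt x y e t) {g : G} (h : g * wr.g [x, y, y⁻¹, e] = wr.g [x, y, y⁻¹, e] * g ∨
    g * wr.g [x, y, y⁻¹, e] = wr.g [x, y, y⁻¹, e] ^ 2 * g) [Finite G] : g * t = t * g := by
  obtain ⟨R, N, -, -, h3⟩ := ht
  refine mem_centralizer_singleton_iff.1 (h3 (mem_normalizer_fintype ?_))
  rintro _ ⟨n, rfl⟩
  rw [← conj_zpow]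
  rcases h with h | h <;> rw [h, mul_inv_cancel_right]
  exacts [zpow_mem (mem_zpowers _) n, zpow_mem (pow_mem (mem_zpowers _) 2) n]

theorem Tt.t2 (ht : Tt x y e t) : t * t = 1 := by
  obtain ⟨R, N, h, -⟩ := ht
  rw [← sq, ← h.o, pow_orderOf_eq_one]

theorem Tt.ex [Finite G] (f : Md M x y e) (ht : Tt x y e t) (w : Ex)
    (h : (Nat.beq ((Ex.m w wr).c kmul kone L4) ((Ex.m wr w).c kmul kone L4) ||
      Nat.beq ((Ex.m w wr).c kmul kone L4) ((Ex.m (.p wr 2) w).c kmul kone L4)) = true) :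
    w.g [x, y, y⁻¹, e] * t = t * w.g [x, y, y⁻¹, e] :=
  ht.cm ((Bool.or_eq_true _ _ ▸ h).imp (f.s.eq f.h (.m w wr) (.m wr w)) (f.s.eq f.h (.m w wr) (.m (.p wr 2) w)))

theorem cmL2' (m : ℕ → ℕ → ℕ) (a b c : ℕ) (h1 : Nat.beq (m a c) (m c a) = true) (h2 : Nat.beq (m b c) (m c b) = true) :
    allL (fun s => force (m s c) fun u => force (m c s) fun v => Nat.beq u v) [a, b] = true := by
  simp only [allL, force_eq, h1, h2]
theorem cmL2 (a b c : ℕ) (h1 : Nat.beq (kmul a c) (kmul c a) = true) (h2 : Nat.beq (kmul b c) (kmul c b) = true) :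
    cmL [a, b] c = true := cmL2' kmul a b c h1 h2
theorem fa1' (m : ℕ → ℕ → ℕ) (B : Bool) (o r R a b d c : ℕ) (h : (force (m c c) fun s => Bool.rec (motive := fun _ => Bool) true
    (Bool.rec (motive := fun _ => Bool) true
      (force (m c r) fun u => force (m u u) fun v => force (m v u) fun w =>
        Bool.rec (motive := fun _ => Bool) true (Nat.beq c o || Nat.beq c a || Nat.beq c b || Nat.beq c d) (Nat.beq w R))
      B) (Nat.beq s o)) = true) (e1 : Nat.beq (m c c) o = true) (e2 : B = true)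
    (e3 : Nat.beq (m (m (m c r) (m c r)) (m c r)) R = true) : ((c = o ∨ c = a) ∨ c = b) ∨ c = d := by
  simp only [force_eq, e1, e2, e3, Bool.or_eq_true, Nat.beq_eq] at h
  exact h
theorem fa1_spec {S : List ℕ} {r R a b d c : ℕ} (h : fa1 S r R a b d c = true) (e1 : Nat.beq (kmul c c) kone = true)
    (e2 : cmL S c = true) (e3 : Nat.beq (kmul (kmul (kmul c r) (kmul c r)) (kmul c r)) R = true) :
    ((c = kone ∨ c = a) ∨ c = b) ∨ c = d := fa1' kmul _ kone r R a b d c h e1 e2 e3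

theorem al [Finite G] (f : Fr M x y e) (q : Qs M e) (ht : Tt x y e t) :
    Ac M t cg cg ∨ Ac M t cg cA ∨ Ac M t cg cB := by
  obtain ⟨qv, N, X⟩ := q
  have t2 := ht.t2
  have R0 : ∀ w : Ex, M.R (w.c kmul kone L4) (w.g [x, y, y⁻¹, e]) := fun w => f.s.lit f.h w (Nat.beq_refl _)
  set k := wk.g [x, y, y⁻¹, e] with hk
  have kK : wK.g [x, y, y⁻¹, e] = k⁻¹ := eq_inv_of_mul_eq_one_right (f.s.eq f.h (.m wk wK) (.v 9) (by decide +kernel))
  have Rk : ∀ {c g}, M.R c g → M.R (kc c) (k⁻¹ * g * k) := fun h => by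
    have := M.R_mul (M.R_mul (R0 wK) h) (R0 wk)
    rw [f.s.1, kK] at this; exact this
  have zt := ht.ex f.toMd (.m (.m wk (.v 3)) wK) (by decide +kernel)
  change k * e * wK.g _ * t = t * (k * e * wK.g _) at zt
  rw [kK] at zt
  have nt : k⁻¹ * t * k ∈ normalizer (M.cl qL : Set G) := X.nR (mem_centralizer_singleton_iff.2 (by
    calc k⁻¹ * t * k * e = k⁻¹ * (t * (k * e * k⁻¹)) * k := by group
      _ = _ := by rw [← zt]; group))
  obtain ⟨g, -, rg⟩ : M.In (M.cl eL) cg := (em_in f.toMd mg).of_beq (by decide +kernel)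
  have gQ : k⁻¹ * g * k ∈ M.cl qL := (f.s.slp (fun c hc => (qv c hc).cl hc) [wg] (c := kc cg) (by decide +kernel)).mem (Rk rg)
  have hQ := (mem_normalizer_iff.1 nt _).1 gQ
  have ti : t⁻¹ = t := inv_eq_of_mul_eq_one_right t2
  rw [show k⁻¹ * t * k * (k⁻¹ * g * k) * (k⁻¹ * t * k)⁻¹ = k⁻¹ * (t * g * t⁻¹) * k by group, ti] at hQ
  have A := alA
  rw [← f.s.1, ← f.s.2.1] at A
  obtain ⟨c, rc, fc⟩ := allE2 (R_getD f.h 3) (f.s.eq f.h (.m (.v 3) (.v 3)) (.v 9) (by decide +kernel)) X.zR X.cm X.sq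
    (qL.take 12) (fun c hc => (qv c (List.mem_of_mem_take hc)).cl (List.mem_of_mem_take hc)) M.R_one A _ hQ
  rw [mul_one] at rc
  have h5 : List.Forall₂ M.R (L4 ++ [cg]) [x, y, y⁻¹, e, g] := List.rel_append f.h (.cons rg .nil)
  have g2 : g * g = 1 := f.s.eq h5 (.m (.v 4) (.v 4)) (.v 9) (by decide +kernel)
  have g1 : g ≠ 1 := f.s.ne h5 (.v 4) (.v 9) (by decide +kernel)
  have E0 : ∀ w : Ex, (∀ l : List G, w.g (l ++ [g]) = w.g l) → w.g [x, y, y⁻¹, e, g] = w.g [x, y, y⁻¹, e] := fun w h => h [x, y, y⁻¹, e]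
  have rt := ht.ex f.toMd wr (by decide +kernel)
  have g3 : (g * wr.g [x, y, y⁻¹, e]) ^ 3 = 1 := M.eq_of (R_pl (M.R_mul rg (R0 wr)) 3) M.R_one
    (by rw [f.s.1, f.s.2.1, f.s.2.2]; decide +kernel)
  have e1 := (M.eqb_iff (M.R_mul rc rc) M.R_one).2 (by
    rw [show k⁻¹ * (t * g * t) * k * (k⁻¹ * (t * g * t) * k) = k⁻¹ * (t * g * (t * t) * g * t) * k by group, t2, mul_one,
      mul_assoc t g, g2, mul_one, t2]; group)
  have ru := M.R_mul rc (Rk (R0 wr))
  have e3 := (M.eqb_iff (M.R_mul (M.R_mul ru ru) ru) M.R_one).2 (by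
    generalize wr.g [x, y, y⁻¹, e] = r at *
    have : k⁻¹ * (t * g * t) * k * (k⁻¹ * r * k) = (k⁻¹ * t) * (g * r) * (k⁻¹ * t)⁻¹ := by
      rw [mul_inv_rev, ti, inv_inv]
      calc _ = k⁻¹ * (t * g * (t * r)) * k := by group
        _ = _ := by rw [← rt]; group
    rw [← pow_three', this, conj_pow, g3]; group)
  have D2 : ∀ i, i < 2 → Nat.beq (kmul ((wS.getD i (.v 9)).c kmul kone L4) cg) (kmul cg ((wS.getD i (.v 9)).c kmul kone L4)) = true := by
    decide +kernel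
  have cS : ∀ i, i < 2 → Nat.beq (kmul (sI i) c) (kmul c (sI i)) = true := fun i hi => by
    have s1 := ht.ex f.toMd (wS.getD i (.v 9)) (by revert i; decide +kernel)
    have s2 := M.eq_of (M.R_mul (R0 (wS.getD i (.v 9))) rg) (M.R_mul rg (R0 (wS.getD i (.v 9))))
      (by rw [f.s.1, f.s.2.2]; exact D2 i hi)
    have := (M.eqb_iff (M.R_mul (Rk (R0 (wS.getD i (.v 9)))) rc) (M.R_mul rc (Rk (R0 (wS.getD i (.v 9)))))).2 (by
      generalize (wS.getD i (.v 9)).g [x, y, y⁻¹, e] = s at *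
      calc _ = k⁻¹ * (s * t * g * t) * k := by group
        _ = k⁻¹ * (t * g * (s * t)) * k := by rw [show s * t * g = t * g * s by rw [s1, mul_assoc, s2, mul_assoc]]; group
        _ = _ := by rw [s1]; group)
    rwa [f.s.1, f.s.2.2] at this
  have e2 : cmL [sI 0, sI 1] c = true := cmL2 _ _ _ (cS 0 (by norm_num)) (cS 1 (by norm_num))
  rw [f.s.1, f.s.2.1, f.s.2.2] at e1 e3
  rw [f.s.1, f.s.2.1] at fc
  replace fc := fa1_spec fc e1 e2 e3
  have bk : ∀ {d}, M.In ⊤ d → c = kc d → Ac M t cg d := fun ⟨u, _, hu⟩ h => ⟨g, rg, by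
    have := M.unique rc (h ▸ Rk hu)
    rw [mul_left_cancel (mul_right_cancel this)]; exact hu⟩
  have v4 : ∀ c ∈ L4, M.In ⊤ c := fun c hc => by
    obtain ⟨i, -, rfl⟩ := exists_lgetD M.one hc
    exact ⟨_, trivial, R_getD f.h i⟩
  have iq : ∀ d, (∃ w : Ex, Nat.beq d (kmul (kmul (wk.c kmul kone L4) (w.c kmul kone qL)) (wK.c kmul kone L4)) = true) → M.In ⊤ d :=
    fun d ⟨w, h⟩ => by
      have := ((wk.In v4).mul (w.In qv)).mul (wK.In v4)
      rw [f.s.1, f.s.2.1] at this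
      exact this.of_beq h
  rcases fc with ((h | h) | h) | h
  · have := M.unique rc (h ▸ f.s.2.1 ▸ M.R_one)
    exact absurd (by
      have k1 : t * g * t = 1 := by
        calc _ = k * (k⁻¹ * (t * g * t) * k) * k⁻¹ := by group
          _ = 1 := by rw [this]; group
      calc g = t * (t * g * t) * t := by rw [← mul_assoc, ← mul_assoc, t2, one_mul, mul_assoc, t2, mul_one]
        _ = 1 := by rw [k1, mul_one, t2]) g1
  · exact Or.inl (bk ⟨g, trivial, rg⟩ h)
  · exact Or.inr (Or.inl (bk (iq _ ⟨wqA, by decide +kernel⟩) h))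
  · exact Or.inr (Or.inr (bk (iq _ ⟨wqB, by decide +kernel⟩) h))

end H29.U
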