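import Cfsg.Agent.H29.U1

/-! The action of `t` on `2^11 : M24`. -/

set_option autoImplicit false
set_option maxRecDepth 100000
set_option maxHeartbeats 400000
set_option linter.style.longLine false

namespace H29.U
open Cfsg H7.J4 H29.J4m Subgroup

def wS : List Ex := [.m (.m (.m (.m (.m (.m (.m (.v 1) (.m (.v 0) (.v 1))) (.m (.v 0) (.m (.v 2) (.v 0)))) (.m (.m (.v 2) (.m (.v 0) (.v 1))) (.m (.m (.v 0) (.v 1)) (.m (.v 0) (.v 1))))) (.m (.m (.m (.v 0) (.m (.v 1) (.v 0))) (.m (.m (.v 1) (.v 0)) (.m (.v 2) (.v 0)))) (.m (.m (.v 2) (.m (.v 0) (.v 1))) (.m (.m (.v 0) (.v 1)) (.m (.v 0) (.v 1)))))) (.m (.m (.m (.m (.v 1) (.m (.v 0) (.v 1))) (.m (.v 0) (.m (.v 2) (.v 0)))) (.m (.m (.v 2) (.m (.v 0) (.v 1))) (.m (.m (.v 0) (.v 1)) (.m (.v 0) (.v 1))))) (.m (.m (.m (.v 0) (.m (.v 1) (.v 0))) (.m (.m (.v 1) (.v 0)) (.m (.v 2) (.v 0)))) (.m (.m (.v 2) (.m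 (.v 0) (.v 1))) (.m (.m (.v 0) (.v 1)) (.m (.v 0) (.v 1))))))) (.m (.m (.m (.m (.m (.v 1) (.m (.v 0) (.v 1))) (.m (.v 0) (.m (.v 2) (.v 0)))) (.m (.m (.v 2) (.m (.v 0) (.v 1))) (.m (.m (.v 0) (.v 1)) (.m (.v 0) (.v 1))))) (.m (.m (.m (.v 0) (.m (.v 1) (.v 0))) (.m (.m (.v 1) (.v 0)) (.m (.v 2) (.v 0)))) (.m (.m (.v 2) (.m (.v 0) (.v 1))) (.m (.m (.v 0) (.v 1)) (.m (.v 0) (.v 1)))))) (.m (.m (.m (.m (.v 0) (.m (.v 1) (.v 0))) (.m (.m (.v 1) (.v 0)) (.m (.v 2) (.v 0)))) (.m (.m (.v 2) (.m (.v 0) (.v 1))) (.m (.m (.v 0) (.v 1)) (.m (.v 0) (.v 1))))) (.m (.m (.m (.v 1) (.m (.v 0) (.v 1))) (.m (.m (.v 0) (.v 2)) (.m (.v 0) (.v 2)))) (.m (.m (.v 0) (.m (.v 1) (.v 0))) (.m (.m (.v 1) (.v 0)) (.m (.v 1) (.v 0)))))))) (.m (.m (.m (.m (.m (.m (.v 1) (.m (.v 0) (.v 1))) (.m (.v 0) (.m (.v 2) (.v 0)))) (.m (.m (.v 2) (.m (.v 0) (.v 1))) (.m (.m (.v 0) (.v 1))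 (.m (.v 0) (.v 1))))) (.m (.m (.m (.v 0) (.m (.v 1) (.v 0))) (.m (.m (.v 1) (.v 0)) (.m (.v 2) (.v 0)))) (.m (.m (.v 2) (.m (.v 0) (.v 1))) (.m (.m (.v 0) (.v 1)) (.m (.v 0) (.v 1)))))) (.m (.m (.m (.m (.v 1) (.m (.v 0) (.v 1))) (.m (.v 0) (.m (.v 2) (.v 0)))) (.m (.m (.v 2) (.m (.v 0) (.v 1))) (.m (.m (.v 0) (.v 1)) (.m (.v 0) (.v 1))))) (.m (.m (.m (.v 1) (.m (.v 0) (.v 1))) (.m (.m (.v 0) (.v 2)) (.m (.v 0) (.v 2)))) (.m (.m (.v 0) (.m (.v 1) (.v 0))) (.m (.m (.v 1) (.v 0)) (.m (.v 1) (.v 0))))))) (.m (.m (.m (.m (.m (.v 1) (.m (.v 0) (.v 1))) (.m (.v 0) (.m (.v 2) (.v 0)))) (.m (.m (.v 2) (.m (.v 0) (.v 1))) (.m (.m (.v 0) (.v 1)) (.m (.v 0) (.v 1))))) (.m (.m (.m (.v 0) (.m (.v 1) (.v 0))) (.m (.m (.v 1) (.v 0)) (.m (.v 2) (.v 0)))) (.m (.m (.v 2) (.m (.v 0) (.v 1))) (.m (.m (.v 0) (.v 1)) (.m (.v 0) (.v 1)))))) (.m (.m (.m (.m (.v 1) (.m (.v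 0) (.v 1))) (.m (.m (.v 0) (.v 2)) (.m (.v 0) (.v 2)))) (.m (.m (.v 0) (.m (.v 1) (.v 0))) (.m (.m (.v 1) (.v 0)) (.m (.v 1) (.v 0))))) (.m (.m (.m (.v 1) (.m (.v 0) (.v 1))) (.m (.m (.v 0) (.v 2)) (.m (.v 0) (.v 2)))) (.m (.m (.v 0) (.m (.v 1) (.v 0))) (.m (.m (.v 1) (.v 0)) (.m (.v 1) (.v 0)))))))), .m (.m (.m (.m (.m (.m (.m (.v 0) (.v 1)) (.m (.v 0) (.m (.v 1) (.v 0)))) (.m (.m (.v 2) (.v 0)) (.m (.v 2) (.m (.v 0) (.v 1))))) (.m (.m (.m (.v 0) (.v 1)) (.m (.v 0) (.m (.v 1) (.v 1)))) (.m (.m (.v 0) (.v 1)) (.m (.v 0) (.m (.v 2) (.v 0)))))) (.m (.m (.m (.m (.v 2) (.v 0)) (.m (.v 1) (.m (.v 0) (.v 1)))) (.m (.m (.v 0) (.v 1)) (.m (.v 0) (.m (.v 1) (.v 0))))) (.m (.m (.m (.v 1) (.v 0)) (.m (.v 2) (.m (.v 0) (.v 2)))) (.m (.m (.v 0) (.v 1)) (.m (.v 0) (.m (.v 1) (.v 0))))))) (.m (.m (.m (.m (.m (.v 1) (.v 1)) (.m (.v 0) (.m (.v 1) (.v 0)))) (.m (.m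 (.v 2) (.v 0)) (.m (.v 2) (.m (.v 0) (.v 1))))) (.m (.m (.m (.v 0) (.v 1)) (.m (.v 0) (.m (.v 1) (.v 0)))) (.m (.m (.v 1) (.v 0)) (.m (.v 1) (.m (.v 0) (.v 2)))))) (.m (.m (.m (.m (.v 0) (.v 2)) (.m (.v 0) (.m (.v 1) (.v 0)))) (.m (.m (.v 1) (.v 0)) (.m (.v 1) (.m (.v 1) (.v 0))))) (.m (.m (.m (.v 1) (.v 0)) (.m (.v 2) (.m (.v 0) (.v 2)))) (.m (.m (.v 0) (.m (.v 1) (.v 0))) (.m (.v 1) (.m (.v 0) (.v 1)))))))) (.m (.m (.m (.m (.m (.m (.v 1) (.v 0)) (.m (.v 1) (.m (.v 0) (.v 2)))) (.m (.m (.v 0) (.v 2)) (.m (.v 0) (.m (.v 1) (.v 0))))) (.m (.m (.m (.v 1) (.v 0)) (.m (.v 1) (.m (.v 0) (.v 1)))) (.m (.m (.v 0) (.v 1)) (.m (.v 0) (.m (.v 2) (.v 0)))))) (.m (.m (.m (.m (.v 2) (.v 0)) (.m (.v 1) (.m (.v 0) (.v 1)))) (.m (.m (.v 0) (.v 1)) (.m (.v 0) (.m (.v 1) (.v 0))))) (.m (.m (.m (.v 1) (.v 0)) (.m (.v 2) (.m (.v 0) (.v 2)))) (.m (.m (.v 0) (.m (.v 1)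 (.v 0))) (.m (.v 1) (.m (.v 0) (.v 1))))))) (.m (.m (.m (.m (.m (.v 1) (.v 0)) (.m (.v 1) (.m (.v 0) (.v 2)))) (.m (.m (.v 0) (.v 2)) (.m (.v 0) (.m (.v 1) (.v 0))))) (.m (.m (.m (.v 1) (.v 0)) (.m (.v 1) (.m (.v 0) (.v 1)))) (.m (.m (.v 0) (.v 1)) (.m (.v 0) (.m (.v 2) (.v 0)))))) (.m (.m (.m (.m (.v 2) (.v 0)) (.m (.v 1) (.m (.v 0) (.v 1)))) (.m (.m (.v 0) (.v 1)) (.m (.v 1) (.m (.v 0) (.v 1))))) (.m (.m (.m (.v 0) (.v 2)) (.m (.v 0) (.m (.v 2) (.v 0)))) (.m (.m (.v 1) (.m (.v 0) (.v 1))) (.m (.v 0) (.m (.v 1) (.v 0))))))))]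
def wg : Ex := .m (.m (.m (.v 0) (.v 1)) (.m (.v 2) (.v 3))) (.m (.m (.v 4) (.v 8)) (.m (.v 9) (.m (.v 11) (.v 12))))
def wqA : Ex := .m (.m (.v 0) (.v 1)) (.m (.v 3) (.m (.v 4) (.v 5)))
def wqB : Ex := .m (.m (.v 2) (.m (.v 5) (.v 8))) (.m (.v 9) (.m (.v 11) (.v 12)))

theorem _root_.H29.J4m.EA.allE' {G : Type*} [Group G] {M : Model G} {L : List ℕ} (h : EA M L) {f : ℕ → Bool} {c : ℕ} {g : G} (hg : M.R c g)
    (hn : allE M.mul f L c = true) : ∀ v ∈ M.cl L, ∃ c', M.R c' (v * g) ∧ f c' = true := by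
  induction L generalizing c g with
  | nil =>
    intro v hv
    rw [cl_nil, Subgroup.mem_bot] at hv
    exact ⟨c, by rw [hv, one_mul]; exact hg, hn⟩
  | cons a L ih =>
    obtain ⟨α, h1, h2, h3⟩ := h.cons
    obtain ⟨n1, n2⟩ := band_iff.1 hn
    intro v hv
    rcases h3 v hv with k | k
    · obtain ⟨c', k1, k2⟩ := ih h.tail (M.R_mul h1 hg) n2 _ k
      exact ⟨c', M.R_congr k1 (by rw [mul_assoc, ← mul_assoc α, h2, one_mul]), k2⟩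
    · exact ih h.tail hg n1 _ k


noncomputable def cmL (S : List ℕ) (c : ℕ) : Bool :=
  allL (fun s => force (kmul s c) fun u => force (kmul c s) fun v => Nat.beq u v) S
noncomputable def fa1 (S : List ℕ) (r R a b d c : ℕ) : Bool :=
  force (kmul c c) fun s => Bool.rec (motive := fun _ => Bool) true
    (Bool.rec (motive := fun _ => Bool) true
      (force (kmul c r) fun u => force (kmul u u) fun v => force (kmul v u) fun w =>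
        Bool.rec (motive := fun _ => Bool) true (Nat.beq c kone || Nat.beq c a || Nat.beq c b || Nat.beq c d) (Nat.beq w R))
      (cmL S c)) (Nat.beq s kone)
noncomputable def kc (c : ℕ) : ℕ := kmul (kmul (wK.c kmul kone L4) c) (wk.c kmul kone L4)
noncomputable def sI (i : ℕ) : ℕ := kc ((wS.getD i (.v 9)).c kmul kone L4)
noncomputable def alC (c : ℕ) : Bool :=
  force (sI 0) fun s0 => force (sI 1) fun s1 => 
  force (kc (wr.c kmul kone L4)) fun r => force (kc cg) fun a => force (kc cA) fun b => force (kc cB) fun d =>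
  force c fun c => allE kmul (fa1 [s0, s1] r kone a b d) (qL.drop 4) c
noncomputable def q (i c : ℕ) : ℕ := kmul (lgetD kone qL i) c
theorem al00 : alC kone = true := by decide +kernel
theorem al01 : alC (q 2 kone) = true := by decide +kernel
theorem al02 : alC (q 3 kone) = true := by decide +kernel
theorem al03 : alC (q 3 (q 2 kone)) = true := by decide +kernel
theorem al10 : alC (q 0 kone) = true := by decide +kernel
theorem al11 : alC (q 2 (q 0 kone)) = true := by decide +kernel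
theorem al12 : alC (q 3 (q 0 kone)) = true := by decide +kernel
theorem al13 : alC (q 3 (q 2 (q 0 kone))) = true := by decide +kernel
theorem al20 : alC (q 1 kone) = true := by decide +kernel
theorem al21 : alC (q 2 (q 1 kone)) = true := by decide +kernel
theorem al22 : alC (q 3 (q 1 kone)) = true := by decide +kernel
theorem al23 : alC (q 3 (q 2 (q 1 kone))) = true := by decide +kernel
theorem al30 : alC (q 1 (q 0 kone)) = true := by decide +kernel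
theorem al31 : alC (q 2 (q 1 (q 0 kone))) = true := by decide +kernel
theorem al32 : alC (q 3 (q 1 (q 0 kone))) = true := by decide +kernel
theorem al33 : alC (q 3 (q 2 (q 1 (q 0 kone)))) = true := by decide +kernel
theorem allE_two (mul : ℕ → ℕ → ℕ) (f : ℕ → Bool) (a b : ℕ) (L : List ℕ) (c : ℕ) : allE mul f (a :: b :: L) c =
    band (band (allE mul f L c) (allE mul f L (mul b c))) (band (allE mul f L (mul a c)) (allE mul f L (mul b (mul a c)))) := by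
  simp only [allE, force_eq]
theorem alC_eq (c : ℕ) : alC c = allE kmul (fa1 [sI 0, sI 1] (kc (wr.c kmul kone L4)) kone (kc cg) (kc cA) (kc cB)) (qL.drop 4) c := by
  simp only [alC, force_eq]
theorem qL_eq : qL = lgetD kone qL 0 :: lgetD kone qL 1 :: qL.drop 2 := by decide +kernel
theorem qL_eq2 : qL.drop 2 = lgetD kone qL 2 :: lgetD kone qL 3 :: qL.drop 4 := by decide +kernel
theorem alD {c : ℕ} (h1 : alC c = true) (h2 : alC (q 2 c) = true) (h3 : alC (q 3 c) = true) (h4 : alC (q 3 (q 2 c)) = true) :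
    allE kmul (fa1 [sI 0, sI 1] (kc (wr.c kmul kone L4)) kone (kc cg) (kc cA) (kc cB)) (qL.drop 2) c = true := by
  rw [alC_eq] at h1 h2 h3 h4
  simp only [q] at h2 h3 h4
  rw [qL_eq2, allE_two]
  exact band_iff.2 ⟨band_iff.2 ⟨h1, h3⟩, band_iff.2 ⟨h2, h4⟩⟩
theorem alE {c : ℕ} {f : ℕ → Bool} (h1 : allE kmul f (qL.drop 2) c = true) (h2 : allE kmul f (qL.drop 2) (q 0 c) = true)
    (h3 : allE kmul f (qL.drop 2) (q 1 c) = true) (h4 : allE kmul f (qL.drop 2) (q 1 (q 0 c)) = true) :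
    allE kmul f qL c = true := by
  simp only [q] at h2 h3 h4
  rw [qL_eq, allE_two]
  exact band_iff.2 ⟨band_iff.2 ⟨h1, h3⟩, band_iff.2 ⟨h2, h4⟩⟩
theorem alA : allE kmul (fa1 [sI 0, sI 1] (kc (wr.c kmul kone L4)) kone (kc cg) (kc cA) (kc cB)) qL kone = true :=
  alE (alD al00 al01 al02 al03) (alD al10 al11 al12 al13) (alD al20 al21 al22 al23) (alD al30 al31 al32 al33)

end H29.U
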